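import Cfsg.Agent.H2.M4a

set_option autoImplicit false

/-! Common hypotheses for the odd characteristic part of the classification of primitive subgroups of `SL₄`. -/

namespace Cfsg.Agent.H7.M4
open Cfsg Matrix Cfsg.Agent.Asch Cfsg.Agent.H2.M4 commutatorElement

variable {K : Type*} [Field K]

/-- no transvection -/
def NoTv (P : Subgroup (G4 K)) : Prop := ∀ X ∈ P, (X.val - 1).rank ≠ 1

/-- no perspectivity (transvection or homology, up to scalars) -/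
def NoPer (P : Subgroup (G4 K)) : Prop :=
  ∀ X ∈ P, ∀ (c : K) (v φ : Fin 4 → K), X.val = c • (1 + vecMulVec v φ) → pr X = 1

/-- quadratic unipotent elements only for `p = 3`, and at most three of them with the same axis -/
def SQ (P : Subgroup (G4 K)) : Prop :=
  ∀ u ∈ P, u ≠ 1 → (u.val - 1) ^ 2 = 0 → (3 : K) = 0 ∧
    ∀ y ∈ P, (y.val - 1) * (u.val - 1) = 0 → (u.val - 1) * (y.val - 1) = 0 → y ∈ Subgroup.zpowers u

/-- elements with a quadratic minimal polynomial have order `2`, `3` or `5` modulo scalars -/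
def Rot (P : Subgroup (G4 K)) : Prop :=
  ∀ X ∈ P, ∀ a b : K, X.val * X.val = a • X.val + b • (1 : M4 K) → pr X ^ 2 = 1 ∨ pr X ^ 3 = 1 ∨ pr X ^ 5 = 1

/-- the standing hypotheses -/
structure Hy (P : Subgroup (G4 K)) : Prop where
  two : (2 : K) ≠ 0
  det : ∀ x ∈ P, x.val.det = 1
  perf : ⁅P, P⁆ = P
  simple : IsSimpleGroup (PQ P)
  full : Full (Geo.matrixSet P)
  spl : ∀ x ∈ P, x.val.charpoly.Splits
  z16 : ∃ ζ : K, ζ ^ 8 = -1
  per : NoPer P
  sq : SQ P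
  rot : Rot P

/-- the conjugate subgroup `Q P Q⁻¹` -/
def cg (Q : G4 K) (P : Subgroup (G4 K)) : Subgroup (G4 K) := P.map (MulAut.conj Q).toMonoidHom

theorem mem_cg {Q : G4 K} {P : Subgroup (G4 K)} {x : G4 K} : x ∈ cg Q P ↔ Q⁻¹ * x * Q ∈ P := by
  constructor
  · rintro ⟨y, hy, rfl⟩
    simpa [mul_assoc] using hy
  · intro h
    exact ⟨_, h, by simp [mul_assoc]⟩

theorem cg_mem {Q : G4 K} {P : Subgroup (G4 K)} {x : G4 K} (h : x ∈ P) : Q * x * Q⁻¹ ∈ cg Q P := ⟨x, h, rfl⟩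

theorem mem_bar_cg {Q : G4 K} {P : Subgroup (G4 K)} {x : PG4 K} : x ∈ bar (cg Q P) ↔ (pr Q)⁻¹ * x * pr Q ∈ bar P := by
  constructor
  · rintro ⟨y, hy, rfl⟩
    exact ⟨_, mem_cg.1 hy, by simp⟩
  · rintro ⟨y, hy, e⟩
    exact ⟨_, cg_mem hy, by rw [map_mul, map_mul, map_inv, e]; group⟩

theorem bar_cg (Q : G4 K) (P : Subgroup (G4 K)) :
    bar (cg Q P) = (bar P).map (MulAut.conj (pr Q)).toMonoidHom := by
  ext x
  rw [mem_bar_cg]
  constructor
  · intro h; exact ⟨_, h, by simp [mul_assoc]⟩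
  · rintro ⟨y, hy, rfl⟩; simpa [mul_assoc] using hy

/-- the projective images of conjugate groups are isomorphic -/
noncomputable def barCg (Q : G4 K) (P : Subgroup (G4 K)) : bar P ≃* bar (cg Q P) :=
  ((bar P).equivMapOfInjective _ (MulAut.conj (pr Q)).injective).trans (MulEquiv.subgroupCongr (bar_cg Q P).symm)

theorem barCg_apply (Q : G4 K) (P : Subgroup (G4 K)) (x : bar P) : (barCg Q P x : PG4 K) = pr Q * x * (pr Q)⁻¹ := rfl

theorem Hy.sbar {P : Subgroup (G4 K)} (h : Hy P) : IsSimpleGroup (bar P) :=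
  have := h.simple
  (pqEquiv P).symm.isSimpleGroup

theorem cj_vmv (Q : G4 K) (v φ : Fin 4 → K) :
    cj Q (vecMulVec v φ) = vecMulVec (Q.val *ᵥ v) (φ ᵥ* (Q⁻¹).val) := by
  rw [cj_apply, Matrix.mul_vecMulVec, Matrix.vecMulVec_mul]

theorem pr_conj_eq_one {Q x : G4 K} (h : pr (Q⁻¹ * x * Q) = 1) : pr x = 1 := by
  rw [map_mul, map_mul, map_inv] at h
  calc pr x = pr Q * ((pr Q)⁻¹ * pr x * pr Q) * (pr Q)⁻¹ := by group
    _ = 1 := by rw [h]; group

theorem Hy.cj {P : Subgroup (G4 K)} (h : Hy P) (Q : G4 K) : Hy (cg Q P) where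
  two := h.two
  det := by rintro _ ⟨x, hx, rfl⟩; exact det_conj Q (h.det x hx)
  perf := by rw [cg, ← Subgroup.map_commutator, h.perf]
  simple := by
    have := h.sbar
    exact ((pqEquiv _).trans (barCg Q P).symm).isSimpleGroup
  full := by
    refine eq_top_iff.2 fun X _ => ?_
    have := h.full.induction (p := fun X => Asch.cj Q X ∈ Submodule.span K (Geo.matrixSet (cg Q P)))
      (by rintro _ ⟨x, hx, rfl⟩; exact Submodule.subset_span ⟨_, cg_mem hx, (cj_coe _ _).symm⟩) (by simp)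
      (fun x y hx hy => by rw [map_add]; exact add_mem hx hy)
      (fun c x hx => by rw [map_smul]; exact Submodule.smul_mem _ _ hx) (Asch.cj Q⁻¹ X)
    rwa [Asch.cj_cj_inv] at this
  spl := by
    rintro _ ⟨x, hx, rfl⟩
    have : ((MulAut.conj Q).toMonoidHom x).val.charpoly = x.val.charpoly := by
      change (Q.val * x.val * (Q⁻¹).val).charpoly = _
      rw [Matrix.charpoly_mul_comm, ← Matrix.mul_assoc, Units.inv_mul, Matrix.one_mul]
    rw [this]; exact h.spl x hx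
  z16 := h.z16
  per := fun X hX c v φ e => pr_conj_eq_one (h.per _ (mem_cg.1 hX) c ((Q⁻¹).val *ᵥ v) (φ ᵥ* (Q⁻¹⁻¹).val) (by
    rw [← cj_vmv, show Q⁻¹ * X * Q = Q⁻¹ * X * Q⁻¹⁻¹ by simp, ← cj_coe, e]; simp))
  sq := by
    have k : ∀ x : G4 K, (Q⁻¹ * x * Q).val - 1 = Asch.cj Q⁻¹ (x.val - 1) := fun x => by
      rw [map_sub, map_one, cj_coe]; simp
    intro u hu h1 h2
    obtain ⟨h3, h4⟩ := h.sq _ (mem_cg.1 hu) (fun e => h1 (by
      calc u = Q * (Q⁻¹ * u * Q) * Q⁻¹ := by group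
        _ = 1 := by rw [e]; group)) (by rw [k, ← map_pow, h2, map_zero])
    refine ⟨h3, fun y hy a b => ?_⟩
    obtain ⟨n, hn⟩ := h4 _ (mem_cg.1 hy) (by rw [k, k, ← map_mul, a, map_zero]) (by rw [k, k, ← map_mul, b, map_zero])
    refine ⟨n, ?_⟩
    have : (Q⁻¹ * u * Q⁻¹⁻¹) ^ n = Q⁻¹ * y * Q := by simpa using hn
    rw [conj_zpow] at this
    simpa using this
  rot := fun X hX a b e => by
    have k : ∀ n : ℕ, pr (Q⁻¹ * X * Q) ^ n = 1 → pr X ^ n = 1 := fun n hn => by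
      rw [← map_pow] at hn ⊢
      refine pr_conj_eq_one (Q := Q) ?_
      rw [← hn, show Q⁻¹ * X * Q = Q⁻¹ * X * Q⁻¹⁻¹ by simp, conj_pow]; simp
    have := h.rot _ (mem_cg.1 hX) a b (by
      rw [show Q⁻¹ * X * Q = Q⁻¹ * X * Q⁻¹⁻¹ by simp, ← cj_coe, ← map_mul, e]; simp)
    exact this.imp (k 2) (Or.imp (k 3) (k 5))

/-- projective form of `NoPer` -/
theorem NoPer.bar {P : Subgroup (G4 K)} (h : NoPer P) {X : G4 K} (hX : pr X ∈ bar P) {c : K} {v φ : Fin 4 → K}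
    (e : X.val = c • (1 + vecMulVec v φ)) : pr X = 1 := by
  obtain ⟨y, hy, e'⟩ := hX
  obtain ⟨d, hd⟩ := pr_eq_iff.1 e'
  rw [← e']
  exact h y hy (d * c) v φ (by rw [hd, e, smul_smul])

/-- projective form of `Rot` -/
theorem Rot.bar {P : Subgroup (G4 K)} (h : Rot P) {X : G4 K} (hX : pr X ∈ bar P) {a b : K}
    (e : X.val * X.val = a • X.val + b • (1 : M4 K)) : pr X ^ 2 = 1 ∨ pr X ^ 3 = 1 ∨ pr X ^ 5 = 1 := by
  obtain ⟨y, hy, e'⟩ := hX
  obtain ⟨d, hd⟩ := pr_eq_iff.1 e'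
  rw [← e']
  exact h y hy (d * a) (d * d * b) (by
    rw [hd, Matrix.smul_mul, Matrix.mul_smul, e]; simp only [smul_add, smul_smul]; congr 2 <;> ring)

/-- the projective group contains an elementary abelian group of order `16` -/
def E16 (P : Subgroup (G4 K)) : Prop :=
  ∃ E : Subgroup (PG4 K), E ≤ bar P ∧ Nat.card E = 16 ∧ ∀ x ∈ E, x * x = 1

/-- the Sylow `2`-subgroups are dihedral of order at least four -/
def Dih (P : Subgroup (G4 K)) : Prop :=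
  ∃ (S : Sylow 2 (bar P)) (x s : bar P), x ≠ 1 ∧ s * s = 1 ∧ s * x * s⁻¹ = x⁻¹ ∧ s ∉ Subgroup.zpowers x ∧
    ∀ g, g ∈ S ↔ g ∈ Subgroup.zpowers x ∨ s * g ∈ Subgroup.zpowers x

/-- four-groups with commuting lifts are self-centralising -/
def SelfI (P : Subgroup (G4 K)) : Prop :=
  ∀ x ∈ P, ∀ y ∈ P, x * y = y * x → pr x * pr x = 1 → pr y * pr y = 1 → pr x ≠ 1 → pr y ≠ 1 → pr x ≠ pr y →
    ∀ g ∈ bar P, g * pr x = pr x * g → g * pr y = pr y * g → g = 1 ∨ g = pr x ∨ g = pr y ∨ g = pr x * pr y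

/-- a Sylow `2`-subgroup is `C₄ × C₄` and lifts to the Heisenberg group over `ℤ/4` -/
def HC2 (P : Subgroup (G4 K)) : Prop :=
  ∃ (S : Sylow 2 (bar P)) (x y : G4 K) (i : K), x ∈ P ∧ y ∈ P ∧ i * i = -1 ∧ x.val * y.val = i • (y.val * x.val) ∧
    pr x ^ 4 = 1 ∧ pr y ^ 4 = 1 ∧ Nat.card S = 16 ∧ ∀ g : bar P, g ∈ S ↔ ∃ a b : ℕ, (g : PG4 K) = pr x ^ a * pr y ^ b

/-- the statement of package LOW -/
def Low (K : Type*) [Field K] : Prop :=
  ∀ P : Subgroup (G4 K), Hy P → Even (Nat.card (bar P)) → ¬ E16 P → (Dih P ∧ SelfI P) ∨ HC2 P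

end Cfsg.Agent.H7.M4
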