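import Cfsg.Agent.H7.SUX3

/-!
Unitary groups: maximality of field extension subgroups.
-/

set_option autoImplicit false
set_option linter.unusedSectionVars false

namespace Cfsg.Agent.H7

open Module Cfsg.Agent.Form Cfsg.Agent.H6.SU
open scoped Matrix MatrixGroups

section
variable {F : Type*} [Field F] {σ : F →+* F} {hσ : ∀ a, σ (σ a) = a} {V : Type*} [AddCommGroup V] [Module F V]
  {S : PQ (FP.unit σ hσ) V} {M : Subgroup (V ≃ₗ[F] V)}

/-- The vectors all of whose multiples occur in Eichler maps of `M` at `d`. -/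
def eiSub (M : Subgroup (V ≃ₗ[F] V)) {d : V} (hd : S.B d d = 0) : Submodule F V where
  carrier := {w | ∀ a : F, Ei S M d (a • w)}
  add_mem' ha hb a := ((ha a).add (hb a)).congr (smul_add _ _ _)
  zero_mem' a := (ei_zero hd).congr (smul_zero _)
  smul_mem' c w hw a := (hw _).congr (smul_smul a c w)

theorem ei_tau {d w v : V} (h : Ei S M d w) (hv : Ctr S M v) (e : S.B d v = 0) {c : F} (hc : c + σ c = 0) :
    Ei S M d ((c * S.B w v) • v) := by
  obtain ⟨g, g1, g2, g3⟩ := (Ctr.ht hv hc).exists hv.1.B_self hc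
  have := h.conj g1 g2
  rw [g3, g3, e, mul_zero, zero_smul, add_zero] at this
  exact (this.sub h).congr (by abel)

theorem mem_eiSub (hne : ∃ a, σ a ≠ a) {d w v : V} {hd : S.B d d = 0} (h : w ∈ eiSub M hd) (hv : Ctr S M v)
    (e : S.B d v = 0) (e' : S.B w v ≠ 0) : v ∈ eiSub M hd := fun a => by
  obtain ⟨c, c0, c1⟩ := exists_tr_zero hne hσ
  exact (ei_tau (h (a / (c * S.B w v))) hv e c1).congr (by rw [S.B_smul_left]; congr 1; field_simp)

theorem ei_three {d w : V} (hd : Ctr S M d) (hw : Ctr S M w) (hdw : Ctr S M (d + w)) (e : S.B w d = 0) {c : F}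
    (hc : c + σ c = 0) : Ei S M d (c • w) := by
  have hc' : -c + σ (-c) = 0 := by rw [map_neg, ← neg_add, hc, neg_zero]
  obtain ⟨g, g1, g2⟩ := Ctr.ht hdw hc'
  obtain ⟨k, k1, k2⟩ := Ctr.ht hd hc
  obtain ⟨l, l1, l2⟩ := Ctr.ht hw hc
  have d0 := hd.1.B_self
  have w0 := hw.1.B_self
  refine HE.ei (q := 0) (he_of_eq (eichOK_iff.2 ⟨d0, by simp [e], by simp [w0]⟩) (M.mul_mem g1 (M.mul_mem k1 l1))
    fun x => ?_)
  simp only [LinearEquiv.mul_apply, g2, k2, l2, PQ.B_add_left, PQ.B_add_right, PQ.B_smul_left, d0, w0, e,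
    S.B_comm_zero e, Bsr, show σ c = -c by linear_combination hc]
  module

theorem sisom_le_of_eiSub [FiniteDimensional F V] [Finite F] (hne : ∃ a, σ a ≠ a) (hS : S.Nondeg)
    (h4 : 4 ≤ finrank F V) {d v : V} (hd : Ctr S M d) (hv : Ctr S M v) (e : S.B d v ≠ 0)
    (h : ∀ w, S.B w d = 0 → w ∈ eiSub M hd.1.B_self) : sisom S ≤ M := by
  have hP : Par S M d := ⟨hd.1.B_self, fun w q hq => by
    obtain ⟨-, h1, h2⟩ := eichOK_iff.1 hq
    exact Ei.he (by simpa using h w h1 1) hd h2⟩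
  obtain ⟨c, c0, c1⟩ := exists_tr_zero hne hσ
  obtain ⟨g, g1, g2, g3⟩ := (Ctr.ht hv c1).exists hv.1.B_self c1
  exact (full_of_par hne hS (by omega) hP (hP.map g1 g2) (by simp [g3, hP.1, c0, e, ne_swap e])).sisom_le hne hS h4

end

variable {F K : Type*} [Field F] [Field K] [Algebra F K] {V : Type*} [AddCommGroup V] [Module F V] [Module K V]
  [IsScalarTower F K V] [FiniteDimensional F K] [FiniteDimensional K V] [FiniteDimensional F V] [Finite F]
variable {σ : F →+* F} {hσ : ∀ a, σ (σ a) = a} {s : K →+* K} {hs : ∀ a, s (s a) = a}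
variable {τ : K →ₗ[F] F} {f : PQ (FP.unit s hs) V} {S : PQ (FP.unit σ hσ) V} {M : Subgroup (V ≃ₗ[F] V)}

theorem FI.exists_big [Finite K] (h : FI σ s) {N : ℕ} (hN : N ≠ 0) (hlt : N < Nat.card (fixF σ) ^ finrank F K) :
    ∃ l : K, l ≠ 0 ∧ (s l / l) ^ N ≠ 1 := by
  by_contra hc
  push Not at hc
  have : FiniteDimensional (fixF σ) K := Module.Finite.trans F K
  have : NeZero N := ⟨hN⟩
  let ψ : Kˣ →* Kˣ := Units.map s.toMonoidHom / MonoidHom.id _
  have a1 := Subgroup.card_le_of_le (show ψ.range ≤ rootsOfUnity N K by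
    rintro _ ⟨l, rfl⟩
    exact (mem_rootsOfUnity' _ _).2 (by simpa [ψ] using hc l l.ne_zero))
  have a2 := card_rootsOfUnity K N
  have a3 : Nat.card ψ.ker ≤ Nat.card h.K0 := Nat.card_le_card_of_injective
    (fun x => ⟨x.1.1, by have := congrArg Units.val (div_eq_one.1 x.2); exact this⟩)
    fun x y e => Subtype.ext (Units.ext (congrArg Subtype.val e))
  have a4 := Subgroup.card_eq_card_quotient_mul_card_subgroup ψ.ker
  rw [Nat.card_congr (QuotientGroup.quotientKerEquivRange ψ).toEquiv, Nat.card_units] at a4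
  rw [Module.natCard_eq_pow_finrank (K := fixF σ) (V := h.K0), h.finrank_K0] at a3
  rw [Module.natCard_eq_pow_finrank (K := fixF σ) (V := K), ← h.two_mul_K0, h.finrank_K0, two_mul, pow_add] at a4
  have := Nat.mul_le_mul (a1.trans a2) a3
  generalize Nat.card (fixF σ) ^ finrank F K = Q at *
  have := Nat.mul_le_mul_right Q (Nat.succ_le_of_lt hlt)
  rw [Nat.succ_mul] at this
  omega

namespace ExtH

variable [Finite K]

theorem le_of_all (h : ExtH τ f S) {u : V} (hu0 : u ≠ 0) (hu : f.B u u = 0) (hc : ∀ v, f.B v v = 0 → Ctr S M v) :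
    sisom S ≤ M := by
  obtain ⟨ω, ω0, ω1⟩ := exists_tr_zero h.ne hσ
  obtain ⟨x, -, hx, hux⟩ := exists_partner_on (f.nondegOn_top.2 h.nd) (u := u) trivial hu0 hu
  have hxu : f.B x u = 1 := by rw [← Bs, hux, map_one]
  obtain ⟨k₀, -, hk₀⟩ := h.exists_ne one_ne_zero
  refine sisom_le_of_eiSub h.ne h.nondeg (by have := h.six; omega) (hc u hu) (hc (s k₀ • x) (by simp [hx]))
    (by simpa [h.B, hux, hs] using hk₀) ?_
  have a1 : ∀ k : K, k • u ∈ eiSub M (hc u hu).1.B_self := fun k a =>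
    (ei_three (w := (a / ω) • k • u) (hc u hu) (hc _ (by simp [uB_smul_left, h.uB_smul_right, hu]))
      (hc _ (by simp [uB_smul_left, h.uB_smul_right, hu])) (by simp [h.B, hu, uB_smul_left]) ω1).congr
      (by rw [smul_smul ω, mul_div_cancel₀ _ ω0])
  have a2 : ∀ w, S.B w u = 0 → f.B w u ≠ 0 → w ∈ eiSub M (hc u hu).1.B_self := fun w e e' => by
    obtain ⟨c, hc'⟩ := f.exists_sing_add (sing hu) e' 0
    obtain ⟨k, -, hk⟩ := h.exists_ne (ne_swap e')
    have := mem_eiSub h.ne (a1 k) (hc _ (sing_of_zero_sub hc').B_self) (by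
      rw [S.B_add_right, S.B_comm_zero e, h.B]; simp [hu]) (by simpa [h.B, hu] using hk)
    simpa using sub_mem this (a1 c)
  intro w e
  by_cases e' : f.B w u = 0
  swap
  · exact a2 w e e'
  obtain ⟨b, b1, b0⟩ := Submodule.exists_mem_ne_zero_of_ne_bot (p := LinearMap.ker τ) fun e => by
    have := Module.Dual.finrank_ker_add_one_of_ne_zero h.tau
    have := h.three
    have := Submodule.finrank_eq_zero.2 e
    omega
  replace b1 : τ b = 0 := b1
  simpa using sub_mem (a2 (w + b • x) (by simp [h.B, e', hxu, b1]) (by simpa [e', hxu]))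
    (a2 (b • x) (by simp [h.B, hxu, b1]) (by simpa [hxu]))

theorem le_of_plane (h : ExtH τ f S) (hM : M ≤ S.isom) (hK : ∀ g ∈ sisom f, g.restrictScalars F ∈ M)
    (h2 : finrank K V = 2) {u : V} (hu0 : u ≠ 0) (hu : f.B u u = 0) (hc : Ctr S M u) {l : K}
    (hl : ∀ c : F, s l ≠ c • l) (hc' : Ctr S M (l • u)) : sisom S ≤ M := by
  obtain ⟨ω, ω0, ω1⟩ := exists_tr_zero h.ne hσ
  have σω : σ ω = -ω := by linear_combination ω1
  obtain ⟨θ, hθ⟩ := h.ne
  obtain ⟨x, -, hx, hux⟩ := exists_partner_on (f.nondegOn_top.2 h.nd) (u := u) trivial hu0 hu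
  have hxu : f.B x u = 1 := by rw [← Bs, hux, map_one]
  have w1 : ∀ a b : K, s a = a → s b = b → f.B (a • u + ω • b • x) (a • u + ω • b • x) = 0 := fun a b ha hb => by
    simp [uB_smul_left, h.uB_smul_right, hu, hx, hux, hxu, ha, hb, σω, mul_comm]
  have st : ∀ d y z, f.B d d = 0 → f.B y y = 0 → f.B z z = 0 → f.B y d = f.B z d → f.B y d ≠ 0 → Ctr S M y →
      Ctr S M z := fun d y z a1 a2 a3 a4 a5 a6 => by
    obtain ⟨g, g1, rfl⟩ := h.exists_step a1 a2 a3 a4 a5
    exact a6.map (hK g g1) (hM (hK g g1))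
  have w2 : ∀ a b : K, s a = a → s b = b → b ≠ 0 → Ctr S M (a • u + ω • b • x) := fun a b ha hb b0 =>
    st u _ _ hu (w1 1 b (map_one s) hb) (w1 a b ha hb) (by simp [hu]) (by simp [hu, uB_smul_left, hxu, ω0, b0])
      (st x u _ hx hu (w1 1 b (map_one s) hb) (by simp [hx, uB_smul_left]) (by simp [hux]) hc)
  have w3 : ∀ a b : K, s a = a → s b = b → Ctr S M (a • u + ω • b • x) := fun a b ha hb => by
    by_cases b0 : b = 0
    · by_cases a0 : a = 0
      · simpa [a0, b0] using ctr_zero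
      exact st x _ _ hx (w1 a 1 ha (map_one s)) (w1 a b ha hb) (by simp [hx, uB_smul_left])
        (by simp [hx, uB_smul_left, hux, a0]) (w2 a 1 ha (map_one s) one_ne_zero)
    · exact w2 a b ha hb b0
  obtain ⟨a, a1, a2⟩ := h.exists_notMem (W := Submodule.span F {l, s l}) (by
    have := finrank_span_pair_le (F := F) l (s l); have := h.three; omega)
  have a0 : a ≠ 0 := by rintro rfl; exact a2 (zero_mem _)
  obtain ⟨φ, φ1, φ2⟩ := exists_dual_one (W := Submodule.span F {a, l}) (x := s l) fun e => by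
    obtain ⟨c, c', e⟩ := Submodule.mem_span_pair.1 e
    by_cases c0 : c = 0
    · exact hl c' (by simpa [c0] using e.symm)
    exact a2 (Submodule.mem_span_pair.2 ⟨-c' / c, 1 / c, by rw [← e]; match_scalars <;> field_simp; ring⟩)
  obtain ⟨β, hβ⟩ := exists_tau_eq h.tau φ
  have b1 : ∀ e : F, ∃ b, s b = b ∧ τ (b * a) = 0 ∧ τ (b * s l) = e := fun e => by
    have e1 : τ (β * a) = 0 := by rw [← hβ]; exact φ2 _ (Submodule.subset_span (by simp))
    have e2 : τ (β * l) = 0 := by rw [← hβ]; exact φ2 _ (Submodule.subset_span (by simp))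
    have e3 : τ (s β * a) = 0 := by rw [← a1, ← map_mul, h.τs, e1, map_zero]
    have e4 : τ (s β * s l) = 0 := by rw [← map_mul, h.τs, e2, map_zero]
    exact ⟨e • β + s (e • β), by rw [map_add, hs, add_comm], by simp [h.s_smul, add_mul, e1, e3],
      by simp [h.s_smul, add_mul, e4, ← hβ, φ1]⟩
  have hd : Ctr S M (a • u) := by simpa using w3 a 0 a1 (map_zero s)
  have c1 : l • u ∈ eiSub M hd.1.B_self := fun e => by
    obtain ⟨b, e1, e2, e3⟩ := b1 (e / ω ^ 3)
    refine (ei_tau (ei_three hd (w := ω • b • x) (by simpa using w3 0 b (map_zero s) e1) (w3 a b a1 e1)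
      (by simp [h.B, hxu, a1, mul_comm a, e2, uB_smul_left]) ω1) hc' (by simp [h.B, hu]) ω1).congr ?_
    simp only [PQ.B_smul_left, h.B (b • x), Bsr, hxu, mul_one, e3, mul_comm (s l)]
    congr 1; field_simp
  have c2 : ∀ α b : K, s α = α → s b = b → τ (b * a) = 0 → τ (b * s l) ≠ 0 →
      α • u + ω • b • x ∈ eiSub M hd.1.B_self := fun α b e1 e2 e3 e4 =>
    mem_eiSub h.ne c1 (w3 α b e1 e2) (S.B_comm_zero (by simp [h.B, hu, hxu, a1, mul_comm a, e3, uB_smul_left]))
      (ne_swap (by simpa [h.B, hu, hxu, mul_comm (s l), uB_smul_left, ω0] using e4))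
  have c3 : ∀ α b : K, s α = α → s b = b → τ (b * a) = 0 → α • u + ω • b • x ∈ eiSub M hd.1.B_self :=
    fun α b e1 e2 e3 => by
      by_cases e4 : τ (b * s l) = 0
      · obtain ⟨b', e5, e6, e7⟩ := b1 1
        convert sub_mem (c2 α (b + b') e1 (by simp [*]) (by simp [add_mul, *]) (by simp [add_mul, *]))
          (c2 0 b' (map_zero s) e5 e6 (by simp [*])) using 1
        module
      · exact c2 α b e1 e2 e3 e4
  obtain ⟨k₀, k1, hk₀⟩ := h.exists_ne a0
  refine sisom_le_of_eiSub h.ne h.nondeg (by have := h.six; omega) hd (w3 0 k₀ (map_zero s) k1)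
    (ne_swap (by simpa [h.B, hxu, a1, ω0, mul_comm a, uB_smul_left] using hk₀)) fun w e => ?_
  have d1 := h.nd.finrank_perp (K ∙ u)
  rw [finrank_span_singleton hu0] at d1
  have d2 : (K ∙ u) = f.perp (K ∙ u) := Submodule.eq_of_le_of_finrank_le
    ((Submodule.span_singleton_le_iff_mem _ _).2 (f.mem_perp_span_singleton.2 hu))
    (by rw [finrank_span_singleton hu0]; omega)
  obtain ⟨α, d3⟩ := Submodule.mem_span_singleton.1
    (d2 ▸ f.mem_perp_span_singleton.2 (by simp [hxu]) : w - f.B w u • x ∈ K ∙ u)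
  obtain ⟨α₁, α₂, e1, e2, rfl⟩ := h.dec hθ α
  obtain ⟨β₁, β₂, e3, e4, e5⟩ := h.dec hθ (ω⁻¹ • f.B w u)
  rw [inv_smul_eq_iff₀ ω0] at e5
  have := (⟨hσ, hσ, h.ne, fun _ => rfl⟩ : FI σ σ).uq hθ (h.fix_tau (k := β₁ * a) (by simp [*]))
    (h.fix_tau (k := β₂ * a) (by simp [*])) (by simpa [h.B, a1, e5, ω0, add_mul, mul_comm a, -smul_add] using e)
  convert add_mem (c3 α₁ β₁ e1 e3 this.1) (Submodule.smul_mem _ θ (c3 α₂ β₂ e2 e4 this.2)) using 1
  rw [e5, add_smul, smul_assoc, smul_assoc, add_smul, smul_assoc] at d3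
  linear_combination (norm := module) -d3

theorem exists_trans (h : ExtH τ f S) {u w : V} (hu : u ≠ 0) (hw : w ≠ 0) (e : f.B w w = f.B u u) :
    ∃ g ∈ f.isom, g u = w := by
  obtain ⟨g, hg, e⟩ := h.nd.witt_step ⊥ (u := u) (v := w) (by simpa using hu) (by simpa using hw) (by simp)
    ((f.unit_Q_sub_mem f _ _).2 e)
  exact ⟨g, f.gen_le_isom _ hg, e⟩

theorem exists_strans (h : ExtH τ f S) (h3 : 3 ≤ finrank K V) {u w : V} (hu : u ≠ 0) (hw : w ≠ 0)
    (e : f.B u u = f.B w w) : ∃ g ∈ sisom f, g u = w := by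
  obtain ⟨g, g1, -, g2⟩ := EF.trans (M := sisom f) h.neK (f.nondegOn_top.2 h.nd) (by simpa using h3)
    (fun d _ w _ q hq => ⟨hq, eich_mem_sisom f _ _ _ hq⟩) trivial trivial hu hw e (zero_mem _)
  exact ⟨g, g1, by simpa using g2⟩

theorem max (h : ExtH τ f S) {q : ℕ} (hq : ∀ a, σ a = a ^ q) (hF : Nat.card F = q ^ 2)
    (hex : ¬ (finrank K V = 2 ∧ finrank F K = 3 ∧ q = 2)) (hM : M ≤ sisom S)
    (hH : ∀ g ∈ sisom S, KSemi K g → g ∈ M) (hg : ∃ g ∈ M, ¬ KSemi K g) : sisom S ≤ M := by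
  have hM' : M ≤ S.isom := fun g hg => (hM hg).1
  have hK : ∀ g ∈ sisom f, g.restrictScalars F ∈ M := fun g hg => hH _ (h.res_mem hg) (kLin_res g).semi
  have hE : Nat.card (fixF σ) = q := by
    rw [Module.natCard_eq_pow_finrank (K := fixF σ), h.finrank_F] at hF
    exact Nat.pow_left_injective two_ne_zero hF
  have q2 : 2 ≤ q := hE ▸ Finite.one_lt_card
  have h3 := h.three
  have hN : ∀ g ∈ f.isom, (LinearEquiv.det (g.restrictScalars F) : F) ^ (q + 1) = 1 := fun g hg => by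
    rw [pow_succ', ← hq]; exact det_norm_one h.nondeg (h.res_isom hg)
  obtain ⟨g, hg, hg'⟩ := hg
  obtain ⟨u, hu0, hu, hf⟩ := h.exists_fam hM' hK hg hg'
  obtain ⟨v, v0, hv, hc⟩ : ∃ v, v ≠ 0 ∧ f.B v v = 0 ∧ Ctr S M v := by
    by_cases h2 : ∃ c, σ c = c ∧ c ≠ 0 ∧ c ≠ 1
    · obtain ⟨c, c1, c2, c3⟩ := h2
      exact h.ctr_of_fam hM' hu0 hu (h.tg hK hu) hf c1 c2 c3
    replace h2 : ∀ a, σ a = a → a = 0 ∨ a = 1 := fun a ha => by
      by_contra hc
      push Not at hc
      exact h2 ⟨a, ha, hc⟩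
    refine ⟨u, hu0, hu, h.ctr_of_fam_two hM' hu (h.tg hK hu) hf h2 fun l l0 => ?_⟩
    by_cases h4 : 3 ≤ finrank K V
    · obtain ⟨g, g1, g2⟩ := h.exists_strans h4 hu0 (smul_ne_zero l0 hu0) (by simp [hu])
      exact ⟨1, one_ne_zero, g, g1.1, hK g g1, by simpa using g2⟩
    obtain rfl : q = 2 := by
      refine le_antisymm (hE ▸ ?_) q2
      classical
      simpa using Nat.card_le_card_of_injective (fun a : fixF σ => decide (a.1 = 0)) fun a b e => Subtype.ext (by
        rcases h2 _ a.2 with a1 | a1 <;> rcases h2 _ b.2 with b1 | b1 <;> simp_all)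
    obtain ⟨g, g1, g2⟩ := h.exists_trans hu0 (smul_ne_zero l0 hu0) (by simp [hu])
    have := hN g g1
    generalize hδ : (LinearEquiv.det (g.restrictScalars F) : F) = δ at this
    have δ0 : δ ≠ 0 := by rintro rfl; simp at this
    have c0 : algebraMap F K (δ ^ finrank F K) ≠ 0 := by simp [δ0]
    have c1 : algebraMap F K (δ ^ finrank F K) * s (algebraMap F K (δ ^ finrank F K)) = 1 := by
      rw [h.sF, ← map_mul, hq, ← pow_succ', ← pow_mul, mul_comm, pow_mul, this, one_pow, map_one]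
    have c2 : LinearEquiv.smulOfNeZero K V _ c0 * g ∈ f.isom := (f.unit_mem_isom _).2 fun x y => by
      simp only [LinearEquiv.mul_apply, LinearEquiv.smulOfNeZero_apply, PQ.B_smul_left, Bsr, PQ.B_isom g1]
      linear_combination f.B x y * c1
    refine ⟨δ ^ finrank F K, pow_ne_zero _ δ0, _, c2, hH _ (mem_sisom.2 ⟨h.res_isom c2, Units.ext ?_⟩)
      (kLin_res _).semi, by simp [LinearEquiv.mul_apply, g2, -map_pow, smul_comm l]⟩
    have : (((LinearEquiv.smulOfNeZero K V _ c0 * g).restrictScalars F : V ≃ₗ[F] V) : V →ₗ[F] V) =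
        δ ^ finrank F K • (g.restrictScalars F : V →ₗ[F] V) := by ext; simp [-map_pow]
    rw [LinearEquiv.coe_det, this, LinearMap.det_smul, ← LinearEquiv.coe_det, hδ, ← Module.finrank_mul_finrank F K V,
      show finrank K V = 2 by have := h.two; omega, ← pow_mul, ← pow_succ, Units.val_one]
    have r3 : ¬ 3 ∣ finrank F K := fun e => hex ⟨by have := h.two; omega,
      ((Nat.prime_dvd_prime_iff_eq Nat.prime_three h.prime).1 e).symm, rfl⟩
    obtain ⟨k, hk⟩ : 3 ∣ finrank F K * (finrank F K * 2) + 1 := by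
      have : finrank F K % 3 = 1 ∨ finrank F K % 3 = 2 := by omega
      rcases this with e | e <;> simp [Nat.dvd_iff_mod_eq_zero, Nat.add_mod, Nat.mul_mod, e]
    rw [hk, pow_mul, ‹δ ^ _ = 1›, one_pow]
  by_cases h4 : 3 ≤ finrank K V
  · refine h.le_of_all v0 hv fun w hw => ?_
    by_cases w0 : w = 0
    · exact w0 ▸ ctr_zero
    obtain ⟨g, g1, rfl⟩ := h.exists_strans h4 v0 w0 (hv.trans hw.symm)
    exact hc.map (hK g g1) (hM' (hK g g1))
  have h2 : finrank K V = 2 := by have := h.two; omega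
  obtain ⟨l, l0, hl⟩ := h.exists_big (N := (q + 1) * (q + 1)) (by simp) (by
    rw [hE]
    by_cases e : q = 2
    · have : finrank F K ≠ 3 := fun e' => hex ⟨h2, e', e⟩
      exact lt_of_lt_of_le (b := q ^ 4) (by subst e; norm_num) (Nat.pow_le_pow_right (by omega) (by omega))
    · exact lt_of_lt_of_le (b := q ^ 3) (by nlinarith [show 3 ≤ q by omega, Nat.mul_le_mul (show 3 ≤ q by omega) (show 3 ≤ q by omega)])
        (Nat.pow_le_pow_right (by omega) h3))
  obtain ⟨g, g1, g2⟩ := h.exists_trans v0 (smul_ne_zero l0 v0) (by simp [hv])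
  have g3 : ∀ n : ℕ, (g ^ n) v = l ^ n • v := fun n => by
    induction n with
    | zero => simp
    | succ n ih => rw [pow_succ', LinearEquiv.mul_apply, ih, map_smul, g2, smul_smul, pow_succ]
  have g4 : (g ^ (q + 1)).restrictScalars F ∈ M := hH _ (mem_sisom.2 ⟨h.res_isom (f.isom.pow_mem g1 _), Units.ext (by
    rw [show (g ^ (q + 1)).restrictScalars F = g.restrictScalars F ^ (q + 1) from
      map_pow (MonoidHom.mk' (fun g : V ≃ₗ[K] V => g.restrictScalars F) fun _ _ => rfl) g _, map_pow, Units.val_pow_eq_pow_val, hN g g1]; rfl)⟩)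
    (kLin_res _).semi
  refine h.le_of_plane hM' hK h2 v0 hv hc (l := l ^ (q + 1)) (fun c e => hl ?_) (g3 _ ▸ hc.map g4 (hM' g4))
  have e1 : (s l / l) ^ (q + 1) = algebraMap F K c := by
    rw [div_pow, ← map_pow, e, Algebra.smul_def, mul_div_cancel_right₀ _ (pow_ne_zero _ l0)]
  have sl : s l ≠ 0 := by simpa using l0
  rw [pow_mul, e1, ← map_pow, pow_succ', ← hq, map_mul, ← h.sF, ← e1, map_pow, ← mul_pow, map_div₀, hs]
  field_simp; exact one_pow _

end ExtH

omit [FiniteDimensional K V] [FiniteDimensional F V] in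
theorem exists_extH [Nontrivial V] (hne : ∃ a, σ a ≠ a) (hS : S.Nondeg) (hp : (finrank F K).Prime)
    (h3 : 3 ≤ finrank F K) (h2 : 2 ≤ finrank K V)
    (hac : ∀ k : K, ∃ k' : K, ∀ x y, S.B (k • x) y = S.B x (k' • y)) :
    ∃ (s : K →+* K) (hs : ∀ a, s (s a) = a) (τ : K →ₗ[F] F) (f : PQ (FP.unit s hs) V), ExtH τ f S := by
  choose s hs using hac
  have uq : ∀ a b : K, (∀ x y, S.B x (a • y) = S.B x (b • y)) → a = b := fun a b e => by
    obtain ⟨y, hy⟩ := exists_ne (0 : V)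
    exact smul_left_injective K hy (hS.ext_right fun x => e x y)
  let s' : K →+* K :=
    { toFun := s
      map_one' := uq _ _ fun x y => by rw [← hs, one_smul, one_smul]
      map_mul' := fun a b => uq _ _ fun x y => by rw [← hs, mul_smul, hs, hs, smul_smul, mul_comm]
      map_zero' := uq _ _ fun x y => by simp [← hs]
      map_add' := fun a b => uq _ _ fun x y => by simp [← hs, add_smul] }
  replace hs : ∀ (k : K) x y, S.B (k • x) y = S.B x (s' k • y) := hs
  have hss : ∀ a, s' (s' a) = a := fun a => uq _ _ fun x y => by rw [← hs, ← Bs, ← hs, Bs]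
  have hI : FI σ s' := ⟨hσ, hss, hne, fun c => uq _ _ fun x y => by rw [← hs]; simp [hσ]⟩
  obtain ⟨τ₀, τ1, -⟩ := exists_dual_one (F := F) (W := ⊥) (x := (1 : K)) (by simp)
  obtain ⟨θ, hθ⟩ := exists_tr_one hne hσ
  let τ : K →ₗ[F] F :=
    { toFun := fun k => θ * τ₀ k + σ (θ * τ₀ (s' k))
      map_add' := fun a b => by simp; ring
      map_smul' := fun c a => by simp [hI.s_smul, hσ]; ring }
  have hτ : τ ≠ 0 := fun e => one_ne_zero (α := F) (by simpa [τ, τ1, hθ] using LinearMap.congr_fun e 1)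
  have τs : ∀ k, τ (s' k) = σ (τ k) := fun k => by simp [τ, hss, hσ, add_comm]
  obtain ⟨f, hf⟩ := exists_lift_form hτ S.B S.B_add_left S.B_smul_left
  have ext : ∀ a b : K, (∀ k, τ (k * a) = τ (k * b)) → a = b := fun a b e =>
    sub_eq_zero.1 (eq_zero_of_tau hτ fun k => by rw [mul_sub, map_sub, e, sub_self])
  refine ⟨s', hss, τ, PQ.ofHerm s' hss (algebraMap F K θ) (by rw [hI.sF, ← map_add, hθ, map_one]) f
    (fun x y v => ext _ _ fun k => by simp [hf, mul_add])
    (fun c x v => ext _ _ fun k => by rw [hf, ← mul_assoc, hf, mul_smul])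
    (fun u v => ext _ _ fun k => by rw [hf, ← hss k, ← map_mul, τs, hf, Bs, hss, hs]),
    ⟨hI, hτ, hp, h3, τs⟩, h2, fun x hx => hS x fun y => ?_, fun x y => ?_⟩
  · have := hf x y 1
    rw [show f x y = 0 from hx y] at this
    simpa using this.symm
  · have := hf x y 1
    rw [one_mul, one_smul] at this
    exact this.symm

theorem su_max_ext {F : Type*} [Field F] [Fintype F] {q : ℕ} (hF : Fintype.card F = q ^ 2) {n r : ℕ} (hr : r.Prime)
    (hro : Odd r) (hrn : r < n) (hex : ¬ (n = 6 ∧ q = 2)) {A : Subalgebra F (Matrix (Fin n) (Fin n) F)}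
    (hA : Geo.IsFieldSubalgebra r A) (hac : Geo.IsAdjointClosedFor (hermForm n F q) A) :
    Geo.IsMaximalIn (GU n F q ⊓ Geo.specialLinear (Fin n) F)
      (Geo.subalgebraNormalizer A ⊓ (GU n F q ⊓ Geo.specialLinear (Fin n) F)) := by
  have r3 : 3 ≤ r := by have := hr.two_le; obtain ⟨k, hk⟩ := hro; omega
  have : Nonempty (Fin n) := ⟨⟨0, by omega⟩⟩
  let _ := Asch.fieldOf A hA.comm hA.inv
  let inst : Module A (Fin n → F) :=
    Module.compHom _ ((Matrix.toLinAlgEquiv' (R := F)).toRingHom.comp A.val.toRingHom)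
  have : @IsScalarTower F A (Fin n → F) Algebra.toSMul inst.toSMul _ :=
    ⟨fun c k v => Matrix.smul_mulVec c k.1 v⟩
  have : FiniteDimensional A (Fin n → F) := Module.Finite.right F A _
  have : Finite A := Module.finite_of_finite F
  have e := Module.finrank_mul_finrank F A (Fin n → F)
  rw [finrank_fin_fun, hA.finrank_eq] at e
  obtain ⟨s, hs, τ, f, h⟩ := exists_extH (K := A) (std_ne hF) (std_nondeg hF n) (hA.finrank_eq ▸ hr)
    (hA.finrank_eq ▸ r3) (by
      by_contra hc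
      have := Nat.mul_le_mul_left r (show finrank A (Fin n → F) ≤ 1 by omega)
      omega) (fun k => by obtain ⟨k', a1, a2⟩ := hac k k.2; exact ⟨⟨k', a1⟩, a2⟩)
  refine max_of hF (KSemi A) (fun g => mem_subalgebraNormalizer_iff' A g)
    (SU_not_le_subalgebraNormalizer hF (by omega) hA hr.one_lt) fun M h1 h2 => ?_
  by_cases hg : ∃ g ∈ M, ¬ KSemi A g
  · refine .inr (h.max (q := q) (fun a => frobQ_apply hF a) (by rwa [Nat.card_eq_fintype_card])
      (fun e' => hex ⟨?_, e'.2.2⟩) h1 h2 hg)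
    rw [← e, e'.1, ← hA.finrank_eq, e'.2.1]
  · push Not at hg
    exact .inl hg

end Cfsg.Agent.H7
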