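import Cfsg.Agent.H3.S7b

/-! Overgroups of the normaliser of the extraspecial group of order `343`: the centraliser of `u` and `z`. -/

set_option autoImplicit false
set_option linter.unusedSectionVars false
set_option linter.unusedSimpArgs false

namespace Cfsg.Agent.H3.S7

open Matrix Subgroup Finset Cfsg.Agent.H4 Cfsg.Agent.H4.Mob Cfsg.Agent.H4.MobCard

variable {F : Type*} [Field F] [Fintype F] {o : Om7 F} {p : ℕ} {M : Subgroup (G7 F)}

theorem mono_ent {g : G7 F} (h : Commute (g * o.a * g⁻¹) o.a) (i j : I) :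
    g.val i j * o.e j = (g * o.a * g⁻¹).val i i * g.val i j := by
  have : ((g * o.a * g⁻¹).val * g.val) i j = (g.val * o.a.val) i j := by
    rw [← Units.val_mul, inv_mul_cancel_right, Units.val_mul]
  rw [mul_apply, sum_eq_single i (fun k _ hk => by rw [o.comm_a.1 h i k hk.symm, zero_mul]) (by simp),
    o.a_val, mul_diagonal] at this
  exact this.symm

theorem mono_blk {g : G7 F} (hg : g ∈ Cu o M) (h : Commute (g * o.a * g⁻¹) o.a) (y : I) :
    g.val y (-y) * g.val (-y) (-y) = 0 ∧ g.val y (-y) * g.val y y = 0 ∨ y = 0 := by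
  refine or_iff_not_imp_right.2 fun hy => ?_
  have e1 := mono_ent h
  have e2 := gl_det_ne (rb o M hy ⟨g, hg⟩)
  have e3 := o.e_inj.not.2 (ne_neg hy)
  have a1 := e1 y y
  have a2 := e1 y (-y)
  have a3 := e1 (-y) y
  have a4 := e1 (-y) (-y)
  simp [rb_val] at e2
  generalize (g * o.a * g⁻¹).val = D at *
  grind

namespace Hyp
variable (H : Hyp o p M)
include H

theorem big (h2 : (2 : F) ≠ 0) : 9 ≤ p ∧ 16 ≤ Fintype.card F := by
  have := H.char
  have hp := H.prime
  have p2 : p ≠ 2 := by rintro rfl; exact h2 (CharP.cast_eq_zero F 2)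
  have key : p % 7 = 1 ∨ p % 7 = 2 ∨ p % 7 = 4 → 9 ≤ p := fun h => by
    by_contra h9
    have : p < 9 := by omega
    interval_cases p <;> simp_all (config := { decide := true })
  rcases H.card with h | ⟨h, h'⟩
  · have := o.prim.dvd_of_pow_eq_one _ (FiniteField.pow_card_sub_one_eq_one _ (o.prim.ne_zero (by norm_num)))
    have h1 := hp.two_le
    have := key (by omega)
    have : p ≠ 15 := by rintro rfl; exact absurd hp (by decide)
    omega
  · have := key (by omega)
    exact ⟨this, h ▸ le_trans (by norm_num) (Nat.pow_le_pow_left this 3)⟩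

theorem hp (h2 : (2 : F) ≠ 0) : ∀ n : ℕ, 0 < n → n ≤ 7 → (n : F) ≠ 0 := fun n h0 h7 e => by
  have := H.char
  have := Nat.le_of_dvd h0 ((CharP.cast_eq_zero_iff F p n).1 e)
  have := (H.big h2).1
  omega

theorem gam (h2 : (2 : F) ≠ 0) (hB : ¬ Big M) {g : G7 F} (hg : g ∈ Cu o M) (hz : g * S7.z F = S7.z F * g) {x : I}
    (hx : x ≠ 0) : g.val x x * g.val x (-x) = 0 := by
  by_contra h
  rw [← ne_eq, mul_ne_zero_iff] at h
  have L : ∀ {y : I} (hy : y ≠ 0), LS F ≤ (pb o M hy).range := fun hy =>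
    H.blk hx hg h.2 (by rw [← comm_z.1 hz, neg_neg]; exact h.2) (.inl h.1) hy
  have RF : ∀ {y : I} (hy : y ≠ 0) {d : I → F}, Dg M d → (∀ y', y' ≠ y → y' ≠ -y → d y' = d (-y')) → d y = d (-y) :=
    fun hy _ hd h => by_contra fun h' => hB (H.RF hy (L hy) hd h h')
  have d7 : ∀ {d : I → F}, Dg M d → ∀ y, d y ^ 7 = 1 := fun {d} hd y => by
    have := RF one_ne_zero (H.dshift (H.avg hd y) 1 (-1) one_ne_zero) fun y' a b => by
      simp [add_neg_eq_zero, a, neg_eq_iff_eq_neg, b]
    simp [show (-1 + -1 : I) ≠ 0 by decide] at this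
    rw [pow_succ, this, inv_mul_cancel₀ (hd.ne y)]
  clear hg hz h hx g x
  obtain ⟨t, ht⟩ := exists_pow_ne_one_of_isCyclic (G := Fˣ) (k := 14) (by norm_num) (by
    have := (H.big h2).2
    rw [Nat.card_units, Nat.card_eq_fintype_card]; omega)
  obtain ⟨c, hc⟩ := L one_ne_zero (show mob (t : F) 0 0 t⁻¹ (by simp) ∈ LS F from mob_mem_range_toPGL.2 (by simp))
  obtain ⟨l, c1, c2, c3, c4⟩ := mob_eq_mob.1 (hc.symm.trans (mk_eq_mob _))
  obtain ⟨k, k1, k2⟩ := lift (rb o M one_ne_zero) (a := ⟨_, H.aC⟩) (r := 7) (Subtype.ext o.a7)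
    (fun n ⟨j, hj⟩ _ hn => by
      have e := mono_blk n.2 (congrArg Subtype.val hn)
      have e2 : Commute (n ^ 2) ⟨_, H.aC⟩ := Subtype.ext (o.comm_a.2 fun i j hij => by
        by_cases b : j = -i
        · rcases e i with ⟨e1, e2⟩ | rfl
          · rw [b, sq, Subgroup.coe_mul, Units.val_mul, mul_apply, sum_eq_add _ _ (b ▸ hij) (fun l _ hl => by
              rw [(mem_Cu.1 n.2).2 i l hl.1 hl.2, zero_mul]) (by simp) (by simp), e1, mul_comm, e2, add_zero]
          · exact (hij (by simpa using b.symm)).elim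
        exact (mem_Cu.1 (n ^ 2).2).2 i j hij.symm b)
      obtain ⟨m, hm⟩ := exists_pow_eq_self_of_coprime (x := n) (n := 2) (Nat.Coprime.coprime_dvd_right
        (orderOf_dvd_of_pow_eq_one hj) (Nat.Coprime.pow_right _ (by norm_num)))
      exact hm ▸ e2.pow_left m)
    (x := c * ⟨_, H.aC⟩ * c⁻¹) ⟨1, by rw [pow_one, conj_pow, show (⟨_, H.aC⟩ : Cu o M) ^ 7 = 1 from Subtype.ext o.a7]; simp⟩
    (by
      rw [map_mul, map_mul, map_inv, mul_inv_eq_iff_eq_mul.2 (Units.ext ?_)]
      · exact mem_zpowers _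
      rw [Units.val_mul, Units.val_mul, eta_fin_two (rb o M one_ne_zero c).val, c2, c3]
      simp [rb_val, o.a_val, ne_neg, (ne_neg one_ne_zero).symm, mul_comm])
  have k3 : Commute ((k * c).1 * o.a * (k * c).1⁻¹) o.a := by
    simpa [mul_assoc, commute_iff_eq] using congrArg Subtype.val k2
  have k4 : rb o M one_ne_zero (k * c) = rb o M one_ne_zero c := by rw [map_mul, k1, one_mul]
  rw [← k4] at c1 c2 c3 c4
  generalize k * c = g at *
  simp [rb_val] at c1 c2 c3 c4
  have e := mono_blk g.2 k3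
  have e1 := mono_ent k3
  have hD : Dg M fun i => (g.1 * o.a * g.1⁻¹).val i i := ⟨_, mul_mem (mul_mem g.2.1 H.a) (inv_mem g.2.1), by
    ext i j
    by_cases hij : i = j
    · simp [hij]
    · rw [o.comm_a.1 k3 i j hij, diagonal_apply_ne _ hij]⟩
  generalize (g.1 * o.a * g.1⁻¹).val = D at *
  have hA : Dg M o.e := ⟨_, H.a, o.a_val⟩
  have D0 : D 0 0 = o.e 0 := by
    have : g.1.val 0 0 ≠ 0 := fun h => by
      have := congrFun (congrFun g.1.mul_inv 0) 0
      rw [mul_apply, sum_eq_zero fun l _ => by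
        by_cases hl : l = 0
        · rw [hl, h, zero_mul]
        · rw [(mem_Cu.1 g.2).2 0 l hl (by simpa), zero_mul]] at this
      simp at this
    have := e1 0 0
    grind
  have key : ∀ y, y ≠ 0 → (g.1.val y (-y) = 0 ∧ g.1.val (-y) y = 0 ∧ D y y = o.e y ∧ D (-y) (-y) = o.e (-y)) ∨
      (D y y = o.e (-y) ∧ D (-y) (-y) = o.e y) := fun y hy => by
    have e2 := gl_det_ne (rb o M hy g)
    have a1 := e1 y y
    have a2 := e1 y (-y)
    have a3 := e1 (-y) y
    have a4 := e1 (-y) (-y)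
    have a5 := (e y).resolve_right hy
    simp [rb_val] at e2
    grind
  have cs : ∀ y : I, y = 0 ∨ y = 1 ∨ y = -1 ∨ y = 2 ∨ y = -2 ∨ y = 3 ∨ y = -3 := by decide
  have nn : ∀ y : I, y ≠ 0 → o.e y * o.e y ≠ o.e (-y) * o.e (-y) := fun y hy => by
    rw [← o.e_add, ← o.e_add, Ne, o.e_inj]; revert y; decide
  have l0 : l ≠ 0 := by
    rintro rfl
    simpa [rb_val, c1, c2] using gl_det_ne (rb o M one_ne_zero g)
  have a1 : D 1 1 = o.e 1 := by have := e1 1 1; have := t.ne_zero; grind
  have a2 : D (-1) (-1) = o.e (-1) := by have := e1 (-1) (-1); have := inv_ne_zero t.ne_zero; grind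
  have R1 := fun y hy => RF (y := y) hy (hD.mul (H.dshift hA (-1) 0 (by decide)))
  simp only [neg_mul, one_mul, add_zero, neg_neg] at R1
  clear e1 e k1 k2 k3 k4 hc L
  rcases key 2 (by decide) with ⟨a3, a4, a5, a6⟩ | ⟨a5, a6⟩ <;> rcases key 3 (by decide) with ⟨b3, b4, b5, b6⟩ | ⟨b5, b6⟩
  · have hd : Dg M fun i => g.1.val i i := ⟨_, g.2.1, by
      ext i j
      by_cases hij : i = j
      · simp [hij]
      rw [diagonal_apply_ne _ hij]
      by_cases b : j = -i
      · rw [b] at hij ⊢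
        rcases cs i with rfl | rfl | rfl | rfl | rfl | rfl | rfl
        exacts [(hij rfl).elim, c2, c3, a3, a4, b3, b4]
      exact (mem_Cu.1 g.2).2 i j (Ne.symm hij) b⟩
    have b1 := d7 hd 1
    have b2 := d7 hd (-1)
    simp only [c1, c4, mul_pow, inv_pow] at b1 b2
    refine ht (Units.ext ?_)
    have := pow_ne_zero 7 t.ne_zero
    rw [Units.val_pow_eq_pow_val, show 14 = 7 + 7 from rfl, pow_add, Units.val_one]
    clear * - b1 b2 this
    grind
  · refine nn 3 (by decide) ?_
    simpa [b5, b6, eq_comm] using R1 3 (by decide) fun y a b => by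
      rcases cs y with rfl | rfl | rfl | rfl | rfl | rfl | rfl <;>
        first | exact (a rfl).elim | exact (b rfl).elim | simp [a1, a2, a5, a6, mul_comm]
  · refine nn 2 (by decide) ?_
    simpa [a5, a6, eq_comm] using R1 2 (by decide) fun y a b => by
      rcases cs y with rfl | rfl | rfl | rfl | rfl | rfl | rfl <;>
        first | exact (a rfl).elim | exact (b rfl).elim | simp [a1, a2, b5, b6, mul_comm]
  · refine nn 1 (by decide) ?_
    simpa [a1, a2] using RF one_ne_zero (hD.mul hA) fun y a b => by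
      rcases cs y with rfl | rfl | rfl | rfl | rfl | rfl | rfl <;>
        first | exact (a rfl).elim | exact (b rfl).elim | simp [a5, a6, b5, b6, mul_comm]

end Hyp

end Cfsg.Agent.H3.S7
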