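import Cfsg.Agent.H7.Sp7
import Cfsg.Agent.H8.MS
import Cfsg.Agent.H8.Subfield

/-!
Orthogonal groups: field extension subgroups of orthogonal type, first part.
-/

set_option autoImplicit false
set_option linter.unusedSectionVars false

namespace Cfsg.Agent.H7

open Module QuadraticMap Cfsg.Agent.H8

/-- Chevalley--Warning for a system of quadratic equations. -/
theorem exists_zero_quad {F W E : Type*} [Field F] [Finite F] [AddCommGroup W] [Module F W] [AddCommGroup E]
    [Module F E] [FiniteDimensional F W] [FiniteDimensional F E] (b : W →ₗ[F] W →ₗ[F] E) (l : W →ₗ[F] E)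
    (E₀ : Submodule F E) (h0 : ∀ w, b w w + l w ∈ E₀) (h : 2 * finrank F E₀ < finrank F W) :
    ∃ w, w ≠ 0 ∧ b w w + l w = 0 := by
  classical
  have := Fintype.ofFinite F
  obtain ⟨p, hp⟩ := CharP.exists F
  have hpp : p.Prime := CharP.char_is_prime F p
  obtain ⟨π, hπ⟩ := E₀.subtype.exists_leftInverse_of_injective E₀.ker_subtype
  let e := finBasis F W
  let e' := finBasis F E₀
  let P : Fin (finrank F E₀) → MvPolynomial (Fin (finrank F W)) F := fun i =>
    ∑ j, ∑ k, MvPolynomial.C (e'.coord i (π (b (e j) (e k)))) * (MvPolynomial.X j * MvPolynomial.X k) +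
      ∑ j, MvPolynomial.C (e'.coord i (π (l (e j)))) * MvPolynomial.X j
  have hd : ∀ i, (P i).totalDegree ≤ 2 := fun i => by
    refine (MvPolynomial.totalDegree_add _ _).trans (max_le ?_ ?_)
    · refine MvPolynomial.totalDegree_finsetSum_le fun j _ => MvPolynomial.totalDegree_finsetSum_le fun k _ => ?_
      refine (MvPolynomial.totalDegree_mul _ _).trans ?_
      rw [MvPolynomial.totalDegree_C, zero_add]
      refine (MvPolynomial.totalDegree_mul _ _).trans ?_
      simp [MvPolynomial.totalDegree_X]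
    · refine MvPolynomial.totalDegree_finsetSum_le fun j _ => (MvPolynomial.totalDegree_mul _ _).trans ?_
      simp [MvPolynomial.totalDegree_X]
  have hev : ∀ i (x : Fin (finrank F W) → F), MvPolynomial.eval x (P i) =
      e'.coord i (π (b (∑ j, x j • e j) (∑ j, x j • e j) + l (∑ j, x j • e j))) := fun i x => by
    simp only [P, map_add, map_sum, map_mul, MvPolynomial.eval_C, MvPolynomial.eval_X, map_smul, smul_eq_mul,
      LinearMap.sum_apply, LinearMap.smul_apply, Finset.mul_sum]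
    congr 1
    · rw [Finset.sum_comm]
      exact Finset.sum_congr rfl fun j _ => Finset.sum_congr rfl fun k _ => by ring
    · exact Finset.sum_congr rfl fun j _ => by ring
  have hdiv := char_dvd_card_solutions_of_fintype_sum_lt p (f := P) (by
    refine (Finset.sum_le_card_nsmul _ _ 2 fun i _ => hd i).trans_lt ?_
    simpa [mul_comm] using h)
  have z0 : ∀ i, MvPolynomial.eval 0 (P i) = 0 := fun i => by rw [hev]; simp
  replace hdiv : p ∣ Nat.card { x : Fin (finrank F W) → F // ∀ i, MvPolynomial.eval x (P i) = 0 } := by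
    rw [Nat.card_eq_fintype_card]; convert hdiv
  have : Nonempty { x : Fin (finrank F W) → F // ∀ i, MvPolynomial.eval x (P i) = 0 } := ⟨⟨0, z0⟩⟩
  have := Finite.one_lt_card_iff_nontrivial.1 (hpp.one_lt.trans_le (Nat.le_of_dvd Nat.card_pos hdiv))
  obtain ⟨⟨x, hx⟩, hx0⟩ := exists_ne (⟨0, z0⟩ : { x // ∀ i, MvPolynomial.eval x (P i) = 0 })
  refine ⟨∑ j, x j • e j, fun e0 => hx0 (Subtype.ext (funext
    (Fintype.linearIndependent_iff.1 e.linearIndependent x e0))), ?_⟩
  have h1 := LinearMap.congr_fun hπ ⟨_, h0 (∑ j, x j • e j)⟩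
  have h2 := e'.forall_coord_eq_zero_iff.1 fun i => (hev i x).symm.trans (hx i)
  exact congrArg Subtype.val (h1.symm.trans h2)

theorem mem_Om_of_sq_zero {F V : Type*} [Field F] [Finite F] [AddCommGroup V] [Module F V] [FiniteDimensional F V]
    {Q : QuadraticForm F V} (hN : ND Q) (h5 : 5 ≤ finrank F V) (h2 : (2 : F) ≠ 0) {ρ : V ≃ₗ[F] V} (hρ : ρ ∈ OG Q)
    (h : ∀ x, ρ (ρ x - x) = ρ x - x) : ρ ∈ Om Q := by
  let N : V →ₗ[F] V := (ρ : V →ₗ[F] V) - LinearMap.id
  have hN1 : ∀ x, ρ x = x + N x := fun x => by simp [N]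
  have hN2 : ∀ x, N (N x) = 0 := fun x => by simp only [N, LinearMap.sub_apply, LinearMap.id_apply]; exact sub_eq_zero.2 (h x)
  let g : V ≃ₗ[F] V := LinearEquiv.ofLinearMap (LinearMap.id + (1 / 2 : F) • N) (LinearMap.id - (1 / 2 : F) • N)
    (by ext x; simp [hN2]) (by ext x; simp [hN2])
  have hg : ∀ x, g x = x + (1 / 2 : F) • N x := fun x => rfl
  have e : ρ = g * g := by
    ext x
    simp only [LinearEquiv.mul_apply, hg, hN1, map_add, map_smul, hN2, smul_zero, add_zero, add_assoc, ← add_smul]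
    rw [show (1 / 2 + 1 / 2 : F) = 1 by field_simp; norm_num, one_smul]
  rw [e]
  refine sq_mem_Om hN h5 (mem_OG.2 fun x => ?_)
  have a1 := mem_OG.1 hρ x
  have a2 := mem_OG.1 hρ (x - N x)
  rw [hN1, map_sub, hN2, sub_zero, sub_add_cancel, Q_sub] at a2
  rw [hN1, Q_add] at a1
  rw [hg, Q_add, Q_smul, pol_smul_right]
  have a3 : 2 * Q (N x) = 0 := by linear_combination a1 - a2
  have a4 := (mul_eq_zero.1 a3).resolve_left h2
  have a5 : polar Q x (N x) = 0 := by linear_combination a1 - a4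
  rw [a4, a5]; simp

variable {F K : Type*} [Field F] [Field K] [Algebra F K] {V : Type*} [AddCommGroup V] [Module F V] [Module K V]
  [IsScalarTower F K V] [FiniteDimensional F K] [FiniteDimensional K V] [FiniteDimensional F V] [Finite F]

/-- The quadratic form `Q` is the trace of the form `R` over the extension field. -/
structure ExtO (τ : K →ₗ[F] F) (R : QuadraticForm K V) (Q : QuadraticForm F V) : Prop where
  two : (2 : F) ≠ 0
  tau : τ ≠ 0
  prime : (finrank F K).Prime
  three : 3 ≤ finrank K V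
  nd : ND R
  Q : ∀ x, Q x = τ (R x)

variable {τ : K →ₗ[F] F} {R : QuadraticForm K V} {Q : QuadraticForm F V} {M : Subgroup (V ≃ₗ[F] V)}

theorem mem_bot_of_prime (hp : (finrank F K).Prime) {D : Submodule F K} (h0 : D ≠ ⊥) (h1 : D ≠ ⊤) {c : K}
    (h : ∀ δ ∈ D, δ * c ∈ D) : ∃ a : F, c = algebraMap F K a := by
  let A : Subalgebra F K :=
    { carrier := {l | ∀ δ ∈ D, δ * l ∈ D}
      mul_mem' := fun hb hc δ hδ => by rw [← mul_assoc]; exact hc _ (hb δ hδ)
      add_mem' := fun hb hc δ hδ => by rw [mul_add]; exact add_mem (hb δ hδ) (hc δ hδ)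
      algebraMap_mem' := fun c δ hδ => by rw [mul_comm, ← Algebra.smul_def]; exact Submodule.smul_mem _ _ hδ }
  have hA : A = ⊥ := by
    refine ((Subalgebra.isSimpleOrder_of_finrank_prime F K hp).eq_bot_or_eq_top A).resolve_right fun e => h1 ?_
    obtain ⟨δ, hδ, hδ0⟩ := Submodule.exists_mem_ne_zero_of_ne_bot h0
    refine eq_top_iff.2 fun l _ => ?_
    have := (e ▸ Algebra.mem_top : l / δ ∈ A) δ hδ
    rwa [mul_div_cancel₀ _ hδ0] at this
  obtain ⟨a, ha⟩ := Algebra.mem_bot.1 (hA ▸ h : c ∈ (⊥ : Subalgebra F K))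
  exact ⟨a, ha.symm⟩

namespace ExtO

theorem twoK (h : ExtO τ R Q) : (2 : K) ≠ 0 := by
  rw [← map_ofNat (algebraMap F K) 2]; exact (map_ne_zero _).2 h.two

theorem pol (h : ExtO τ R Q) (x y : V) : polar Q x y = τ (polar R x y) := by simp [polar, h.Q]

theorem nondeg (h : ExtO τ R Q) : ND Q := fun x hx =>
  h.nd x fun y => eq_zero_of_tau h.tau fun k => by simpa [h.pol] using hx (k • y)

theorem six (h : ExtO τ R Q) : 6 ≤ finrank F V := by
  rw [← Module.finrank_mul_finrank F K V]
  exact Nat.mul_le_mul h.prime.two_le h.three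

theorem five (h : ExtO τ R Q) : 5 ≤ finrank F V := h.six.trans' (by norm_num)

theorem res_mem (h : ExtO τ R Q) {g : V ≃ₗ[K] V} (hg : g ∈ OG R) : g.restrictScalars F ∈ OG Q :=
  mem_OG.2 fun x => by rw [h.Q, h.Q]; exact congrArg τ (mem_OG.1 hg x)

theorem siegel_mem (h : ExtO τ R Q) (u w : V) : (siegel R u w).restrictScalars F ∈ Om Q := by
  by_cases e : R u = 0 ∧ polar R u w = 0
  · have := sq_mem_Om h.nondeg h.five (h.res_mem (siegel_mem_OG u ((1 / 2 : K) • w)))
    have e' : polar R u ((1 / 2 : K) • w) = 0 := by simp [e.2]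
    have h2 := h.twoK
    rwa [show _ * _ = (siegel R u ((1 / 2 : K) • w) * siegel R u ((1 / 2 : K) • w)).restrictScalars F from rfl,
      siegel_mul e.1 e' e', ← add_smul, show (1 / 2 + 1 / 2 : K) = 1 by field_simp; norm_num, one_smul] at this
  · rw [siegel_of_not e]; exact (Om Q).one_mem

theorem refl_mem (h : ExtO τ R Q) {a b : V} (h0 : R a ≠ 0) (e : R a = R b) (e' : polar R a b = 0) :
    (refl R a * refl R b).restrictScalars F ∈ Om Q := by
  have h1 : R (a - b) ≠ 0 := by
    rw [Q_sub, e', ← e, sub_zero, ← two_mul]; exact mul_ne_zero h.twoK h0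
  have := comm_mem_Om (h.res_mem (refl_mem_OG a)) (h.res_mem (refl_mem_OG (a - b)))
  have e1 : refl R a * refl R b = refl R a * refl R (a - b) * (refl R a)⁻¹ * (refl R (a - b))⁻¹ := by
    rw [refl_inv a, mul_assoc, mul_assoc, ← mul_assoc (refl R (a - b)), refl_conj (refl_mem_OG _), refl_swap e h1]
  rw [e1]; exact this

theorem mem_span_of_perp (h : ExtO τ R Q) {u y : V} (hy : ∀ w, polar R w u = 0 → polar Q y w = 0) :
    ∃ k : K, y = k • u := by
  have : y ∈ perp R (perp R (sp K [u])) := mem_perp'.2 fun w hw => eq_zero_of_tau h.tau fun k => by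
    simpa [h.pol] using hy (k • w) (by simp [pol_comm R w, mem_perp_sp.1 hw u (by simp)])
  rw [h.nd.perp_perp] at this
  exact mem_sp_one.1 this

theorem exists_partner (h : ExtO τ R Q) {u : V} (hu0 : u ≠ 0) (hu : R u = 0) : ∃ x, R x = 0 ∧ polar R x u = 1 := by
  obtain ⟨x, -, a1, a2⟩ := h.nd.ndOn_top.exists_partner Submodule.mem_top hu0 hu
  exact ⟨x, a1, by rw [pol_comm, a2]⟩

/-- Transitivity on non-zero singular vectors in dimension at least four. -/
theorem exists_trans (h : ExtO τ R Q) (h4 : 4 ≤ finrank K V) {u v : V} (hu0 : u ≠ 0) (hu : R u = 0) (hv0 : v ≠ 0)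
    (hv : R v = 0) : ∃ l ∈ OG R, l.restrictScalars F ∈ Om Q ∧ l u = v := by
  have : Finite K := Module.finite_of_finite F
  have key : ∀ u z, R u = 0 → R z = 0 → polar R u z ≠ 0 → ∃ l ∈ OG R, l.restrictScalars F ∈ Om Q ∧ l u = z := by
    intro u z hu hz e
    have h1 : R (u - z) ≠ 0 := by rw [Q_sub, hu, hz]; simpa using e
    have h2 := (ndOn_pair hu hz e).perp h.nd
    obtain ⟨a, a1, a2⟩ := h2.exists_value_two h.nd (by
      have := h.nd.finrank_perp (sp K [u, z])
      have := finrank_sp_le (F := K) [u, z]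
      simp at this; omega) (R (u - z))
    have a3 := mem_perp_sp.1 a1 u (by simp)
    have a4 := mem_perp_sp.1 a1 z (by simp)
    refine ⟨_, (OG R).mul_mem (refl_mem_OG (u - z)) (refl_mem_OG a), h.refl_mem h1 a2.symm (by simp [a3, a4]), ?_⟩
    rw [LinearEquiv.mul_apply, refl_of_perp a3, refl_swap (hu.trans hz.symm) h1]
  by_cases e : polar R u v = 0
  · obtain ⟨y, -, y1, y2⟩ := h.nd.exists_perp_two (S := ⊥) (x := u) (y := v) (by simpa using hu0) (by simpa using hv0)
    have z0 : R (y - (R y / polar R u y) • u) = 0 := by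
      rw [Q_sub, Q_smul, pol_smul_right, hu, pol_comm R y]; field_simp; ring
    obtain ⟨l, l1, l2, l3⟩ := key u _ hu z0 (by simpa [pol_self, hu] using y1)
    obtain ⟨l', l1', l2', l3'⟩ := key _ v z0 hv (by simpa [e, pol_comm R y] using y2)
    exact ⟨l' * l, (OG R).mul_mem l1' l1, (Om Q).mul_mem l2' l2, by rw [LinearEquiv.mul_apply, l3, l3']⟩
  · exact key u v hu hv e

end ExtO

end Cfsg.Agent.H7
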