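import Cfsg.Agent.MH.Grp
import Cfsg.Agent.H8.L5g
import Cfsg.Agent.H4.CA1
import Cfsg.Agent.H5.ZStar

set_option autoImplicit false

/-! Group-theoretic lemmas on Sylow 2-subgroups. -/

namespace Cfsg.Agent.H7.Lw
open Subgroup MulAction Cfsg.Agent.MH

universe u
variable {G : Type*} [Group G]

theorem two_pow_of_mem {S : Subgroup G} (hS : IsPGroup 2 S) {x : G} (hx : x ∈ S) : ∃ k, x ^ 2 ^ k = 1 := by
  obtain ⟨k, hk⟩ := hS ⟨x, hx⟩
  exact ⟨k, congrArg Subtype.val hk⟩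

theorem pgroup_of {p : ℕ} {H : Subgroup G} (h : ∀ x ∈ H, ∃ k, x ^ p ^ k = 1) : IsPGroup p H := fun x =>
  (h x.1 x.2).imp fun _ e => Subtype.ext e

theorem ext_conj [Finite G] {p : ℕ} (hp : p.Prime) (S : Sylow p G) {C H : Subgroup G} (hC : (S : Subgroup G) ≤ C)
    (hH : H ≤ C) (h2 : IsPGroup p H) : ∃ c ∈ C, ∀ y ∈ H, c * y * c⁻¹ ∈ S := by
  obtain ⟨c, hc⟩ := exists_conj_le_sylow hp (S.subtype hC) (H := H.subgroupOf C)
    (h2.of_equiv (subgroupOfEquivOfLe hH).symm)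
  exact ⟨c, c.2, fun y hy => hc ⟨y, hH hy⟩ hy⟩

/-- extremal conjugation -/
theorem extremal [Finite G] (S : Sylow 2 G) {z t : G} (hz : ∀ s ∈ S, z * s = s * z) (h : IsConj z t) :
    ∃ g, g * t * g⁻¹ = z ∧ ∀ u ∈ S, t * u = u * t → g * u * g⁻¹ ∈ S := by
  obtain ⟨g, hg⟩ := isConj_iff.1 h.symm
  obtain ⟨c, hc, h1⟩ := ext_conj Nat.prime_two S (C := Cn z) (H := ((S : Subgroup G) ⊓ Cn t).map (MulAut.conj g).toMonoidHom)
    (fun s hs => mem_Cn.2 (hz s hs)) (by
      rintro _ ⟨u, hu, rfl⟩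
      rw [← hg]; exact conj_mem_Cn.2 hu.2) ((S.2.to_le inf_le_left).map _)
  refine ⟨c * g, ?_, fun u hu e => ?_⟩
  · rw [show c * g * t * (c * g)⁻¹ = c * (g * t * g⁻¹) * c⁻¹ by group, hg, ← mem_Cn.1 hc]; group
  · have := h1 _ ⟨u, ⟨hu, mem_Cn.2 e⟩, rfl⟩
    simpa [mul_assoc] using this

theorem pgroup_pair {p : ℕ} {a b : G} {k l : ℕ} (ha : a ^ p ^ k = 1) (hb : b ^ p ^ l = 1) (h : Commute a b) :
    IsPGroup p (closure {a, b} : Subgroup G) := by
  refine pgroup_of fun x hx => ⟨k + l, ?_⟩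
  have key : ∃ m n : ℤ, x = a ^ m * b ^ n := by
    induction hx using closure_induction with
    | mem x hx =>
      rcases hx with rfl | rfl
      exacts [⟨1, 0, by simp⟩, ⟨0, 1, by simp⟩]
    | one => exact ⟨0, 0, by simp⟩
    | mul x y _ _ hx hy =>
      obtain ⟨m, n, rfl⟩ := hx
      obtain ⟨m', n', rfl⟩ := hy
      refine ⟨m + m', n + n', ?_⟩
      rw [zpow_add, zpow_add, mul_assoc, mul_assoc, ← mul_assoc (b ^ n), ← (h.zpow_zpow m' n).eq, mul_assoc]
    | inv x _ hx =>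
      obtain ⟨m, n, rfl⟩ := hx
      exact ⟨-m, -n, by rw [_root_.mul_inv_rev, ← zpow_neg, ← zpow_neg, (h.zpow_zpow _ _).eq]⟩
  obtain ⟨m, n, rfl⟩ := key
  have k1 : ∀ (c : G) (i j : ℕ) (m : ℤ), c ^ p ^ i = 1 → (c ^ m) ^ (p ^ i * j) = 1 := fun c i j m e => by
    rw [← zpow_natCast, ← zpow_mul, mul_comm, zpow_mul, zpow_natCast, pow_mul, e, one_pow, one_zpow]
  rw [(h.zpow_zpow m n).mul_pow, pow_add, k1 a k _ m ha, mul_comm (p ^ k), k1 b l _ n hb, mul_one]

/-- the `Z*`-theorem -/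
theorem zs [Finite G] [IsSimpleGroup G] (hp : commutator G = ⊤) (S : Sylow 2 G) {z : G} (hz : Inv z)
    (hc : ∀ s ∈ S, z * s = s * z) : ∃ t ∈ S, t ≠ z ∧ IsConj z t := by
  by_contra hn
  push Not at hn
  obtain ⟨K, hK, ho, h⟩ := H5.ZStar.zstar' hz.2 (H8.L5g.odd_of_isol hz.2 fun t ht e => by
    have t2 : t * t = 1 := by obtain ⟨g, rfl⟩ := isConj_iff.1 ht; exact (hz.conj g).2
    obtain ⟨c, hc', h1⟩ := ext_conj Nat.prime_two S (C := Cn z) (H := closure {z, t}) (fun s hs => mem_Cn.2 (hc s hs))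
      ((closure_le _).2 (by rintro _ (rfl | rfl); exacts [self_mem_Cn _, mem_Cn.2 e.symm]))
      (pgroup_pair (k := 1) (l := 1) (by simpa [pow_two] using hz.2) (by simpa [pow_two] using t2) e.symm)
    by_contra h3
    refine hn _ (h1 t (subset_closure (by simp))) (fun e' => h3 ?_) (ht.trans (isConj_iff.2 ⟨c, rfl⟩))
    calc t = c⁻¹ * (c * t * c⁻¹) * c := by group
      _ = z := by rw [e', mul_assoc, mem_Cn.1 hc']; group)
  rcases hK.eq_bot_or_eq_top with rfl | rfl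
  · have hcen : z ∈ center G := mem_center_iff.2 fun g => by
      have := mem_bot.1 (h _ _ (isConj_iff.2 ⟨g, rfl⟩) (IsConj.refl z))
      calc g * z = g * z * g⁻¹ * z * z * g := by rw [mul_assoc _ z z, hz.2]; group
        _ = z * g := by rw [this, one_mul]
    rcases (inferInstance : (center G).Normal).eq_bot_or_eq_top with e | e
    · exact hz.1 (mem_bot.1 (e ▸ hcen))
    · have : commutator G = ⊥ := by
        rw [_root_.commutator_def, commutator_eq_bot_iff_le_centralizer]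
        intro x _ y _
        exact mem_center_iff.1 (show x ∈ center G from e ▸ mem_top x) y
      exact hz.1 (mem_bot.1 (this ▸ hp ▸ mem_top z))
  · have := orderOf_dvd_card_of_mem (mem_top z)
    rw [hz.orderOf] at this
    exact (Nat.not_even_iff_odd.2 ho) (even_iff_two_dvd.2 this)

/-- fusion of central elements -/
theorem burn [Finite G] (S : Sylow 2 G) {a b : G} (ha : ∀ s ∈ S, a * s = s * a) (hb : ∀ s ∈ S, b * s = s * b)
    (h : IsConj a b) : ∃ n ∈ Nm (S : Subgroup G), n * a * n⁻¹ = b := by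
  obtain ⟨g, rfl⟩ := isConj_iff.1 h
  obtain ⟨n, hn, e⟩ := S.conj_eq_normalizer_conj_of_mem_centralizer a g⁻¹ (fun s hs => (ha s hs).symm)
    (fun s hs => by simpa using (hb s hs).symm)
  exact ⟨n⁻¹, inv_mem hn, by simpa using e.symm⟩

theorem exists_odd_pow [Finite G] (n : G) : ∃ m k, Odd m ∧ (n ^ m) ^ 2 ^ k = 1 := by
  obtain ⟨k, m, hm, e⟩ := Nat.exists_eq_two_pow_mul_odd (orderOf_pos n).ne'
  exact ⟨m, k, hm, by rw [← pow_mul, mul_comm, ← e, pow_orderOf_eq_one]⟩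

theorem swap_pow {n a b : G} (h1 : n * a * n⁻¹ = b) (h2 : n * b * n⁻¹ = a) {m : ℕ} (hm : Odd m) :
    n ^ m * a * (n ^ m)⁻¹ = b := by
  obtain ⟨k, rfl⟩ := hm
  induction k with
  | zero => simpa using h1
  | succ k ih =>
    calc _ = n * (n * (n ^ (2 * k + 1) * a * (n ^ (2 * k + 1))⁻¹) * n⁻¹) * n⁻¹ := by group
      _ = b := by rw [ih, h2, h1]

theorem no_swap [Finite G] (S : Sylow 2 G) {n a b : G} (hn : n ∈ Nm (S : Subgroup G)) (ha : ∀ s ∈ S, a * s = s * a)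
    (h1 : n * a * n⁻¹ = b) (h2 : n * b * n⁻¹ = a) : a = b := by
  obtain ⟨m, k, hm, e⟩ := exists_odd_pow n
  rw [← swap_pow h1 h2 hm, ← ha _ (mem_sylow_of_Nm S e (pow_mem hn m))]; group

/-- Thompson transfer, for elements of order dividing four -/
theorem th [Finite G] (hp : commutator G = ⊤) (S : Sylow 2 G) {M : Subgroup G} {a : G}
    (hM : ∀ g ∈ S, g ∈ M ∨ a * g ∈ M) {v : G} (hv : v ^ 4 = 1) (h2 : ∀ g, g * v ^ 2 * g⁻¹ ∈ S → g * v ^ 2 * g⁻¹ ∈ M) :
    ∃ g, g * v * g⁻¹ ∈ M := by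
  classical
  by_contra hc
  push Not at hc
  let χ : (S : Subgroup G) →* ℤˣ := MonoidHom.mk' (fun s => if (s : G) ∈ M then 1 else -1) fun s t => by
    by_cases hs : (s : G) ∈ M <;> by_cases ht : (t : G) ∈ M
    · simp [hs, ht, mul_mem]
    · simp [hs, ht, mul_mem_cancel_left hs]
    · simp [hs, ht, mul_mem_cancel_right ht]
    · have h1 := (hM _ (inv_mem s.2)).resolve_left (by simpa using hs)
      have := mul_mem (inv_mem h1) ((hM _ t.2).resolve_left ht)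
      simp [hs, ht, show (s : G) * t ∈ M by simpa [mul_assoc] using this]
  have := Fintype.ofFinite (Quotient (orbitRel (zpowers v) (G ⧸ (S : Subgroup G))))
  have h1 := hom_eq_one hp (MonoidHom.transfer χ) v
  rw [MonoidHom.transfer_eq_prod_quotient_orbitRel_zpowers_quot] at h1
  have hper : ∀ q : G ⧸ (S : Subgroup G), Function.minimalPeriod (v • ·) q ∣ 2 ^ 2 := fun q =>
    Function.IsPeriodicPt.minimalPeriod_dvd (by
      change (v • ·)^[4] q = q
      rw [smul_iterate, hv]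
      exact one_smul _ _)
  rw [Finset.prod_congr rfl (g := fun q => (-1 : ℤˣ) ^ Function.minimalPeriod (v • ·) q.out),
    Finset.prod_pow_eq_pow_sum, ← index_eq_sum_minimalPeriod,
    Odd.neg_one_pow (Nat.odd_iff.2 (Nat.two_dvd_ne_zero.1 S.not_dvd_index))] at h1
  · exact absurd h1 (by decide)
  intro q _
  have h3 := QuotientGroup.out_conj_pow_minimalPeriod_mem (S : Subgroup G) v q.out
  change (if q.out.out⁻¹ * v ^ Function.minimalPeriod (v • ·) q.out * q.out.out ∈ M then (1 : ℤˣ) else -1) = _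
  obtain ⟨i, hi, e⟩ := (Nat.dvd_prime_pow Nat.prime_two).1 (hper q.out)
  rw [e] at h3 ⊢
  interval_cases i
  · rw [if_neg (by simpa using hc q.out.out⁻¹)]; rfl
  · rw [if_pos (by simpa using h2 q.out.out⁻¹ (by rw [inv_inv]; exact h3))]; rfl
  · rw [if_pos (by simp [hv])]; rfl

theorem th2 [Finite G] (hp : commutator G = ⊤) (S : Sylow 2 G) {M : Subgroup G} {a : G}
    (hM : ∀ g ∈ S, g ∈ M ∨ a * g ∈ M) {v : G} (hv : v * v = 1) : ∃ g, g * v * g⁻¹ ∈ M :=
  th hp S hM (by rw [show 4 = 2 * 2 by rfl, pow_mul, pow_two v, hv, one_pow]) fun g _ => by simp [pow_two, hv]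

/-- extension of a subgroup by an element of order two modulo the subgroup -/
def ext2 (X : Subgroup G) (a : G) (h1 : a * a ∈ X) (h2 : ∀ x ∈ X, a * x * a⁻¹ ∈ X) : Subgroup G where
  carrier := {g | g ∈ X ∨ a * g ∈ X}
  one_mem' := .inl (one_mem _)
  mul_mem' := by
    rintro g h (hg | hg) (hh | hh)
    · exact .inl (mul_mem hg hh)
    · exact .inr (by simpa [mul_assoc] using mul_mem (h2 g hg) hh)
    · exact .inr (by simpa [mul_assoc] using mul_mem hg hh)
    · exact .inl (by simpa [mul_assoc] using mul_mem (mul_mem (inv_mem h1) (h2 _ hg)) hh)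
  inv_mem' := by
    rintro g (hg | hg)
    · exact .inl (inv_mem hg)
    · exact .inr (by simpa [mul_assoc] using mul_mem (h2 _ (inv_mem hg)) h1)

theorem mem_ext2 {X : Subgroup G} {a : G} {h1 : a * a ∈ X} {h2 : ∀ x ∈ X, a * x * a⁻¹ ∈ X} {g : G} :
    g ∈ ext2 X a h1 h2 ↔ g ∈ X ∨ a * g ∈ X := Iff.rfl

/-- a proper subgroup of a `p`-subgroup has a larger normaliser -/
theorem exists_norm [Finite G] {p : ℕ} (hp : p.Prime) {S R : Subgroup G} (hS : IsPGroup p S) (h : R ≤ S) {s : G}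
    (hs : s ∈ S) (hs' : s ∉ R) : ∃ x ∈ S, x ∉ R ∧ x ∈ Nm R := by
  have := Fact.mk hp
  have := hS.isNilpotent
  obtain ⟨x, h1, h2⟩ := SetLike.exists_of_lt (Group.normalizerCondition_of_isNilpotent (R.subgroupOf S)
    (lt_top_iff_ne_top.2 fun e => hs' (show (⟨s, hs⟩ : S) ∈ R.subgroupOf S from e ▸ mem_top _)))
  exact ⟨x, x.2, h2, mem_Nm fun y hy => (mem_normalizer_iff.1 h1 ⟨y, h hy⟩).1 hy⟩

theorem ca_elem [Finite G] [IsSimpleGroup G] (hp : commutator G = ⊤) {A : Subgroup G} (h : H5.Zas1.CA A) {t : G}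
    (ht : t ∈ A) (t1 : t ≠ 1) (t2 : t * t = 1) : ∀ u ∈ A, u * u = 1 := by
  have hG : ¬ IsMulCommutative G := fun hc => by
    have : commutator G = ⊥ := by
      rw [_root_.commutator_def, commutator_eq_bot_iff_le_centralizer]
      intro x _ y _
      exact hc.is_comm.comm _ _
    exact t1 (mem_bot.1 (this ▸ hp ▸ mem_top t))
  open Cfsg.Agent.H4 Cfsg.Agent.H4.CAG Cfsg.Agent.H4.ZBasic Cfsg.Agent.H4.ZKer in
  obtain ⟨ω, hω⟩ := exists_ne_pt hG h ht t1 t2
  let Z : ZK G (G ⧸ CAG.Nm A) :=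
    { zt := zt hG h ht t1 t2
      a := ((1 : G) : G ⧸ CAG.Nm A)
      b := ω
      hab := hω.symm
      F := A
      le := fun u hu => fix_iff.2 (le_normalizer hu)
      norm := fun y hy u hu => CAG.conj_mem (fix_iff.1 hy) hu
      ex := fun y hy => trans_A hG h ht t1 t2 hω hy
      uniq := fun u hu e => free h hu hω e }
  have : IsMulCommutative Z.F := ⟨⟨fun x y => Subtype.ext (h.comm x.2 y.2)⟩⟩
  have hn : Even (Nat.card Z.F) := H5.Odd.even_card_of_involution (X := A) ht t1 t2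
  obtain ⟨x, hx, e, hxA⟩ := exists_fix hG h ht t1 t2 hω
  have hne : Z.H ≠ ⊥ := fun e' => hxA (mem_bot.1 (e' ▸ show x ∈ Z.H from ⟨fix_iff.2 hx, e⟩) ▸ A.one_mem)
  exact (ZMS.elementary_of_even Z hn hne).1

end Cfsg.Agent.H7.Lw
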