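import Cfsg.Agent.H7.M4D
import Cfsg.Agent.H7.LwA
import Cfsg.Agent.H2.M4b

set_option autoImplicit false

/-! Involutions and four-groups in `PGL₄`: lifts, frames, signs. -/

namespace Cfsg.Agent.H7.Lw
open Cfsg Matrix Cfsg.Agent.Asch Cfsg.Agent.H2.M4 Cfsg.Agent.H7.M4 Cfsg.Agent.MH

variable {K : Type*} [Field K] {P : Subgroup (G4 K)}

/-- the lifts commute up to the scalar `c` -/
def Tw (c : K) (g z : PG4 K) : Prop := ∃ G Z : G4 K, pr G = g ∧ pr Z = z ∧ G.val * Z.val = c • (Z.val * G.val)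

theorem Tw.lift {c : K} {G Z : G4 K} (h : Tw c (pr G) (pr Z)) : G.val * Z.val = c • (Z.val * G.val) := by
  obtain ⟨G', Z', h1, h2, h3⟩ := h
  obtain ⟨a, ha⟩ := pr_eq_iff.1 h1.symm
  obtain ⟨b, hb⟩ := pr_eq_iff.1 h2.symm
  simp only [ha, hb, Matrix.smul_mul, Matrix.mul_smul, h3, smul_smul]
  congr 1; ring

theorem tw_of {c : K} {G Z : G4 K} (h : G.val * Z.val = c • (Z.val * G.val)) : Tw c (pr G) (pr Z) := ⟨G, Z, rfl, rfl, h⟩

theorem Tw.comm {c : K} {g z : PG4 K} (h : Tw c g z) : g * z = z * g := by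
  obtain ⟨G, Z, rfl, rfl, h⟩ := h
  rw [← map_mul, ← map_mul]; exact pr_eq_iff.2 ⟨c, h⟩

theorem exists_tw {g z : PG4 K} (h : g * z = z * g) : ∃ c, Tw c g z := by
  obtain ⟨G, rfl⟩ := pr_surj g
  obtain ⟨Z, rfl⟩ := pr_surj z
  rw [← map_mul, ← map_mul] at h
  exact (pr_eq_iff.1 h).imp fun c hc => tw_of hc

theorem Tw.mul {c d : K} {g h z : PG4 K} (h1 : Tw c g z) (h2 : Tw d h z) : Tw (c * d) (g * h) z := by
  obtain ⟨G, Z, rfl, rfl, h1⟩ := h1
  obtain ⟨H, rfl⟩ := pr_surj h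
  refine ⟨G * H, Z, map_mul _ _ _, rfl, ?_⟩
  rw [Units.val_mul, Matrix.mul_assoc, h2.lift, Matrix.mul_smul, ← Matrix.mul_assoc, h1, Matrix.smul_mul, smul_smul,
    mul_comm d, Matrix.mul_assoc]

theorem smul_inj' {g : G4 K} {c d : K} (h : c • g.val = d • g.val) : c = d := by
  by_contra hn
  exact ne_zero_of_eq_smul (g := g) (c := 0) (M := 0) (by
    have : (c - d) • g.val = 0 := by rw [sub_smul, h, sub_self]
    simp [sub_eq_zero, hn] at this) rfl

theorem Tw.uniq {c d : K} {g z : PG4 K} (h1 : Tw c g z) (h2 : Tw d g z) : c = d := by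
  obtain ⟨G, Z, rfl, rfl, h1⟩ := h1
  exact smul_inj' (g := Z * G) (h1.symm.trans h2.lift)

theorem Tw.symm {c d : K} {g z : PG4 K} (h : Tw c g z) (e : d * c = 1) : Tw d z g := by
  obtain ⟨G, Z, rfl, rfl, h⟩ := h
  exact tw_of (by rw [h, smul_smul, e, one_smul])

theorem Tw.conj {c : K} {g z : PG4 K} (h : Tw c g z) (q : PG4 K) : Tw c (q * g * q⁻¹) (q * z * q⁻¹) := by
  obtain ⟨G, Z, rfl, rfl, h⟩ := h
  obtain ⟨Q, rfl⟩ := pr_surj q
  refine ⟨Q * G * Q⁻¹, Q * Z * Q⁻¹, by simp, by simp, ?_⟩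
  rw [← cj_coe, ← cj_coe, ← map_mul, ← map_mul, h, map_smul]

theorem tw_self (g : PG4 K) : Tw 1 g g := by
  obtain ⟨G, rfl⟩ := pr_surj g
  exact tw_of (one_smul _ _).symm

theorem tw_one (g : PG4 K) : Tw 1 1 g := by
  obtain ⟨G, rfl⟩ := pr_surj g
  exact ⟨1, G, map_one _, rfl, by simp⟩

theorem tw_cases {g z : PG4 K} (hz : z * z = 1) (h : g * z = z * g) : Tw 1 g z ∨ Tw (-1) g z := by
  obtain ⟨c, hc⟩ := exists_tw h.symm
  have h1 := hc.mul hc
  rw [hz] at h1
  have h2 := h1.uniq (tw_one g)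
  rcases mul_self_eq_one_iff.1 h2 with rfl | rfl
  exacts [.inl (hc.symm h2), .inr (hc.symm h2)]

theorem idem_rank {e : M4 K} (h2 : (2 : K) ≠ 0) (h : e * e = e) (ht : e.trace = 1) (h1 : e ≠ 1) :
    ∃ v φ : Fin 4 → K, e = vecMulVec v φ := by
  have hp : LinearMap.IsProj (LinearMap.range (toLin' e)) (toLin' e) :=
    ⟨fun x => ⟨x, rfl⟩, by rintro _ ⟨x, rfl⟩; simp [h]⟩
  have h3 := hp.trace
  rw [Matrix.trace_toLin'_eq, ht] at h3
  have h4 : Module.finrank K (LinearMap.range (toLin' e)) ≤ 4 := by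
    simpa using Submodule.finrank_le (LinearMap.range (toLin' e))
  generalize hr : Module.finrank K (LinearMap.range (toLin' e)) = r at h3 h4
  interval_cases r
  · simp at h3
  · obtain ⟨v, -, hv⟩ := finrank_eq_one_iff'.1 hr
    choose φ hφ using fun j => hv ⟨toLin' e (Pi.single j 1), _, rfl⟩
    refine ⟨v, φ, ?_⟩
    ext i j
    have := congrFun (congrArg Subtype.val (hφ j)) i
    simp at this
    rw [vecMulVec_apply, ← this, mul_comm]
  · exact absurd (by linear_combination -h3 : (1 : K) = 0) one_ne_zero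
  · exact absurd (by push_cast at h3; linear_combination -h3) h2
  · have := Submodule.eq_top_of_finrank_eq (hr.trans (by simp))
    refine (h1 (toLin'.injective (LinearMap.ext fun x => ?_))).elim
    simpa using hp.map_id x (this ▸ Submodule.mem_top)

theorem tz (h : Hy P) {X : G4 K} (hX : pr X ∈ bar P) (h2 : X * X = 1) (h1 : pr X ≠ 1) : T X = 0 := by
  have e : X.val * X.val = 1 := congrArg Units.val h2
  have hd : X.val.det * X.val.det = 1 := by rw [← Matrix.det_mul, e, Matrix.det_one]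
  rcases mul_self_eq_one_iff.1 hd with hd | hd
  · exact (T_two h.two hd (.inl h2) h1).1
  exfalso
  have ha : X.val.adjugate = -X.val := by
    rw [← Matrix.one_mul X.val.adjugate, ← e, Matrix.mul_assoc, Matrix.mul_adjugate, hd]; simp
  have h3 := adj_mat X.val
  rw [ha, e, Matrix.one_mul, trace_neg] at h3
  have h4 : e2 X.val = 0 := by
    by_contra hn
    exact h1 (pr_eq_one'.2 ⟨0, (smul_eq_zero.1 (show e2 X.val • X.val = 0 by
      linear_combination (norm := module) h3)).resolve_left hn |>.trans (by simp)⟩)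
  have h5 := tr_sq_mat X.val
  rw [e, h4] at h5
  have key : ∀ s : K, s * s = 1 → X.val.trace = 2 * s → False := fun s hs ht => by
    obtain ⟨v, φ, hv⟩ := idem_rank (e := (2 : K)⁻¹ • (1 - s • X.val)) h.two (by
      rw [Matrix.smul_mul, Matrix.mul_smul, Matrix.sub_mul, Matrix.mul_sub, Matrix.mul_sub, Matrix.smul_mul, Matrix.smul_mul,
        Matrix.mul_smul, Matrix.mul_smul, e, smul_smul s, hs]
      have := h.two
      simp only [Matrix.mul_one, Matrix.one_mul, one_smul]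
      match_scalars <;> field_simp <;> ring) (by
      have := h.two
      simp [ht]; field_simp; linear_combination -2 * hs) (fun e1 => h1 (pr_eq_one'.2 ⟨-s, by
        have := h.two
        have e2 := congrArg (fun Y => (-2 * s) • Y) e1
        simp only [smul_smul, smul_sub] at e2
        rw [show -2 * s * (2⁻¹ * s) = -1 by field_simp; linear_combination -hs, show -2 * s * 2⁻¹ = -s by field_simp] at e2
        linear_combination (norm := module) e2⟩))
    refine h1 (h.per.bar hX (c := s) (v := v) (φ := (-2 : K) • φ) ?_)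
    rw [vecMulVec_smul, ← hv, smul_smul, neg_mul, mul_inv_cancel₀ h.two]
    simp [smul_smul, hs]
  have h6 : (X.val.trace - 2) * (X.val.trace + 2) = 0 := by simp at h5; linear_combination -h5
  rcases mul_eq_zero.1 h6 with h6 | h6
  exacts [key 1 (by simp) (by linear_combination h6), key (-1) (by simp) (by linear_combination h6)]

theorem exists_lift (h : Hy P) {z : PG4 K} (hz : z ∈ bar P) (h2 : z * z = 1) : ∃ Z : G4 K, pr Z = z ∧ Z * Z = 1 := by
  obtain ⟨x, hx, rfl⟩ := hz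
  rw [← map_mul] at h2
  obtain ⟨c, hc⟩ := pr_eq_one'.1 h2
  have h4 : c ^ 4 = 1 := four_of_smul (h := 1) (h.det _ (mul_mem hx hx)) (by simp) hc
  obtain ⟨ζ, hζ⟩ := h.z16
  obtain ⟨s, hs⟩ : ∃ s : K, s * s * c = 1 := by
    have : (c - 1) * ((c + 1) * ((c - ζ ^ 4) * (c + ζ ^ 4))) = 0 := by linear_combination h4 - (c ^ 2 - 1) * hζ
    rcases mul_eq_zero.1 this with e | e
    · exact ⟨1, by linear_combination e⟩
    rcases mul_eq_zero.1 e with e | e
    · exact ⟨ζ ^ 4, by linear_combination ζ ^ 8 * e - hζ⟩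
    rcases mul_eq_zero.1 e with e | e
    · exact ⟨ζ ^ 6, by linear_combination ζ ^ 12 * e + (ζ ^ 8 - 1) * hζ⟩
    · exact ⟨ζ ^ 2, by linear_combination ζ ^ 4 * e - hζ⟩
  have s0 : s ≠ 0 := by rintro rfl; simp at hs
  refine ⟨sc s s0 * x, pr_eq_iff.2 ⟨s, by simp⟩, Units.ext ?_⟩
  rw [Units.val_mul] at hc
  simp [hc, smul_smul, ← mul_assoc, hs]

/-- diagonal sign matrices -/
def D1 : G4 K := ⟨diagonal ![-1, -1, 1, 1], diagonal ![-1, -1, 1, 1],
  by ext i j; fin_cases i <;> fin_cases j <;> simp, by ext i j; fin_cases i <;> fin_cases j <;> simp⟩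
def D2 : G4 K := ⟨diagonal ![-1, 1, -1, 1], diagonal ![-1, 1, -1, 1],
  by ext i j; fin_cases i <;> fin_cases j <;> simp, by ext i j; fin_cases i <;> fin_cases j <;> simp⟩
theorem D1_val : (D1 : G4 K).val = diagonal ![-1, -1, 1, 1] := rfl
theorem D2_val : (D2 : G4 K).val = diagonal ![-1, 1, -1, 1] := rfl
theorem D3_val : (D1 * D2 : G4 K).val = diagonal ![1, -1, -1, 1] := by
  ext i j; fin_cases i <;> fin_cases j <;> simp [D1_val, D2_val]

theorem frame (h2 : (2 : K) ≠ 0) {X Y : G4 K} (hX : X * X = 1) (hY : Y * Y = 1) (hc : X * Y = Y * X) (t1 : T X = 0)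
    (t2 : T Y = 0) (t3 : T (X * Y) = 0) : ∃ Q : G4 K, Q * X * Q⁻¹ = D1 ∧ Q * Y * Q⁻¹ = D2 := by
  have eX : X.val * X.val = 1 := congrArg Units.val hX
  have eY : Y.val * Y.val = 1 := congrArg Units.val hY
  have ec : X.val * Y.val = Y.val * X.val := congrArg Units.val hc
  have h4 : (4 : K) ≠ 0 := by rw [show (4 : K) = 2 * 2 by norm_num]; exact mul_ne_zero h2 h2
  have key : ∀ a b : K, a * a = 1 → b * b = 1 → ∃ v : Fin 4 → K, v ≠ 0 ∧ X.val *ᵥ v = a • v ∧ Y.val *ᵥ v = b • v := by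
    intro a b ha hb
    set f := (1 + a • X.val) * (1 + b • Y.val) with hf
    have f0 : f ≠ 0 := fun e => h4 (by
      have := congrArg Matrix.trace e
      simp only [T, Units.val_mul] at t1 t2 t3
      simpa [hf, Matrix.add_mul, Matrix.mul_add, t1, t2, t3] using this)
    have k : ∀ (Z : M4 K) (a : K), Z * Z = 1 → a * a = 1 → Z * (1 + a • Z) = a • (1 + a • Z) := fun Z a e ha => by
      rw [Matrix.mul_add, Matrix.mul_smul, e, smul_add, smul_smul, ha]
      simp [add_comm]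
    have f1 : X.val * f = a • f := by rw [hf, ← Matrix.mul_assoc, ← Matrix.smul_mul, k _ _ eX ha]
    have f2 : Y.val * f = b • f := by
      have : f = (1 + b • Y.val) * (1 + a • X.val) := by
        simp only [hf, Matrix.add_mul, Matrix.mul_add, Matrix.mul_smul, Matrix.smul_mul, ec, Matrix.mul_one, Matrix.one_mul]
        module
      rw [this, ← Matrix.mul_assoc, ← Matrix.smul_mul, k _ _ eY hb]
    obtain ⟨j, hj⟩ : ∃ j, f *ᵥ Pi.single j 1 ≠ 0 := by
      by_contra hn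
      push Not at hn
      exact f0 (by ext i j; simpa using congrFun (hn j) i)
    exact ⟨_, hj, by rw [mulVec_mulVec, f1, smul_mulVec], by rw [mulVec_mulVec, f2, smul_mulVec]⟩
  obtain ⟨v0, n0, a0, b0⟩ := key (-1) (-1) (by simp) (by simp)
  obtain ⟨v1, n1, a1, b1⟩ := key (-1) 1 (by simp) (by simp)
  obtain ⟨v2, n2, a2, b2⟩ := key 1 (-1) (by simp) (by simp)
  obtain ⟨v3, n3, a3, b3⟩ := key 1 1 (by simp) (by simp)
  let Q : M4 K := (Matrix.of ![v0, v1, v2, v3])ᵀ
  have q : ∀ c : Fin 4 → K, Q *ᵥ c = c 0 • v0 + c 1 • v1 + c 2 • v2 + c 3 • v3 := fun c => by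
    ext i; simp [Q, mulVec, dotProduct, Fin.sum_univ_four, mul_comm]
  have qd : Q.det ≠ 0 := fun e => by
    obtain ⟨c, c0, hc⟩ := Matrix.exists_mulVec_eq_zero_iff.2 e
    rw [q] at hc
    have e1 := congrArg (X.val *ᵥ ·) hc
    have e2 := congrArg (Y.val *ᵥ ·) hc
    have e3 := congrArg (Y.val *ᵥ ·) e1
    simp only [mulVec_add, mulVec_smul, a0, a1, a2, a3, b0, b1, b2, b3, mulVec_zero] at e1 e2 e3
    have k : ∀ (x : K) (v : Fin 4 → K), v ≠ 0 → (4 * x) • v = 0 → x = 0 := fun x v hv e =>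
      (mul_eq_zero.1 ((smul_eq_zero.1 e).resolve_right hv)).resolve_left h4
    have k0 : c 0 = 0 := k _ _ n0 (by linear_combination (norm := module) hc - e1 - e2 + e3)
    have k1 : c 1 = 0 := k _ _ n1 (by linear_combination (norm := module) hc - e1 + e2 - e3)
    have k2 : c 2 = 0 := k _ _ n2 (by linear_combination (norm := module) hc + e1 - e2 - e3)
    have k3 : c 3 = 0 := k _ _ n3 (by linear_combination (norm := module) hc + e1 + e2 + e3)
    exact c0 (by ext i; fin_cases i <;> assumption)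
  let Q' : G4 K := Matrix.GeneralLinearGroup.mkOfDetNeZero Q qd
  have k : ∀ Z D : G4 K, (∀ c, Z.val *ᵥ (Q *ᵥ c) = Q *ᵥ (D.val *ᵥ c)) → Q'⁻¹ * Z * Q'⁻¹⁻¹ = D := fun Z D e => by
    rw [inv_inv, mul_assoc, inv_mul_eq_iff_eq_mul]
    apply Units.ext
    apply toLin'.injective
    refine LinearMap.ext fun c => ?_
    simpa [Q'] using e c
  refine ⟨Q'⁻¹, k _ _ fun c => ?_, k _ _ fun c => ?_⟩ <;>
    simp [q, mulVec_add, mulVec_smul, a0, a1, a2, a3, b0, b1, b2, b3, D1_val, D2_val, mulVec_diagonal]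

theorem zero_of {G : M4 K} {d e : Fin 4 → K} {c : K} (h : G * diagonal d = c • (diagonal e * G)) (i j : Fin 4)
    (hne : d j ≠ c * e i) : G i j = 0 := by
  have := congrFun (congrFun h i) j
  simp only [mul_diagonal, diagonal_mul, Matrix.smul_apply, smul_eq_mul] at this
  exact (mul_eq_zero.1 (show G i j * (d j - c * e i) = 0 by linear_combination this)).resolve_right (sub_ne_zero.2 hne)

theorem ne1 (h2 : (2 : K) ≠ 0) : (1 : K) ≠ -1 := fun e => h2 (by linear_combination e)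

theorem diag_of (h2 : (2 : K) ≠ 0) {G : M4 K} (a : G * (D1 : G4 K).val = (1 : K) • ((D1 : G4 K).val * G))
    (b : G * (D2 : G4 K).val = (1 : K) • ((D2 : G4 K).val * G)) : G = diagonal ![G 0 0, G 1 1, G 2 2, G 3 3] := by
  have := ne1 h2
  have := this.symm
  ext i j
  fin_cases i <;> fin_cases j <;> first | rfl | exact zero_of a _ _ (by simpa) | exact zero_of b _ _ (by simpa)

theorem wlog_frame (h : Hy P) {z1 z2 : PG4 K} (m1 : z1 ∈ bar P) (m2 : z2 ∈ bar P) (i1 : Inv z1) (i2 : Inv z2)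
    (hne : z1 ≠ z2) (hc : Tw 1 z1 z2) : ∃ Q : G4 K, pr Q * z1 * (pr Q)⁻¹ = pr D1 ∧ pr Q * z2 * (pr Q)⁻¹ = pr D2 := by
  obtain ⟨X, rfl, hX⟩ := exists_lift h m1 i1.2
  obtain ⟨Y, rfl, hY⟩ := exists_lift h m2 i2.2
  have e : X * Y = Y * X := Units.ext (by simpa using hc.lift)
  obtain ⟨Q, a, b⟩ := frame h.two hX hY e (tz h m1 hX i1.1) (tz h m2 hY i2.1) (tz h (by rw [map_mul]; exact mul_mem m1 m2)
    (by rw [mul_assoc, ← mul_assoc Y, ← e, mul_assoc, hY, mul_one, hX]) (by rw [map_mul]; exact (i1.mul i2 hne hc.comm).1))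
  exact ⟨Q, by rw [← a]; simp, by rw [← b]; simp⟩

end Cfsg.Agent.H7.Lw
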