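import Cfsg.Agent.H7.LwB

set_option autoImplicit false

/-! The sign calculus of involutions, as an abstract structure. -/

namespace Cfsg.Agent.H7.Lw
open Cfsg Matrix Cfsg.Agent.Asch Cfsg.Agent.H2.M4 Cfsg.Agent.H7.M4 Cfsg.Agent.MH

/-- commuting and anticommuting lifts -/
structure GS (G : Type*) [Group G] where
  cm : G → G → Prop
  an : G → G → Prop
  tri : ∀ {g z}, z * z = 1 → g * z = z * g → cm g z ∨ an g z
  tri2 : ∀ {g z}, cm (g * g) z → g * z = z * g → cm g z ∨ an g z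
  excl : ∀ {g z}, cm g z → an g z → False
  cm_comm : ∀ {g z}, cm g z → g * z = z * g
  an_comm : ∀ {g z}, an g z → g * z = z * g
  cm_symm : ∀ {g z}, cm g z → cm z g
  an_symm : ∀ {g z}, an g z → an z g
  cc : ∀ {g h z}, cm g z → cm h z → cm (g * h) z
  ca : ∀ {g h z}, cm g z → an h z → an (g * h) z
  ac : ∀ {g h z}, an g z → cm h z → an (g * h) z
  aa : ∀ {g h z}, an g z → an h z → cm (g * h) z
  cm_conj : ∀ {g z} q, cm g z → cm (q * g * q⁻¹) (q * z * q⁻¹)
  an_conj : ∀ {g z} q, an g z → an (q * g * q⁻¹) (q * z * q⁻¹)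
  cm_inv : ∀ {g z}, cm g z → cm g⁻¹ z
  an_inv : ∀ {g z}, an g z → an g⁻¹ z
  cm_self : ∀ g, cm g g
  cm_one : ∀ g, cm 1 g
  inv : ∀ {a b t : G}, Inv a → Inv b → a ≠ b → cm a b → t * t = 1 → cm t a → cm t b → t = 1 ∨ t = a ∨ t = b ∨ t = a * b
  ab : ∀ {a b g h : G}, Inv a → Inv b → a ≠ b → cm a b → cm g a → cm g b → cm h a → cm h b → cm g h
  rot : ∀ {a b g w : G}, Inv a → Inv b → a ≠ b → cm a b → cm g a → cm g b → cm g w → cm w a → an w b →
    g ^ 2 = 1 ∨ g ^ 3 = 1 ∨ g ^ 5 = 1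
  nf : ∀ {a b e x : G}, Inv a → Inv b → a ≠ b → cm a b → e ∈ Subgroup.closure {t | t * t = 1 ∧ cm t a} → e * e = a →
    an x a → (x * e * x⁻¹ = e ∨ x * e * x⁻¹ = e * a) → False
  cyc : ∀ {a b x : G}, Inv a → Inv b → a ≠ b → cm a b → an x a → x * b * x⁻¹ = a * b → an (x * x) b

variable {K : Type*} [Field K] {P : Subgroup (G4 K)}

theorem pr_diag {G H : G4 K} {v w : Fin 4 → K} (c : K) (hG : G.val = diagonal v) (hH : H.val = diagonal w)
    (e : v = c • w) : pr G = pr H := pr_eq_iff.2 ⟨c, by rw [hG, hH, e, diagonal_smul]⟩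

theorem row_ne (W : G4 K) (i : Fin 4) : ∃ j, W.val i j ≠ 0 := by
  by_contra hn
  push Not at hn
  have := congrFun (congrFun (W.mul_inv) i) i
  rw [Matrix.mul_apply] at this
  simp [hn] at this

theorem inv_std (h : Hy P) {t : PG4 K} (m : t ∈ bar P) (t2 : t * t = 1) (a : Tw 1 t (pr D1)) (b : Tw 1 t (pr D2)) :
    t = 1 ∨ t = pr D1 ∨ t = pr D2 ∨ t = pr D1 * pr D2 := by
  obtain ⟨X, rfl, hX⟩ := exists_lift h m t2
  by_cases h1 : pr X = 1
  · exact .inl h1
  have e := diag_of h.two a.lift b.lift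
  have ht := tz h m hX h1
  have e2 := congrArg Units.val hX
  rw [T, e] at ht
  rw [Units.val_mul, e] at e2
  generalize X.val 0 0 = x0, X.val 1 1 = x1, X.val 2 2 = x2, X.val 3 3 = x3 at e ht e2
  have k := fun i => congrFun (congrFun e2 i) i
  have k0 := k 0; have k1 := k 1; have k2 := k 2; have k3 := k 3
  simp at k0 k1 k2 k3 ht
  have h2 := h.two
  have h4 : (4 : K) ≠ 0 := by rw [show (4 : K) = 2 * 2 by norm_num]; exact mul_ne_zero h2 h2
  rw [Fin.sum_univ_four] at ht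
  simp only [Matrix.cons_val] at ht
  rw [← map_mul]
  rcases mul_self_eq_one_iff.1 k0 with rfl | rfl <;> rcases mul_self_eq_one_iff.1 k1 with rfl | rfl <;>
    rcases mul_self_eq_one_iff.1 k2 with rfl | rfl <;> rcases mul_self_eq_one_iff.1 k3 with rfl | rfl <;>
    first
    | exact absurd (by linear_combination ht) h2
    | exact absurd (by linear_combination -ht) h2
    | exact absurd (by linear_combination ht) h4
    | exact absurd (by linear_combination -ht) h4
    | (refine .inr (.inl (pr_diag 1 e D1_val ?_)); simp; done)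
    | (refine .inr (.inl (pr_diag (-1) e D1_val ?_)); simp; done)
    | (refine .inr (.inr (.inl (pr_diag 1 e D2_val ?_))); simp; done)
    | (refine .inr (.inr (.inl (pr_diag (-1) e D2_val ?_))); simp; done)
    | (refine .inr (.inr (.inr (pr_diag 1 e D3_val ?_))); simp; done)
    | (refine .inr (.inr (.inr (pr_diag (-1) e D3_val ?_))); simp; done)

theorem ab_std (h2 : (2 : K) ≠ 0) {g k : PG4 K} (a : Tw 1 g (pr D1)) (b : Tw 1 g (pr D2)) (c : Tw 1 k (pr D1))
    (d : Tw 1 k (pr D2)) : Tw 1 g k := by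
  obtain ⟨G, rfl⟩ := pr_surj g
  obtain ⟨H, rfl⟩ := pr_surj k
  refine tw_of ?_
  rw [diag_of h2 a.lift b.lift, diag_of h2 c.lift d.lift, diagonal_mul_diagonal, diagonal_mul_diagonal, one_smul]
  simp [mul_comm]

theorem rot_std (h : Hy P) {g w : PG4 K} (m : g ∈ bar P) (a : Tw 1 g (pr D1)) (b : Tw 1 g (pr D2)) (c : Tw 1 g w)
    (d : Tw 1 w (pr D1)) (e : Tw (-1) w (pr D2)) : g ^ 2 = 1 ∨ g ^ 3 = 1 ∨ g ^ 5 = 1 := by
  obtain ⟨G, rfl⟩ := pr_surj g
  obtain ⟨W, rfl⟩ := pr_surj w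
  have e1 := diag_of h.two a.lift b.lift
  have c1 := c.lift
  have n1 := ne1 h.two
  have n2 := n1.symm
  generalize G.val 0 0 = x0, G.val 1 1 = x1, G.val 2 2 = x2, G.val 3 3 = x3 at e1
  rw [e1, one_smul] at c1
  have k0 : x1 = x0 := by
    by_contra hn
    obtain ⟨j, hj⟩ := row_ne W 0
    fin_cases j
    exacts [hj (zero_of e.lift _ _ (by simpa)), hj (zero_of (c := 1) (c1.symm.trans (one_smul _ _).symm) _ _ (by simpa)),
      hj (zero_of d.lift _ _ (by simpa)), hj (zero_of d.lift _ _ (by simpa))]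
  have k1 : x3 = x2 := by
    by_contra hn
    obtain ⟨j, hj⟩ := row_ne W 2
    fin_cases j
    exacts [hj (zero_of d.lift _ _ (by simpa)), hj (zero_of d.lift _ _ (by simpa)), hj (zero_of e.lift _ _ (by simpa)),
      hj (zero_of (c := 1) (c1.symm.trans (one_smul _ _).symm) _ _ (by simpa))]
  subst k0 k1
  refine h.rot.bar m (a := x1 + x3) (b := -(x1 * x3)) ?_
  rw [e1]
  ext i j; fin_cases i <;> fin_cases j <;> simp <;> ring

theorem blk (h2 : (2 : K) ≠ 0) {G : M4 K} (a : G * (D1 : G4 K).val = (1 : K) • ((D1 : G4 K).val * G)) :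
    G = !![G 0 0, G 0 1, 0, 0; G 1 0, G 1 1, 0, 0; 0, 0, G 2 2, G 2 3; 0, 0, G 3 2, G 3 3] := by
  have := ne1 h2
  have := this.symm
  ext i j
  fin_cases i <;> fin_cases j <;> first | rfl | exact zero_of a _ _ (by simpa)

theorem blk_mul (a b c d a' b' c' d' e f g h e' f' g' h' : K) :
    !![a, b, 0, 0; c, d, 0, 0; 0, 0, a', b'; 0, 0, c', d'] * !![e, f, 0, 0; g, h, 0, 0; 0, 0, e', f'; 0, 0, g', h'] =
    !![a * e + b * g, a * f + b * h, 0, 0; c * e + d * g, c * f + d * h, 0, 0;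
      0, 0, a' * e' + b' * g', a' * f' + b' * h'; 0, 0, c' * e' + d' * g', c' * f' + d' * h'] := by
  ext i j; fin_cases i <;> fin_cases j <;> simp [Matrix.mul_apply, Fin.sum_univ_four]

theorem D1_val' : (D1 : G4 K).val = !![-1, 0, 0, 0; 0, -1, 0, 0; 0, 0, 1, 0; 0, 0, 0, 1] := by
  ext i j; fin_cases i <;> fin_cases j <;> simp [D1_val]

theorem nf_std (h : Hy P) {e x : PG4 K} (he : e ∈ Subgroup.closure {t | t ∈ bar P ∧ t * t = 1 ∧ Tw 1 t (pr D1)})
    (e2 : e * e = pr D1) (hx : Tw (-1) x (pr D1)) (hc : x * e * x⁻¹ = e ∨ x * e * x⁻¹ = e * pr D1) : False := by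
  have h2 := h.two
  have key : ∃ (E : G4 K) (a b c d a' b' c' d' : K), pr E = e ∧
      E.val = !![a, b, 0, 0; c, d, 0, 0; 0, 0, a', b'; 0, 0, c', d'] ∧ a * d - b * c = a' * d' - b' * c' := by
    clear e2 hc
    have gen : ∀ t ∈ {t | t ∈ bar P ∧ t * t = 1 ∧ Tw 1 t (pr D1)}, ∀ e, (∃ (E : G4 K) (a b c d a' b' c' d' : K), pr E = e ∧
        E.val = !![a, b, 0, 0; c, d, 0, 0; 0, 0, a', b'; 0, 0, c', d'] ∧ a * d - b * c = a' * d' - b' * c') →
        ∃ (E : G4 K) (a b c d a' b' c' d' : K), pr E = t * e ∧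
        E.val = !![a, b, 0, 0; c, d, 0, 0; 0, 0, a', b'; 0, 0, c', d'] ∧ a * d - b * c = a' * d' - b' * c' := by
      rintro t ⟨m, t2, ht⟩ _ ⟨E, a, b, c, d, a', b', c', d', rfl, e1, e2⟩
      by_cases h1 : t = 1
      · exact ⟨E, a, b, c, d, a', b', c', d', by simp [h1], e1, e2⟩
      obtain ⟨X, rfl, hX⟩ := exists_lift h m t2
      have e3 := blk h2 ht.lift
      have e4 := tz h m hX h1
      have e5 := congrArg Units.val hX
      rw [T, e3] at e4
      rw [Units.val_mul, e3, blk_mul] at e5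
      generalize X.val 0 0 = x, X.val 0 1 = y, X.val 1 0 = z, X.val 1 1 = w, X.val 2 2 = x', X.val 2 3 = y',
        X.val 3 2 = z', X.val 3 3 = w' at e3 e4 e5
      have k := fun i => congrFun (congrFun e5 i) i
      have k0 := k 0; have k1 := k 1; have k2 := k 2; have k3 := k 3
      simp [Matrix.trace, Fin.sum_univ_four] at k0 k1 k2 k3 e4
      have k4 : x * w - y * z = x' * w' - y' * z' := mul_left_cancel₀ h2 (by
        linear_combination (x + w - x' - w') * e4 - k0 - k1 + k2 + k3)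
      exact ⟨X * E, _, _, _, _, _, _, _, _, map_mul _ _ _, by rw [Units.val_mul, e1, e3, blk_mul], by
        linear_combination (a * d - b * c) * k4 + (x' * w' - y' * z') * e2⟩
    induction he using Subgroup.closure_induction_left with
    | one => exact ⟨1, 1, 0, 0, 1, 1, 0, 0, 1, map_one _, by ext i j; fin_cases i <;> fin_cases j <;> simp, by simp⟩
    | mul_left t ht y _ ih => exact gen t ht y ih
    | inv_mul_cancel t ht y _ ih => rw [inv_eq_of_mul_eq_one_right ht.2.1]; exact gen t ht y ih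
  obtain ⟨E, a, b, c, d, a', b', c', d', rfl, e1, e3⟩ := key
  obtain ⟨X, rfl⟩ := pr_surj x
  rw [← map_mul] at e2
  obtain ⟨s, hs⟩ := pr_eq_iff.1 e2
  have s0 := ne_zero_of_eq_smul hs
  rw [Units.val_mul, e1, blk_mul, D1_val'] at hs
  have k := fun i j => congrFun (congrFun hs i) j
  have k0 := k 0 0; have k1 := k 1 1; have k2 := k 2 2; have k3 := k 3 3; have k4 := k 0 1; have k5 := k 1 0
  simp at k0 k1 k2 k3 k4 k5
  have t1 : T E = (a + d) + (a' + d') := by simp [T, e1, Matrix.trace, Fin.sum_univ_four, add_assoc]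
  have t2 : T (E * D1) = -(a + d) + (a' + d') := by
    rw [T, Units.val_mul, e1, D1_val', blk_mul]; simp [Matrix.trace, Fin.sum_univ_four]; ring
  have hd : (X * D1 * X⁻¹).val = (-1 : K) • (D1 : G4 K).val := by
    rw [Units.val_mul, Units.val_mul, hx.lift, Matrix.smul_mul, Matrix.mul_assoc, Units.mul_inv, Matrix.mul_one]
  have t3 : T (E * D1) = -T (X * E * X⁻¹ * D1) := by
    rw [← T_conj X, show X * (E * D1) * X⁻¹ = X * E * X⁻¹ * (X * D1 * X⁻¹) by group, T, Units.val_mul, hd]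
    simp [T]
  have p1 : (a + d) ^ 2 * (a' + d') ^ 2 = 0 := by
    have u : (a + d) ^ 2 = 2 * (a * d - b * c - s) := by linear_combination k0 + k1
    have v : (a' + d') ^ 2 = 2 * (a * d - b * c + s) := by linear_combination k2 + k3 - 2 * e3
    rw [u, v]
    linear_combination 4 * ((d * d + b * c) * k0 - s * k1 - (c * a + d * c) * k4)
  have p2 : (a' + d') ^ 2 - (a + d) ^ 2 = 4 * s := by linear_combination k2 + k3 - k0 - k1 - 2 * e3
  have h4 : (4 : K) * s ≠ 0 := mul_ne_zero (by rw [show (4 : K) = 2 * 2 by norm_num]; exact mul_ne_zero h2 h2) s0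
  have fin : ∀ l : K, (T E = l * T E ∧ T (E * D1) = -(l * T (E * D1))) ∨ (T E = l * T (E * D1) ∧ T (E * D1) = -(l * T E)) →
      False := fun l hl => by
    rw [t1, t2] at hl
    generalize a + d = u, a' + d' = v at *
    apply h4
    rcases mul_eq_zero.1 p1 with p | p <;> obtain rfl := pow_eq_zero_iff two_ne_zero |>.1 p
    · have : v = 0 := mul_left_cancel₀ h2 (by rcases hl with ⟨l1, l2⟩ | ⟨l1, l2⟩ <;> linear_combination l1 + l2)
      rw [← p2, this]; ring
    · have : u = 0 := mul_left_cancel₀ h2 (by rcases hl with ⟨l1, l2⟩ | ⟨l1, l2⟩ <;> linear_combination l1 - l2)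
      rw [← p2, this]; ring
  rw [← map_inv, ← map_mul, ← map_mul, ← map_mul] at hc
  rcases hc with hc | hc <;> obtain ⟨l, hl⟩ := pr_eq_iff.1 hc
  · refine fin l (.inl ⟨by rw [← T_of_smul hl, T_conj], ?_⟩)
    conv_lhs => rw [t3]
    rw [T_of_smul (h := E * D1) (c := l) (by rw [Units.val_mul, hl]; simp)]
  · refine fin l (.inr ⟨by rw [← T_of_smul hl, T_conj], ?_⟩)
    rw [t3, T_of_smul (h := E) (c := l) (by
      rw [Units.val_mul, hl, Matrix.smul_mul, ← Units.val_mul, mul_assoc, show (D1 * D1 : G4 K) = 1 from Units.ext D1.val_inv, mul_one])]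

theorem cyc_gen {a b x : PG4 K} (ia : a * a = 1) (hab : Tw 1 a b) (h1 : Tw (-1) x a) (h2 : x * b * x⁻¹ = a * b)
    (hA : ∃ A, pr A = a ∧ A * A = 1) (hB : ∃ B, pr B = b ∧ B * B = 1) : Tw (-1) (x * x) b := by
  obtain ⟨A, rfl, hA⟩ := hA
  obtain ⟨B, rfl, hB⟩ := hB
  obtain ⟨X, rfl⟩ := pr_surj x
  rw [mul_inv_eq_iff_eq_mul, ← map_mul, ← map_mul, ← map_mul] at h2
  obtain ⟨c, hc⟩ := pr_eq_iff.1 h2
  simp only [Units.val_mul] at hc
  have eA : A.val * A.val = 1 := congrArg Units.val hA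
  have eB : B.val * B.val = 1 := congrArg Units.val hB
  have e1 := hab.lift
  rw [one_smul] at e1
  have c2 : c * c = 1 := by
    apply smul_inj' (g := X)
    calc (c * c) • X.val = (c * c) • (A.val * B.val * (A.val * B.val) * X.val) := by
          rw [Matrix.mul_assoc A.val B.val, ← Matrix.mul_assoc B.val, ← e1, Matrix.mul_assoc A.val B.val, eB,
            Matrix.mul_one, eA, Matrix.one_mul]
      _ = X.val * B.val * B.val := by
          rw [hc, Matrix.smul_mul, Matrix.mul_assoc (A.val * B.val) X.val, hc, Matrix.mul_smul, smul_smul]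
          simp only [Matrix.mul_assoc]
      _ = _ := by rw [Matrix.mul_assoc, eB]; simp
  rw [← map_mul]
  refine tw_of ?_
  rw [Units.val_mul, Matrix.mul_assoc, hc, Matrix.mul_smul, ← Matrix.mul_assoc, ← Matrix.mul_assoc, h1.lift,
    Matrix.smul_mul, Matrix.mul_assoc A.val, hc, Matrix.mul_smul, Matrix.smul_mul, Matrix.smul_mul, smul_smul, smul_smul,
    ← Matrix.mul_assoc, ← Matrix.mul_assoc, eA, Matrix.one_mul, Matrix.mul_assoc]
  congr 1; linear_combination -c2

theorem coe_inv' {a : bar P} (h : Inv a) : Inv (a : PG4 K) :=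
  ⟨fun e => h.1 (Subtype.ext e), congrArg Subtype.val h.2⟩

theorem mem_cg' {x : PG4 K} (Q : G4 K) (h : x ∈ bar P) : pr Q * x * (pr Q)⁻¹ ∈ bar (cg Q P) :=
  mem_bar_cg.2 (by simpa [mul_assoc] using h)

theorem Tw.of_conj {c : K} {g z : PG4 K} (q : PG4 K) (h : Tw c (q * g * q⁻¹) (q * z * q⁻¹)) : Tw c g z := by
  simpa [mul_assoc] using h.conj q⁻¹

theorem Tw.inv {c d : K} {g z : PG4 K} (h : Tw c g z) (e : d * c = 1) : Tw d g⁻¹ z := by
  obtain ⟨c', hc⟩ := exists_tw (g := g⁻¹) (z := z) (by rw [inv_mul_eq_iff_eq_mul, ← mul_assoc, h.comm, mul_inv_cancel_right])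
  have := (hc.mul h).uniq (by rw [inv_mul_cancel]; exact tw_one z)
  rwa [show d = c' by linear_combination c' * e - d * this]

/-- the sign structure of the projective group -/
def gs (h : Hy P) : GS (bar P) where
  cm g z := Tw 1 (g : PG4 K) z
  an g z := Tw (-1) (g : PG4 K) z
  tri h1 h2 := tw_cases (congrArg Subtype.val h1) (congrArg Subtype.val h2)
  tri2 h1 h2 := by
    obtain ⟨c, hc⟩ := exists_tw (congrArg Subtype.val h2)
    rcases mul_self_eq_one_iff.1 ((hc.mul hc).uniq h1) with rfl | rfl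
    exacts [.inl hc, .inr hc]
  excl a b := ne1 h.two (a.uniq b)
  cm_comm a := Subtype.ext a.comm
  an_comm a := Subtype.ext a.comm
  cm_symm a := a.symm (by simp)
  an_symm a := a.symm (by simp)
  cc a b := by simpa using a.mul b
  ca a b := by simpa using a.mul b
  ac a b := by simpa using a.mul b
  aa a b := by simpa using a.mul b
  cm_conj q a := a.conj q.1
  an_conj q a := a.conj q.1
  cm_inv a := a.inv (by simp)
  an_inv a := a.inv (by simp)
  cm_self g := tw_self _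
  cm_one g := tw_one _
  inv := fun {a b t} ia ib hne hc t2 h1 h2 => by
    obtain ⟨Q, e1, e2⟩ := wlog_frame h a.2 b.2 (coe_inv' ia) (coe_inv' ib) (fun e => hne (Subtype.ext e)) hc
    have := inv_std (h.cj Q) (mem_cg' Q t.2) (by rw [conj_mul, show (t : PG4 K) * t = 1 from congrArg Subtype.val t2]; simp)
      (e1 ▸ h1.conj _) (e2 ▸ h2.conj _)
    rw [← e1, ← e2, conj_mul, conj_eq_one_iff] at this
    simpa only [mul_left_inj, mul_right_inj, Subtype.ext_iff] using! this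
  ab := fun {a b g k} ia ib hne hc h1 h2 h3 h4 => by
    obtain ⟨Q, e1, e2⟩ := wlog_frame h a.2 b.2 (coe_inv' ia) (coe_inv' ib) (fun e => hne (Subtype.ext e)) hc
    exact (ab_std h.two (e1 ▸ h1.conj _) (e2 ▸ h2.conj _) (e1 ▸ h3.conj _) (e2 ▸ h4.conj _)).of_conj _
  rot := fun {a b g w} ia ib hne hc h1 h2 h3 h4 h5 => by
    obtain ⟨Q, e1, e2⟩ := wlog_frame h a.2 b.2 (coe_inv' ia) (coe_inv' ib) (fun e => hne (Subtype.ext e)) hc
    have := rot_std (h.cj Q) (mem_cg' Q g.2) (e1 ▸ h1.conj _) (e2 ▸ h2.conj _) (h3.conj _) (e1 ▸ h4.conj _)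
      (e2 ▸ h5.conj _)
    simpa only [conj_pow, conj_eq_one_iff, Subtype.ext_iff] using! this
  nf := fun {a b e x} ia ib hne hc he e2 hx h1 => by
    obtain ⟨Q, e1, -⟩ := wlog_frame h a.2 b.2 (coe_inv' ia) (coe_inv' ib) (fun e => hne (Subtype.ext e)) hc
    refine nf_std (h.cj Q) (e := pr Q * e * (pr Q)⁻¹) (x := pr Q * x * (pr Q)⁻¹) ?_
      (by rw [conj_mul, ← e1, ← e2]; rfl) (e1 ▸ hx.conj _) ?_
    · refine Subgroup.closure_mono ?_ ((MonoidHom.map_closure ((MulAut.conj (pr Q)).toMonoidHom.comp (bar P).subtype) _) ▸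
        Subgroup.mem_map_of_mem _ he)
      rintro _ ⟨t, ⟨t2, ht⟩, rfl⟩
      exact ⟨mem_cg' Q t.2, by rw [← map_mul, t2, map_one], e1 ▸ ht.conj _⟩
    · rw [← e1, conj_mul, conj_inv, conj_mul, conj_mul]
      simpa only [mul_left_inj, mul_right_inj, Subtype.ext_iff] using! h1
  cyc := fun {a b x} ia ib _ hc h1 h2 => cyc_gen (coe_inv' ia).2 hc h1 (congrArg Subtype.val h2)
    (exists_lift h a.2 (coe_inv' ia).2) (exists_lift h b.2 (coe_inv' ib).2)

end Cfsg.Agent.H7.Lw
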