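import Cfsg.Agent.H7.LwC
import Cfsg.Agent.H2.PGroup

set_option autoImplicit false

/-! Sylow 2-subgroups centralising or normalising a four-group with commuting lifts. -/

namespace Cfsg.Agent.H7.Lw
open Subgroup Cfsg.Agent.MH

variable {G : Type*} [Group G]

theorem card_ext2 [Finite G] {X : Subgroup G} {a : G} (h1 : a * a ∈ X) (h2 : ∀ x ∈ X, a * x * a⁻¹ ∈ X) (h3 : a ∉ X) :
    Nat.card (ext2 X a h1 h2) = 2 * Nat.card X := by
  have hle : X ≤ ext2 X a h1 h2 := fun x hx => .inl hx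
  have : (X.subgroupOf (ext2 X a h1 h2)).index = 2 := by
    refine index_eq_two_iff'.2 ⟨⟨a, .inr h1⟩, fun b => ?_⟩
    simp only [mem_subgroupOf, coe_mul]
    by_cases hb : (b : G) ∈ X
    · exact .inr ⟨hb, fun e => h3 ((mul_mem_cancel_right hb).1 e)⟩
    · exact .inl ⟨b.2.resolve_left hb, hb⟩
  rw [← (X.subgroupOf _).index_mul_card, this, Nat.card_congr (subgroupOfEquivOfLe hle).toEquiv]

/-- no elementary abelian subgroup of order sixteen -/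
def N16 (G : Type*) [Group G] : Prop := ∀ E : Subgroup G, (∀ x ∈ E, x * x = 1) → Nat.card E ≠ 16

theorem el_ext [Finite G] {X : Subgroup G} (hX : ∀ x ∈ X, x * x = 1) {a : G} (h1 : a * a = 1) (h2 : ∀ x ∈ X, a * x = x * a)
    (h3 : a ∉ X) : ∃ Y : Subgroup G, (∀ x ∈ Y, x * x = 1) ∧ Nat.card Y = 2 * Nat.card X ∧ ∀ g, g ∈ Y ↔ g ∈ X ∨ ∃ x ∈ X, g = a * x := by
  refine ⟨ext2 X a (h1 ▸ one_mem _) fun x hx => by rwa [h2 x hx, mul_inv_cancel_right], ?_, card_ext2 _ _ h3, fun g => ?_⟩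
  · rintro g (hg | hg)
    · exact hX g hg
    · have e := h2 _ hg
      rw [← mul_assoc, h1, one_mul] at e
      have := hX _ hg
      rwa [← mul_assoc, ← e] at this
  · refine or_congr_right ⟨fun h => ⟨_, h, by rw [← mul_assoc, h1, one_mul]⟩, ?_⟩
    rintro ⟨x, hx, rfl⟩
    rwa [← mul_assoc, h1, one_mul]

namespace GS
variable (σ : GS G)

/-- a four-group with commuting lifts -/
structure Fg (a b c : G) : Prop where
  ia : Inv a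
  ib : Inv b
  ne : a ≠ b
  cm : σ.cm a b
  e : a * b = c

/-- diagonal elements -/
def T0 (a b c g : G) : Prop := σ.cm g a ∧ σ.cm g b ∧ σ.cm g c
/-- elements permuting the frame as a double transposition -/
def Ty (a b c g : G) : Prop := σ.cm g a ∧ σ.an g b ∧ σ.an g c

variable {σ} {a b c g h r w w' : G} {S : Subgroup G}

theorem Fg.comm (F : σ.Fg a b c) : a * b = b * a := σ.cm_comm F.cm
theorem Fg.ic (F : σ.Fg a b c) : Inv c := F.e ▸ F.ia.mul F.ib F.ne F.comm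
theorem Fg.s12 (F : σ.Fg a b c) : σ.Fg b a c := ⟨F.ib, F.ia, F.ne.symm, σ.cm_symm F.cm, F.comm ▸ F.e⟩
theorem Fg.s23 (F : σ.Fg a b c) : σ.Fg a c b :=
  ⟨F.ia, F.ic, fun e => F.ib.1 (by simpa [← F.e] using e), F.e ▸ σ.cm_symm (σ.cc (σ.cm_self a) (σ.cm_symm F.cm)),
    by rw [← F.e, ← mul_assoc, F.ia.2, one_mul]⟩
theorem Fg.s13 (F : σ.Fg a b c) : σ.Fg c b a := F.s12.s23.s12
theorem Fg.ta (F : σ.Fg a b c) : σ.T0 a b c a := ⟨σ.cm_self a, F.cm, F.s23.cm⟩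
theorem Fg.tb (F : σ.Fg a b c) : σ.T0 a b c b := ⟨F.s12.cm, σ.cm_self b, F.s12.s23.cm⟩
theorem Fg.tc (F : σ.Fg a b c) : σ.T0 a b c c := ⟨F.s13.s23.cm, F.s13.cm, σ.cm_self c⟩
theorem t0_one : σ.T0 a b c 1 := ⟨σ.cm_one _, σ.cm_one _, σ.cm_one _⟩
theorem T0.s12 (h : σ.T0 a b c g) : σ.T0 b a c g := ⟨h.2.1, h.1, h.2.2⟩
theorem T0.s23 (h : σ.T0 a b c g) : σ.T0 a c b g := ⟨h.1, h.2.2, h.2.1⟩
theorem T0.s13 (h : σ.T0 a b c g) : σ.T0 c b a g := ⟨h.2.2, h.2.1, h.1⟩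
theorem Ty.s (h : σ.Ty a b c g) : σ.Ty a c b g := ⟨h.1, h.2.2, h.2.1⟩
theorem T0.mul (h1 : σ.T0 a b c g) (h2 : σ.T0 a b c h) : σ.T0 a b c (g * h) :=
  ⟨σ.cc h1.1 h2.1, σ.cc h1.2.1 h2.2.1, σ.cc h1.2.2 h2.2.2⟩
theorem Ty.mul0 (h1 : σ.Ty a b c g) (h2 : σ.T0 a b c h) : σ.Ty a b c (g * h) :=
  ⟨σ.cc h1.1 h2.1, σ.ac h1.2.1 h2.2.1, σ.ac h1.2.2 h2.2.2⟩
theorem T0.mul1 (h1 : σ.T0 a b c g) (h2 : σ.Ty a b c h) : σ.Ty a b c (g * h) :=
  ⟨σ.cc h1.1 h2.1, σ.ca h1.2.1 h2.2.1, σ.ca h1.2.2 h2.2.2⟩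
theorem Ty.mul (h1 : σ.Ty a b c g) (h2 : σ.Ty a b c h) : σ.T0 a b c (g * h) :=
  ⟨σ.cc h1.1 h2.1, σ.aa h1.2.1 h2.2.1, σ.aa h1.2.2 h2.2.2⟩
theorem Ty.mul' (h1 : σ.Ty a b c g) (h2 : σ.Ty b a c h) : σ.Ty c a b (g * h) :=
  ⟨σ.aa h1.2.2 h2.2.2, σ.ca h1.1 h2.2.1, σ.ac h1.2.1 h2.1⟩
theorem T0.inv (h1 : σ.T0 a b c g) : σ.T0 a b c g⁻¹ := ⟨σ.cm_inv h1.1, σ.cm_inv h1.2.1, σ.cm_inv h1.2.2⟩
theorem Ty.inv (h1 : σ.Ty a b c g) : σ.Ty a b c g⁻¹ := ⟨σ.cm_inv h1.1, σ.an_inv h1.2.1, σ.an_inv h1.2.2⟩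
theorem Ty.ca (h : σ.Ty a b c g) : g * a = a * g := σ.cm_comm h.1
theorem Ty.cb (h : σ.Ty a b c g) : g * b = b * g := σ.an_comm h.2.1
theorem Ty.cc (h : σ.Ty a b c g) : g * c = c * g := σ.an_comm h.2.2
theorem T0.ca (h : σ.T0 a b c g) : g * a = a * g := σ.cm_comm h.1
theorem T0.cb (h : σ.T0 a b c g) : g * b = b * g := σ.cm_comm h.2.1
theorem T0.cc (h : σ.T0 a b c g) : g * c = c * g := σ.cm_comm h.2.2
theorem T0.not (h : σ.T0 a b c g) (h' : σ.Ty a b c g) : False := σ.excl h.2.1 h'.2.1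
theorem Ty.not (h : σ.Ty a b c g) (h' : σ.Ty b a c g) : False := σ.excl h.1 h'.2.1

theorem Fg.cases (F : σ.Fg a b c) (h1 : g * a = a * g) (h2 : g * b = b * g) :
    σ.T0 a b c g ∨ σ.Ty a b c g ∨ σ.Ty b a c g ∨ σ.Ty c a b g := by
  rcases σ.tri F.ia.2 h1 with x | x <;> rcases σ.tri F.ib.2 h2 with y | y
  · exact .inl ⟨x, y, F.e ▸ σ.cm_symm (σ.cc (σ.cm_symm x) (σ.cm_symm y))⟩
  · exact .inr (.inl ⟨x, y, F.e ▸ σ.an_symm (σ.ca (σ.cm_symm x) (σ.an_symm y))⟩)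
  · exact .inr (.inr (.inl ⟨y, x, F.e ▸ σ.an_symm (σ.ac (σ.an_symm x) (σ.cm_symm y))⟩))
  · exact .inr (.inr (.inr ⟨F.e ▸ σ.cm_symm (σ.aa (σ.an_symm x) (σ.an_symm y)), x, y⟩))

theorem Fg.mem (F : σ.Fg a b c) (h : σ.T0 a b c g) (h2 : g * g = 1) : g = 1 ∨ g = a ∨ g = b ∨ g = c :=
  F.e ▸ σ.inv F.ia F.ib F.ne F.cm h2 h.1 h.2.1

theorem Fg.ab (F : σ.Fg a b c) (h1 : σ.T0 a b c g) (h2 : σ.T0 a b c h) : g * h = h * g :=
  σ.cm_comm (σ.ab F.ia F.ib F.ne F.cm h1.1 h1.2.1 h2.1 h2.2.1)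

theorem Fg.sq_of (F : σ.Fg a b c) (h : g = 1 ∨ g = a ∨ g = b ∨ g = c) : g * g = 1 := by
  rcases h with rfl | rfl | rfl | rfl
  exacts [mul_one _, F.ia.2, F.ib.2, F.ic.2]

theorem Fg.t0_of (F : σ.Fg a b c) (h : g = 1 ∨ g = a ∨ g = b ∨ g = c) : σ.T0 a b c g := by
  rcases h with rfl | rfl | rfl | rfl
  exacts [t0_one, F.ta, F.tb, F.tc]

theorem eq_one_of {k n : ℕ} (h1 : g ^ 2 ^ k = 1) (h2 : g ^ n = 1) (hn : Odd n) : g = 1 := by
  have := pow_gcd_eq_one.2 ⟨h1, h2⟩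
  rwa [(Nat.Coprime.pow_left k (Nat.coprime_two_left.2 hn)), pow_one] at this

theorem Fg.rot (F : σ.Fg a b c) (hS : IsPGroup 2 S) (m : g ∈ S) (h : σ.T0 a b c g) (hw : σ.Ty a b c w) (e : σ.cm g w) :
    g = 1 ∨ g = a := by
  obtain ⟨k, hk⟩ := two_pow_of_mem hS m
  rcases σ.rot F.ia F.ib F.ne F.cm h.1 h.2.1 e hw.1 hw.2.1 with x | x | x
  · rcases F.mem h (by rwa [← pow_two]) with y | y | rfl | rfl
    exacts [.inl y, .inr y, (σ.excl (σ.cm_symm e) hw.2.1).elim, (σ.excl (σ.cm_symm e) hw.2.2).elim]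
  · exact .inl (eq_one_of hk x (by decide))
  · exact .inl (eq_one_of hk x (by decide))

theorem Fg.sq (F : σ.Fg a b c) (hS : IsPGroup 2 S) (m : w ∈ S) (hw : σ.Ty a b c w) : w * w = 1 ∨ w * w = a :=
  F.rot hS (mul_mem m m) (hw.mul hw) hw (σ.cc (σ.cm_self w) (σ.cm_self w))

theorem Fg.rho (F : σ.Fg a b c) (hS : IsPGroup 2 S) (m : w ∈ S) (m' : r ∈ S) (hw : σ.Ty a b c w) (hr : σ.T0 a b c r) :
    w⁻¹ * r * w * r = 1 ∨ w⁻¹ * r * w * r = a := by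
  rw [show w⁻¹ * r * w * r = (w * w)⁻¹ * (w * r * (w * r)) by group]
  rcases F.sq hS m hw with x | x <;> rcases F.sq hS (mul_mem m m') (hw.mul0 hr) with y | y <;> simp [x, y, F.ia.inv_eq, F.ia.2]

theorem Fg.y3 (F : σ.Fg a b c) (hS : IsPGroup 2 S) (mb : b ∈ S) (m' : r ∈ S) (hw : σ.Ty a b c w) (hr : σ.T0 a b c r)
    (e1 : w⁻¹ * r * w * r = a) (e2 : r * r = a) : False := by
  have e3 : r * w = w * r := by
    rw [← e2, mul_left_inj, mul_assoc, inv_mul_eq_iff_eq_mul] at e1; exact e1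
  refine F.ia.1 (e2.symm.trans (F.sq_of ?_))
  rcases σ.tri2 (e2 ▸ σ.cm_symm hw.1) e3 with x | x
  · exact (F.rot hS m' hr hw x).imp_right .inl
  · rcases F.rot hS (mul_mem m' mb) (hr.mul F.tb) hw (σ.aa x (σ.an_symm hw.2.1)) with y | y
    · exact .inr (.inr (.inl (by rw [eq_inv_of_mul_eq_one_left y, F.ib.inv_eq])))
    · exact .inr (.inr (.inr (by rw [eq_mul_inv_of_mul_eq y, F.ib.inv_eq, F.e])))

theorem rho3 {x y : G} (h1 : w⁻¹ * r * w * r = x) (h2 : w'⁻¹ * r * w' * r = y) (c1 : w' * x = x * w') (c2 : r * y = y * r)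
    (c3 : y * y = 1) : (w * w')⁻¹ * r * (w * w') * r = x * y * (r * r) := by
  calc _ = w'⁻¹ * (w⁻¹ * r * w * r) * w' * (w'⁻¹ * r * w' * r * r⁻¹)⁻¹ * r := by group
    _ = w'⁻¹ * (x * w') * (r * y⁻¹) * r := by rw [h1, h2]; group
    _ = _ := by rw [← c1, inv_eq_of_mul_eq_one_right c3, c2]; group

theorem sq_mul (w r : G) : w * r * (w * r) = w * w * (w⁻¹ * r * w * r) := by group

/-- there is an involution of the given type -/
def II (σ : GS G) (S : Subgroup G) (a b c : G) : Prop := ∃ t ∈ S, t * t = 1 ∧ σ.Ty a b c t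

theorem II.s (h : σ.II S a b c) : σ.II S a c b := h.imp fun _ h => ⟨h.1, h.2.1, h.2.2.s⟩

theorem Fg.rho1 (F : σ.Fg a b c) (hS : IsPGroup 2 S) (m : w ∈ S) (m' : r ∈ S) (hw : σ.Ty a b c w) (hr : σ.T0 a b c r)
    (hI : ¬ σ.II S a b c) : w⁻¹ * r * w * r = 1 := by
  refine (F.rho hS m m' hw hr).resolve_right fun e => hI ?_
  rcases F.sq hS m hw with x | x
  · exact ⟨w, m, x, hw⟩
  · exact ⟨_, mul_mem m m', by rw [sq_mul, x, e, F.ia.2], hw.mul0 hr⟩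

theorem Fg.rr (F : σ.Fg a b c) (hS : IsPGroup 2 S) (mb : b ∈ S) (m : w ∈ S) (m' : r ∈ S) (hw : σ.Ty a b c w)
    (hw' : σ.Ty b a c w') (hr : σ.T0 a b c r) (h1 : w'⁻¹ * r * w' * r = 1) (h2 : (w * w')⁻¹ * r * (w * w') * r = 1) :
    r = 1 ∨ r = a ∨ r = b ∨ r = c := by
  rcases F.rho hS m m' hw hr with x | x
  · have := rho3 x h1 (by simp) (by simp) (by simp)
    rw [h2] at this
    exact F.mem hr (by simpa using this.symm)
  · have := rho3 x h1 hw'.cb (by simp) (by simp)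
    rw [h2, mul_one, eq_comm, mul_eq_one_iff_inv_eq, F.ia.inv_eq] at this
    exact (F.y3 hS mb m' hw hr x this.symm).elim

theorem Fg.re (F : σ.Fg a b c) (hS : IsPGroup 2 S) (mb : b ∈ S) (m : w ∈ S) (m1 : w' ∈ S) (hw : σ.Ty a b c w)
    (hw' : σ.Ty b a c w') (h1 : ¬ σ.II S b a c) (h2 : ¬ σ.II S c a b) (m' : r ∈ S) (hr : σ.T0 a b c r) :
    r = 1 ∨ r = a ∨ r = b ∨ r = c :=
  F.rr hS mb m m' hw hw' hr (F.s12.rho1 hS m1 m' hw' hr.s12 h1)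
    (F.s13.s23.rho1 hS (mul_mem m m1) m' (hw.mul' hw') hr.s13.s23 h2)

theorem Fg.no16 [Finite G] (F : σ.Fg a b c) (hN : N16 G) (hw : σ.Ty a b c w) (hw' : σ.Ty b a c w') (h1 : w * w = 1)
    (h2 : w' * w' = 1) (h3 : w * w' * (w * w') = 1) : False := by
  have h4 : w' * w = w * w' := by
    rw [← inv_eq_of_mul_eq_one_right h3, _root_.mul_inv_rev, inv_eq_of_mul_eq_one_right h1, inv_eq_of_mul_eq_one_right h2]
  obtain ⟨A, a1, a2, a3⟩ := el_ext (X := ⊥) (by simp) F.ia.2 (by simp) (by simpa using F.ia.1)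
  simp only [mem_bot, exists_eq_left, mul_one] at a3
  obtain ⟨B, b1, b2, b3⟩ := el_ext a1 F.ib.2 (fun x hx => by
    rcases (a3 x).1 hx with rfl | rfl
    exacts [by simp, F.comm.symm]) (by simp [a3, F.ib.1, F.ne.symm])
  have b4 : ∀ x ∈ B, σ.T0 a b c x := fun x hx => by
    have k : ∀ x ∈ A, σ.T0 a b c x := fun x hx => F.t0_of (((a3 x).1 hx).imp_right .inl)
    rcases (b3 x).1 hx with y | ⟨y, hy, rfl⟩
    exacts [k x y, F.tb.mul (k y hy)]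
  have b5 : ∀ u, u * a = a * u → u * b = b * u → ∀ x ∈ B, u * x = x * u := fun u p q x hx => by
    have k : ∀ x ∈ A, Commute u x := fun x hx => by
      rcases (a3 x).1 hx with rfl | rfl
      exacts [Commute.one_right _, p]
    rcases (b3 x).1 hx with y | ⟨y, hy, rfl⟩
    exacts [k x y, Commute.mul_right q (k y hy)]
  obtain ⟨C, c1, c2, c3⟩ := el_ext b1 h1 (b5 w hw.ca hw.cb) fun e => (b4 _ e).not hw
  obtain ⟨D, d1, d2, -⟩ := el_ext c1 h2 (fun x hx => by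
    rcases (c3 x).1 hx with y | ⟨y, hy, rfl⟩
    exacts [b5 w' hw'.cb hw'.ca x y, Commute.mul_right h4 (b5 w' hw'.cb hw'.ca y hy)]) fun e => by
    rcases (c3 _).1 e with y | ⟨y, hy, rfl⟩
    exacts [(b4 _ y).s12.not hw', (hw.mul0 (b4 y hy)).not hw']
  exact hN D d1 (by simp [d2, c2, b2, a2])

theorem Fg.all3 [Finite G] (F : σ.Fg a b c) (hN : N16 G) (hS : IsPGroup 2 S) (h1 : σ.II S a b c) (h2 : σ.II S b a c)
    (h3 : σ.II S c a b) : False := by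
  obtain ⟨w, m1, s1, t1⟩ := h1
  obtain ⟨w', m2, s2, t2⟩ := h2
  obtain ⟨u, m3, s3, t3⟩ := h3
  have t4 := t1.mul' t2
  rcases F.s13.s23.sq hS (mul_mem m1 m2) t4 with x | x
  · exact F.no16 hN t1 t2 s1 s2 x
  obtain ⟨r, rfl⟩ : ∃ r, u = w * w' * r := ⟨(w * w')⁻¹ * u, by group⟩
  have mr : r ∈ S := (mul_mem_cancel_left (mul_mem m1 m2)).1 m3
  have tr : σ.T0 a b c r := by have := (t4.inv.mul t3).s12.s23; rwa [inv_mul_cancel_left] at this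
  have e3 : (w * w')⁻¹ * r * (w * w') * r = c := by
    rw [sq_mul, x, mul_eq_one_iff_inv_eq, F.ic.inv_eq] at s3; exact s3.symm
  rcases F.s12.rho hS m2 mr t2 tr.s12 with y | y
  · exact F.no16 hN t1 (t2.mul0 tr.s12) s1 (by rw [sq_mul, s2, y, mul_one]) (by rw [← mul_assoc w w' r, s3])
  rcases F.rho hS m1 mr t1 tr with z | z
  · refine F.s12.no16 hN t2 (t1.mul0 tr) s2 (by rw [sq_mul, s1, z, mul_one]) ?_
    have e5 : w' * w = w * w' * c := by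
      rw [← inv_eq_of_mul_eq_one_right (show w * w' * (w * w' * c) = 1 by rw [← mul_assoc, x, F.ic.2]),
        _root_.mul_inv_rev, inv_eq_of_mul_eq_one_right s1, inv_eq_of_mul_eq_one_right s2]
    rw [← mul_assoc w' w r, e5, mul_assoc _ c, ← tr.cc, ← mul_assoc _ r, (show Commute c _ from t3.ca.symm).mul_mul_mul_comm, s3,
      F.ic.2, mul_one]
  · have := rho3 z y t2.cb tr.cb F.ib.2
    rw [e3, F.e, left_eq_mul] at this
    have e := F.mem tr this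
    rw [mul_assoc w⁻¹ r, (show r * w = w * r by
      rcases e with rfl | rfl | rfl | rfl
      exacts [by simp, t1.ca.symm, t1.cb.symm, t1.cc.symm]), inv_mul_cancel_left, this] at z
    exact F.ia.1 z.symm

end GS
end Cfsg.Agent.H7.Lw
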