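import Cfsg.Agent.H7.LwD

set_option autoImplicit false

/-! The case where every central involution of a Sylow 2-subgroup has a swapper. -/

namespace Cfsg.Agent.H7.Lw
open Subgroup Cfsg.Agent.MH

variable {G : Type*} [Group G]

theorem conj_sq {t : G} (h : t * t = 1) (g : G) : g * t * g⁻¹ * (g * t * g⁻¹) = 1 := by rw [conj_mul, h]; simp

theorem Inv.of_isConj {a t : G} (h : Inv a) (e : IsConj a t) : Inv t := by
  obtain ⟨g, rfl⟩ := isConj_iff.1 e; exact h.conj g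

theorem isConj_mk (g a : G) : IsConj a (g * a * g⁻¹) := isConj_iff.2 ⟨g, rfl⟩

theorem mem_zp4 [Finite G] {d x : G} (h : d ^ 4 = 1) (hx : x ∈ zpowers d) : x = 1 ∨ x = d ∨ x = d * d ∨ x = d * (d * d) := by
  obtain ⟨n, rfl⟩ := mem_powers_iff_mem_zpowers.2 hx
  change d ^ n = _ ∨ d ^ n = _ ∨ d ^ n = _ ∨ d ^ n = _
  rw [pow_eq_pow_mod n h]
  have : n % 4 < 4 := Nat.mod_lt _ (by norm_num)
  generalize n % 4 = k at this
  interval_cases k <;> simp [pow_succ, mul_assoc]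

theorem conj2 (u x b : G) : u * x * b * (u * x)⁻¹ = u * (x * b * x⁻¹) * u⁻¹ := by group

theorem conj_mem_zp {a d : G} (h : a * d * a⁻¹ ∈ zpowers d) : ∀ x ∈ zpowers d, a * x * a⁻¹ ∈ zpowers d := by
  rintro _ ⟨n, rfl⟩
  rw [← conj_zpow]; exact zpow_mem h n

/-- the Sylow subgroup is `C₄ × C₄` -/
def HC (σ : GS G) (S : Subgroup G) : Prop := ∃ x y : G, x * y = y * x ∧ σ.an (x * x) y ∧ x ^ 4 = 1 ∧ y ^ 4 = 1 ∧
  Nat.card S = 16 ∧ ∀ g, g ∈ S ↔ ∃ i j : ℕ, g = x ^ i * y ^ j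

namespace GS
variable {σ : GS G} {a b c g h r w w' : G} [Finite G] [IsSimpleGroup G] (hp : commutator G = ⊤) {S : Sylow 2 G}
include hp

theorem rad (ia : Inv a) (ha : ∀ s ∈ S, a * s = s * a) (h1 : ∀ u ∈ S, u * u = 1 → ¬ σ.an u a)
    (h2 : ∀ t ∈ S, Inv t → t ≠ a → ∃ u ∈ S, u * u = 1 ∧ σ.an u t) : False := by
  obtain ⟨t, m, ne, e⟩ := zs hp S ia ha
  obtain ⟨g, e1, e2⟩ := extremal S ha e
  obtain ⟨u, mu, u2, hu⟩ := h2 t m (Inv.of_isConj ia e) ne
  exact h1 _ (e2 u mu (σ.an_comm hu).symm) (conj_sq u2 g) (e1 ▸ σ.an_conj g hu)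

theorem Fg.one (F : σ.Fg a b c) (mb : b ∈ S) (ha : ∀ s ∈ S, a * s = s * a) (hb : ∀ s ∈ S, b * s = s * b)
    (h1 : σ.II S a b c) (h2 : ¬ σ.II S b a c) (h3 : ¬ σ.II S c a b) : False := by
  obtain ⟨w, m, s, t⟩ := h1
  refine rad (σ := σ) hp F.ia ha (fun u mu u2 hu => ?_) fun u mu iu ne => ?_
  · rcases F.cases (ha u mu).symm (hb u mu).symm with x | x | x | x
    exacts [σ.excl x.1 hu, σ.excl x.1 hu, h2 ⟨u, mu, u2, x⟩, h3 ⟨u, mu, u2, x⟩]
  · rcases F.cases (ha u mu).symm (hb u mu).symm with x | x | x | x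
    · rcases F.mem x iu.2 with y | y | rfl | rfl
      exacts [(iu.1 y).elim, (ne y).elim, ⟨w, m, s, t.2.1⟩, ⟨w, m, s, t.2.2⟩]
    exacts [⟨b, mb, F.ib.2, σ.an_symm x.2.1⟩, (h2 ⟨u, mu, iu.2, x⟩).elim, (h3 ⟨u, mu, iu.2, x⟩).elim]

omit hp [IsSimpleGroup G] in
theorem Fg.nc (F : σ.Fg a b c) (ha : ∀ s ∈ S, a * s = s * a) (hb : ∀ s ∈ S, b * s = s * b)
    (h1 : σ.II S a b c) (h2 : σ.II S b a c) (h3 : ¬ σ.II S c a b) : ¬ IsConj a c := fun e => by
  have hc : ∀ s ∈ S, c * s = s * c := fun s hs => F.e ▸ Commute.mul_left (ha s hs) (hb s hs)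
  obtain ⟨w, m, s, t⟩ := h1
  obtain ⟨w', m', s', t'⟩ := h2
  obtain ⟨n, hn, e⟩ := burn S ha hc e
  have mu := Nm_conj hn m
  have cu : σ.cm (n * w * n⁻¹) c := e ▸ σ.cm_conj n t.1
  have key : ∀ s ∈ S, n * w * n⁻¹ * s = s * (n * w * n⁻¹) := fun s1 hs => by
    rcases F.cases (ha _ mu).symm (hb _ mu).symm with x | x | x | x
    · rcases F.mem x (conj_sq s n) with y | y | y | y <;> rw [y]
      exacts [by simp, ha _ hs, hb _ hs, hc _ hs]
    exacts [(σ.excl cu x.2.2).elim, (σ.excl cu x.2.2).elim, (h3 ⟨_, mu, conj_sq s n, x⟩).elim]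
  have := key _ (Nm_conj hn m')
  rw [conj_mul, conj_mul, mul_left_inj, mul_right_inj] at this
  exact h3 ⟨_, mul_mem m m', by rw [(show Commute w' w from this.symm).mul_mul_mul_comm, s, s', mul_one], t.mul' t'⟩

theorem Fg.two (F : σ.Fg a b c) (ma : a ∈ S) (mb : b ∈ S) (ha : ∀ s ∈ S, a * s = s * a) (hb : ∀ s ∈ S, b * s = s * b)
    (h1 : σ.II S a b c) (h2 : σ.II S b a c) (h3 : ¬ σ.II S c a b) : False := by
  have n1 := F.nc ha hb h1 h2 h3
  have n2 := F.s12.nc hb ha h2 h1 fun e => h3 e.s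
  have k0 : ∀ u ∈ S, ∀ v ∈ S, u * u = 1 → v * v = 1 → σ.Ty a b c u → σ.Ty b a c v → u * v ≠ v * u := fun u mu v mv s s' t t' e =>
    h3 ⟨_, mul_mem mu mv, by rw [(show Commute v u from e.symm).mul_mul_mul_comm, s, s', mul_one], t.mul' t'⟩
  have cs := fun u mu => F.cases (ha u mu).symm (hb u mu).symm
  obtain ⟨w, m, s, t⟩ := h1
  have n3 : ¬ IsConj a b := fun e => by
    obtain ⟨n, hn, e⟩ := burn S ha hb e
    have mu := Nm_conj hn mb
    have cu : σ.cm (n * b * n⁻¹) b := by have := σ.cm_conj n F.s12.cm; rwa [e] at this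
    rcases cs _ mu with x | x | x | x
    · rcases F.mem x (conj_sq F.ib.2 n) with y | y | y | y
      · exact F.ib.1 (conj_eq_one_iff.1 y)
      · exact F.ne (no_swap S hn ha e y)
      · exact F.ne (by simpa using e.trans y.symm)
      · exact n2 (y ▸ isConj_mk n b)
    · exact σ.excl cu x.2.1
    · refine k0 w m _ mu s (conj_sq F.ib.2 n) t x ?_
      have := congrArg (fun z => n * z * n⁻¹) (hb _ (Nm_conj' hn m))
      simpa [mul_assoc] using this.symm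
    · exact σ.excl cu x.2.2
  have k1 : ∀ u ∈ S, u ≠ a → IsConj a u → ¬ σ.T0 a b c u := fun u mu ne e x => by
    rcases F.mem x (Inv.of_isConj F.ia e).2 with y | y | rfl | rfl
    exacts [(Inv.of_isConj F.ia e).1 y, ne y, n3 e, n1 e]
  have k2 : ∀ u ∈ S, u ≠ a → IsConj a u → σ.Ty b a c u ∧ IsConj (u * b) c := fun u mu ne e => by
    obtain ⟨g, e1, e2⟩ := extremal S ha e
    have m1 := e2 a ma (ha u mu).symm
    have m2 := e2 b mb (hb u mu).symm
    have s1 := conj_sq F.ia.2 g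
    have s2 := conj_sq F.ib.2 g
    have c1 : g * a * g⁻¹ * (g * b * g⁻¹) = g * b * g⁻¹ * (g * a * g⁻¹) := by rw [conj_mul, conj_mul, F.comm]
    have ty : ∀ v ∈ S, v * v = 1 → σ.an v a → σ.Ty b a c v := fun v mv s x => by
      rcases cs v mv with y | y | y | y
      exacts [(σ.excl y.1 x).elim, (σ.excl y.1 x).elim, y, (h3 ⟨v, mv, s, y⟩).elim]
    have ty' : ∀ v ∈ S, σ.cm v a → σ.T0 a b c v ∨ σ.Ty a b c v := fun v mv x => by
      rcases cs v mv with y | y | y | y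
      exacts [.inl y, .inr y, (σ.excl x y.2.1).elim, (σ.excl x y.2.1).elim]
    rcases cs u mu with x | x | x | x
    · exact (k1 u mu ne e x).elim
    · have y := (ty' _ m1 (by have := σ.cm_conj g (σ.cm_symm x.1); rwa [e1] at this)).resolve_left
        (k1 _ m1 (fun e' => ne (by simpa using e1.trans e'.symm)) (isConj_mk g a))
      exact (k0 _ m1 _ m2 s1 s2 y (ty _ m2 s2 (by have := σ.an_conj g (σ.an_symm x.2.1); rwa [e1] at this)) c1).elim
    · refine ⟨x, ?_⟩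
      rcases ty' _ m2 (by have := σ.cm_conj g (σ.cm_symm x.1); rwa [e1] at this) with y | y
      · rcases F.mem y s2 with z | z | z | z
        · exact (F.ib.1 (conj_eq_one_iff.1 z)).elim
        · exact (n3 (z ▸ isConj_mk g b).symm).elim
        · exact isConj_iff.2 ⟨g, by rw [← conj_mul, e1, z, F.e]⟩
        · exact (n2 (z ▸ isConj_mk g b)).elim
      · exact (k0 _ m2 _ m1 s2 s1 y (ty _ m1 s1 (by have := σ.an_conj g (σ.an_symm x.2.1); rwa [e1] at this)) c1.symm).elim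
    · exact (h3 ⟨u, mu, (Inv.of_isConj F.ia e).2, x⟩).elim
  obtain ⟨u, mu, ne, e⟩ := zs hp S F.ia ha
  obtain ⟨tu, e1⟩ := k2 u mu ne e
  have su := (Inv.of_isConj F.ia e).2
  have t3 := t.mul' tu
  have x : w * u * (w * u) = c := (F.s13.s23.sq S.2 (mul_mem m mu) t3).resolve_left fun e => h3 ⟨_, mul_mem m mu, e, t3⟩
  have wi := inv_eq_of_mul_eq_one_right s
  have ui := inv_eq_of_mul_eq_one_right su
  have e0 : w * u * w⁻¹ = u * c := by
    rw [wi, tu.cc, ← x, mul_assoc (w * u) (w * u) u, mul_assoc w u u, su, mul_one]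
  have e2 : IsConj (u * a) c := IsConj.trans (isConj_iff.2 ⟨w, by
    rw [← conj_mul, e0, t.ca, mul_inv_cancel_right, mul_assoc, F.s13.s23.e]⟩) e1
  have re : ∀ r ∈ S, σ.T0 a b c r → r = 1 ∨ r = a ∨ r = b ∨ r = c := fun r mr tr => by
    have r3 := F.s13.s23.rho1 S.2 (mul_mem m mu) mr t3 tr.s13.s23 h3
    rcases F.s12.rho S.2 mu mr tu tr.s12 with y | y
    · exact F.rr S.2 mb m mr t tu tr y r3
    rcases F.rho S.2 m mr t tr with z | z
    · have := rho3 z y (by simp) tr.cb F.ib.2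
      rw [r3, one_mul, eq_comm, mul_eq_one_iff_inv_eq, F.ib.inv_eq] at this
      exact (F.s12.y3 S.2 ma mr tu tr.s12 y this.symm).elim
    · have := rho3 z y tu.cb tr.cb F.ib.2
      rw [r3, F.e, eq_comm, mul_eq_one_iff_inv_eq, F.ic.inv_eq] at this
      refine (n1 (e.trans (IsConj.trans (isConj_iff.2 ⟨r⁻¹, ?_⟩) e2))).elim
      calc _ = (r * r)⁻¹ * u * (u⁻¹ * r * u * r) := by group
        _ = _ := by rw [← this, y, F.ic.inv_eq, ← tu.cc, mul_assoc, F.s13.e]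
  obtain ⟨d, hd⟩ : ∃ d, d = w * u * a := ⟨_, rfl⟩
  have td : σ.Ty c a b d := hd ▸ t3.mul0 F.ta.s13.s23
  have md : d ∈ S := hd ▸ mul_mem (mul_mem m mu) ma
  have d2 : d * d = c := by rw [hd, (show Commute a _ from t3.cb.symm).mul_mul_mul_comm, x, F.ia.2, mul_one]
  have d4 : d ^ 4 = 1 := by rw [show 4 = 2 * 2 by rfl, pow_mul, pow_two, pow_two, d2, F.ic.2]
  have wd : w * d = u * a := by rw [hd, ← mul_assoc, ← mul_assoc, s, one_mul]
  have st1 : ∀ g ∈ S, σ.T0 a b c g → g ∈ zpowers d ∨ a * g ∈ zpowers d := fun g mg tg => by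
    have k : c ∈ zpowers d := d2 ▸ mul_mem (mem_zpowers d) (mem_zpowers d)
    rcases re g mg tg with y | y | y | y <;> rw [y]
    exacts [.inl (one_mem _), .inr (F.ia.2 ▸ one_mem _), .inr (F.e ▸ k), .inl k]
  have st2 : ∀ g ∈ S, σ.Ty c a b g → g ∈ zpowers d ∨ a * g ∈ zpowers d := fun g mg tg => by
    rcases st1 _ (mul_mem (inv_mem md) mg) (td.inv.mul tg).s12.s23 with y | y
    · exact .inl (by simpa using mul_mem (mem_zpowers d) y)
    · exact .inr (by simpa [← mul_assoc, td.cb] using mul_mem (mem_zpowers d) y)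
  obtain ⟨g, hg⟩ := th2 hp S (M := ext2 (zpowers d) w (s ▸ one_mem _) (conj_mem_zp (by
      rw [wd, eq_inv_of_mul_eq_one_left (show u * a * w⁻¹ * d = 1 by
        rw [wi, mul_assoc, wd, (show Commute a u from tu.cb.symm).mul_mul_mul_comm, su, F.ia.2, mul_one])]
      exact inv_mem (mem_zpowers d)))) (a := a) (fun g mg => by
    have k : w * (a * g) = a * (w * g) := by rw [← mul_assoc, t.ca, mul_assoc]
    simp only [mem_ext2, k]
    rcases cs g mg with y | y | y | y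
    · exact (st1 g mg y).imp .inl .inl
    · exact (st1 _ (mul_mem m mg) (t.mul y)).imp .inr .inr
    · exact (st2 _ (mul_mem m mg) (t.mul' y)).imp .inr .inr
    · exact (st2 g mg y).imp .inl .inl) F.ia.2
  have ig := F.ia.conj g
  have cg := isConj_mk g a
  generalize g * a * g⁻¹ = v at hg ig cg
  have k3 : v ∈ S → ¬ σ.Ty a b c v := fun mv y => by
    by_cases e : v = a
    exacts [F.ta.not (e ▸ y), y.not (k2 v mv e cg).1]
  rcases hg with y | y <;> rcases mem_zp4 d4 y with z | z | z | z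
  · exact ig.1 z
  · exact F.ic.1 (by rw [← d2, ← z, ig.2])
  · exact n1 (d2 ▸ z ▸ cg)
  · exact F.ic.1 (by rw [← ig.2, z, d2, (show Commute c d from td.ca.symm).mul_mul_mul_comm, d2, F.ic.2, mul_one])
  · rw [eq_inv_of_mul_eq_one_right z, wi] at k3; exact k3 m t
  · rw [eq_inv_mul_of_mul_eq z, wi, wd] at cg; exact n1 (cg.trans e2)
  · rw [eq_inv_mul_of_mul_eq z, wi, d2] at k3; exact k3 (mul_mem m (F.e ▸ mul_mem ma mb)) (t.mul0 F.tc)
  · rw [eq_inv_mul_of_mul_eq z, wi, d2, ← mul_assoc, wd, mul_assoc, F.s23.e] at cg; exact n1 (cg.trans e1)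

omit hp [IsSimpleGroup G] in
theorem Fg.zero (F : σ.Fg a b c) (ma : a ∈ S) (mb : b ∈ S) (ha : ∀ s ∈ S, a * s = s * a) (hb : ∀ s ∈ S, b * s = s * b)
    (m : w ∈ S) (m' : w' ∈ S) (t : σ.Ty a b c w) (t' : σ.Ty b a c w')
    (h1 : ¬ σ.II S a b c) (h2 : ¬ σ.II S b a c) (h3 : ¬ σ.II S c a b) : HC σ S := by
  have x1 := (F.sq S.2 m t).resolve_left fun e => h1 ⟨w, m, e, t⟩
  have x2 := (F.s12.sq S.2 m' t').resolve_left fun e => h2 ⟨w', m', e, t'⟩
  have x3 := (F.s13.s23.sq S.2 (mul_mem m m') (t.mul' t')).resolve_left fun e => h3 ⟨_, mul_mem m m', e, t.mul' t'⟩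
  have cw : w * w' = w' * w := by
    rw [← F.e, ← x1, ← x2, mul_assoc, mul_assoc, mul_right_inj, ← mul_assoc, ← mul_assoc, mul_left_inj] at x3
    exact x3.symm
  have w4 : w ^ 4 = 1 := by rw [show 4 = 2 * 2 by rfl, pow_mul, pow_two, pow_two, x1, F.ia.2]
  have w4' : w' ^ 4 = 1 := by rw [show 4 = 2 * 2 by rfl, pow_mul, pow_two, pow_two, x2, F.ib.2]
  have re := fun r mr tr => F.re (r := r) S.2 mb m m' t t' h2 h3 mr tr
  obtain ⟨A, a1, a2, a3⟩ := el_ext (X := ⊥) (by simp) F.ia.2 (by simp) (by simpa using F.ia.1)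
  simp only [mem_bot, exists_eq_left, mul_one] at a3
  obtain ⟨B, b1, b2, b3⟩ := el_ext a1 F.ib.2 (fun x hx => by
    rcases (a3 x).1 hx with rfl | rfl
    exacts [by simp, F.comm.symm]) (by simp [a3, F.ib.1, F.ne.symm])
  have b4 : ∀ g, g ∈ B ↔ g = 1 ∨ g = a ∨ g = b ∨ g = c := fun g => by
    simp only [b3, a3, exists_eq_or_imp, exists_eq_left, mul_one, F.s12.e, or_assoc]
  have b5 : ∀ u ∈ S, ∀ x ∈ B, u * x * u⁻¹ = x := fun u mu x hx => by
    rcases (b4 x).1 hx with y | y | y | y <;> rw [y]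
    exacts [by simp, by rw [← ha u mu]; group, by rw [← hb u mu]; group,
      by rw [← F.e, ← conj_mul, ← ha u mu, ← hb u mu]; group]
  have p1 : w * w ∈ B := by simp [x1, b4]
  have p2 : ∀ x ∈ B, w * x * w⁻¹ ∈ B := fun x hx => by rwa [b5 w m x hx]
  have p3 : w' * w' ∈ ext2 B w p1 p2 := .inl (by simp [x2, b4])
  have p4 : ∀ x ∈ ext2 B w p1 p2, w' * x * w'⁻¹ ∈ ext2 B w p1 p2 := by
    rintro x (hx | hx)
    · exact .inl (by rwa [b5 w' m' x hx])
    · exact .inr (by rwa [← mul_assoc, ← mul_assoc, cw, mul_assoc w' w, b5 w' m' _ hx])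
  have hS : (S : Subgroup G) = ext2 _ w' p3 p4 := by
    have k : ∀ g ∈ B, g ∈ S := fun g hg => by
      rcases (b4 g).1 hg with y | y | y | y <;> rw [y]
      exacts [one_mem _, ma, mb, F.e ▸ mul_mem ma mb]
    ext g
    constructor
    · intro mg
      rcases F.cases (ha g mg).symm (hb g mg).symm with y | y | y | y
      · exact .inl (.inl ((b4 g).2 (re g mg y)))
      · exact .inl (.inr ((b4 _).2 (re _ (mul_mem m mg) (t.mul y))))
      · exact .inr (.inl ((b4 _).2 (re _ (mul_mem m' mg) (t'.mul y).s12)))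
      · exact .inr (.inr ((b4 _).2 (re _ (mul_mem m (mul_mem m' mg)) (t.mul (t'.s.mul' y.s)))))
    · rintro ((y | y) | (y | y))
      exacts [k g y, (mul_mem_cancel_left m).1 (k _ y), (mul_mem_cancel_left m').1 (k _ y),
        (mul_mem_cancel_left m').1 ((mul_mem_cancel_left m).1 (k _ y))]
  refine ⟨w, w', cw, x1 ▸ σ.an_symm t'.2.1, w4, w4', ?_, fun g => ⟨fun mg => ?_, ?_⟩⟩
  · rw [hS, card_ext2, card_ext2 _ _ fun e => (F.t0_of ((b4 _).1 e)).not t, b2, a2]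
    · simp
    · rintro (e | e)
      exacts [(F.t0_of ((b4 _).1 e)).s12.not t', (F.t0_of ((b4 _).1 e)).s13.s23.not (t.mul' t')]
  · have k : ∀ g ∈ B, ∃ i j : ℕ, g = w ^ i * w' ^ j := fun g hg => by
      rcases (b4 g).1 hg with y | y | y | y <;> rw [y]
      exacts [⟨0, 0, by simp⟩, ⟨2, 0, by simp [pow_two, x1]⟩, ⟨0, 2, by simp [pow_two, x2]⟩,
        ⟨2, 2, by simp [pow_two, x1, x2, F.e]⟩]
    have k1 : ∀ g, (∃ i j : ℕ, w * g = w ^ i * w' ^ j) → ∃ i j : ℕ, g = w ^ i * w' ^ j := fun g ⟨i, j, e⟩ =>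
      ⟨3 + i, j, by rw [pow_add, mul_assoc, ← e, ← mul_assoc, ← pow_succ, w4, one_mul]⟩
    have k2 : ∀ g, (∃ i j : ℕ, w' * g = w ^ i * w' ^ j) → ∃ i j : ℕ, g = w ^ i * w' ^ j := fun g ⟨i, j, e⟩ =>
      ⟨i, 3 + j, by
        rw [pow_add, ← mul_assoc, ((show Commute w w' from cw).pow_pow i 3).eq, mul_assoc, ← e, ← mul_assoc, ← pow_succ,
          w4', one_mul]⟩
    rw [hS] at mg
    rcases mg with (y | y) | (y | y)
    exacts [k g y, k1 g (k _ y), k2 g (k _ y), k2 g (k1 _ (k _ y))]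
  · rintro ⟨i, j, rfl⟩
    exact mul_mem (pow_mem m i) (pow_mem m' j)

theorem Fg.cent (F : σ.Fg a b c) (hN : N16 G) (ma : a ∈ S) (mb : b ∈ S) (ha : ∀ s ∈ S, a * s = s * a)
    (hb : ∀ s ∈ S, b * s = s * b) (m : w ∈ S) (m' : w' ∈ S) (t : σ.Ty a b c w) (t' : σ.Ty b a c w') : HC σ S := by
  have hc : ∀ s ∈ S, c * s = s * c := fun s hs => F.e ▸ Commute.mul_left (ha s hs) (hb s hs)
  have mc : c ∈ S := F.e ▸ mul_mem ma mb
  by_cases h1 : σ.II S a b c <;> by_cases h2 : σ.II S b a c <;> by_cases h3 : σ.II S c a b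
  · exact (F.all3 hN S.2 h1 h2 h3).elim
  · exact (F.two hp ma mb ha hb h1 h2 h3).elim
  · exact (F.s23.two hp ma mc ha hc h1.s h3 h2).elim
  · exact (F.one hp mb ha hb h1 h2 h3).elim
  · exact (F.s12.s23.two hp mb mc hb hc h2.s h3.s fun e => h1 e).elim
  · exact (F.s12.one hp ma hb ha h2 h1 fun e => h3 e.s).elim
  · exact (F.s13.s23.one hp ma hc ha h3 (fun e => h1 e.s) fun e => h2 e.s).elim
  · exact F.zero ma mb ha hb m m' t t' h1 h2 h3

theorem Fg.norm (F : σ.Fg a b c) (hN : N16 G) (mb : b ∈ S) (ha : ∀ s ∈ S, a * s = s * a)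
    (hb : ∀ s ∈ S, s * b * s⁻¹ = b ∨ s * b * s⁻¹ = c) {x : G} (m : x ∈ S) (h1 : σ.an x a) (h2 : x * b * x⁻¹ = c) : False := by
  have fa : ∀ s ∈ S, s * a * s⁻¹ = a := fun s ms => by rw [← ha s ms, mul_inv_cancel_right]
  have sw : ∀ s ∈ S, s * b * s⁻¹ = c → s * c * s⁻¹ = b := fun s ms e => by rw [← F.e, ← conj_mul, fa s ms, e, F.s23.e]
  have t0 : σ.Ty a b c (x * x) := ⟨σ.aa h1 h1, σ.cyc F.ia F.ib F.ne F.cm h1 (F.e ▸ h2),
    σ.cyc F.ia F.ic F.s23.ne F.s23.cm h1 (F.s23.e ▸ sw x m h2)⟩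
  have m0 := mul_mem m m
  have s0 : x * x * (x * x) = 1 := (F.sq S.2 m0 t0).resolve_right fun e =>
    σ.excl (σ.cm_symm (e ▸ σ.cc (σ.cc (σ.cm_self x) (σ.cm_self x)) (σ.cc (σ.cm_self x) (σ.cm_self x)))) h1
  generalize x * x = y at t0 m0 s0
  have c1 : ∀ u, σ.Ty b a c u → σ.Ty c a b (x * u * x⁻¹) := fun u t =>
    ⟨h2 ▸ σ.cm_conj x t.1, fa x m ▸ σ.an_conj x t.2.1, sw x m h2 ▸ σ.an_conj x t.2.2⟩
  have c2 : ∀ u, σ.Ty c a b u → σ.Ty b a c (x * u * x⁻¹) := fun u t =>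
    ⟨sw x m h2 ▸ σ.cm_conj x t.1, fa x m ▸ σ.an_conj x t.2.1, h2 ▸ σ.an_conj x t.2.2⟩
  have mx : ∀ u ∈ S, x * u * x⁻¹ ∈ S := fun u mu => mul_mem (mul_mem m mu) (inv_mem m)
  have n2 : ¬ σ.II S b a c := fun ⟨u, mu, s, t⟩ =>
    F.all3 hN S.2 ⟨y, m0, s0, t0⟩ ⟨u, mu, s, t⟩ ⟨_, mx u mu, conj_sq s x, c1 u t⟩
  have n3 : ¬ σ.II S c a b := fun ⟨u, mu, s, t⟩ => n2 ⟨_, mx u mu, conj_sq s x, c2 u t⟩
  have k1 : ∀ u ∈ S, u * u = 1 → ¬ σ.an u a := fun u mu s hu => by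
    rcases hb u mu with e | e
    · rcases F.cases (ha u mu).symm (mul_inv_eq_iff_eq_mul.1 e) with z | z | z | z
      exacts [σ.excl z.1 hu, σ.excl z.1 hu, n2 ⟨u, mu, s, z⟩, n3 ⟨u, mu, s, z⟩]
    · exact σ.excl (σ.cm_one b) (s ▸ σ.cyc F.ia F.ib F.ne F.cm hu (F.e ▸ e))
  refine rad hp F.ia ha k1 fun u mu iu ne => ?_
  have cu := (σ.tri F.ia.2 (ha u mu).symm).resolve_right (k1 u mu iu.2)
  rcases hb u mu with e | e
  · rcases F.cases (ha u mu).symm (mul_inv_eq_iff_eq_mul.1 e) with z | z | z | z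
    · rcases F.mem z iu.2 with v | v | rfl | rfl
      exacts [(iu.1 v).elim, (ne v).elim, ⟨y, m0, s0, t0.2.1⟩, ⟨y, m0, s0, t0.2.2⟩]
    exacts [⟨b, mb, F.ib.2, σ.an_symm z.2.1⟩, (n2 ⟨u, mu, iu.2, z⟩).elim, (n3 ⟨u, mu, iu.2, z⟩).elim]
  obtain ⟨w, mw, tw⟩ : ∃ w ∈ S, σ.Ty b a c w := by
    have p := σ.ca cu h1
    rcases F.cases (σ.an_comm p) (mul_inv_eq_iff_eq_mul.1 (show u * x * b * (u * x)⁻¹ = b by
      rw [conj2, h2, sw u mu e])) with z | z | z | z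
    exacts [(σ.excl z.1 p).elim, (σ.excl z.1 p).elim, ⟨_, mul_mem mu m, z⟩, ⟨_, mx _ (mul_mem mu m), c2 _ z⟩]
  have ty : σ.Ty a b c (u * y * u⁻¹) :=
    ⟨fa u mu ▸ σ.cm_conj u t0.1, sw u mu e ▸ σ.an_conj u t0.2.2, e ▸ σ.an_conj u t0.2.1⟩
  have fin : ∀ v ∈ S, v * v = 1 → σ.Ty a b c v → v * u = u * v → ∃ v ∈ S, v * v = 1 ∧ σ.an v u := fun v mv s t e' => by
    refine ⟨v, mv, s, (σ.tri iu.2 e').resolve_left fun q => ?_⟩
    have n : u * b ≠ b * u := fun z => F.s12.s23.ne (by rw [← e, z, mul_inv_cancel_right])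
    rcases σ.inv iu F.ia ne cu s q t.1 with z | z | z | z <;> rw [z] at t
    exacts [t0_one.not t, n t.cb, F.ta.not t, n (by
      have := t.cb; rwa [mul_assoc, F.comm, ← mul_assoc, ← mul_assoc, mul_left_inj] at this)]
  have ui := iu.inv_eq
  have yi := inv_eq_of_mul_eq_one_right s0
  have key : ∀ z, u * y * u⁻¹ * y = z → u * z * u⁻¹ = z⁻¹ := fun z hz => by
    rw [← hz, ui, _root_.mul_inv_rev, _root_.mul_inv_rev, _root_.mul_inv_rev, ui, yi]
    simp only [← mul_assoc, iu.2, one_mul]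
  rcases F.re S.2 mb m0 mw t0 tw n2 n3 (mul_mem (mul_mem (mul_mem mu m0) (inv_mem mu)) m0) (ty.mul t0) with z | z | z | z
  · exact fin y m0 s0 t0 (by rw [mul_eq_one_iff_eq_inv, yi, mul_inv_eq_iff_eq_mul] at z; exact z.symm)
  · refine fin (y * b) (mul_mem m0 mb) (by
      rw [(show Commute b y from t0.cb.symm).mul_mul_mul_comm, s0, F.ib.2, mul_one]) (t0.mul0 F.tb) ?_
    rw [eq_comm, ← mul_inv_eq_iff_eq_mul, ← conj_mul, e, eq_mul_inv_of_mul_eq z, yi, ← t0.ca, mul_assoc, F.s23.e]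
  · exact (F.s12.s23.ne (by rw [← e, key b z, F.ib.inv_eq])).elim
  · exact (F.s12.s23.ne (by rw [← sw u mu e, key c z, F.ic.inv_eq])).elim

omit hp [IsSimpleGroup G] in
theorem exists_normal (ia : Inv a) (ma : a ∈ S) (ha : ∀ s ∈ S, a * s = s * a) (ib : Inv b) (mb : b ∈ S) (ne : a ≠ b)
    (hc : σ.cm a b) {x : G} (m : x ∈ S) (hx : σ.an x a) :
    ∃ e ∈ S, σ.Fg a e (a * e) ∧ ∀ s ∈ S, s * e * s⁻¹ = e ∨ s * e * s⁻¹ = a * e := by
  let A : Subgroup S := zpowers ⟨a, ma⟩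
  have hA : ∀ g : S, g ∈ A ↔ (g : G) = 1 ∨ (g : G) = a := fun g => by
    constructor
    · intro h
      rcases mem_zp4 (show (⟨a, ma⟩ : S) ^ 4 = 1 from Subtype.ext (by
        change a ^ 4 = 1; rw [show 4 = 2 * 2 by rfl, pow_mul, pow_two a, ia.2, one_pow])) h with rfl | rfl | rfl | rfl <;>
        simp [ia.2]
    · rintro (h | h)
      exacts [(show g = 1 from Subtype.ext h) ▸ one_mem _, (show g = ⟨a, ma⟩ from Subtype.ext h) ▸ mem_zpowers _]
  have : A.Normal := ⟨fun g hg s => by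
    rw [hA] at hg ⊢
    rcases hg with h | h <;> simp [h, ← ha s s.2]⟩
  let C : Subgroup S := closure {t | t * t = 1 ∧ σ.cm t a}
  have : C.Normal := ⟨fun g hg s => by
    refine closure_mono ?_ ((MonoidHom.map_closure (MulAut.conj s).toMonoidHom _) ▸ mem_map_of_mem _ hg)
    rintro _ ⟨t, ⟨t2, ht⟩, rfl⟩
    refine ⟨conj_sq t2 s, ?_⟩
    have := σ.cm_conj s ht
    rwa [← ha s s.2, mul_inv_cancel_right] at this⟩
  obtain ⟨e, h1, h2, h3, h4⟩ := H2.PGroup.exists_central_mod_p S.2 A C fun h => by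
    rcases (hA _).1 (h (subset_closure (show (⟨b, mb⟩ : S) ∈ _ from ⟨Subtype.ext ib.2, σ.cm_symm hc⟩))) with e | e
    exacts [ib.1 e, ne e.symm]
  have h5 : (e : G) ∈ closure {t | t * t = 1 ∧ σ.cm t a} := by
    refine closure_mono ?_ ((MonoidHom.map_closure (S : Subgroup G).subtype _) ▸ mem_map_of_mem _ h1)
    rintro _ ⟨t, ⟨t2, ht⟩, rfl⟩
    exact ⟨congrArg Subtype.val t2, ht⟩
  have h6 : ∀ s ∈ S, s * e * s⁻¹ = e ∨ s * e * s⁻¹ = a * e := fun s ms =>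
    ((hA _).1 (h4 ⟨s, ms⟩)).imp (fun h => mul_inv_eq_one.1 h) fun h => mul_inv_eq_iff_eq_mul.1 h
  have h7 : σ.cm e a := by
    generalize (e : G) = e at h5
    induction h5 using closure_induction with
    | mem t ht => exact ht.2
    | one => exact σ.cm_one a
    | mul _ _ _ _ p q => exact σ.cc p q
    | inv _ _ p => exact σ.cm_inv p
  rw [hA, not_or] at h2
  refine ⟨e, e.2, ⟨ia, ⟨h2.1, ?_⟩, Ne.symm h2.2, σ.cm_symm h7, rfl⟩, h6⟩
  exact (((hA _).1 h3).imp (fun h => by simpa [pow_two] using h) fun h => by simpa [pow_two] using h).resolve_right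
    fun h => σ.nf ia ib ne hc h5 h hx (by rw [← ha e e.2]; exact h6 x m)

/-- all central involutions have a swapper -/
theorem sw (hN : N16 G) (h : ∀ z ∈ S, Inv z → (∀ s ∈ S, z * s = s * z) → ∃ x ∈ S, σ.an x z) (ia : Inv a) (ma : a ∈ S)
    (ha : ∀ s ∈ S, a * s = s * a) (ib : Inv b) (mb : b ∈ S) (ne : a ≠ b) (hc : σ.cm a b) : HC σ S := by
  obtain ⟨x, m, hx⟩ := h a ma ia ha
  obtain ⟨e, me, F, h1⟩ := exists_normal ia ma ha ib mb ne hc m hx
  by_cases h2 : ∀ s ∈ S, e * s = s * e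
  · obtain ⟨y, my, hy⟩ := h e me F.ib h2
    obtain ⟨z, mz, hz⟩ := h _ (mul_mem ma me) F.ic fun s hs => Commute.mul_left (ha s hs) (h2 s hs)
    have cs := fun u mu => F.cases (ha u mu).symm (h2 u mu).symm
    rcases cs x m with p | p | p | p
    · exact (σ.excl p.1 hx).elim
    · exact (σ.excl p.1 hx).elim
    · rcases cs y my with q | q | q | q
      exacts [(σ.excl q.2.1 hy).elim, F.cent hp hN ma me ha h2 my m q p, (σ.excl q.1 hy).elim,
        F.cent hp hN ma me ha h2 (mul_mem m my) m (p.s.mul' q.s) p]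
    · rcases cs z mz with q | q | q | q
      exacts [(σ.excl q.2.2 hz).elim, F.cent hp hN ma me ha h2 mz (mul_mem mz m) q (q.s.mul' p),
        F.cent hp hN ma me ha h2 (mul_mem mz m) mz (q.s.mul' p.s) q, (σ.excl q.1 hz).elim]
  · push Not at h2
    obtain ⟨y, my, hy⟩ := h2
    have e1 := (h1 y my).resolve_left fun e => hy (mul_inv_eq_iff_eq_mul.1 e).symm
    exfalso
    rcases h1 x m with e2 | e2
    · rcases σ.tri ia.2 (ha y my).symm with p | p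
      · exact F.norm hp hN me ha h1 (mul_mem my m) (σ.ca p hx) (by rw [conj2, e2, e1])
      · exact F.norm hp hN me ha h1 my p e1
    · exact F.norm hp hN me ha h1 m hx e2

end GS
end Cfsg.Agent.H7.Lw
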