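import Cfsg.Agent.H7.LwE

set_option autoImplicit false

/-! Subgroups of `PGL₂` containing a diagonal element of even order at least four. -/

namespace Cfsg.Agent.H7.Lw
open Subgroup Cfsg.Agent.MH Cfsg.Agent.H4 Cfsg.Agent.H4.Mob Cfsg.Agent.H4.Dick MulAction
open scoped Cfsg.Agent.H4.Bar

variable {F : Type*} [Field F] [Finite F]

/-- the Sylow `p`-subgroups have order at most three -/
def SmU (M : Subgroup (PG F)) : Prop :=
  ∀ u ∈ M, ∀ v ∈ M, u ≠ 1 → u ^ ringChar F = 1 → v ^ ringChar F = 1 → u * v = v * u → (3 : F) = 0 ∧ v ∈ zpowers u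

theorem uni {M : Subgroup (PG F)} (hU : SmU M) (f : F → PG F) (hf : ∀ x y, f x * f y = f (x + y))
    (inj : ∀ x, f x = 1 → x = 0) {β r : F} (hβ : β ≠ 0) (h1 : f β ∈ M) (h2 : f (r * β) ∈ M) :
    (3 : F) = 0 ∧ (r = 0 ∨ r = 1 ∨ r = -1) := by
  have f0 : f 0 = 1 := by simpa using hf 0 0
  have fp : ∀ x (n : ℕ), f x ^ n = f (n * x) := fun x n => by
    induction n with
    | zero => simp [f0]
    | succ n ih => rw [pow_succ, ih, hf]; congr 1; push_cast; ring
  obtain ⟨h3, h⟩ := hU _ h1 _ h2 (fun e => hβ (inj _ e)) (by simp [fp, f0]) (by simp [fp, f0]) (by rw [hf, hf, add_comm])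
  refine ⟨h3, ?_⟩
  obtain ⟨n, hn⟩ := mem_powers_iff_mem_zpowers.2 h
  have e : f β ^ n = f (r * β) := hn
  rw [pow_eq_pow_mod n (show f β ^ 3 = 1 by simp [fp, h3, f0]), fp] at e
  have e2 := inj _ (by rw [← hf, e, hf, add_neg_cancel, f0] : f (((n % 3 : ℕ) : F) * β + -(r * β)) = 1)
  have e3 : ((n % 3 : ℕ) : F) = r := mul_right_cancel₀ hβ (by linear_combination e2)
  have : n % 3 < 3 := Nat.mod_lt _ (by norm_num)
  generalize n % 3 = k at this e3
  interval_cases k
  exacts [.inl (by simpa using e3.symm), .inr (.inl (by simpa using e3.symm)),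
    .inr (.inr (by push_cast at e3; linear_combination h3 - e3))]

omit [Finite F] in
theorem dg_pow {r : F} (h : r * 1 - 0 * 0 ≠ 0) (n : ℕ) (e : mob r 0 0 1 h ^ n = 1) : r ^ n = 1 := by
  have : ∀ n : ℕ, mob r 0 0 1 h ^ n = mob (r ^ n) 0 0 1 (by simpa using fun e => (h (by simp [e])).elim) := fun n => by
    induction n with
    | zero => simp [one_eq_mob]
    | succ n ih => rw [pow_succ, ih, mob_mul]; exact mob_congr (by ring) (by ring) (by ring) (by ring)
  rw [this, mob_eq_one] at e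
  exact e.2.2

theorem dk2 (h2 : (2 : F) ≠ 0) {M : Subgroup (PG F)} (hU : SmU M) {r : F} {h h'} (m1 : mob r 0 0 1 h ∈ M)
    (m2 : mob (-1) 0 0 1 h' ∈ M) (hr : r ^ 2 ≠ 1) :
    (∀ a b c d k, mob a b c d k ∈ M → (b = 0 ∧ c = 0) ∨ (a = 0 ∧ d = 0)) ∨
      (r ^ 4 = 1 ∧ ∃ u ∈ M, ∃ v ∈ M, Inv u ∧ Inv v ∧ u ≠ v ∧ u * v = v * u) := by
  have r0 : r ≠ 0 := by simpa using h
  have r1 : r ≠ 1 := fun e => hr (by simp [e])
  have r2 : r ≠ -1 := fun e => hr (by simp [e])
  have m3 : mob (-r) 0 0 1 (by simpa using r0) ∈ M := by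
    have := mul_mem m1 m2
    rw [mob_mul] at this
    convert this using 2 <;> ring
  have odd : ∀ m n : ℕ, Odd m → Odd n → r ^ m = 1 → (-r) ^ n = 1 → False := fun m n hm hn e1 e2 => by
    have e3 := congrArg (· ^ m) e2
    simp only [one_pow] at e3
    rw [← pow_mul, (hn.mul hm).neg_pow, mul_comm, pow_mul, e1, one_pow] at e3
    exact h2 (by linear_combination -e3)
  have ord : (∀ y ∈ M, y ^ 3 = 1 ∨ y ^ 4 = 1) → r ^ 4 = 1 := fun k => by
    rcases k _ m1 with e | e
    · rcases k _ m3 with e' | e'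
      · exact (odd 3 3 (by decide) (by decide) (dg_pow _ _ e) (dg_pow _ _ e')).elim
      · linear_combination dg_pow _ _ e'
    · exact dg_pow _ _ e
  have ord2 : (∀ y ∈ M, y ^ 2 = 1 ∨ y ^ 15 = 1) → False := fun k =>
    odd 15 15 (by decide) (by decide) (dg_pow _ _ ((k _ m1).resolve_left fun e => hr (dg_pow _ _ e)))
      (dg_pow _ _ ((k _ m3).resolve_left fun e => hr (by linear_combination dg_pow _ _ e)))
  have p15 : ∀ {y : PG F} (n k : ℕ), y ^ n = 1 → n * k = 15 → y ^ 15 = 1 := fun n k e e' => by rw [← e', pow_mul, e, one_pow]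
  rcases dickson M with ⟨x, hx⟩ | ⟨x, y, hxy, hx⟩ | ⟨-, -, ⟨⟨e⟩⟩ | ⟨⟨e⟩⟩⟩ | ⟨-, -, -, ⟨e⟩⟩ | ⟨g, E, hE, h3, h4⟩
  · refine .inl fun a b c d k m => .inl ?_
    have m4 := mul_mem (mul_mem (mul_mem m2 m) m2) (inv_mem m)
    have m5 := mul_mem (mul_mem m1 m4) (inv_mem m1)
    simp only [mob_inv, mob_mul] at m4 m5
    rcases P1_cases x with rfl | ⟨t, rfl⟩
    · obtain rfl := mob_smul_inf_eq_inf.1 (hx m)
      refine ⟨by_contra fun hb => ?_, rfl⟩
      have a0 : a ≠ 0 := fun e => k (by simp [e])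
      have d0 : d ≠ 0 := fun e => k (by simp [e])
      have := (uni hU (fun x => mob 1 x 0 1 (by simp)) (fun x y => by rw [mob_mul]; exact mob_congr (by ring) (by ring) (by ring) (by ring))
        (fun x e => (mob_eq_one.1 e).1) (β := -2 * b / d) (r := r) (by simp [h2, hb, d0])
        (by convert m4 using 1; exact mob_eq_mob.2 ⟨a * d, by ring, by field_simp; ring, by ring, by ring⟩)
        (by convert m5 using 1; exact mob_eq_mob.2 ⟨a * d * r, by ring, by field_simp; ring, by ring, by ring⟩)).2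
      tauto
    · have e1 := mob_smul_pt_eq_pt.1 (hx m1)
      obtain rfl : t = 0 := by
        by_contra t0
        exact r1 (mul_right_cancel₀ t0 (by linear_combination e1))
      obtain rfl : b = 0 := by simpa using mob_smul_pt_eq_pt.1 (hx m)
      refine ⟨rfl, by_contra fun hb => ?_⟩
      have a0 : a ≠ 0 := fun e => k (by simp [e])
      have d0 : d ≠ 0 := fun e => k (by simp [e])
      have := (uni hU (fun x => mob 1 0 x 1 (by simp)) (fun x y => by rw [mob_mul]; exact mob_congr (by ring) (by ring) (by ring) (by ring))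
        (fun x e => (mob_eq_one.1 e).2.1) (β := -2 * c / a / r) (r := r) (by simp [h2, hb, a0, r0])
        (by convert m5 using 1; exact mob_eq_mob.2 ⟨a * d * r, by ring, by ring, by field_simp; ring, by ring⟩)
        (by convert m4 using 1; exact mob_eq_mob.2 ⟨a * d, by ring, by ring, by field_simp; ring, by ring⟩)).2
      tauto
  · refine .inl fun a b c d k m => ?_
    have e1 := Bar.mul_self_mem_Tor (hx m1)
    have e2 : mob r 0 0 1 h * mob r 0 0 1 h ≠ 1 := by
      rw [mob_mul, Ne, mob_eq_one]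
      exact fun e => hr (by linear_combination e.2.2)
    have e3 : ∀ w : P1 (Bar.Kb F), (mob r 0 0 1 h * mob r 0 0 1 h) • w = w → w = inf ∨ w = pt 0 := fun w hw =>
      Bar.fix_eq' e2 (by simp [eq_comm]) (by rw [mob_mul, Bar.inf_inf]; simp) (by rw [mob_mul, Bar.pt_pt]; simp) hw
    have f1 : mob a b c d k • (inf : P1 (Bar.Kb F)) = inf → mob a b c d k • (pt 0 : P1 (Bar.Kb F)) = pt 0 → b = 0 ∧ c = 0 :=
      fun e e' => ⟨by simpa using Bar.pt_pt.1 e', Bar.inf_inf.1 e⟩
    have f3 : mob a b c d k • (inf : P1 (Bar.Kb F)) = pt 0 → mob a b c d k • (pt 0 : P1 (Bar.Kb F)) = inf → a = 0 ∧ d = 0 :=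
      fun e e' => ⟨by simpa using Bar.inf_pt.1 e, by simpa using Bar.pt_inf.1 e'⟩
    rcases e3 x e1.1 with rfl | rfl <;> rcases e3 y e1.2 with rfl | rfl
    exacts [(hxy.ne rfl).elim, (hx m).imp (fun e => f1 e.1 e.2) fun e => f3 e.1 e.2,
      (hx m).imp (fun e => f1 e.2 e.1) fun e => f3 e.2 e.1, (hxy.ne rfl).elim]
  · refine (ord2 fun y hy => ?_).elim
    rcases Small.A4_pow (e ⟨y, hy⟩) with k | k <;> rw [← map_pow, map_eq_one_iff _ e.injective] at k
    exacts [.inl (congrArg Subtype.val k), .inr (p15 3 5 (congrArg Subtype.val k) rfl)]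
  · refine .inr ⟨ord fun y hy => ?_, ?_⟩
    · rcases Small.S4_pow (e ⟨y, hy⟩) with k | k <;> rw [← map_pow, map_eq_one_iff _ e.injective] at k
      exacts [.inl (congrArg Subtype.val k), .inr (congrArg Subtype.val k)]
    · have k : ∀ x : Equiv.Perm (Fin 4), x ≠ 1 → x * x = 1 → Inv (e.symm x : PG F) := fun x p q =>
        ⟨fun z => p (by simpa using (show e.symm x = 1 from Subtype.ext z)), by rw [← coe_mul, ← map_mul, q]; simp⟩
      refine ⟨_, (e.symm (Equiv.swap 0 1)).2, _, (e.symm (Equiv.swap 2 3)).2, k _ (by decide) (by decide),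
        k _ (by decide) (by decide), fun z => absurd (e.symm.injective (Subtype.ext z)) (by decide), ?_⟩
      rw [← coe_mul, ← coe_mul, ← map_mul, ← map_mul, show Equiv.swap (0 : Fin 4) 1 * Equiv.swap 2 3 =
        Equiv.swap 2 3 * Equiv.swap 0 1 by decide]
  · refine (ord2 fun y hy => ?_).elim
    rcases Small.A5_pow (e ⟨y, hy⟩) with k | k | k <;> rw [← map_pow, map_eq_one_iff _ e.injective] at k
    exacts [.inl (congrArg Subtype.val k), .inr (p15 3 5 (congrArg Subtype.val k) rfl),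
      .inr (p15 5 3 (congrArg Subtype.val k) rfl)]
  · have key : ∀ x ∈ E, (3 : F) = 0 ∧ (x = 0 ∨ x = 1 ∨ x = -1) := fun x hx =>
      uni hU (fun x => g⁻¹ * tr x * g) (fun x y => by rw [← tr_mul]; group)
        (fun x e => tr_eq_one.1 ((conj_eq_one_iff (a := g⁻¹)).1 (by simpa using e))) one_ne_zero (Pair.mem_cj.1 (h3 (tr_mem_PSsub E.one_mem)))
        (Pair.mem_cj.1 (h3 (tr_mem_PSsub (by simpa using hx))))
    have c3 := (key 0 E.zero_mem).1
    have hc : Nat.card E = 3 := le_antisymm (by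
      have : (E : Set F) ⊆ {0, 1, -1} := fun x hx => (key x hx).2
      exact (Set.ncard_le_ncard this).trans ((Set.ncard_insert_le _ _).trans (by
        have := Set.ncard_insert_le (1 : F) {-1}; simp at this; omega))) hE
    have : CharP E 3 := (CharP.charP_iff_prime_eq_zero (by norm_num)).2 (Subtype.ext (by rw [Nat.cast_ofNat]; exact c3))
    refine .inr ⟨ord fun y hy => ?_, ?_⟩
    · obtain ⟨z, hz⟩ := (pgSubEquiv E).surjective ⟨_, h4 (Pair.conj_mem_cj.2 hy)⟩
      have k : ∀ n : ℕ, z ^ n = 1 → y ^ n = 1 := fun n e => by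
        have := congrArg (fun w => (pgSubEquiv E w : PG F)) e
        simp only [map_pow, hz, map_one] at this
        simpa [conj_pow] using this
      rcases Pair.pow_cases 3 z with e | e | e <;> rw [hc] at * <;> have := k _ e
      exacts [.inl this, .inr (by rw [show 4 = 2 * 2 by rfl, pow_mul, this, one_pow]), .inr this]
    · have p : (0 : F) * 0 - 1 * -1 ≠ 0 := by simp
      have q : (1 : F) * -1 - 1 * 1 ≠ 0 := fun e => h2 (by linear_combination -e)
      have n := E.neg_mem E.one_mem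
      have k : ∀ x : PG F, Inv x → Inv (g⁻¹ * x * g) := fun x hx => by simpa using hx.conj g⁻¹
      refine ⟨_, Pair.mem_cj.1 (h3 (mob_mem_PSsub (h := p) E.zero_mem E.one_mem n E.zero_mem E.one_mem (by simp))),
        _, Pair.mem_cj.1 (h3 (mob_mem_PSsub (h := q) E.one_mem E.one_mem E.one_mem n E.one_mem (by linear_combination -c3))),
        k _ ⟨by simp [mob_eq_one], by simp [mob_mul, mob_eq_one]⟩, k _ ⟨by simp [mob_eq_one], by simp [mob_mul, mob_eq_one]⟩,
        by simp [mob_eq_mob], ?_⟩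
      have : mob 0 1 (-1) 0 p * mob 1 1 1 (-1) q = mob 1 1 1 (-1) q * mob 0 1 (-1) 0 p := by
        rw [mob_mul, mob_mul, mob_eq_mob]; exact ⟨-1, by ring, by ring, by ring, by ring⟩
      calc _ = g⁻¹ * (mob 0 1 (-1) 0 p * mob 1 1 1 (-1) q) * g := by group
        _ = _ := by rw [this]; group

end Cfsg.Agent.H7.Lw
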