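import Cfsg.Agent.H7.LwF

set_option autoImplicit false

/-! Dihedral Sylow subgroups, 2-groups of maximal class, and four-groups without swappers. -/

namespace Cfsg.Agent.H7.Lw
open Subgroup Cfsg.Agent.MH
open scoped Pointwise

universe u
variable {G : Type*} [Group G]

theorem exists_inv_pow [Finite G] {x : G} {k : ℕ} (h : x ^ 2 ^ k = 1) (h1 : x ≠ 1) : ∃ j : ℕ, Inv (x ^ 2 ^ j) := by
  induction k with
  | zero => exact (h1 (by simpa using h)).elim
  | succ k ih =>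
    by_cases e : x ^ 2 ^ k = 1
    exacts [ih e, ⟨k, e, by rw [← pow_two, ← pow_mul, ← pow_succ, h]⟩]

theorem cyc_of [Finite G] {A : Subgroup G} (hA : IsPGroup 2 A) (hc : ∀ x ∈ A, ∀ y ∈ A, x * y = y * x)
    (hu : ∀ u ∈ A, ∀ v ∈ A, Inv u → Inv v → u = v) : ∃ x ∈ A, ∀ y ∈ A, y ∈ zpowers x := by
  obtain ⟨x, hx, hm⟩ := Set.Finite.exists_maximalFor orderOf (A : Set G) (Set.toFinite _) ⟨1, one_mem _⟩
  have hm' : ∀ y ∈ A, orderOf y ≤ orderOf x := fun y hy => not_lt.1 fun h => h.not_ge (hm hy h.le)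
  obtain ⟨kx, hkx⟩ := two_pow_of_mem hA hx
  have key : ∀ y ∈ A, x ∈ zpowers y → y ∈ zpowers x := fun y hy h => by
    rw [eq_of_le_of_card_ge (zpowers_le.2 h) (by simpa using hm' y hy)]; exact mem_zpowers y
  refine ⟨x, hx, fun y hy => ?_⟩
  obtain ⟨k, hk⟩ := two_pow_of_mem hA hy
  induction k generalizing y with
  | zero => rw [show y = 1 by simpa using hk]; exact one_mem _
  | succ k ih =>
    obtain ⟨n, hn⟩ := mem_powers_iff_mem_zpowers.2 (ih (y ^ 2) (pow_mem hy 2) (by rw [← pow_mul, ← pow_succ', hk]))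
    have e : x ^ n = y ^ 2 := hn
    rcases Nat.even_or_odd' n with ⟨m, rfl | rfl⟩
    · have c : Commute y (x ^ m)⁻¹ := hc _ hy _ (inv_mem (pow_mem hx m))
      have s : y * (x ^ m)⁻¹ * (y * (x ^ m)⁻¹) = 1 := by
        rw [← pow_two, c.mul_pow, ← e, inv_pow, ← pow_mul, mul_comm m, mul_inv_cancel]
      refine (mul_mem_cancel_right (inv_mem (pow_mem (mem_zpowers x) m))).1 ?_
      by_cases h1 : y * (x ^ m)⁻¹ = 1
      · rw [h1]; exact one_mem _
      by_cases h2 : x = 1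
      · exact mul_mem (key y hy (h2 ▸ one_mem _)) (inv_mem (pow_mem (mem_zpowers x) m))
      obtain ⟨j, hj⟩ := exists_inv_pow hkx h2
      rw [hu _ (mul_mem hy (inv_mem (pow_mem hx m))) _ (pow_mem hx _) ⟨h1, s⟩ hj]
      exact pow_mem (mem_zpowers x) _
    · refine key y hy (zpowers_le.2 (pow_mem (mem_zpowers y) 2) (e ▸ mem_zpowers_pow_iff.2 ?_))
      exact Nat.Coprime.coprime_dvd_right (orderOf_dvd_of_pow_eq_one hkx)
        (Nat.Coprime.pow_right _ (Nat.coprime_two_right.2 ⟨m, rfl⟩))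

/-- the subgroup is dihedral -/
def DH (S : Subgroup G) (x s : G) : Prop :=
  x ≠ 1 ∧ s * s = 1 ∧ s * x * s⁻¹ = x⁻¹ ∧ s ∉ zpowers x ∧ ∀ g, g ∈ S ↔ g ∈ zpowers x ∨ s * g ∈ zpowers x

theorem inv_zp [Finite G] {y u v : G} (hu : u ∈ zpowers y) (hv : v ∈ zpowers y) (iu : Inv u) (iv : Inv v) : u = v := by
  classical
  have := Fintype.ofFinite (zpowers y)
  by_contra hn
  have h := IsCyclic.card_pow_eq_one_le (α := zpowers y) (n := 2) two_pos
  have : ({1, ⟨u, hu⟩, ⟨v, hv⟩} : Finset (zpowers y)).card = 3 := Finset.card_eq_three.2 ⟨_, _, _,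
    fun e => iu.1 (congrArg Subtype.val e).symm, fun e => iv.1 (congrArg Subtype.val e).symm,
    fun e => hn (congrArg Subtype.val e), rfl⟩
  have := Finset.card_le_card (show ({1, ⟨u, hu⟩, ⟨v, hv⟩} : Finset (zpowers y)) ⊆ Finset.univ.filter (fun a => a ^ 2 = 1) from fun a ha => by
    simp only [Finset.mem_insert, Finset.mem_singleton] at ha
    rcases ha with rfl | rfl | rfl <;> simp [pow_two, Subtype.ext_iff, iu.2, iv.2])
  omega

theorem ncard_four {α : Type*} (a b c d : α) : ({a, b, c, d} : Set α).ncard ≤ 4 := by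
  have h1 := Set.ncard_insert_le a {b, c, d}
  have h2 := Set.ncard_insert_le b {c, d}
  have h3 := Set.ncard_insert_le c {d}
  simp only [Set.ncard_singleton] at h3
  omega

theorem max_aux (n : ℕ) : ∀ (H : Type u) [Group H] [Finite H], Nat.card H = n → IsPGroup 2 H → ∀ t : H, Inv t →
    (∀ g, t * g = g * t → g * g = 1) → Nat.card (Cn t) ≤ 4 →
    ∃ y, t ∉ zpowers y ∧ ∀ g, g ∈ zpowers y ∨ t * g ∈ zpowers y := by
  induction n using Nat.strong_induction_on with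
  | _ n ih =>
  intro H _ _ hn hH t it h1 h2
  have four : ∀ z : H, Inv z → z ≠ t → t * z = z * t → ∀ g, t * g = g * t → g = 1 ∨ g = z ∨ g = t ∨ g = t * z := fun z iz ne c g hg => by
    classical
    by_contra hh
    push Not at hh
    have := Set.ncard_le_ncard (s := {g, 1, z, t, t * z}) (t := (Cn t : Set H)) (by
      rintro _ (rfl | rfl | rfl | rfl | rfl)
      exacts [mem_Cn.2 hg, one_mem _, mem_Cn.2 c, self_mem_Cn _, mul_mem (self_mem_Cn _) (mem_Cn.2 c)])
    have p : z ≠ t * z := fun e => it.1 (by simpa using e)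
    have q : t ≠ t * z := fun e => iz.1 (by simpa using e)
    have r : 1 ≠ t * z := fun e => ne (by rw [eq_inv_of_mul_eq_one_right e.symm, it.inv_eq])
    rw [Set.ncard_insert_of_notMem (by simp [hh]), Set.ncard_insert_of_notMem (by simp [iz.1.symm, it.1.symm, r]),
      Set.ncard_insert_of_notMem (by simp [ne, p]), Set.ncard_pair q, ncard_coe] at this
    omega
  have zp : ∀ z : H, Inv z → ∀ g, g ∈ zpowers z ↔ g = 1 ∨ g = z := fun z iz g =>
    ⟨fun h => by rcases mem_zp4 (show z ^ 4 = 1 by rw [show 4 = 2 * 2 by rfl, pow_mul, pow_two z, iz.2, one_pow]) h with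
      rfl | rfl | rfl | rfl <;> simp [iz.2], by rintro (rfl | rfl); exacts [one_mem _, mem_zpowers _]⟩
  by_cases hc : ∀ g, t * g = g * t
  · by_cases h3 : ∃ z, z ≠ 1 ∧ z ≠ t
    · obtain ⟨z, z1, z2⟩ := h3
      have iz : Inv z := ⟨z1, h1 z (hc z)⟩
      refine ⟨z, by simp [zp z iz, it.1, z2.symm], fun g => ?_⟩
      rcases four z iz z2 (hc z) g (hc g) with rfl | rfl | rfl | rfl <;> simp [zp _ iz, it.2, ← mul_assoc]
    · push Not at h3
      refine ⟨1, by simp [it.1], fun g => ?_⟩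
      by_cases e : g = 1
      · simp [e]
      · simp [h3 g e, it.2]
  obtain ⟨z, -, oz, hz⟩ := exists_center Nat.prime_two (R := ⊤) (hH.to_subgroup _) (fun e => it.1 (mem_bot.1 (e ▸ mem_top t)))
  have iz := inv_of_orderOf oz
  have cz : ∀ g, z * g = g * z := fun g => mem_Cn.1 (hz (mem_top g))
  have ne : z ≠ t := fun e => hc (e ▸ cz)
  replace four := four z iz ne (cz t).symm
  replace zp := zp z iz
  have : (zpowers z).Normal := ⟨fun x hx g => by rcases (zp x).1 hx with rfl | rfl <;> simp [← cz]⟩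
  let π := QuotientGroup.mk' (zpowers z)
  have hπ : ∀ g, π g = 1 ↔ g = 1 ∨ g = z := fun g => (QuotientGroup.eq_one_iff g).trans (zp g)
  have k1 : ∀ g, π t * π g = π g * π t → g * t * g⁻¹ = t ∨ g * t * g⁻¹ = z * t := fun g e =>
    ((hπ (g * t * g⁻¹ * t⁻¹)).1 (by simp [← e])).imp mul_inv_eq_one.1 mul_inv_eq_iff_eq_mul.1
  have k2 : ∀ g, g * t * g⁻¹ = z * t → t * (g * g) = g * g * t := fun g e => by
    rw [eq_comm, ← mul_inv_eq_iff_eq_mul, conj2, e, ← conj_mul, e, ← cz, mul_inv_cancel_right, ← mul_assoc, iz.2, one_mul]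
  have card : Nat.card H = Nat.card (H ⧸ zpowers z) * 2 := by rw [card_eq_card_quotient_mul_card_subgroup (zpowers z), Nat.card_zpowers, oz]
  obtain ⟨y, h3, h4⟩ := ih _ (by have := Nat.card_pos (α := H); omega) (H ⧸ zpowers z) rfl (hH.to_quotient _) (π t)
    ⟨fun e => ((hπ t).1 e).elim it.1 ne.symm, by rw [← map_mul, it.2, map_one]⟩ (fun g hg => by
      obtain ⟨g, rfl⟩ := QuotientGroup.mk'_surjective _ g
      rw [← map_mul]
      refine (hπ _).2 ?_
      rcases k1 g hg with e | e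
      · exact .inl (h1 g (mul_inv_eq_iff_eq_mul.1 e).symm)
      · have p : g * t ≠ t * g := fun e' => iz.1 (by rw [e', mul_inv_cancel_right] at e; simpa using e)
        rcases four _ (k2 g e) with q | q | q | q
        · exact .inl q
        · exact .inr q
        · exact (p (by rw [← q, mul_assoc])).elim
        · exact (p (by rw [← mul_left_inj z, mul_assoc, ← q, mul_assoc t, ← cz, ← mul_assoc t, ← q, mul_assoc])).elim) (by
      by_cases h5 : ∃ x, x * t * x⁻¹ = z * t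
      · obtain ⟨x, hx⟩ := h5
        have : (Cn (π t) : Set _) ⊆ {1, π t, π x, π (x * t)} := fun g hg => by
          obtain ⟨g, rfl⟩ := QuotientGroup.mk'_surjective _ g
          have πz : π z = 1 := (hπ z).2 (.inr rfl)
          change π g = 1 ∨ π g = π t ∨ π g = π x ∨ π g = π (x * t)
          rcases k1 g (mem_Cn.1 hg) with e | e
          · rcases four g (mul_inv_eq_iff_eq_mul.1 e).symm with q | q | q | q <;> simp [q, πz]
          · rcases four (x⁻¹ * g) (by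
              rw [eq_comm, ← mul_inv_eq_iff_eq_mul, conj2, e, ← hx]; group) with q | q | q | q <;>
              simp [eq_mul_of_inv_mul_eq q, πz]
        rw [← ncard_coe]
        exact (Set.ncard_le_ncard this).trans (ncard_four ..)
      · have : (Cn (π t) : Set _) ⊆ {1, π t, 1, 1} := fun g hg => by
          obtain ⟨g, rfl⟩ := QuotientGroup.mk'_surjective _ g
          have πz : π z = 1 := (hπ z).2 (.inr rfl)
          change π g = 1 ∨ π g = π t ∨ π g = 1 ∨ π g = 1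
          rcases k1 g (mem_Cn.1 hg) with e | e
          · rcases four g (mul_inv_eq_iff_eq_mul.1 e).symm with q | q | q | q <;> simp [q, πz]
          · exact (h5 ⟨g, e⟩).elim
        rw [← ncard_coe]
        exact (Set.ncard_le_ncard this).trans (ncard_four ..))
  obtain ⟨y, rfl⟩ := QuotientGroup.mk'_surjective _ y
  have k3 : ∀ g, π g ∈ zpowers (π y) ↔ g ∈ zpowers y ∨ z * g ∈ zpowers y := fun g => by
    constructor
    · rintro ⟨m, hm⟩
      rcases (hπ (y ^ m * g⁻¹)).1 (by simp [show π y ^ m = π g from hm]) with e | e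
      exacts [.inl ⟨m, mul_inv_eq_one.1 e⟩, .inr ⟨m, mul_inv_eq_iff_eq_mul.1 e⟩]
    · rintro (⟨m, hm⟩ | ⟨m, hm⟩)
      · exact ⟨m, by simp [← hm]⟩
      · exact ⟨m, by have := congrArg π hm; simpa [(hπ z).2 (.inr rfl)] using this⟩
  have h5 : ∀ g, (g ∈ zpowers y ∨ z * g ∈ zpowers y) ∨ (t * g ∈ zpowers y ∨ z * (t * g) ∈ zpowers y) := fun g => by
    simpa only [← k3, map_mul] using h4 (π g)
  replace h3 := not_or.1 (mt (k3 t).2 h3)
  by_cases hy : z ∈ zpowers y
  · exact ⟨y, h3.1, fun g => by simpa only [mul_mem_cancel_left hy, or_self] using h5 g⟩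
  have k4 : ∀ g ∈ zpowers y, t * g = g * t → g = 1 := fun g hg e => by
    rcases four g e with q | q | q | q
    exacts [q, (hy (q ▸ hg)).elim, (h3.1 (q ▸ hg)).elim, (h3.2 (cz t ▸ q ▸ hg)).elim]
  have cy : ∀ g, (g ∈ zpowers y ∨ z * g ∈ zpowers y) → g * y = y * g := by
    rintro g (⟨m, rfl⟩ | ⟨m, hm⟩)
    · exact (Commute.refl y).zpow_left m
    · rw [eq_inv_mul_of_mul_eq (Eq.symm hm), iz.inv_eq]; exact Commute.mul_left (cz y) ((Commute.refl y).zpow_left m)
  have k5 : t * y * t ∈ zpowers y ∨ z * (t * y * t) ∈ zpowers y := (h5 _).resolve_right fun e => by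
    rw [← mul_assoc t, ← mul_assoc t, it.2, one_mul, ← mul_assoc, cz y, mul_assoc, mul_mem_cancel_left (mem_zpowers y),
      mul_mem_cancel_left (mem_zpowers y)] at e
    exact e.elim h3.1 h3.2
  have k6 : t * (t * y * t * y) = t * y * t * y * t := by
    conv_rhs => rw [cy _ k5]
    simp only [← mul_assoc, it.2, one_mul, mul_assoc _ t t, mul_one]
  have k7 : t * y * t * y = 1 ∨ t * y * t * y = z := by
    have m : t * y * t * y ∈ zpowers y ∨ z * (t * y * t * y) ∈ zpowers y := by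
      rw [← mul_assoc z]; simpa only [mul_mem_cancel_right (mem_zpowers y)] using k5
    rcases four _ k6 with q | q | q | q
    exacts [.inl q, .inr q, ((q ▸ m).elim h3.1 h3.2).elim, ((q ▸ m).elim (fun e => h3.2 (cz t ▸ e)) fun e => h3.1 (by
      rwa [← cz, ← mul_assoc, iz.2, one_mul] at e)).elim]
  have y1 : y ≠ 1 := fun e => hc fun g => by
    have := h5 g
    simp only [e, zpowers_one_eq_bot, mem_bot, mul_eq_one_iff_inv_eq, it.inv_eq, iz.inv_eq] at this
    rcases this with (q | q) | (q | q)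
    exacts [by simp [q], by rw [← q, cz], by rw [← q], by
      rw [eq_inv_mul_of_mul_eq q.symm, it.inv_eq, mul_assoc, cz]]
  obtain ⟨k, hk⟩ := hH y
  obtain ⟨j, hj⟩ := exists_inv_pow hk y1
  rcases j with _ | j
  · have iy : Inv y := by simpa using hj
    have e := k7.resolve_left fun e => y1 (k4 y (mem_zpowers y) (by
      rw [mul_assoc, mul_eq_one_iff_eq_inv, _root_.mul_inv_rev, it.inv_eq, iy.inv_eq] at e; exact e))
    have mz : z ∈ zpowers (t * y) := by rw [← e, mul_assoc]; exact mul_mem (mem_zpowers _) (mem_zpowers _)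
    have k8 : ∀ g ∈ zpowers y, g ∈ zpowers (t * y) ∨ t * g ∈ zpowers (t * y) := fun g hg => by
      rcases mem_zp4 (show y ^ 4 = 1 by rw [show 4 = 2 * 2 by rfl, pow_mul, pow_two y, iy.2, one_pow]) hg with
        q | q | q | q <;> simp [q, iy.2]
    have k9 : ∀ g, z * g ∈ zpowers y → g ∈ zpowers (t * y) ∨ t * g ∈ zpowers (t * y) := fun g hg => by
      have := k8 _ hg
      rwa [← mul_assoc, ← cz, mul_assoc, mul_mem_cancel_left mz, mul_mem_cancel_left mz] at this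
    refine ⟨t * y, fun m => hc fun g => ?_, fun g => ?_⟩
    · have c : ∀ g ∈ zpowers (t * y), Commute t g := by
        rintro _ ⟨i, rfl⟩
        obtain ⟨l, hl⟩ := m
        have := (Commute.refl (t * y)).zpow_zpow l i
        rwa [show (t * y) ^ l = t from hl] at this
      exact (y1 (k4 y (mem_zpowers y) (by
        have := c _ (mul_mem m (mem_zpowers _)); rwa [← mul_assoc, it.2, one_mul] at this))).elim
    · rcases h5 g with (q | q) | (q | q)
      exacts [k8 g q, k9 g q, by simpa [← mul_assoc, it.2, or_comm] using k8 _ q,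
        by simpa [← mul_assoc, it.2, or_comm] using k9 _ q]
  · refine (hj.1 (k4 _ (pow_mem (mem_zpowers y) _) ?_)).elim
    have e : t * y * t⁻¹ = y⁻¹ ∨ t * y * t⁻¹ = z * y⁻¹ := by
      rw [it.inv_eq]; exact k7.imp eq_inv_of_mul_eq_one_left eq_mul_inv_of_mul_eq
    rw [← mul_inv_eq_iff_eq_mul, ← conj_pow, ← hj.inv_eq]
    rcases e with e | e <;> rw [e]
    · rw [inv_pow]
    · rw [(show Commute z y⁻¹ from cz _).mul_pow, pow_succ', pow_mul, pow_two, iz.2, one_pow, one_mul, inv_pow]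

theorem max_class [Finite G] {S : Subgroup G} (hS : IsPGroup 2 S) {a b : G} (ia : Inv a) (ib : Inv b) (ma : a ∈ S) (mb : b ∈ S)
    (ne : a ≠ b) (ha : ∀ s ∈ S, a * s = s * a) (h : ∀ g ∈ S, b * g = g * b → g = 1 ∨ g = a ∨ g = b ∨ g = a * b) :
    ∃ y, y ≠ 1 ∧ b ∉ zpowers y ∧ (∀ g, g ∈ S ↔ g ∈ zpowers y ∨ b * g ∈ zpowers y) ∧ a ∈ zpowers y ∧
      (b * y * b⁻¹ = y⁻¹ ∨ b * y * b⁻¹ = a * y⁻¹) := by
  obtain ⟨y, h1, h2⟩ := max_aux _ S rfl hS ⟨b, mb⟩ ⟨fun e => ib.1 (congrArg Subtype.val e), Subtype.ext ib.2⟩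
    (fun g hg => Subtype.ext (by
      rcases h g g.2 (congrArg Subtype.val hg) with e | e | e | e <;> simp only [coe_mul, e]
      exacts [mul_one _, ia.2, ib.2, (ia.mul ib ne (ha b mb)).2])) (by
      rw [← ncard_coe]
      refine (Set.ncard_le_ncard (t := {1, ⟨a, ma⟩, ⟨b, mb⟩, ⟨a * b, mul_mem ma mb⟩}) fun g hg => ?_).trans (ncard_four ..)
      exact (h g g.2 (congrArg Subtype.val (mem_Cn.1 hg))).imp Subtype.ext (Or.imp Subtype.ext (Or.imp Subtype.ext Subtype.ext)))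
  have k : ∀ g : S, g ∈ zpowers y ↔ (g : G) ∈ zpowers (y : G) := fun g =>
    ⟨fun ⟨m, hm⟩ => ⟨m, congrArg Subtype.val hm⟩, fun ⟨m, hm⟩ => ⟨m, Subtype.ext hm⟩⟩
  simp only [k] at h1 h2
  obtain ⟨y, my⟩ := y
  have h3 : ∀ g, g ∈ S ↔ g ∈ zpowers y ∨ b * g ∈ zpowers y := fun g => ⟨fun hg => h2 ⟨g, hg⟩, fun hg =>
    hg.elim (fun e => zpowers_le.2 my e) fun e => (mul_mem_cancel_left mb).1 (zpowers_le.2 my e)⟩
  have cy : ∀ g ∈ zpowers y, g * y = y * g := by rintro _ ⟨m, rfl⟩; exact (Commute.refl y).zpow_left m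
  have k5 : b * y * b ∈ zpowers y := ((h3 _).1 (mul_mem (mul_mem mb my) mb)).resolve_right fun e => by
    rw [← mul_assoc, ← mul_assoc, ib.2, one_mul, mul_mem_cancel_left (mem_zpowers y)] at e
    exact h1 e
  have k6 : b * (b * y * b * y) = b * y * b * y * b := by
    conv_rhs => rw [cy _ k5]
    simp only [← mul_assoc, ib.2, one_mul, mul_assoc _ b b, mul_one]
  have m := mul_mem k5 (mem_zpowers y)
  rcases (h3 a).1 ma with h4 | h4
  · refine ⟨y, fun e => ia.1 (by simpa [e] using h4), h1, h3, h4, ?_⟩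
    rw [ib.inv_eq]
    rcases h _ (zpowers_le.2 my m) k6 with q | q | q | q
    exacts [.inl (eq_inv_of_mul_eq_one_left q), .inr (eq_mul_inv_of_mul_eq q), (h1 (q ▸ m)).elim,
      (h1 ((mul_mem_cancel_left h4).1 (q ▸ m))).elim]
  · have c : b * y = y * b := by
      have := cy _ h4
      rwa [mul_assoc, ha y my, ← mul_assoc, ← mul_assoc, mul_left_inj] at this
    have c' : ∀ g ∈ S, b * g = g * b := fun g hg => by
      have k : ∀ g ∈ zpowers y, Commute b g := by rintro _ ⟨m, rfl⟩; exact (show Commute b y from c).zpow_right m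
      rcases (h3 g).1 hg with e | e
      · exact k g e
      · have := (Commute.refl b).mul_right (k _ e)
        rwa [← mul_assoc, ib.2, one_mul] at this
    have z : ∀ g, g ∈ zpowers a ↔ g = 1 ∨ g = a := fun g =>
      ⟨fun h => by rcases mem_zp4 (show a ^ 4 = 1 by rw [show 4 = 2 * 2 by rfl, pow_mul, pow_two a, ia.2, one_pow]) h with
        rfl | rfl | rfl | rfl <;> simp [ia.2], by rintro (rfl | rfl); exacts [one_mem _, mem_zpowers _]⟩
    refine ⟨a, ia.1, by simp [z, ib.1, ne.symm], fun g => ⟨fun hg => ?_, fun hg => hg.elim (fun e => zpowers_le.2 ma e)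
      fun e => (mul_mem_cancel_left mb).1 (zpowers_le.2 ma e)⟩, mem_zpowers a, .inl (by
        rw [← ha b mb, mul_inv_cancel_right, ia.inv_eq])⟩
    rcases h g hg (c' g hg) with q | q | q | q <;> simp [q, z, ib.2, ha b mb, ← mul_assoc]

theorem lift_p [Finite G] {H : Type*} [Group H] (φ : G →* H) {p : ℕ} (hp : p.Prime) {Q : Subgroup H} (hQ : IsPGroup p Q)
    (h : Q ≤ φ.range) : ∃ R : Subgroup G, IsPGroup p R ∧ ∀ q ∈ Q, ∃ r ∈ R, φ r = q := by
  have := Fact.mk hp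
  have : Finite φ.range := Finite.of_surjective _ φ.rangeRestrict_surjective
  obtain ⟨R⟩ : Nonempty (Sylow p G) := inferInstance
  obtain ⟨g, hg⟩ := exists_conj_le_sylow hp (R.mapSurjective φ.rangeRestrict_surjective) (H := Q.subgroupOf φ.range)
    (hQ.of_equiv (subgroupOfEquivOfLe h).symm)
  obtain ⟨g, rfl⟩ := φ.rangeRestrict_surjective g
  refine ⟨R.1.map (MulAut.conj g⁻¹).toMonoidHom, R.2.map _, fun q hq => ?_⟩
  obtain ⟨r, hr, e⟩ := hg ⟨q, h hq⟩ hq
  refine ⟨_, ⟨r, hr, rfl⟩, ?_⟩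
  have := congrArg Subtype.val e
  simp only [MonoidHom.coe_rangeRestrict, coe_mul, coe_inv] at this
  simp [this, mul_assoc]

namespace GS
variable {σ : GS G} {a b c g : G} [Finite G]

/-- elements whose lifts commute with a lift of `a` -/
def C0 (σ : GS G) (a : G) : Subgroup G where
  carrier := {g | σ.cm g a}
  one_mem' := σ.cm_one a
  mul_mem' := σ.cc
  inv_mem' := σ.cm_inv

omit [Finite G] in
theorem cm_pow (g : G) (n : ℕ) : σ.cm g (g ^ n) := σ.cm_symm (pow_mem (show g ∈ σ.C0 g from σ.cm_self g) n)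

theorem dcase [IsSimpleGroup G] (hp : commutator G = ⊤) {S : Sylow 2 G} (ia : Inv a) (ma : a ∈ S)
    (ha : ∀ s ∈ S, a * s = s * a) (h : ∀ t ∈ S, Inv t → σ.cm t a → t = a) : ∃ x s, DH (S : Subgroup G) x s := by
  obtain ⟨s, ms, ne, e⟩ := zs hp S ia ha
  have is := Inv.of_isConj ia e
  have an := (σ.tri ia.2 (ha s ms).symm).resolve_left fun k => ne (h s ms is k)
  have k : ∀ g ∈ S, σ.an g a → g * g = 1 := fun g mg hg => by
    by_contra hn
    obtain ⟨k, hk⟩ := two_pow_of_mem S.2 (mul_mem mg mg)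
    obtain ⟨j, hj⟩ := exists_inv_pow hk hn
    have := h _ (pow_mem (mul_mem mg mg) _) hj (pow_mem (show g * g ∈ σ.C0 a from σ.aa hg hg) _)
    rw [← pow_two, ← pow_mul] at this
    exact σ.excl (this ▸ cm_pow g _) hg
  have k1 : ∀ g ∈ (S : Subgroup G) ⊓ σ.C0 a, s * g * s⁻¹ = g⁻¹ := fun g mg => by
    rw [is.inv_eq]; exact eq_inv_of_mul_eq_one_left (by rw [mul_assoc, k _ (mul_mem ms mg.1) (σ.ac an mg.2)])
  obtain ⟨x, mx, hx⟩ := cyc_of (A := (S : Subgroup G) ⊓ σ.C0 a) (S.2.to_le inf_le_left) (fun x hx y hy => by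
    have := k1 _ (mul_mem hx hy)
    rw [← conj_mul, k1 x hx, k1 y hy, ← _root_.mul_inv_rev, inv_inj] at this
    exact this.symm) fun u hu v hv iu iv => (h u hu.1 iu hu.2).trans (h v hv.1 iv hv.2).symm
  refine ⟨x, s, fun e => ia.1 (by simpa [e] using hx a ⟨ma, σ.cm_self a⟩), is.2, k1 x mx,
    fun e => σ.excl (zpowers_le.2 mx e).2 an, fun g => ⟨fun mg => ?_, fun e => e.elim (fun e => (zpowers_le.2 mx e).1)
      fun e => (mul_mem_cancel_left ms).1 (zpowers_le.2 mx e).1⟩⟩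
  exact (σ.tri ia.2 (ha g mg).symm).imp (fun e => hx g ⟨mg, e⟩) fun e => hx _ ⟨mul_mem ms mg, σ.aa an e⟩

/-- no swapper -/
def NS (σ : GS G) (a : G) : Prop := ∀ g, g * a = a * g → σ.cm g a

omit [Finite G] in
theorem NS.conj (h : σ.NS a) (e : IsConj a b) : σ.NS b := fun g hg => by
  obtain ⟨q, rfl⟩ := isConj_iff.1 e
  simpa [mul_assoc] using σ.cm_conj q (h (q⁻¹ * g * q) (by simpa [mul_assoc] using congrArg (fun x => q⁻¹ * x * q) hg))

theorem ns_of {S : Sylow 2 G} (ia : Inv a) (ha : ∀ s ∈ S, a * s = s * a) (h : ∀ s ∈ S, ¬ σ.an s a) : σ.NS a := fun g hg => by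
  refine (σ.tri ia.2 hg).resolve_right fun k => ?_
  obtain ⟨m, j, ⟨i, rfl⟩, e⟩ := exists_odd_pow g
  have k2 : σ.an (g ^ (2 * i + 1)) a := by
    rw [pow_succ, pow_mul, pow_two]; exact σ.ca (pow_mem (show g * g ∈ σ.C0 a from σ.aa k k) i) k
  obtain ⟨c, hc, h1⟩ := ext_conj Nat.prime_two S (C := Cn a) (fun s hs => mem_Cn.2 (ha s hs))
    (zpowers_le.2 (mem_Cn.2 (σ.an_comm k2).symm)) (isPGroup_zpowers e)
  refine h _ (h1 _ (mem_zpowers _)) ?_
  have := σ.an_conj c k2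
  rwa [← mem_Cn.1 hc, mul_inv_cancel_right] at this

/-- the diagonal 2-elements -/
def Fg.R (F : σ.Fg a b c) : Subgroup G where
  carrier := {g | σ.T0 a b c g ∧ ∃ k, g ^ 2 ^ k = 1}
  one_mem' := ⟨t0_one, 0, by simp⟩
  mul_mem' := fun ⟨h1, k, hk⟩ ⟨h2, l, hl⟩ => ⟨h1.mul h2, k + l, by
    rw [(show Commute _ _ from F.ab h1 h2).mul_pow, pow_add, pow_mul, hk, mul_comm (2 ^ k), pow_mul, hl]; simp⟩
  inv_mem' := fun ⟨h1, k, hk⟩ => ⟨h1.inv, k, by rw [inv_pow, hk, inv_one]⟩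

omit [Finite G] in
theorem Fg.mem_R (F : σ.Fg a b c) {S : Sylow 2 G} (m : g ∈ S) (t : σ.T0 a b c g) : g ∈ F.R := ⟨t, two_pow_of_mem S.2 m⟩

omit [Finite G] in
theorem Fg.e_mem (F : σ.Fg a b c) (h : g = 1 ∨ g = a ∨ g = b ∨ g = c) : g ∈ F.R :=
  ⟨F.t0_of h, 1, by simpa [pow_two] using F.sq_of h⟩

theorem Fg.setup (F : σ.Fg a b c) {S : Sylow 2 G} {z : G} (hz : ∀ s ∈ S, z * s = s * z) (e : IsConj z a) :
    ∃ S : Sylow 2 G, (∀ s ∈ S, a * s = s * a) ∧ F.R ≤ S := by
  obtain ⟨q, hq⟩ := isConj_iff.1 e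
  have k : ∀ (S : Sylow 2 G) (q g : G), g ∈ q • S ↔ q⁻¹ * g * q ∈ S := fun S q g => by
    change g ∈ MulAut.conj q • (S : Subgroup G) ↔ _
    rw [mem_pointwise_smul_iff_inv_smul_mem]; simp; rfl
  have h1 : ∀ s ∈ q • S, a * s = s * a := fun s hs => by
    rw [← hq]; simpa [mul_assoc] using congrArg (fun x => q * x * q⁻¹) (hz _ ((k _ _ _).1 hs))
  obtain ⟨c', hc, h2⟩ := ext_conj Nat.prime_two (q • S) (C := Cn a) (H := F.R) (fun s hs => mem_Cn.2 (h1 s hs))
    (fun g hg => mem_Cn.2 hg.1.ca.symm) (pgroup_of fun g hg => hg.2)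
  refine ⟨c'⁻¹ • q • S, fun s hs => ?_, fun g hg => (k _ _ _).2 (by simpa using h2 g hg)⟩
  have := mem_Cn.2 (h1 _ ((k _ _ _).1 hs))
  exact mem_Cn.1 (by simpa [mul_assoc] using mul_mem (mul_mem (inv_mem hc) this) hc)

theorem Fg.norm_R (F : σ.Fg a b c) (nb : σ.NS b) (na : σ.NS a) {x : G} (h : x ∈ Nm F.R) (e : a * x = x * a) :
    σ.T0 a b c x ∨ x * b * x⁻¹ = c := by
  rcases F.mem (Nm_conj h (F.e_mem (.inr (.inr (.inl rfl))))).1 (conj_sq F.ib.2 x) with q | q | q | q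
  · exact (F.ib.1 (conj_eq_one_iff.1 q)).elim
  · exact (F.ne (by rw [mul_inv_eq_iff_eq_mul, e, mul_right_inj] at q; exact q.symm)).elim
  · have p := na x e.symm
    have q := nb x (mul_inv_eq_iff_eq_mul.1 q)
    exact .inl ⟨p, q, F.e ▸ σ.cm_symm (σ.cc (σ.cm_symm p) (σ.cm_symm q))⟩
  · exact .inr q

theorem Fg.exists_sw (F : σ.Fg a b c) (nb : σ.NS b) (na : σ.NS a) {S : Sylow 2 G} (ha : ∀ s ∈ S, a * s = s * a)
    (hR : F.R ≤ S) (h : ¬ (S : Subgroup G) ≤ F.R) : ∃ x ∈ S, x * b * x⁻¹ = c := by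
  obtain ⟨s, ms, hs⟩ := SetLike.not_le_iff_exists.1 h
  obtain ⟨x, m, h1, h2⟩ := exists_norm Nat.prime_two S.2 hR ms hs
  exact ⟨x, m, (F.norm_R nb na h2 (ha x m)).resolve_left fun t => h1 (F.mem_R m t)⟩

theorem Fg.tau (F : σ.Fg a b c) (na : σ.NS a) (e : IsConj a b) {S : Sylow 2 G} (ha : ∀ s ∈ S, a * s = s * a)
    (hR : F.R ≤ S) : ∃ τ, τ * a * τ⁻¹ = b ∧ τ * b * τ⁻¹ = c := by
  have nb := na.conj e
  by_cases h : (S : Subgroup G) ≤ F.R
  · obtain ⟨n, hn, e⟩ := burn S ha (fun s hs => (h hs).1.cb.symm) e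
    refine ⟨n, e, ?_⟩
    rcases F.mem (h (Nm_conj hn (hR (F.e_mem (.inr (.inr (.inl rfl))))))).1 (conj_sq F.ib.2 n) with q | q | q | q
    exacts [(F.ib.1 (conj_eq_one_iff.1 q)).elim, (F.ne (no_swap S hn ha e q)).elim,
      (F.ne (by simpa using e.trans q.symm)).elim, q]
  · obtain ⟨x, m, hx⟩ := F.exists_sw nb na ha hR h
    obtain ⟨S', hb, hR'⟩ := F.s12.setup ha e
    have k : F.s12.R = F.R := by ext g; exact and_congr_left' ⟨T0.s12, T0.s12⟩
    obtain ⟨y, m', hy⟩ := F.s12.exists_sw na nb hb hR' fun h' => h (by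
      rw [S'.3 S.2 (h'.trans (k ▸ hR))]; exact k ▸ h')
    refine ⟨x * y, by rw [conj2, hy, ← F.e, ← conj_mul, hx, ← ha x m, mul_inv_cancel_right, F.s23.e], ?_⟩
    rw [conj2, ← hb y m', mul_inv_cancel_right, hx]

end GS
end Cfsg.Agent.H7.Lw
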