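import Cfsg.Agent.MH.Main
import Cfsg.Agent.Form.Adapters
import Cfsg.Agent.Asch.FF
import Cfsg.Agent.H5.MH9
import Cfsg.Agent.H5.MH5b

set_option autoImplicit false

/-! The three dimensional step of package LOW. -/

namespace Cfsg.Agent.H7.Lw3
open Cfsg Matrix Cfsg.Agent.Asch Cfsg.Agent.H5.MH commutatorElement

variable {K : Type*} [Field K]

def d1 : G3 K := ⟨!![-1, 0, 0; 0, -1, 0; 0, 0, 1], !![-1, 0, 0; 0, -1, 0; 0, 0, 1], by simp [one_fin_three],
  by simp [one_fin_three]⟩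

def d2 : G3 K := ⟨!![-1, 0, 0; 0, 1, 0; 0, 0, -1], !![-1, 0, 0; 0, 1, 0; 0, 0, -1], by simp [one_fin_three],
  by simp [one_fin_three]⟩

theorem d1v : (d1 : G3 K).val = !![-1, 0, 0; 0, -1, 0; 0, 0, 1] := rfl
theorem d2v : (d2 : G3 K).val = !![-1, 0, 0; 0, 1, 0; 0, 0, -1] := rfl

/-- the normal closure of `d1` -/
def LL (M : Subgroup (G3 K)) : Subgroup (G3 K) := Subgroup.closure {x | ∃ m ∈ M, x = m * d1 * m⁻¹}

theorem LL_le {M : Subgroup (G3 K)} (h : d1 ∈ M) : LL M ≤ M :=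
  (Subgroup.closure_le _).2 (by rintro _ ⟨m, hm, rfl⟩; exact mul_mem (mul_mem hm h) (inv_mem hm))

theorem LL_d1 {M : Subgroup (G3 K)} : d1 ∈ LL M := Subgroup.subset_closure ⟨1, one_mem _, by simp⟩

theorem LL_conj {M : Subgroup (G3 K)} {m x : G3 K} (hm : m ∈ M) (hx : x ∈ LL M) : m * x * m⁻¹ ∈ LL M := by
  induction hx using Subgroup.closure_induction with
  | mem x h => obtain ⟨n, hn, rfl⟩ := h; exact Subgroup.subset_closure ⟨m * n, mul_mem hm hn, by group⟩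
  | one => simp
  | mul x y _ _ a b => simpa [mul_assoc] using mul_mem a b
  | inv x _ a => simpa [mul_assoc] using inv_mem a

theorem vmv (a b c d e f : K) : 1 + vecMulVec ![a, b, c] ![d, e, f] =
    !![1 + a * d, a * e, a * f; b * d, 1 + b * e, b * f; c * d, c * e, 1 + c * f] := by
  ext i j; fin_cases i <;> fin_cases j <;> simp [vecMulVec_apply]

theorem su_tv {E : Type*} [Field E] [Finite E] {q : ℕ} (hq : Nat.card E = q ^ 2) :
    ∃ v φ : Fin 3 → E, vecMulVec v φ ≠ 0 ∧ (1 + vecMulVec v φ).det = 1 ∧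
      (1 + vecMulVec v φ)ᵀ * (1 + vecMulVec v φ).map (· ^ q) = 1 := by
  have := Fintype.ofFinite E
  rw [Nat.card_eq_fintype_card] at hq
  let f := Form.frobQ hq
  have hf : ∀ x, x ^ q = f x := fun _ => rfl
  have ff : ∀ x, f (f x) = x := Form.pow_q_pow_q hq
  obtain ⟨β, hβ⟩ := Asch.exists_norm_eq hq (a := -1) (by rw [hf]; simp)
  obtain ⟨x, hx⟩ := Form.exists_pow_q_ne hq
  rw [hf] at hβ hx
  rw [show (· ^ q) = ⇑f from rfl]
  clear_value f
  refine ⟨![x - f x, (x - f x) * β, 0], ![1, f β, 0], fun e => ?_, ?_, ?_⟩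
  · have := congrFun (congrFun e 0) 0
    simp [vecMulVec_apply, sub_eq_zero] at this
    exact hx this.symm
  · simp [vmv, det_fin_three]
    grind
  · rw [vmv]
    ext i j
    fin_cases i <;> fin_cases j <;> simp [mul_apply, Fin.sum_univ_three, ff] <;> grind

theorem tau_d1 {τ : G3 K} {p q r : K} (e : τ.val = !![0, p, 0; 0, 0, q; r, 0, 0]) : τ * d1 * τ⁻¹ = d2 :=
  mul_inv_eq_iff_eq_mul.2 (Units.ext (by simp [e, d1v, d2v]))

theorem tau_d2 {τ : G3 K} {p q r : K} (e : τ.val = !![0, p, 0; 0, 0, q; r, 0, 0]) : τ * d2 * τ⁻¹ = d1 * d2 :=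
  mul_inv_eq_iff_eq_mul.2 (Units.ext (by simp [e, d1v, d2v]))

theorem mt [Finite K] (h2 : (2 : K) ≠ 0) {M : Subgroup (G3 K)} (spl : ∀ g ∈ M, g.val.charpoly.Splits)
    (nsc : ∀ g ∈ M, ∀ c : K, g.val = c • 1 → g = 1) (ntv : ∀ g ∈ M, ∀ v φ, g.val = 1 + vecMulVec v φ → g = 1)
    (m1 : d1 ∈ M) {τ s : G3 K} (mτ : τ ∈ M) (ms : s ∈ LL M) {p q r u v w : K}
    (eτ : τ.val = !![0, p, 0; 0, 0, q; r, 0, 0]) (es : s.val = !![0, u, 0; v, 0, 0; 0, 0, w]) :
    (∃ a b c : K, a ≠ 0 ∧ b ≠ 0 ∧ c ≠ 0 ∧ (∀ m ∈ LL M, m.valᵀ * !![a, 0, 0; 0, b, 0; 0, 0, c] * m.val = !![a, 0, 0; 0, b, 0; 0, 0, c]) ∧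
      ∀ m ∈ M, ∃ μ : K, m.valᵀ * !![a, 0, 0; 0, b, 0; 0, 0, c] * m.val = μ • !![a, 0, 0; 0, b, 0; 0, 0, c]) ∨
    ∀ x ∈ LL M, x ^ 4 = 1 ∨ x ^ 5 = 1 ∨ x ^ 6 = 1 ∨ x ^ 7 = 1 := by
  have hL := LL_le m1
  have m2 : d2 ∈ LL M := tau_d1 eτ ▸ LL_conj mτ LL_d1
  have dτ := τ.det_ne_zero
  have ds := s.det_ne_zero
  simp [eτ, es, det_fin_three] at dτ ds
  obtain ⟨t, et⟩ : ∃ t : G3 K, t = τ * s * τ⁻¹ := ⟨_, rfl⟩
  have mt : t ∈ LL M := et ▸ LL_conj mτ ms
  have et' : t.val = !![0, 0, p * v / r; 0, w, 0; r * u / p, 0, 0] := by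
    have : t.val * τ.val = !![0, 0, p * v / r; 0, w, 0; r * u / p, 0, 0] * τ.val := by
      rw [et, ← Units.val_mul, inv_mul_cancel_right, Units.val_mul, eτ, es]
      ext i j; fin_cases i <;> fin_cases j <;> simp [mul_apply, Fin.sum_univ_three] <;> grind
    simpa [mul_assoc] using congrArg (· * (τ⁻¹).val) this
  have hp : ⁅LL M, LL M⁆ = LL M := by
    refine le_antisymm (Subgroup.commutator_le.2 fun x hx y hy => ?_) ((Subgroup.closure_le _).2 ?_)
    · exact mul_mem (mul_mem (mul_mem hx hy) (inv_mem hx)) (inv_mem hy)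
    · rintro _ ⟨m, hm, rfl⟩
      have := Subgroup.commutator_mem_commutator (LL_conj hm ms) (LL_conj hm m2)
      have e : s * d2 * s⁻¹ = d1 * d2 := mul_inv_eq_iff_eq_mul.2 (Units.ext (by simp [es, d1v, d2v]))
      rwa [show ⁅m * s * m⁻¹, m * d2 * m⁻¹⁆ = m * (s * d2 * s⁻¹ * d2⁻¹) * m⁻¹ by group, e,
        mul_inv_cancel_right] at this
  have hi : Irr (LL M) := by
    intro W hW
    by_contra! hc
    obtain ⟨x, hx, x0⟩ := (Submodule.ne_bot_iff _).1 hc.1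
    have key : ∀ i j, Pi.single i 1 ∈ W → Pi.single j 1 ∈ W := by
      have k : ∀ g ∈ LL M, ∀ i j (c : K), c ≠ 0 → g.val *ᵥ Pi.single i 1 = c • Pi.single j (1 : K) → Pi.single i 1 ∈ W →
          Pi.single j 1 ∈ W := fun g hg i j c hc e h => (W.smul_mem_iff hc).1 (e ▸ hW g hg _ h)
      have a1 := k s ms 0 1 v (by grind) (by ext i; fin_cases i <;> simp [es])
      have a2 := k s ms 1 0 u (by grind) (by ext i; fin_cases i <;> simp [es])
      have a3 := k t mt 0 2 (r * u / p) (by grind) (by ext i; fin_cases i <;> simp [et'])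
      have a4 := k t mt 2 0 (p * v / r) (by grind) (by ext i; fin_cases i <;> simp [et'])
      intro i j
      fin_cases i <;> fin_cases j <;> simp only [Fin.zero_eta, Fin.mk_one, Fin.reduceFinMk] <;> tauto
    obtain ⟨i, hi⟩ := Function.ne_iff.1 x0
    have : Pi.single i 1 ∈ W := by
      have k : ∀ g ∈ LL M, g.val *ᵥ x + x = (2 * x i) • Pi.single i (1 : K) → Pi.single i 1 ∈ W := fun g hg e =>
        (W.smul_mem_iff (mul_ne_zero h2 hi)).1 (e ▸ add_mem (hW g hg x hx) hx)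
      fin_cases i
      · exact k _ (mul_mem LL_d1 m2) (by ext i; fin_cases i <;> simp [d1v, d2v, vecHead, vecTail, two_mul])
      · exact k _ m2 (by ext i; fin_cases i <;> simp [d2v, vecHead, vecTail, two_mul])
      · exact k _ LL_d1 (by ext i; fin_cases i <;> simp [d1v, vecHead, vecTail, two_mul])
    refine hc.2 (eq_top_iff.2 fun y _ => ?_)
    rw [pi_eq_sum_univ' y]
    exact sum_mem fun j _ => W.smul_mem _ (key i j this)
  have tv : ∀ (Q : G3 K) (v φ : Fin 3 → K) (h : (1 + vecMulVec v φ).det = 1), vecMulVec v φ ≠ 0 →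
      Q * mk1 _ h * Q⁻¹ ∉ LL M := fun Q v φ h h0 hm => by
    have := ntv _ (hL hm) (Q.val *ᵥ v) (φ ᵥ* (Q⁻¹).val) (by
      rw [← cj_coe, mk1_val, map_add, map_one, cj_apply, Matrix.mul_vecMulVec, Matrix.vecMulVec_mul])
    have e := congrArg Units.val (show mk1 _ h = 1 by simpa [mul_inv_eq_one] using this)
    exact h0 (by simpa using e)
  have dc : ∀ (Q : G3 K) (X : M3 K) (h : X.det = 1), (Q * mk1 X h * Q⁻¹).val.det = 1 ∧
      cj Q⁻¹ (Q * mk1 X h * Q⁻¹).val = X := fun Q X h =>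
    ⟨by rw [Units.val_mul, Units.val_mul, det_units_conj, mk1_val, h], by rw [← cj_coe, Asch.cj_inv_cj, mk1_val]⟩
  have fin : ∀ {H : Type} [Group H] (e : bar (LL M) ≃* H), (∀ x : H, x ^ 4 = 1 ∨ x ^ 5 = 1 ∨ x ^ 6 = 1 ∨ x ^ 7 = 1) →
      ∀ x ∈ LL M, x ^ 4 = 1 ∨ x ^ 5 = 1 ∨ x ^ 6 = 1 ∨ x ^ 7 = 1 := fun e h x hx => by
    have k : ∀ n : ℕ, e ⟨_, mem_bar hx⟩ ^ n = 1 → x ^ n = 1 := fun n hn => by
      rw [← map_pow, map_eq_one_iff _ e.injective] at hn
      obtain ⟨c, hc⟩ := pr_eq_one'.1 ((map_pow _ _ _).trans (congrArg Subtype.val hn))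
      exact nsc _ (pow_mem (hL hx) n) c hc
    exact (h _).imp (k 4) (Or.imp (k 5) (Or.imp (k 6) (k 7)))
  rcases Cfsg.Agent.MH.main K (LL M) hp hi (fun g hg => spl g (hL hg)) with ⟨E, Q, -, h⟩ |
    ⟨E, q, Q, -, hE, h⟩ | ⟨-, B, h1, h0, h⟩ | h | ⟨⟨e⟩⟩ | ⟨-, ⟨e⟩⟩
  · refine (tv Q ![1, 0, 0] ![0, 1, 0] (by simp [vmv, det_fin_three]) (fun e => by
      have := congrFun (congrFun e 0) 1; simp [vecMulVec_apply] at this) ((h _).2 ⟨(dc _ _ _).1, ?_⟩)).elim
    rw [(dc _ _ _).2]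
    intro i j
    fin_cases i <;> fin_cases j <;> simp [vecMulVec_apply]
  · obtain ⟨v, φ, a, b, c⟩ := su_tv hE
    have e : 1 + vecMulVec (E.subtype ∘ v) (E.subtype ∘ φ) = (1 + vecMulVec v φ).map E.subtype := by
      ext i j; simp [vecMulVec_apply, one_apply, apply_ite]
    refine (tv Q (E.subtype ∘ v) (E.subtype ∘ φ) (by
      rw [e, ← RingHom.mapMatrix_apply, ← RingHom.map_det, b, map_one]) (fun e => a (by
        ext i j; simpa [vecMulVec_apply] using congrFun (congrFun e i) j)) ((h _).2 ⟨(dc _ _ _).1, ?_⟩)).elim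
    rw [(dc _ _ _).2, e]
    refine ⟨over_map _, ?_⟩
    have := congrArg (·.map E.subtype) c
    simp only [Matrix.map_mul, Matrix.map_one _ (map_zero _) (map_one _)] at this
    convert this using 2
    · rfl
    · ext i j; simp
  · left
    have dg : ∀ B : M3 K, (∀ g ∈ LL M, g.valᵀ * B * g.val = B) → B = !![B 0 0, 0, 0; 0, B 1 1, 0; 0, 0, B 2 2] ∧
        B 0 0 = v * v * B 1 1 ∧ B 0 0 = r * u / p * (r * u / p) * B 2 2 := fun B h => by
      have a := congrFun₂ (h _ LL_d1)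
      have b := congrFun₂ (h _ m2)
      have c := congrFun₂ (h _ ms) 0 0
      have d := congrFun₂ (h _ mt) 0 0
      simp [Fin.forall_fin_succ, d1v, d2v, es, et', mul_apply, Fin.sum_univ_three, vecMul, dotProduct] at a b c d
      refine ⟨?_, by grind, by grind⟩
      ext i j; fin_cases i <;> fin_cases j <;> simp <;> grind
    obtain ⟨e, e1, e2⟩ := dg B h
    rw [e, det_fin_three] at h0
    simp at h0
    refine ⟨B 0 0, B 1 1, B 2 2, by grind, by grind, by grind, e ▸ h, fun m hm => ?_⟩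
    rw [← e]
    obtain ⟨f, f1, f2⟩ := dg (m.valᵀ * B * m.val) fun g hg => by
      have := h _ (LL_conj hm hg)
      have e1 : (m * g * m⁻¹).val * m.val = m.val * g.val := by rw [← Units.val_mul, inv_mul_cancel_right, Units.val_mul]
      conv_rhs => rw [← this]
      rw [show m.valᵀ * ((m * g * m⁻¹).valᵀ * B * (m * g * m⁻¹).val) * m.val = ((m * g * m⁻¹).val * m.val)ᵀ * B *
        ((m * g * m⁻¹).val * m.val) by simp only [transpose_mul, mul_assoc], e1]
      simp only [transpose_mul, mul_assoc]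
    refine ⟨(m.valᵀ * B * m.val) 0 0 / B 0 0, ?_⟩
    generalize m.valᵀ * B * m.val = C at *
    generalize B 0 0 = a, B 1 1 = b, B 2 2 = c, C 0 0 = a', C 1 1 = b', C 2 2 = c' at *
    rw [f, e]
    ext i j; fin_cases i <;> fin_cases j <;> simp <;> grind
  · obtain ⟨e⟩ := exists_pi8 hp h
    refine .inr (fin e fun x => ?_)
    simp only [Subtype.ext_iff, SubgroupClass.coe_pow, OneMemClass.coe_one]
    have k : ∀ g y : Equiv.Perm (Fin 8), x.1 * g = g * y → y ^ 7 = 1 → x.1 ^ 7 = 1 := fun g y a b => by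
      rw [eq_mul_inv_of_mul_eq a, conj_pow, b]; simp
    rcases x8_elt x.2 with ⟨h | h, -⟩ | ⟨g, -, h | h⟩
    · exact .inr (.inr (.inl (by rw [← one_pow 2, ← h, ← pow_mul])))
    · exact .inl h
    · exact .inr (.inr (.inr (k _ _ h (by decide))))
    · exact .inr (.inr (.inr (k _ _ h (by decide))))
  · refine .inr (fin ((pqEquiv _).symm.trans e) fun x => ?_)
    simp only [Subtype.ext_iff, SubgroupClass.coe_pow, OneMemClass.coe_one]
    rcases (a6_elt x.2).1 with h | h | h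
    · exact .inr (.inr (.inl (by rw [← one_pow 2, ← h, ← pow_mul])))
    · exact .inl h
    · exact .inr (.inl h)
  · refine .inr (fin ((pqEquiv _).symm.trans e) fun x => ?_)
    simp only [Subtype.ext_iff, SubgroupClass.coe_pow, OneMemClass.coe_one]
    exact (a7_elt x.2).1

end Cfsg.Agent.H7.Lw3
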