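import Cfsg.Agent.H7.LwH

set_option autoImplicit false

/-! The wreathed and the semidihedral configurations in dimension three. -/

namespace Cfsg.Agent.H7.Lw3
open Cfsg Matrix Cfsg.Agent.Asch Cfsg.Agent.H5.MH

variable {K : Type*} [Field K]

theorem conj_val {g x : G3 K} {Y : M3 K} (h : g.val * x.val = Y * g.val) : (g * x * g⁻¹).val = Y := by
  rw [Units.val_mul, Units.val_mul, h, mul_assoc, Units.mul_inv, mul_one]

theorem wr [Finite K] (h2 : (2 : K) ≠ 0) {M : Subgroup (G3 K)} (spl : ∀ g ∈ M, g.val.charpoly.Splits)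
    (nsc : ∀ g ∈ M, ∀ c : K, g.val = c • 1 → g = 1) (ntv : ∀ g ∈ M, ∀ v φ, g.val = 1 + vecMulVec v φ → g = 1)
    (m1 : d1 ∈ M) {τ s d : G3 K} (mτ : τ ∈ M) (ms : s ∈ LL M) (md : d ∈ M) {p q r u v x y z : K}
    (eτ : τ.val = !![0, p, 0; 0, 0, q; r, 0, 0]) (es : s.val = !![0, u, 0; v, 0, 0; 0, 0, -1]) (huv : u * v = 1)
    (ed : d.val = !![x, 0, 0; 0, y, 0; 0, 0, z]) (hxy : x * x = -(y * y)) : False := by
  have dd := d.det_ne_zero
  simp [ed, det_fin_three] at dd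
  obtain ⟨j, hj, hj'⟩ : ∃ j, j * j = -1 ∧ j * y = x := ⟨x / y, by grind, by grind⟩
  have mk : d * s * d⁻¹ * s ∈ LL M := mul_mem (LL_conj md ms) ms
  have ek : (d * s * d⁻¹ * s).val = !![j, 0, 0; 0, -j, 0; 0, 0, 1] := by
    rw [Units.val_mul, conj_val (Y := !![0, j * u, 0; -j * v, 0, 0; 0, 0, -1]) (by
      rw [ed, es]; ext a b; fin_cases a <;> fin_cases b <;> simp <;> grind), es]
    ext a b; fin_cases a <;> fin_cases b <;> simp <;> grind
  generalize d * s * d⁻¹ * s = k at mk ek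
  rcases mt h2 spl nsc ntv m1 mτ ms eτ es with ⟨a, b, c, ha, -, -, h, -⟩ | h
  · have := congrFun₂ (h k mk) 0 0
    simp [ek, mul_apply, Fin.sum_univ_three] at this
    grind
  · have mX := mul_mem ms (LL_conj mτ mk)
    have e1 : (s * (τ * k * τ⁻¹)).val = !![0, u, 0; -j * v, 0, 0; 0, 0, -j] := by
      rw [Units.val_mul, conj_val (Y := !![-j, 0, 0; 0, 1, 0; 0, 0, j]) (by
        rw [eτ, ek]; ext a b; fin_cases a <;> fin_cases b <;> simp <;> grind), es]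
      ext a b; fin_cases a <;> fin_cases b <;> simp <;> grind
    generalize s * (τ * k * τ⁻¹) = X at mX e1
    have e4 : (X ^ 4).val = !![-1, 0, 0; 0, -1, 0; 0, 0, 1] := by
      simp only [pow_succ, pow_zero, one_mul, Units.val_mul, e1]
      ext a b; fin_cases a <;> fin_cases b <;> simp <;> grind
    rcases h X mX with h | h | h | h <;> have h := congrArg Units.val h
    · have := congrFun₂ (e4.symm.trans h) 0 0
      simp at this; grind
    · rw [pow_succ, Units.val_mul, e4, e1] at h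
      simpa using congrFun₂ h 0 0
    · rw [pow_succ, pow_succ, Units.val_mul, Units.val_mul, e4, e1] at h
      have := congrFun₂ h 2 2
      simp at this; grind
    · rw [pow_succ, pow_succ, pow_succ, Units.val_mul, Units.val_mul, Units.val_mul, e4, e1] at h
      simpa using congrFun₂ h 0 0

theorem sd_word {α β γ m n h : K} (h1 : 2 * h = 1) (h2 : α * α = -h) (h3 : β * γ = h) (h4 : m * n = 1) {X : M3 K}
    (e : X = !![-α, β, 0; -α * γ, -h, m * γ; n * h, -α * β * n, -α]) :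
    ¬ (X ^ 4 = 1 ∨ X ^ 5 = 1 ∨ X ^ 6 = 1 ∨ X ^ 7 = 1) := by
  have k : ∀ (i : ℕ) (a b c a' b' c' : K), ![1, 0, 0] ᵥ* X ^ i = ![a, b, c] →
      (a' = -α * a - α * γ * b + n * h * c ∧ b' = β * a - h * b - α * β * n * c ∧ c' = m * γ * b - α * c) →
      ![1, 0, 0] ᵥ* X ^ (i + 1) = ![a', b', c'] := fun i a b c a' b' c' e1 ⟨e2, e3, e4⟩ => by
    rw [pow_succ, ← vecMul_vecMul, e1, e, e2, e3, e4]
    ext j; fin_cases j <;> simp [vecHead, vecTail] <;> ring
  have r1 := k 0 1 0 0 (-α) β 0 (by simp) (by simp)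
  have r2 := k _ _ _ _ (-(1 + α) * h) (-(h + α) * β) (h * m) r1 (by grind)
  have r3 := k _ _ _ _ ((3 * α - 1) * h ^ 2) (-(1 + 2 * α) * h ^ 2 * β) (-(h ^ 2 + α) * m) r2 (by grind)
  have r4 := k _ _ _ _ ((1 - α) * h ^ 3) ((10 * α - 5) * h ^ 3 * β) (-5 * h ^ 3 * m) r3 (by grind)
  have r5 := k _ _ _ _ ((3 * α - 1) * h ^ 4) ((7 - 2 * α) * h ^ 4 * β) ((20 * α - 5) * h ^ 4 * m) r4 (by grind)
  have r6 := k _ _ _ _ ((15 * α - 3) * h ^ 5) ((11 + 18 * α) * h ^ 5 * β) ((27 + 8 * α) * h ^ 5 * m) r5 (by grind)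
  have r7 := k _ _ _ _ ((51 + 3 * α) * h ^ 6) (-(9 + 42 * α) * h ^ 6 * β) ((19 - 36 * α) * h ^ 6 * m) r6 (by grind)
  have f : ∀ (i : ℕ) (a b c : K), ![1, 0, 0] ᵥ* X ^ i = ![a, b, c] → X ^ i = 1 → a = 1 ∧ b = 0 ∧ c = 0 :=
    fun i a b c e1 e2 => by
    rw [e2, vecMul_one] at e1
    exact ⟨(congrFun e1 0).symm, (congrFun e1 1).symm, (congrFun e1 2).symm⟩
  have q : 2 * α ^ 2 + 1 = 0 := by linear_combination 2 * h2 - h1
  have h0 : h ≠ 0 := right_ne_zero_of_mul_eq_one h1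
  have t0 : (2 : K) ≠ 0 := left_ne_zero_of_mul_eq_one h1
  have b0 : β ≠ 0 := left_ne_zero_of_mul (h3 ▸ h0)
  have m0 : m ≠ 0 := left_ne_zero_of_mul_eq_one h4
  have A : ∀ {x : K} {i : ℕ}, x * h ^ i = 1 → x = 2 ^ i := fun {x i} e => by
    rw [← mul_one x, ← one_pow i, ← h1, mul_pow, mul_left_comm, e, mul_one]
  have B : ∀ {x y : K} {i : ℕ}, y ≠ 0 → x * h ^ i * y = 0 → x = 0 := fun {x y i} hy e => by simpa [hy, h0] using e
  rintro (h | h | h | h)
  · obtain ⟨a, b, c⟩ := f _ _ _ _ r4 h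
    exact one_ne_zero (α := K) (by
      linear_combination (4 - 2*α) * A a - (2 + 4*α) * B b0 b + (2*α) * B m0 c + 19*q)
  · obtain ⟨a, b, c⟩ := f _ _ _ _ r5 h
    exact pow_ne_zero 2 t0 (by linear_combination (-2 - 2*α) * B b0 b - (2*α) * B m0 c + 18*q)
  · obtain ⟨a, b, c⟩ := f _ _ _ _ r6 h
    exact one_ne_zero (α := K) (by
      linear_combination (2 - 4*α) * A a - (1 + 4*α) * B b0 b - (4*α) * B m0 c + 82*q)
  · obtain ⟨a, b, c⟩ := f _ _ _ _ r7 h
    exact pow_ne_zero 4 t0 (by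
      linear_combination (-2 - 2*α) * A a + (2*α) * B b0 b - (1 + 2*α) * B m0 c + 9*q)

theorem sd [Finite K] (h2 : (2 : K) ≠ 0) {M : Subgroup (G3 K)} (spl : ∀ g ∈ M, g.val.charpoly.Splits)
    (nsc : ∀ g ∈ M, ∀ c : K, g.val = c • 1 → g = 1) (ntv : ∀ g ∈ M, ∀ v φ, g.val = 1 + vecMulVec v φ → g = 1)
    (m1 : d1 ∈ M) {τ s y : G3 K} (mτ : τ ∈ M) (ms : s ∈ LL M) (my : y ∈ M) (my2 : y * y ∈ LL M) {p q r u v α β γ : K}
    (eτ : τ.val = !![0, p, 0; 0, 0, q; r, 0, 0]) (es : s.val = !![0, u, 0; v, 0, 0; 0, 0, -1]) (huv : u * v = 1)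
    (ey : y.val = !![α, β, 0; γ, α, 0; 0, 0, -1]) (hd : α * α - β * γ = -1) (h4 : y ^ 4 ≠ 1)
    (h8 : ∀ n : ℕ, n = 4 ∨ n = 5 ∨ n = 6 ∨ n = 7 → (y * y) ^ n = 1 → y ^ 4 = 1 ∨ y ^ 4 = d1) : False := by
  rcases mt h2 spl nsc ntv m1 mτ ms eτ es with ⟨a, b, c, ha, hb, hc, -, h⟩ | h
  · obtain ⟨μ, h⟩ := h y my
    have h := congrFun₂ h
    simp [Fin.forall_fin_succ, ey, mul_apply, Fin.sum_univ_three] at h
    have h0 : α = 0 := by grind
    refine h4 (Units.ext ?_)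
    simp only [pow_succ, pow_zero, one_mul, Units.val_mul, ey, h0]
    ext a b; fin_cases a <;> fin_cases b <;> simp <;> grind
  · have e4 : y ^ 4 = d1 := by
      rcases h _ my2 with h | h | h | h <;> exact (h8 _ (by simp) h).resolve_left h4
    have e : y.val * y.val * y.val * y.val = d1.val := by rw [← e4]; simp [pow_succ]
    replace e := congrFun₂ e
    simp [Fin.forall_fin_succ, ey, d1v] at e
    have dτ := τ.det_ne_zero
    simp [eτ, det_fin_three] at dτ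
    have mt := LL_conj mτ ms
    have et : (τ * s * τ⁻¹).val = !![0, 0, p * v / r; 0, -1, 0; r * u / p, 0, 0] := conj_val (by
      rw [eτ, es]; ext i j; fin_cases i <;> fin_cases j <;> simp <;> grind)
    obtain ⟨m, n, hm, et⟩ : ∃ m n, m * n = 1 ∧ (τ * s * τ⁻¹).val = !![0, 0, m; 0, -1, 0; n, 0, 0] :=
      ⟨_, _, by grind, et⟩
    generalize τ * s * τ⁻¹ = t at mt et
    have h1 : 2 * (2 : K)⁻¹ = 1 := mul_inv_cancel₀ h2
    generalize (2 : K)⁻¹ = k at h1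
    have a1 : α * α = -k := by grind
    have a2 : β * γ = k := by grind
    refine sd_word h1 a1 a2 hm (X := (t * (y * t * y⁻¹) * d1).val) ?_ ?_
    · rw [Units.val_mul, Units.val_mul, conj_val (Y := !![-k, α * β, -α * m; -α * γ, -k, -γ * m; α * n, -β * n, 0]) (by
        rw [ey, et]; ext i j; fin_cases i <;> fin_cases j <;> simp <;> grind), et, d1v]
      ext i j; fin_cases i <;> fin_cases j <;> simp <;> grind
    · simpa only [Units.ext_iff, Units.val_pow_eq_pow_val, Units.val_one] using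
        h _ (mul_mem (mul_mem mt (LL_conj my mt)) LL_d1)

end Cfsg.Agent.H7.Lw3
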