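import Cfsg.Agent.H7.LwG
import Cfsg.Agent.H7.LwF

set_option autoImplicit false

/-! The action of the centraliser of an involution on the two eigenspaces. -/

namespace Cfsg.Agent.H7.Lw
open Cfsg Matrix Subgroup Cfsg.Agent.Asch Cfsg.Agent.H2.M4 Cfsg.Agent.H7.M4 Cfsg.Agent.MH Cfsg.Agent.H4.Mob

variable {K : Type*} [Field K] {P : Subgroup (G4 K)}

def Bk (X : M4 K) : Prop :=
  X 0 2 = 0 ∧ X 0 3 = 0 ∧ X 1 2 = 0 ∧ X 1 3 = 0 ∧ X 2 0 = 0 ∧ X 2 1 = 0 ∧ X 3 0 = 0 ∧ X 3 1 = 0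

theorem bk_of (h2 : (2 : K) ≠ 0) {G : G4 K} (a : Tw 1 (pr G) (pr D1)) : Bk G.val := by
  have := congrFun₂ (blk h2 a.lift)
  exact ⟨this 0 2, this 0 3, this 1 2, this 1 3, this 2 0, this 2 1, this 3 0, this 3 1⟩

def IJ (i j : Fin 4) : Prop := (i = 0 ∧ j = 1) ∨ (i = 2 ∧ j = 3)

def B2 (i j : Fin 4) (X : M4 K) : Matrix (Fin 2) (Fin 2) K := !![X i i, X i j; X j i, X j j]

theorem B2_mul {i j : Fin 4} (hij : IJ i j) {X : M4 K} (hX : Bk X) (Y : M4 K) : B2 i j (X * Y) = B2 i j X * B2 i j Y := by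
  obtain ⟨a, b, c, d, e, f, g, h⟩ := hX
  rcases hij with ⟨rfl, rfl⟩ | ⟨rfl, rfl⟩ <;> simp [B2, mul_apply, Fin.sum_univ_four, *]

theorem B2_one {i j : Fin 4} (hij : IJ i j) : B2 i j (1 : M4 K) = 1 := by
  rcases hij with ⟨rfl, rfl⟩ | ⟨rfl, rfl⟩ <;> simp [B2, one_fin_two]

theorem nil2 {N N' : Matrix (Fin 2) (Fin 2) K} (h : IsNilpotent N) (h' : IsNilpotent N')
    (e : IsNilpotent ((1 + N) * (1 + N') - 1)) : N * N' = 0 := by
  have k : ∀ N : Matrix (Fin 2) (Fin 2) K, IsNilpotent N → N.trace = 0 ∧ N.det = 0 := fun N h =>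
    ⟨(isNilpotent_trace_of_isNilpotent h).eq_zero, by
      obtain ⟨n, hn⟩ := h
      have := congrArg Matrix.det hn
      rw [det_pow, det_zero] at this
      exact pow_eq_zero_iff'.1 this |>.1⟩
  obtain ⟨a, b⟩ := k N h
  obtain ⟨c, d⟩ := k N' h'
  have e := (k _ e).1
  simp [trace_fin_two, det_fin_two, mul_apply, Fin.sum_univ_two, one_apply] at a b c d e
  ext i j
  fin_cases i <;> fin_cases j <;> refine pow_eq_zero_iff (n := 2) (by simp) |>.1 ?_ <;>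
    simp only [mul_apply, Fin.sum_univ_two, Fin.zero_eta, Fin.mk_one] <;> grind

/-- the centraliser of `D1` in `P` -/
def CD (P : Subgroup (G4 K)) : Subgroup (G4 K) := P ⊓ centralizer {D1}

theorem CD.tw (G : CD P) : Tw 1 (pr G.1) (pr D1) :=
  tw_of (by simpa using congrArg Units.val (mem_centralizer_singleton_iff.1 G.2.2))

theorem exl {G : G4 K} (m : pr G ∈ bar P) (a : Tw 1 (pr G) (pr D1)) : ∃ y : CD P, pr y.1 = pr G := by
  obtain ⟨y, hy, e⟩ := m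
  exact ⟨⟨y, hy, mem_centralizer_singleton_iff.2 (Units.ext (by simpa using Tw.lift (G := y) (c := (1 : K)) (e ▸ a)))⟩, e⟩

def ψ2 (h2 : (2 : K) ≠ 0) {i j : Fin 4} (hij : IJ i j) : CD P →* Matrix (Fin 2) (Fin 2) K where
  toFun G := B2 i j G.1.val
  map_one' := B2_one hij
  map_mul' G H := B2_mul hij (bk_of h2 (CD.tw G)) _

noncomputable def φ2 (h2 : (2 : K) ≠ 0) {i j : Fin 4} (hij : IJ i j) : CD P →* PG K :=
  ProjGenLinGroup.mk.comp (ψ2 h2 hij).toHomUnits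

theorem φ2_eq (h2 : (2 : K) ≠ 0) {i j : Fin 4} (hij : IJ i j) (G : CD P) :
    ∃ h, φ2 h2 hij G = mob (G.1.val i i) (G.1.val i j) (G.1.val j i) (G.1.val j j) h := ⟨_, mk_eq_mob _⟩

def π2 (P : Subgroup (G4 K)) : CD P →* bar P := (pr.comp (CD P).subtype).codRestrict _ fun G => mem_bar G.2.1

variable [Finite K]

theorem smu (h : Hy P) {i j : Fin 4} (hij : IJ i j) : SmU (φ2 (P := P) h.two hij).range := by
  intro u hu v hv u1 e1 e2 hc
  have hp := CharP.char_is_prime K (ringChar K)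
  have := Fact.mk hp
  obtain ⟨R, hR, k⟩ := lift_p (φ2 (P := P) h.two hij) hp (pgroup_pair (k := 1) (l := 1) (by simpa) (by simpa) hc)
    ((closure_le _).2 (by rintro _ (rfl | rfl) <;> assumption))
  obtain ⟨x, hx, rfl⟩ := k u (subset_closure (by simp))
  obtain ⟨y, hy, rfl⟩ := k v (subset_closure (by simp))
  have nil : ∀ {i j} (hij : IJ i j), ∀ x ∈ R, IsNilpotent (ψ2 h.two hij x - 1) := fun hij x hx => by
    obtain ⟨n, hn⟩ := hR ⟨x, hx⟩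
    refine ⟨ringChar K ^ n, ?_⟩
    rw [sub_pow_char_pow_of_commute _ _ (Commute.one_right _), ← map_pow, show x ^ _ = 1 from congrArg Subtype.val hn]
    simp
  have key : ∀ x ∈ R, ∀ y ∈ R, (x.1.val - 1) * (y.1.val - 1) = 0 := fun x hx y hy => by
    have k := fun {i j} (hij : IJ i j) => congrFun₂ (nil2 (nil hij x hx) (nil hij y hy)
      (by simpa using nil hij _ (mul_mem hx hy)))
    have k1 := k (.inl ⟨rfl, rfl⟩)
    have k2 := k (.inr ⟨rfl, rfl⟩)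
    obtain ⟨a1, a2, a3, a4, a5, a6, a7, a8⟩ := bk_of h.two (CD.tw x)
    obtain ⟨b1, b2, b3, b4, b5, b6, b7, b8⟩ := bk_of h.two (CD.tw y)
    simp [Fin.forall_fin_two, ψ2, B2, mul_apply, Fin.sum_univ_two, one_apply] at k1 k2
    ext i j
    fin_cases i <;> fin_cases j <;> simp [mul_apply, Fin.sum_univ_four, one_apply, *]
  obtain ⟨h3, hs⟩ := h.sq x.1 x.2.1 (fun e => u1 (by rw [show x = 1 from Subtype.ext e, map_one]))
    (by rw [pow_two, key x hx x hx])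
  obtain ⟨n, hn⟩ := hs y.1 y.2.1 (key y hy x hx) (key x hx y hy)
  exact ⟨h3, n, by rw [show y = x ^ n from Subtype.ext hn.symm, map_zpow]⟩

/-- the Sylow subgroup acts diagonally on the block -/
def Dg (S : Subgroup (bar P)) (i j : Fin 4) : Prop :=
  ∀ s ∈ S, ∀ G : G4 K, pr G = s.1 → G.val i j = 0 ∧ G.val j i = 0

theorem nf4 (h : Hy P) {i j : Fin 4} (hij : IJ i j) {S : Sylow 2 (bar P)} {a : bar P} (ea : a.1 = pr D1)
    (ns : (gs h).NS a) (ha : ∀ s ∈ S, a * s = s * a) (hS : Dg S.1 i j) {u v : PG K} (hu : u ∈ (φ2 (P := P) h.two hij).range)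
    (hv : v ∈ (φ2 (P := P) h.two hij).range) (iu : Inv u) (iv : Inv v) (hc : u * v = v * u) : u = v := by
  obtain ⟨R, hR, k⟩ := lift_p (φ2 (P := P) h.two hij) Nat.prime_two (pgroup_pair (k := 1) (l := 1) (by simpa [pow_two] using iu.2)
    (by simpa [pow_two] using iv.2) hc) ((closure_le _).2 (by rintro _ (rfl | rfl) <;> assumption))
  obtain ⟨x, hx, rfl⟩ := k u (subset_closure (by simp))
  obtain ⟨y, hy, rfl⟩ := k v (subset_closure (by simp))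
  obtain ⟨c, hc, e⟩ := ext_conj Nat.prime_two S (C := (gs h).C0 a) (H := R.map (π2 P)) (fun s hs => ns s (ha s hs).symm)
    (by rintro _ ⟨x, -, rfl⟩; exact (show Tw 1 _ a.1 from ea ▸ (CD.tw x))) (hR.map _)
  obtain ⟨C, hC⟩ := pr_surj c.1
  obtain ⟨d, hd⟩ := exl (hC ▸ c.2) (hC ▸ ea ▸ hc)
  have key : ∀ x ∈ R, Inv (φ2 h.two hij x) → φ2 h.two hij (d * x * d⁻¹) = mob (-1) 0 0 1 (by simp) := fun x hx ix => by
    obtain ⟨e1, e2⟩ := hS _ (e _ ⟨x, hx, rfl⟩) (d * x * d⁻¹).1 (by simp [hd, hC, π2])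
    have i2 : Inv (φ2 h.two hij (d * x * d⁻¹)) := by simpa using ix.conj _
    obtain ⟨k, e3⟩ := φ2_eq h.two hij (d * x * d⁻¹)
    rw [e3] at i2 ⊢
    obtain ⟨i1, i2⟩ := i2
    rw [mob_mul, mob_eq_one] at i2
    rw [Ne, mob_eq_one] at i1
    refine (mob_eq_mob.2 ⟨(d * x * d⁻¹).1.val j j, ?_⟩).symm
    generalize (d * x * d⁻¹).1.val = X at *
    grind
  simpa using (key x hx iu).trans (key y hy iv).symm

theorem mem_rg (h : Hy P) {i j : Fin 4} (hij : IJ i j) {G : G4 K} (m : pr G ∈ bar P) (a : Tw 1 (pr G) (pr D1)) :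
    ∃ k, mob (G.val i i) (G.val i j) (G.val j i) (G.val j j) k ∈ (φ2 (P := P) h.two hij).range := by
  obtain ⟨y, hy⟩ := exl m a
  obtain ⟨c, hc⟩ := pr_eq_iff.1 hy
  obtain ⟨k, e⟩ := φ2_eq h.two hij y
  refine ⟨fun e => k (by rw [hc]; simp only [Matrix.smul_apply, smul_eq_mul]; linear_combination c * c * e), y, e.trans ?_⟩
  exact (mob_eq_mob.2 ⟨c, by simp [hc]⟩).symm

theorem mono (h : Hy P) {i j : Fin 4} (hij : IJ i j) {S : Sylow 2 (bar P)} {a : bar P} (ea : a.1 = pr D1)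
    (ns : (gs h).NS a) (ha : ∀ s ∈ S, a * s = s * a) (m2 : pr D2 ∈ bar P) {X : G4 K} (mX : pr X ∈ bar P) {v : Fin 4 → K}
    (eX : X.val = diagonal v) (hr : v i ^ 2 ≠ v j ^ 2) (h4 : v i ^ 4 ≠ v j ^ 4 ∨ Dg S.1 i j) {G : G4 K}
    (m : pr G ∈ bar P) (t : Tw 1 (pr G) (pr D1)) :
    (G.val i j = 0 ∧ G.val j i = 0) ∨ (G.val i i = 0 ∧ G.val j j = 0 ∧ ¬ Dg S.1 i j) := by
  have ne : i ≠ j := by rcases hij with ⟨rfl, rfl⟩ | ⟨rfl, rfl⟩ <;> simp
  obtain ⟨k1, m1⟩ := mem_rg h hij mX (tw_of (by simp [eX, D1_val, mul_comm]))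
  obtain ⟨k2, m2⟩ := mem_rg h hij m2 (tw_of (by simp [D2_val, D1_val, mul_comm]))
  obtain ⟨k3, m3⟩ := mem_rg h hij m t
  have v0 : v j ≠ 0 := fun e => k1 (by simp [eX, e, ne])
  have v1 : v i ≠ 0 := fun e => k1 (by simp [eX, e, ne])
  rw [(mob_eq_mob (a' := v i / v j) (b' := 0) (c' := 0) (d' := 1) (h' := by simp [v0, v1])).2
    ⟨(v j)⁻¹, by simp [eX, ne, ne.symm, v0, div_eq_inv_mul]⟩] at m1
  rw [mob_congr (a' := -1) (b' := 0) (c' := 0) (d' := 1) (h' := by simp) (by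
    rcases hij with ⟨rfl, rfl⟩ | ⟨rfl, rfl⟩ <;> rfl) (by simp [D2_val, ne]) (by simp [D2_val, ne.symm]) (by
    rcases hij with ⟨rfl, rfl⟩ | ⟨rfl, rfl⟩ <;> rfl)] at m2
  rcases dk2 h.two (smu h hij) m1 m2 (by rwa [div_pow, Ne, div_eq_one_iff_eq (pow_ne_zero _ v0)]) with
    H | ⟨e, u, hu, w, hw, iu, iw, hn, hc⟩
  · refine (H _ _ _ _ _ m3).imp_right fun ⟨e1, e2⟩ => ⟨e1, e2, fun hS => ?_⟩
    have := nf4 h hij ea ns ha hS m2 m3 ⟨by rw [Ne, mob_eq_one]; exact fun e => ne1 h.two e.2.2.symm,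
      by rw [mob_mul, mob_eq_one]; simp⟩ ⟨by rw [Ne, mob_eq_one]; exact fun e => k3 (by simp [e1, e.1]),
      by rw [mob_mul, mob_eq_one]; simp [e1, e2, mul_comm]⟩ (by
        rw [mob_mul, mob_mul, mob_eq_mob]; exact ⟨-1, by simp [e1, e2]⟩)
    obtain ⟨u, h1, h2, -⟩ := mob_eq_mob.1 this
    exact k3 (by simp [e1, h2])
  · rw [div_pow, div_eq_one_iff_eq (pow_ne_zero _ v0)] at e
    exact (hn (nf4 h hij ea ns ha (h4.resolve_left fun f => f e) hu hw iu iw hc)).elim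

end Cfsg.Agent.H7.Lw
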