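import Cfsg.Agent.H7.LwJ
import Cfsg.Agent.H7.LwI

set_option autoImplicit false

/-! The standard frame of a four-group whose involutions have no swappers. -/

namespace Cfsg.Agent.H7.Lw
open Cfsg Matrix Subgroup Cfsg.Agent.Asch Cfsg.Agent.H2.M4 Cfsg.Agent.H7.M4 Cfsg.Agent.MH

variable {K : Type*} [Field K] {P : Subgroup (G4 K)}

/-- `X` is a matrix representing `g` -/
def Rep (g : bar P) (X : M4 K) : Prop := ∃ G : G4 K, pr G = g.1 ∧ G.val = X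

namespace Rep
variable {g k : bar P} {X Y Z : M4 K}

theorem ex (g : bar P) : ∃ X, Rep g X := (pr_surj g.1).elim fun G h => ⟨_, G, h, rfl⟩
theorem one : Rep (1 : bar P) 1 := ⟨1, map_one _, rfl⟩
theorem mul (a : Rep g X) (b : Rep k Y) : Rep (g * k) (X * Y) := by
  obtain ⟨G, a, rfl⟩ := a
  obtain ⟨H, b, rfl⟩ := b
  exact ⟨G * H, by rw [map_mul, a, b]; rfl, rfl⟩
theorem pow (a : Rep g X) (n : ℕ) : Rep (g ^ n) (X ^ n) := by
  obtain ⟨G, a, rfl⟩ := a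
  exact ⟨G ^ n, by rw [map_pow, a]; rfl, by simp⟩
theorem smul (a : Rep g X) {c : K} (hc : c ≠ 0) : Rep g (c • X) := by
  obtain ⟨G, a, rfl⟩ := a
  exact ⟨sc c hc * G, by rw [map_mul, pr_eq_one.2 (sc_mem c hc), one_mul, a], by simp⟩
theorem of (a : Rep g X) (e : X = Y) : Rep g Y := e ▸ a
theorem conj (a : Rep g X) (b : Rep k Y) (e : X * Y = Z * X) : Rep (g * k * g⁻¹) Z := by
  obtain ⟨G, a, rfl⟩ := a
  obtain ⟨H, b, rfl⟩ := b
  exact ⟨G * H * G⁻¹, by rw [map_mul, map_mul, map_inv, a, b]; rfl, by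
    rw [Units.val_mul, Units.val_mul, e, mul_assoc, Units.mul_inv, mul_one]⟩
theorem eq (a : Rep g X) (b : Rep k X) : g = k := by
  obtain ⟨G, a, rfl⟩ := a
  obtain ⟨H, b, e⟩ := b
  exact Subtype.ext (by rw [← a, ← b, Units.ext e])
theorem uniq (a : Rep g X) (b : Rep g Y) : ∃ c : K, c ≠ 0 ∧ X = c • Y := by
  obtain ⟨G, a, rfl⟩ := a
  obtain ⟨H, b, rfl⟩ := b
  obtain ⟨c, e⟩ := pr_eq_iff.1 (a.trans b.symm)
  exact ⟨c, ne_zero_of_eq_smul e, e⟩
theorem uniq' (a : Rep g X) (b : Rep g Y) (h1 : X 3 3 = 1) (h2 : Y 3 3 = 1) : X = Y := by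
  obtain ⟨c, -, e⟩ := a.uniq b
  have : c = 1 := by simpa [e, h2] using h1
  simp [e, this]
theorem det (a : Rep g X) : X.det ≠ 0 := by
  obtain ⟨G, -, rfl⟩ := a
  exact G.det_ne_zero
theorem tw {c : K} (a : Rep g X) (b : Rep k Y) : Tw c g.1 k.1 ↔ X * Y = c • (Y * X) := by
  obtain ⟨G, a, rfl⟩ := a
  obtain ⟨H, b, rfl⟩ := b
  rw [← a, ← b]
  exact ⟨Tw.lift, tw_of⟩
theorem cm (h : Hy P) (a : Rep g X) (b : Rep k Y) : (gs h).cm g k ↔ X * Y = Y * X := (a.tw b).trans (by simp)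
theorem per (h : Hy P) {c : K} {v φ : Fin 4 → K} (a : Rep g (c • (1 + vecMulVec v φ))) : g = 1 := by
  obtain ⟨G, a, e⟩ := a
  exact Subtype.ext (a ▸ h.per.bar (a ▸ g.2) e)
end Rep

def dg (x y z : K) : M4 K := !![x, 0, 0, 0; 0, y, 0, 0; 0, 0, z, 0; 0, 0, 0, 1]
def sw (u v w : K) : M4 K := !![0, u, 0, 0; v, 0, 0, 0; 0, 0, w, 0; 0, 0, 0, 1]

theorem dg_one : dg (1 : K) 1 1 = 1 := by ext i j; fin_cases i <;> fin_cases j <;> simp [dg]
theorem dg_mul (x y z x' y' z' : K) : dg x y z * dg x' y' z' = dg (x * x') (y * y') (z * z') := by simp [dg]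
theorem dg_diag (x y z : K) : dg x y z = diagonal ![x, y, z, 1] := by ext i j; fin_cases i <;> fin_cases j <;> simp [dg]
theorem dg_pw (x y z : K) (n : ℕ) : dg x y z ^ n = dg (x ^ n) (y ^ n) (z ^ n) := by
  induction n with
  | zero => simp [dg_one]
  | succ n ih => rw [pow_succ, ih, dg_mul]; simp [pow_succ]

theorem Rep.dg_ne {g : bar P} {x y z : K} (a : Rep g (dg x y z)) : x ≠ 0 ∧ y ≠ 0 ∧ z ≠ 0 := by
  simpa [dg_diag, Fin.prod_univ_four, and_assoc] using a.det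

theorem Rep.sw_ne {g : bar P} {x y z : K} (a : Rep g (sw x y z)) : x ≠ 0 ∧ y ≠ 0 ∧ z ≠ 0 := by
  have := (a.mul a).of (Y := dg (x * y) (x * y) (z * z)) (by simp [dg, sw, mul_comm]) |>.dg_ne
  grind

theorem Rep.dg_inj {g : bar P} {x y z x' y' z' : K} (a : Rep g (dg x y z)) (b : Rep g (dg x' y' z')) :
    x = x' ∧ y = y' ∧ z = z' := by
  have := congrFun₂ (a.uniq' b rfl rfl)
  exact ⟨this 0 0, this 1 1, this 2 2⟩

theorem Rep.hom (h : Hy P) {g : bar P} {x : K} (a : Rep g (dg x x x)) : x = 1 := by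
  have x0 := a.dg_ne.1
  have := (a.of (Y := x • (1 + vecMulVec ![0, 0, 0, 1] ![0, 0, 0, x⁻¹ - 1])) (by
    ext i j; fin_cases i <;> fin_cases j <;> simp [dg, vecMulVec_apply, x0])).per h
  exact ((this ▸ a).dg_inj (Rep.one.of dg_one.symm)).1

/-- the standard position -/
structure St (P : Subgroup (G4 K)) where
  h : Hy P
  a : bar P
  b : bar P
  c : bar P
  τ : bar P
  ea : a.1 = pr D1
  eb : b.1 = pr D2
  F : (gs h).Fg a b c
  ns : (gs h).NS a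
  p : K
  q : K
  r : K
  rτ : Rep τ !![0, p, 0, 0; 0, 0, q, 0; r, 0, 0, 0; 0, 0, 0, 1]

namespace St
variable (s : St P)

theorem ra : Rep s.a (dg (-1) (-1) 1) := ⟨D1, s.ea.symm, by rw [dg_diag]; rfl⟩
theorem rb : Rep s.b (dg (-1) 1 (-1)) := ⟨D2, s.eb.symm, by rw [dg_diag]; rfl⟩
theorem rc : Rep s.c (dg 1 (-1) (-1)) := s.F.e ▸ (s.ra.mul s.rb).of (by simp [dg_mul])

theorem tc {g : bar P} {x y z : K} (a : Rep g (dg x y z)) : Rep (s.τ * g * s.τ⁻¹) (dg y z x) :=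
  s.rτ.conj a (by simp [dg, mul_comm])

theorem τa : s.τ * s.a * s.τ⁻¹ = s.b := (s.tc s.ra).eq s.rb
theorem τb : s.τ * s.b * s.τ⁻¹ = s.c := (s.tc s.rb).eq s.rc
theorem τc : s.τ * s.c * s.τ⁻¹ = s.a := (s.tc s.rc).eq s.ra
theorem nb : (gs s.h).NS s.b := s.ns.conj (s.τa ▸ isConj_mk _ _)
theorem nc : (gs s.h).NS s.c := s.nb.conj (s.τb ▸ isConj_mk _ _)

abbrev T0 (g : bar P) : Prop := (gs s.h).T0 s.a s.b s.c g

theorem t0 {g : bar P} {x y z : K} (a : Rep g (dg x y z)) : s.T0 g :=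
  ⟨(a.cm _ s.ra).2 (by simp [dg_mul]), (a.cm _ s.rb).2 (by simp [dg_mul]), (a.cm _ s.rc).2 (by simp [dg_mul])⟩

include s in
theorem prod {g : bar P} {x y z : K} (a : Rep g (dg x y z)) : x * y * z = 1 :=
  (((a.mul (s.tc a)).mul (s.tc (s.tc a))).of (Y := dg (x * y * z) (x * y * z) (x * y * z))
    (by rw [dg_mul, dg_mul]; congr 1 <;> ring)).hom s.h

variable {s}

theorem T0.ex {g : bar P} (t : s.T0 g) : ∃ x y z, Rep g (dg x y z) := by
  obtain ⟨X, a⟩ := Rep.ex g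
  have e := diag_of s.h.two (G := X) ((a.tw ⟨D1, s.ea.symm, rfl⟩).1 t.1) ((a.tw ⟨D2, s.eb.symm, rfl⟩).1 t.2.1)
  have d := a.det
  rw [e, det_diagonal, Fin.prod_univ_four] at d
  have x0 : X 3 3 ≠ 0 := right_ne_zero_of_mul d
  refine ⟨X 0 0 / X 3 3, X 1 1 / X 3 3, X 2 2 / X 3 3, (a.smul (inv_ne_zero x0)).of ?_⟩
  rw [e]
  ext i j; fin_cases i <;> fin_cases j <;> simp [dg, x0, div_eq_inv_mul]

theorem T0.tau {g : bar P} (t : s.T0 g) : s.T0 (s.τ * g * s.τ⁻¹) := by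
  obtain ⟨x, y, z, a⟩ := t.ex
  exact s.t0 (s.tc a)

theorem memE {g : bar P} {x y z : K} (a : Rep g (dg x y z)) (hx : x * x = 1) (hy : y * y = 1) (hz : z * z = 1) :
    g = 1 ∨ g = s.a ∨ g = s.b ∨ g = s.c :=
  s.F.mem (s.t0 a) (((a.mul a).of (by rw [dg_mul, hx, hy, hz, dg_one])).eq Rep.one)

theorem swap {g : bar P} (h1 : g * s.a = s.a * g) (h2 : g * s.b * g⁻¹ = s.c) : ∃ u v w, Rep g (sw u v w) := by
  obtain ⟨X, a⟩ := Rep.ex g
  have e1 := (a.cm _ s.ra).1 (s.ns g h1)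
  have e2 := ((a.mul s.rτ).cm _ s.rb).1 (s.nb _ (by
    have : g * s.c * g⁻¹ = s.b := by
      rw [← s.F.e, ← conj_mul, h2, h1, mul_inv_cancel_right, ← s.F.e, ← mul_assoc, s.F.ia.2, one_mul]
    rw [← mul_inv_eq_iff_eq_mul, conj2, s.τb, this]))
  have d := a.det
  have dτ := s.rτ.det
  have e1 := congrFun₂ e1
  have e2 := congrFun₂ e2
  simp [det_succ_row_zero, Fin.sum_univ_succ, Fin.succAbove] at dτ
  simp [Fin.forall_fin_succ, dg, mul_apply, Fin.sum_univ_four] at e1 e2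
  have h2 := s.h.two
  have e : X = !![0, X 0 1, 0, 0; X 1 0, 0, 0, 0; 0, 0, X 2 2, 0; 0, 0, 0, X 3 3] := by
    ext i j; fin_cases i <;> fin_cases j <;> simp <;> grind
  have x0 : X 3 3 ≠ 0 := fun e0 => d (by
    rw [e]; simp [det_succ_row_zero, Fin.sum_univ_succ, Fin.succAbove, e0])
  refine ⟨X 0 1 / X 3 3, X 1 0 / X 3 3, X 2 2 / X 3 3, (a.smul (inv_ne_zero x0)).of ?_⟩
  rw [e]
  ext i j; fin_cases i <;> fin_cases j <;> simp [sw, x0, div_eq_inv_mul]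

end St

/-- the embedding of `3 × 3` matrices -/
def e4 (X : Matrix (Fin 3) (Fin 3) K) : M4 K :=
  reindex finSumFinEquiv finSumFinEquiv (fromBlocks X 0 0 (1 : Matrix (Fin 1) (Fin 1) K))

theorem e4_ex (a b c d e f g h i : K) :
    e4 !![a, b, c; d, e, f; g, h, i] = !![a, b, c, 0; d, e, f, 0; g, h, i, 0; 0, 0, 0, 1] := by
  ext i j; fin_cases i <;> fin_cases j <;> rfl

theorem e4_mul (X Y : Matrix (Fin 3) (Fin 3) K) : e4 (X * Y) = e4 X * e4 Y := by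
  simp [e4, fromBlocks_multiply]

theorem e4_one : e4 (1 : Matrix (Fin 3) (Fin 3) K) = 1 := by simp [e4]

theorem e4_inj {X Y : Matrix (Fin 3) (Fin 3) K} (h : e4 X = e4 Y) : X = Y :=
  (fromBlocks_inj.1 ((reindex _ _).injective h)).1

theorem e4_33 (X : Matrix (Fin 3) (Fin 3) K) : e4 X 3 3 = 1 := rfl

theorem splits_smul4 {X : M4 K} (h : X.charpoly.Splits) {c : K} (hc : c ≠ 0) : (c • X).charpoly.Splits := by
  have : (c • X).charpoly = Polynomial.C (c ^ 4) * X.charpoly.comp (Polynomial.C c⁻¹ * Polynomial.X) := by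
    have h1 : X.charpoly.comp (Polynomial.C c⁻¹ * Polynomial.X) =
        ((Polynomial.compRingHom (Polynomial.C c⁻¹ * Polynomial.X)).mapMatrix X.charmatrix).det :=
      RingHom.map_det (Polynomial.compRingHom (Polynomial.C c⁻¹ * Polynomial.X)) X.charmatrix
    rw [h1, map_pow, show Polynomial.C c ^ 4 = Polynomial.C c ^ Fintype.card (Fin 4) from rfl, ← Matrix.det_smul,
      Matrix.charpoly]
    congr 1
    ext1 i j
    by_cases e : i = j
    · subst e; simp [mul_sub, ← mul_assoc, ← map_mul, hc]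
    · simp [e]
  rw [this]
  exact (h.comp_of_natDegree_le_one ((Polynomial.natDegree_C_mul_le _ _).trans Polynomial.natDegree_X_le)).C_mul _

/-- the three dimensional group -/
def M3 (P : Subgroup (G4 K)) : Subgroup (GL (Fin 3) K) where
  carrier := {m | ∃ g : bar P, Rep g (e4 m.val)}
  one_mem' := ⟨1, Rep.one.of e4_one.symm⟩
  mul_mem' := fun ⟨g, a⟩ ⟨k, b⟩ => ⟨g * k, (a.mul b).of (e4_mul _ _).symm⟩
  inv_mem' := fun {m} ⟨g, G, a, e⟩ => ⟨g⁻¹, G⁻¹, by rw [map_inv, a]; rfl, Units.inv_eq_of_mul_eq_one_right (by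
    rw [e, ← e4_mul, Units.mul_inv, e4_one])⟩

/-- the stabiliser of the last point and hyperplane -/
def Ms (P : Subgroup (G4 K)) : Subgroup (bar P) where
  carrier := {g | ∃ m : GL (Fin 3) K, Rep g (e4 m.val)}
  one_mem' := ⟨1, Rep.one.of e4_one.symm⟩
  mul_mem' := fun ⟨g, a⟩ ⟨k, b⟩ => ⟨g * k, (a.mul b).of (e4_mul _ _).symm⟩
  inv_mem' := fun {g} ⟨m, G, a, e⟩ => ⟨m⁻¹, G⁻¹, by rw [map_inv, a]; rfl, Units.inv_eq_of_mul_eq_one_right (by
    rw [e, ← e4_mul, Units.mul_inv, e4_one])⟩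

theorem Rep.lift {g : bar P} {X : Matrix (Fin 3) (Fin 3) K} (a : Rep g (e4 X)) :
    ∃ m ∈ M3 P, m.val = X ∧ Rep g (e4 m.val) := by
  have d : X.det ≠ 0 := by simpa [e4] using a.det
  exact ⟨GeneralLinearGroup.mkOfDetNeZero X d, ⟨g, a⟩, rfl, a⟩

theorem Rep.inj3 {g : bar P} {m n : GL (Fin 3) K} (a : Rep g (e4 m.val)) (b : Rep g (e4 n.val)) : m = n :=
  Units.ext (e4_inj (a.uniq' b rfl rfl))

theorem Rep.mul3 {g k : bar P} {m n : GL (Fin 3) K} (a : Rep g (e4 m.val)) (b : Rep k (e4 n.val)) :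
    Rep (g * k) (e4 (m * n).val) := (a.mul b).of (e4_mul _ _).symm

theorem Rep.conj3 {g k : bar P} {m n : GL (Fin 3) K} (a : Rep g (e4 m.val)) (b : Rep k (e4 n.val)) :
    Rep (g * k * g⁻¹) (e4 (m * n * m⁻¹).val) := a.conj b (by
  rw [← e4_mul, ← e4_mul, ← Units.val_mul, ← Units.val_mul, inv_mul_cancel_right])

theorem Rep.pow3 {g : bar P} {m : GL (Fin 3) K} (a : Rep g (e4 m.val)) (n : ℕ) : Rep (g ^ n) (e4 (m ^ n).val) := by
  induction n with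
  | zero => simpa [e4_one] using Rep.one
  | succ n ih => rw [pow_succ, pow_succ]; exact ih.mul3 a

theorem m3_spl (h : Hy P) : ∀ g ∈ M3 P, g.val.charpoly.Splits := by
  rintro m ⟨⟨_, y, hy, rfl⟩, a⟩
  obtain ⟨c, hc, e⟩ := a.uniq ⟨y, rfl, rfl⟩
  have := splits_smul4 (h.spl y hy) hc
  rw [← e, e4, charpoly_reindex, charpoly_fromBlocks_zero₁₂] at this
  exact this.of_dvd (mul_ne_zero (charpoly_monic _).ne_zero (charpoly_monic _).ne_zero) (dvd_mul_right _ _)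

theorem m3_nsc (h : Hy P) : ∀ g ∈ M3 P, ∀ c : K, g.val = c • 1 → g = 1 := by
  rintro m ⟨g, a⟩ c e
  have := (a.of (Y := dg c c c) (by rw [e, one_fin_three]; simp [e4_ex, dg])).hom h
  exact Units.ext (by simp [e, this])

theorem m3_ntv (h : Hy P) : ∀ g ∈ M3 P, ∀ v φ, g.val = 1 + vecMulVec v φ → g = 1 := by
  rintro m ⟨g, a⟩ v φ e
  have := (a.of (Y := (1 : K) • (1 + vecMulVec ![v 0, v 1, v 2, 0] ![φ 0, φ 1, φ 2, 0])) (by
    rw [e, show v = ![v 0, v 1, v 2] by ext i; fin_cases i <;> rfl, show φ = ![φ 0, φ 1, φ 2] by ext i; fin_cases i <;> rfl,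
      Lw3.vmv, e4_ex]
    ext i j; fin_cases i <;> fin_cases j <;> simp [vecMulVec_apply])).per h
  exact (this ▸ a).inj3 (Rep.one.of e4_one.symm)

end Cfsg.Agent.H7.Lw
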