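import Cfsg.Agent.H7.LwK

set_option autoImplicit false

/-! Matrix facts in the standard frame. -/

namespace Cfsg.Agent.H7.Lw
open Cfsg Matrix Subgroup Cfsg.Agent.Asch Cfsg.Agent.H2.M4 Cfsg.Agent.H7.M4 Cfsg.Agent.MH

variable {K : Type*} [Field K] {P : Subgroup (G4 K)}

namespace St
variable {s : St P} {g t x y w : bar P}

abbrev E (s : St P) (g : bar P) : Prop := g = 1 ∨ g = s.a ∨ g = s.b ∨ g = s.c

theorem bc (s : St P) : s.b ≠ s.c := fun e => s.F.ia.1 (by simpa [← e] using s.F.e)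

theorem rot3 (a : s.T0 t) {p : K → K → K → Prop} (h : ∀ x y z, Rep t (dg x y z) → p x y z ∨ p y z x ∨ p z x y) :
    ∃ (t' : bar P) (x y z : K), Rep t' (dg x y z) ∧ p x y z ∧ ∀ n : ℕ, t ^ n = 1 → t' ^ n = 1 := by
  obtain ⟨x, y, z, r⟩ := a.ex
  rcases h x y z r with h | h | h
  · exact ⟨_, _, _, _, r, h, fun _ e => e⟩
  · exact ⟨_, _, _, _, s.tc r, h, fun _ e => by rw [conj_pow, e]; simp⟩
  · exact ⟨_, _, _, _, s.tc (s.tc r), h, fun _ e => by rw [conj_pow, conj_pow, e]; simp⟩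

theorem ex_z (a : s.T0 t) (h : ¬ s.E t) :
    ∃ (t' : bar P) (x y z : K), Rep t' (dg x y z) ∧ z * z ≠ 1 ∧ ∀ n : ℕ, t ^ n = 1 → t' ^ n = 1 :=
  rot3 a (p := fun _ _ z => z * z ≠ 1) fun x y z r => by
    by_contra! hc
    exact h (memE r hc.2.1 hc.2.2 hc.1)

theorem ex_xy (a : s.T0 t) (h : ¬ s.E t) :
    ∃ (t' : bar P) (x y z : K), Rep t' (dg x y z) ∧ x * x ≠ y * y ∧ ∀ n : ℕ, t ^ n = 1 → t' ^ n = 1 :=
  rot3 a (p := fun x y _ => x * x ≠ y * y) fun x y z r => by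
    by_contra! hc
    have := ((r.mul r).of (Y := dg (x * x) (x * x) (x * x)) (by rw [dg_mul, ← hc.1, hc.2.2])).hom s.h
    exact h (memE r this (hc.1 ▸ this) (hc.2.2 ▸ this))

theorem pw {x y z : K} {n : ℕ} (r : Rep t (dg x y z)) (e : t ^ n = 1) : x ^ n = 1 ∧ y ^ n = 1 ∧ z ^ n = 1 :=
  ((r.pow n).of (dg_pw _ _ _ _)).dg_inj (e ▸ Rep.one.of dg_one.symm)

theorem dg23 {S : Subgroup (bar P)} (ha : ∀ g ∈ S, s.a * g = g * s.a) (h : ∀ g ∈ S, s.T0 g ∨ g * s.b * g⁻¹ = s.c) :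
    Dg S 2 3 := fun g hg G e => by
  rcases h g hg with h | h
  · obtain ⟨x, y, z, r⟩ := h.ex
    obtain ⟨c, -, e⟩ := Rep.uniq ⟨G, e, rfl⟩ r
    simp [e, dg]
  · obtain ⟨x, y, z, r⟩ := swap (ha g hg).symm h
    obtain ⟨c, -, e⟩ := Rep.uniq ⟨G, e, rfl⟩ r
    simp [e, sw]

theorem dg01 {S : Subgroup (bar P)} (h : ∀ g ∈ S, s.T0 g) : Dg S 0 1 := fun g hg G e => by
  obtain ⟨x, y, z, r⟩ := (h g hg).ex
  obtain ⟨c, -, e⟩ := Rep.uniq ⟨G, e, rfl⟩ r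
  simp [e, dg]

theorem t0' (h1 : (gs s.h).cm g s.a) (h2 : (gs s.h).cm g s.b) : s.T0 g :=
  ⟨h1, h2, s.F.e ▸ (gs s.h).cm_symm ((gs s.h).cc ((gs s.h).cm_symm h1) ((gs s.h).cm_symm h2))⟩

theorem swi (h1 : g * s.a = s.a * g) (h2 : g * s.b * g⁻¹ = s.c) (h3 : g * g = 1) :
    ∃ u v, u * v = 1 ∧ Rep g (sw u v (-1)) := by
  obtain ⟨u, v, w, r⟩ := swap h1 h2
  obtain ⟨e1, -, e2⟩ := ((r.mul r).of (Y := dg (u * v) (u * v) (w * w)) (by simp [dg, sw, mul_comm])).dg_inj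
    (h3 ▸ Rep.one.of dg_one.symm)
  rcases mul_self_eq_one_iff.1 e2 with rfl | rfl
  · have := (r.of (Y := (1 : K) • (1 + vecMulVec ![1, -v, 0, 0] ![-1, u, 0, 0])) (by
      ext i j; fin_cases i <;> fin_cases j <;> simp [sw, mul_comm v, e1])).per s.h
    exact (s.bc (by simpa [this] using h2)).elim
  · exact ⟨u, v, e1, r⟩

theorem sqx (h1 : x * s.a = s.a * x) (h2 : x * s.b * x⁻¹ = s.c) :
    x * (s.τ * (x * x) * s.τ⁻¹) * (x * (s.τ * (x * x) * s.τ⁻¹)) = 1 := by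
  obtain ⟨u, v, w, r⟩ := swap h1 h2
  have r2 := (r.mul r).of (Y := dg (u * v) (u * v) (w * w)) (by simp [dg, sw, mul_comm])
  have := s.prod r2
  refine (((r.mul (s.tc r2)).mul (r.mul (s.tc r2))).of ?_).eq Rep.one
  ext i j; fin_cases i <;> fin_cases j <;> simp [dg, sw] <;> grind

theorem odd_c (a : s.T0 t) (h1 : t ≠ 1) {n : ℕ} (hn : Odd n) (e : t ^ n = 1) (h : g * t = t * g) :
    (gs s.h).cm g s.a ∨ (gs s.h).cm g s.b ∨ (gs s.h).cm g s.c := by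
  obtain ⟨x, y, z, r⟩ := a.ex
  obtain ⟨X, rg⟩ := Rep.ex g
  obtain ⟨c, hc⟩ := exists_tw (congrArg Subtype.val h)
  have e1 := (rg.tw r).1 hc
  have c4 : c ^ 4 = 1 := by
    have := congrArg det e1
    rw [det_smul, det_mul, det_mul, mul_comm (det X)] at this
    exact mul_right_cancel₀ (mul_ne_zero r.det rg.det) (this.symm.trans (one_mul _).symm)
  have cn : c ^ n = 1 := by
    have k : ∀ n : ℕ, X * dg x y z ^ n = c ^ n • (dg x y z ^ n * X) := fun n => by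
      induction n with
      | zero => simp
      | succ n ih => rw [pow_succ, ← mul_assoc, ih, Matrix.smul_mul, mul_assoc, e1]; simp [smul_smul, pow_succ, mul_assoc]
    obtain ⟨e1, e2, e3⟩ := pw r e
    have := k n
    rw [dg_pw, e1, e2, e3, dg_one, mul_one, one_mul] at this
    obtain ⟨G, -, rfl⟩ := rg
    exact smul_inj' (this.symm.trans (one_smul _ _).symm)
  have c1 : c = 1 := by
    simpa [Nat.Coprime.gcd_eq_one ((Nat.coprime_two_left.2 hn).pow_left 2)] using pow_gcd_eq_one.2 ⟨c4, cn⟩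
  have h3 : ¬ (x = y ∧ y = z) := fun ⟨f1, f2⟩ => by
    subst f1 f2
    exact h1 ((r.of (by rw [r.hom s.h, dg_one])).eq Rep.one)
  have h4 := s.prod r
  have e1 := congrFun₂ e1
  simp [Fin.forall_fin_succ, dg_diag, c1] at e1
  rw [rg.cm _ s.ra, rg.cm _ s.rb, rg.cm _ s.rc]
  have : (x ≠ z ∧ x ≠ 1 ∧ y ≠ z ∧ y ≠ 1) ∨ (x ≠ y ∧ x ≠ 1 ∧ z ≠ y ∧ z ≠ 1) ∨ (x ≠ y ∧ x ≠ z ∧ y ≠ 1 ∧ z ≠ 1) := by grind
  refine this.imp (fun h => ?_) (Or.imp (fun h => ?_) fun h => ?_) <;> ext i j <;> fin_cases i <;> fin_cases j <;>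
    simp [dg_diag] <;> grind

theorem scal {h : bar P} {u v x z x' z' : K} (huv : u * v = 1) (rw : Rep w (sw u v (-1))) (e : g * w * g⁻¹ = s.a)
    (r : Rep h (dg x x z)) (r' : Rep (g * h * g⁻¹) (dg x' x' z')) : x = 1 := by
  obtain ⟨G, eG⟩ := pr_surj g.1
  have k : ∀ {k : bar P} {X : M4 K}, Rep k X → Rep (g * k * g⁻¹) (cj G X) := fun a =>
    Rep.conj ⟨G, eG, rfl⟩ a (cj_mul_self _ _).symm
  obtain ⟨c, -, e1⟩ := (e ▸ k rw).uniq s.ra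
  obtain ⟨μ, -, e2⟩ := (k r).uniq r'
  have c2 : c * c = 1 := by
    have : cj G (sw u v (-1) * sw u v (-1)) = 1 := by
      rw [← map_one (cj G)]; congr 1; ext i j; fin_cases i <;> fin_cases j <;> simp [sw, huv, mul_comm v]
    rw [map_mul, e1] at this
    simpa [dg] using congrFun₂ this 3 3
  have e3 : dg x x z * (1 - c • sw u v (-1)) = (μ * x') • (1 - c • sw u v (-1)) := (cj G).injective (by
    simp only [map_mul, map_sub, map_smul, map_one, e1, e2, smul_smul, c2, one_smul]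
    rw [← dg_one]
    ext i j; fin_cases i <;> fin_cases j <;> simp [dg])
  have a0 := congrFun₂ e3 0 0
  have a2 := congrFun₂ e3 2 2
  have a3 := congrFun₂ e3 3 3
  simp [dg, sw, mul_apply, Fin.sum_univ_four, one_apply] at a0 a2 a3
  have h2 := s.h.two
  by_contra hx
  have : z = x := by grind
  exact hx ((this ▸ r).hom s.h)

theorem r3a (s : St P) : Rep s.a (e4 (Lw3.d1 : GL (Fin 3) K).val) := s.ra.of (e4_ex _ _ _ _ _ _ _ _ _).symm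
theorem r3b (s : St P) : Rep s.b (e4 (Lw3.d2 : GL (Fin 3) K).val) := s.rb.of (e4_ex _ _ _ _ _ _ _ _ _).symm
theorem τ_mem (s : St P) : s.τ ∈ Ms P := (s.rτ.of (e4_ex _ _ _ _ _ _ _ _ _).symm).lift.elim fun m h => ⟨m, h.2.2⟩

variable [Finite K] {S : Sylow 2 (bar P)}

theorem mono' (ha : ∀ g ∈ S, s.a * g = g * s.a) {i j : Fin 4} (hij : IJ i j) {x y z : K} (r : Rep t (dg x y z))
    (hr : ![x, y, z, 1] i ^ 2 ≠ ![x, y, z, 1] j ^ 2) (h4 : ![x, y, z, 1] i ^ 4 ≠ ![x, y, z, 1] j ^ 4 ∨ Dg S.1 i j)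
    {X : M4 K} (rg : Rep g X) (h : g * s.a = s.a * g) :
    Bk X ∧ ((X i j = 0 ∧ X j i = 0) ∨ (X i i = 0 ∧ X j j = 0 ∧ ¬ Dg S.1 i j)) := by
  obtain ⟨T, eT, vT⟩ := r
  obtain ⟨G, eG, rfl⟩ := rg
  have := s.ns g h
  have tw : Tw 1 (pr G) (pr D1) := by rw [eG, ← s.ea]; exact this
  exact ⟨bk_of s.h.two tw, mono s.h hij s.ea s.ns ha (s.eb ▸ s.b.2) (eT ▸ t.2) (vT.trans (dg_diag _ _ _)) hr h4 (eG ▸ g.2) tw⟩

theorem cms (ha : ∀ g ∈ S, s.a * g = g * s.a) (a : s.T0 t) (h : ¬ s.E t) (hS : Dg S.1 2 3) (e : g * s.a = s.a * g) :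
    g ∈ Ms P := by
  obtain ⟨t', x, y, z, r, hz, -⟩ := ex_z a h
  obtain ⟨X, rg⟩ := Rep.ex g
  obtain ⟨⟨a1, a2, a3, a4, a5, a6, a7, a8⟩, h⟩ := mono' ha (.inr ⟨rfl, rfl⟩) r (by simpa [pow_two] using hz) (.inr hS) rg e
  obtain ⟨a9, a10⟩ := h.resolve_right fun h => h.2.2 hS
  have x0 : X 3 3 ≠ 0 := fun e0 => rg.det (det_eq_zero_of_row_eq_zero 3 fun j => by fin_cases j <;> assumption)
  obtain ⟨m, -, -, rm⟩ := ((rg.smul (inv_ne_zero x0)).of (Y := e4 !![X 0 0 / X 3 3, X 0 1 / X 3 3, 0;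
    X 1 0 / X 3 3, X 1 1 / X 3 3, 0; 0, 0, X 2 2 / X 3 3]) (by
      rw [e4_ex]; ext i j; fin_cases i <;> fin_cases j <;> simp [div_eq_inv_mul, *])).lift
  exact ⟨m, rm⟩

theorem ct0 (ha : ∀ g ∈ S, s.a * g = g * s.a) (a : s.T0 t) (h : ¬ s.E t) (hS : ∀ g ∈ S, s.T0 g) (e : g * s.a = s.a * g) :
    s.T0 g := by
  obtain ⟨t', x, y, z, r, hz, -⟩ := ex_z a h
  obtain ⟨t'', x', y', z', r', hz', -⟩ := ex_xy a h
  obtain ⟨X, rg⟩ := Rep.ex g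
  have S1 := dg23 ha fun g hg => .inl (hS g hg)
  have S2 := dg01 hS
  obtain ⟨⟨a1, a2, a3, a4, a5, a6, a7, a8⟩, h⟩ := mono' ha (.inr ⟨rfl, rfl⟩) r (by simpa [pow_two] using hz) (.inr S1) rg e
  obtain ⟨a9, a10⟩ := h.resolve_right fun h => h.2.2 S1
  obtain ⟨b9, b10⟩ := (mono' ha (.inl ⟨rfl, rfl⟩) r' (by simpa [pow_two] using hz') (.inr S2) rg e).2.resolve_right
    fun h => h.2.2 S2
  refine t0' (s.ns g e) ((rg.cm _ s.rb).2 ?_)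
  ext i j; fin_cases i <;> fin_cases j <;> simp [dg_diag, *]

theorem odd_mono (ha : ∀ g ∈ S, s.a * g = g * s.a) (a : s.T0 t) (h : ¬ s.E t) {n : ℕ} (hn : Odd n) (en : t ^ n = 1)
    (e : g * s.a = s.a * g) : s.T0 g ∨ g * s.b * g⁻¹ = s.c := by
  obtain ⟨t', x, y, z, r, hz, e1⟩ := ex_z a h
  obtain ⟨t'', x', y', z', r', hz', e2⟩ := ex_xy a h
  obtain ⟨X, rg⟩ := Rep.ex g
  have k : ∀ c : K, c ^ n = 1 → c ^ 4 = 1 → c = 1 := fun c cn c4 => by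
    simpa [Nat.Coprime.gcd_eq_one ((Nat.coprime_two_left.2 hn).pow_left 2)] using pow_gcd_eq_one.2 ⟨c4, cn⟩
  obtain ⟨⟨a1, a2, a3, a4, a5, a6, a7, a8⟩, h⟩ := mono' ha (.inr ⟨rfl, rfl⟩) r (by simpa [pow_two] using hz)
    (.inl fun e => hz (by simp [k z (pw r (e1 n en)).2.2 (by simpa using e)])) rg e
  have h' := (mono' ha (.inl ⟨rfl, rfl⟩) r' (by simpa [pow_two] using hz') (.inl fun e => hz' (by
    have y0 := r'.dg_ne.2.1
    obtain ⟨p1, p2, -⟩ := pw r' (e2 n en)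
    rw [(div_eq_one_iff_eq y0).1 (k (x' / y') (by rw [div_pow, p1, p2, div_one]) (by
      rw [div_pow, div_eq_one_iff_eq (pow_ne_zero _ y0)]; simpa using e))])) rg e).2
  rcases h with ⟨b1, b2⟩ | ⟨b1, b2, -⟩ <;> rcases h' with ⟨b3, b4⟩ | ⟨b3, b4, -⟩
  · refine .inl (t0' (s.ns g e) ((rg.cm _ s.rb).2 ?_))
    ext i j; fin_cases i <;> fin_cases j <;> simp [dg_diag, a1, a2, a3, a4, a5, a6, a7, a8, b1, b2, b3, b4]
  · refine .inr ((rg.conj s.rb ?_).eq s.rc)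
    ext i j; fin_cases i <;> fin_cases j <;> simp [dg_diag, a1, a2, a3, a4, a5, a6, a7, a8, b1, b2, b3, b4]
  · refine .inr ((rg.conj s.rb ?_).eq (s.rc.smul (c := -1) (neg_ne_zero.2 one_ne_zero)))
    rw [neg_smul, one_smul, Matrix.neg_mul]
    ext i j; fin_cases i <;> fin_cases j <;> simp [dg_diag, a1, a2, a3, a4, a5, a6, a7, a8, b1, b2, b3, b4]
  · have : (gs s.h).an g s.b := (rg.tw s.rb).2 (by
      ext i j; fin_cases i <;> fin_cases j <;> simp [dg_diag, a1, a2, a3, a4, a5, a6, a7, a8, b1, b2, b3, b4])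
    exact ((gs s.h).excl (s.nb g ((gs s.h).an_comm this)) this).elim

theorem wr4 {m : bar P} (hm : m ∈ Ms P) {u v x y z : K} (huv : u * v = 1) (rw : Rep (m * s.a * m⁻¹) (sw u v (-1)))
    (r : Rep t (dg x y z)) (hxy : x * x = -(y * y)) : False := by
  obtain ⟨m3, rm⟩ := hm
  obtain ⟨τ, mτ, eτ, -⟩ := (s.rτ.of (e4_ex _ _ _ _ _ _ _ _ _).symm).lift
  obtain ⟨d, md, ed, -⟩ := (r.of (e4_ex _ _ _ _ _ _ _ _ _).symm).lift
  obtain ⟨w, -, ew, rw⟩ := (rw.of (e4_ex _ _ _ _ _ _ _ _ _).symm).lift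
  exact Lw3.wr s.h.two (m3_spl s.h) (m3_nsc s.h) (m3_ntv s.h) ⟨_, s.r3a⟩ mτ
    ((rm.conj3 s.r3a).inj3 rw ▸ Lw3.LL_conj ⟨_, rm⟩ Lw3.LL_d1) md eτ ew huv ed hxy

theorem sd4 (h1 : y * s.a = s.a * y) (h2 : s.b * y * s.b⁻¹ = s.a * y⁻¹) {k : ℕ} (ew : w = (y * y) ^ k)
    (h3 : w * s.b * w⁻¹ = s.c) (h4 : w * w = s.a) (h5 : IsConj (s.b * y) w ∨ IsConj (s.b * y) w⁻¹) (h6 : y ^ 4 ≠ 1)
    (h8 : ∀ n : ℕ, n = 4 ∨ n = 5 ∨ n = 6 ∨ n = 7 → (y * y) ^ n = 1 → y ^ 4 = 1 ∨ y ^ 4 = s.a) : False := by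
  have h0 := s.h.two
  have wa : w * s.a = s.a * w := by rw [← h4, mul_assoc]
  have ab := s.F.comm
  obtain ⟨u, v, huv, rs⟩ := swi (g := w * s.b) (by rw [mul_assoc, ← ab, ← mul_assoc, wa, mul_assoc])
    (by rw [conj2, mul_inv_cancel_right, h3]) (by
      rw [show w * s.b * (w * s.b) = w * s.b * w⁻¹ * (w * w) * s.b by group, h3, h4, mul_assoc, s.F.e, s.F.ic.2])
  have rw : Rep w (sw u (-v) 1) := by
    simpa [mul_assoc, s.F.ib.2, sw, dg] using rs.mul s.rb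
  obtain ⟨Y, ry⟩ := Rep.ex y
  have rv := s.rb.mul ry
  have tr : (dg (-1) 1 (-1) * Y).trace ≠ 0 := by
    have k : ∀ {w : bar P} {W : M4 K}, Rep w W → W.trace ≠ 0 → IsConj (s.b * y) w → (dg (-1) 1 (-1) * Y).trace ≠ 0 :=
      fun rw hw hc e => by
      obtain ⟨g, rfl⟩ := isConj_iff.1 hc
      obtain ⟨G, eG⟩ := pr_surj g.1
      obtain ⟨c, -, e1⟩ := rw.uniq (Rep.conj ⟨G, eG, rfl⟩ rv (cj_mul_self _ _).symm)
      exact hw (by rw [e1, trace_smul, cj_apply, trace_units_conj, e, smul_zero])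
    rcases h5 with h5 | h5
    · exact k rw (by simpa [sw, trace, Fin.sum_univ_four, one_add_one_eq_two] using h0) h5
    · refine k (W := sw (-u) v 1) ?_ (by simpa [sw, trace, Fin.sum_univ_four, one_add_one_eq_two] using h0) h5
      have : w⁻¹ = s.a * w := by rw [← h4, inv_eq_iff_mul_eq_one, ← mul_assoc, ← mul_assoc, mul_assoc (w * w), h4, s.F.ia.2]
      simpa [this, sw, dg] using s.ra.mul rw
  obtain ⟨l, l0, e⟩ := (rv.mul rv).uniq (show Rep _ _ from (show s.b * y * (s.b * y) = s.a by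
    rw [show s.b * y * (s.b * y) = s.b * y * s.b⁻¹ * (s.b * s.b) * y by group, h2, s.F.ib.2]; simp) ▸ s.ra)
  obtain ⟨a1, a2, a3, a4, a5, a6, a7, a8⟩ : Bk Y := by
    obtain ⟨G, eG, rfl⟩ := ry
    exact bk_of h0 (by rw [eG, ← s.ea]; exact s.ns y h1)
  have nd : Y 0 1 ≠ 0 := fun e0 => by
    have : ∀ n : ℕ, (Y ^ n) 0 1 = 0 ∧ (Y ^ n) 0 2 = 0 ∧ (Y ^ n) 0 3 = 0 := fun n => by
      induction n with
      | zero => simp
      | succ n ih => simp [pow_succ, mul_apply, Fin.sum_univ_four, *]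
    obtain ⟨c, -, e⟩ := rw.uniq (show Rep w (Y ^ (2 * k)) by rw [ew, ← pow_two, ← pow_mul]; exact ry.pow _)
    have := congrFun₂ e 0 1
    simp [sw, this] at this
    grind
  have eY : Y = !![Y 0 0, Y 0 1, 0, 0; Y 1 0, Y 1 1, 0, 0; 0, 0, Y 2 2, Y 2 3; 0, 0, Y 3 2, Y 3 3] := by
    ext i j; fin_cases i <;> fin_cases j <;> simp [*]
  clear a1 a2 a3 a4 a5 a6 a7 a8
  generalize Y 0 0 = α, Y 0 1 = β, Y 1 0 = γ, Y 1 1 = δ, Y 2 2 = α', Y 2 3 = β', Y 3 2 = γ', Y 3 3 = δ' at eY nd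
  subst eY
  replace e := congrFun₂ e
  simp [Fin.forall_fin_succ, dg, trace, Fin.sum_univ_four] at e tr
  have b1 : δ = α := by grind
  have b2 : β' = 0 := by grind
  have b3 : γ' = 0 := by grind
  have b4 : α' = -δ' := by grind
  have x0 : δ' ≠ 0 := by grind
  obtain ⟨m, mm, em, rm⟩ := ((ry.smul (inv_ne_zero x0)).of (Y := e4 !![α / δ', β / δ', 0; γ / δ', α / δ', 0; 0, 0, -1]) (by
      rw [e4_ex]; ext i j; fin_cases i <;> fin_cases j <;> simp [div_eq_inv_mul, *])).lift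
  obtain ⟨τ, mτ, eτ, -⟩ := (s.rτ.of (e4_ex _ _ _ _ _ _ _ _ _).symm).lift
  obtain ⟨t, -, et, rt⟩ := (rs.of (e4_ex _ _ _ _ _ _ _ _ _).symm).lift
  have m2 : Lw3.d2 ∈ Lw3.LL (M3 P) := Lw3.tau_d1 eτ ▸ Lw3.LL_conj mτ Lw3.LL_d1
  have my : m * m ∈ Lw3.LL (M3 P) := by
    have := (s.r3a.mul3 (rm.conj3 s.r3b)).mul3 s.r3b
    rw [show s.a * (y * s.b * y⁻¹) * s.b = y * y by
      have e1 : s.b * y⁻¹ * s.b = y * s.a := by
        rw [← _root_.inv_inj]; simpa [mul_assoc, s.F.ia.inv_eq, s.F.ib.inv_eq] using h2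
      rw [show s.a * (y * s.b * y⁻¹) * s.b = s.a * y * (s.b * y⁻¹ * s.b) by group, e1, ← h1,
        show y * s.a * (y * s.a) = y * (s.a * y) * s.a by group, ← h1, mul_assoc, mul_assoc, s.F.ia.2, mul_one]] at this
    exact this.inj3 (rm.mul3 rm) ▸ mul_mem (mul_mem Lw3.LL_d1 (Lw3.LL_conj mm m2)) m2
  refine Lw3.sd h0 (m3_spl s.h) (m3_nsc s.h) (m3_ntv s.h) ⟨_, s.r3a⟩ mτ
    ((ew ▸ ((rm.mul3 rm).pow3 k).mul3 s.r3b).inj3 rt ▸ mul_mem (pow_mem my k) m2) mm my eτ et huv em (by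
      field_simp; grind) (fun e => h6 ((e ▸ rm.pow3 4).eq (Rep.one.of e4_one.symm))) fun n hn e => ?_
  refine (h8 n hn ((e ▸ (rm.mul3 rm).pow3 n).eq (Rep.one.of e4_one.symm))).imp (fun e => ?_) fun e => ?_
  · exact (e ▸ rm.pow3 4).inj3 (Rep.one.of e4_one.symm)
  · exact (e ▸ rm.pow3 4).inj3 s.r3a

end St
end Cfsg.Agent.H7.Lw
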