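import Cfsg.Agent.H7.LwL

set_option autoImplicit false

/-! A four-group with commuting lifts and without swappers is self-centralising, and the Sylow subgroups are dihedral. -/

namespace Cfsg.Agent.H7.Lw
open Cfsg Subgroup Cfsg.Agent.H2.M4 Cfsg.Agent.H7.M4 Cfsg.Agent.MH

variable {K : Type*} [Field K] {P : Subgroup (G4 K)}

theorem hy_perf (h : Hy P) : commutator (bar P) = ⊤ :=
  have := Subgroup.isPerfect_iff.2 h.perf
  (Group.IsPerfect.map (H := P) pr).commutator_eq_top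

namespace St
variable {s : St P} {g t x y w r : bar P}

theorem cb (h1 : g * s.a = s.a * g) (h2 : g * s.b * g⁻¹ = s.c) : g * s.c * g⁻¹ = s.b := by
  rw [← s.F.e, ← conj_mul, h2, h1, mul_inv_cancel_right, ← s.F.e, ← mul_assoc, s.F.ia.2, one_mul]

theorem t0c (h1 : g * s.a = s.a * g) (h2 : g * s.b * g⁻¹ = s.b) : s.T0 g :=
  t0' (s.ns g h1) (s.nb g (mul_inv_eq_iff_eq_mul.1 h2))

theorem sq0 (h1 : g * s.a = s.a * g) (h : s.T0 g ∨ g * s.b * g⁻¹ = s.c) : s.T0 (g * g) :=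
  h.elim (fun h => h.mul h) fun h => t0c (by rw [mul_assoc, h1, ← mul_assoc, h1, mul_assoc]) (by rw [conj2, h, cb h1 h])

theorem conj0 (h1 : g * s.a = s.a * g) (h : s.T0 g ∨ g * s.b * g⁻¹ = s.c) (a : s.T0 t) : s.T0 (g * t * g⁻¹) := by
  rcases h with h | h
  · exact (h.mul a).mul h.inv
  · exact t0' (by simpa [h1] using (gs s.h).cm_conj g a.1) (cb h1 h ▸ (gs s.h).cm_conj g a.2.2)

theorem tauR (h : r ∈ s.F.R) : s.τ * r * s.τ⁻¹ ∈ s.F.R :=
  ⟨T0.tau h.1, h.2.imp fun k e => by rw [conj_pow, e]; simp⟩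

theorem ex_sq (h : r ∈ s.F.R) (h1 : ¬ s.E r) : ∃ r ∈ s.F.R, r * r = s.a := by
  obtain ⟨k, hk⟩ := h.2
  induction k generalizing r with
  | zero => exact (h1 (.inl (by simpa using hk))).elim
  | succ k ih =>
    by_cases e : s.E (r * r)
    · rcases e with e | e | e | e
      · exact (h1 (s.F.mem h.1 e)).elim
      · exact ⟨r, h, e⟩
      · exact ⟨_, tauR (tauR h), by rw [conj_mul, conj_mul, e, s.τb, s.τc]⟩
      · exact ⟨_, tauR h, by rw [conj_mul, e, s.τc]⟩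
    · exact ih (mul_mem h h) e (by rw [← pow_two, ← pow_mul, ← hk, pow_succ'])

variable [Finite K] {S : Sylow 2 (bar P)}

theorem nrm (h1 : g * s.a = s.a * g) (h : s.T0 g ∨ g * s.b * g⁻¹ = s.c) : g ∈ Nm s.F.R :=
  mem_Nm fun _ hy => ⟨conj0 h1 h hy.1, hy.2.imp fun k e => by rw [conj_pow, e]; simp⟩

theorem strA (ha : ∀ g ∈ S, s.a * g = g * s.a) (hR : s.F.R ≤ S) (h : r ∈ s.F.R) (e : r * r = s.b) :
    ∀ g ∈ S, s.T0 g ∨ g * s.b * g⁻¹ = s.c := by
  intro g hg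
  by_contra hc
  obtain ⟨y, my, h1, h2⟩ := exists_norm Nat.prime_two S.2 (R := S.1 ⊓ Nm s.F.R) inf_le_left hg
    fun m => hc (s.F.norm_R s.nb s.ns m.2 (ha g hg))
  have m := Nm_conj h2 (show r ∈ S.1 ⊓ Nm s.F.R from ⟨hR h, le_normalizer h⟩)
  have := sq0 (ha _ m.1).symm (s.F.norm_R s.nb s.ns m.2 (ha _ m.1))
  rw [conj_mul, e] at this
  refine h1 ⟨my, nrm (ha y my).symm ?_⟩
  rcases s.F.mem this (conj_sq s.F.ib.2 y) with q | q | q | q
  · exact (s.F.ib.1 (conj_eq_one_iff.1 q)).elim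
  · exact (s.F.ne (by rw [mul_inv_eq_iff_eq_mul, ha y my, mul_right_inj] at q; exact q.symm)).elim
  · exact .inl (t0c (ha y my).symm q)
  · exact .inr q

theorem ex_odd (hR : ∀ r ∈ s.F.R, s.E r) (a : s.T0 t) (h : ¬ s.E t) : ∃ n, Odd n ∧ ¬ s.E (t * t) ∧ (t * t) ^ n = 1 := by
  obtain ⟨m, k, hm, e⟩ := exists_odd_pow t
  have p : ∀ n : ℕ, s.T0 (t ^ n) := fun n => by
    induction n with
    | zero => simpa using GS.t0_one
    | succ n ih => rw [pow_succ]; exact ih.mul a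
  have := s.F.sq_of (hR _ ⟨p m, k, e⟩)
  rw [← (Commute.refl t).mul_pow] at this
  exact ⟨m, hm, fun q => h (s.F.mem a (GS.eq_one_of (k := 1) (by simpa [pow_two] using s.F.sq_of q) this hm)), this⟩

theorem abel (h : ∀ g, g * s.a = s.a * g → s.T0 g) (a : s.T0 t) : s.E t := by
  have := s.h.sbar
  have hb : ∀ g, g * s.b = s.b * g → s.T0 g := fun g e => by
    simpa [mul_assoc] using (h (s.τ⁻¹ * g * s.τ) (by
      rw [← s.τa] at e; simpa [mul_assoc] using congrArg (s.τ⁻¹ * · * s.τ) e)).tau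
  have hc : ∀ g, g * s.c = s.c * g → s.T0 g := fun g e => by
    simpa [mul_assoc] using (hb (s.τ⁻¹ * g * s.τ) (by
      rw [← s.τb] at e; simpa [mul_assoc] using congrArg (s.τ⁻¹ * · * s.τ) e)).tau
  let A : Subgroup (bar P) := ⟨⟨⟨{g | s.T0 g}, GS.T0.mul⟩, GS.t0_one⟩, GS.T0.inv⟩
  refine s.F.mem a (ca_elem (hy_perf s.h) (A := A) (fun x hx x1 => ?_) s.F.ta s.F.ia.1 s.F.ia.2 t a)
  ext g
  rw [mem_centralizer_singleton_iff]
  refine ⟨fun e => ?_, fun e => s.F.ab e hx⟩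
  obtain ⟨m, k, hm, e1⟩ := exists_odd_pow x
  by_cases h1 : x ^ m = 1
  · rcases odd_c hx x1 hm h1 e with q | q | q
    exacts [h g ((gs s.h).cm_comm q), hb g ((gs s.h).cm_comm q), hc g ((gs s.h).cm_comm q)]
  · obtain ⟨j, hj⟩ := exists_inv_pow e1 h1
    have c := (((show Commute g x from e).pow_right m).pow_right (2 ^ j)).eq
    rcases s.F.mem (pow_mem (pow_mem (show x ∈ A from hx) m) (2 ^ j)) hj.2 with q | q | q | q
    exacts [(hj.1 q).elim, h g (q ▸ c), hb g (q ▸ c), hc g (q ▸ c)]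

theorem ex_s (ha : ∀ g ∈ S, s.a * g = g * s.a) (hR : s.F.R ≤ S) (hS : ∀ g ∈ S, s.T0 g ∨ g * s.b * g⁻¹ = s.c)
    (m : x ∈ S) (hx : x * s.b * x⁻¹ = s.c) : ∃ w ∈ S, w * w = 1 ∧ w * s.b * w⁻¹ = s.c ∧ IsConj s.a w := by
  have := s.h.sbar
  have d := tauR (s.F.mem_R (mul_mem m m) (sq0 (ha x m).symm (.inr hx)))
  have mw := mul_mem m (hR d)
  have e1 := sqx (ha x m).symm hx
  have e2 : x * (s.τ * (x * x) * s.τ⁻¹) * s.b * (x * (s.τ * (x * x) * s.τ⁻¹))⁻¹ = s.c := by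
    rw [conj2, d.1.cb, mul_inv_cancel_right, hx]
  generalize x * (s.τ * (x * x) * s.τ⁻¹) = w at mw e1 e2
  refine ⟨w, mw, e1, e2, ?_⟩
  obtain ⟨g, hg⟩ := th2 (hy_perf s.h) S (M := s.F.R) (a := w) (fun g hg => (hS g hg).imp (s.F.mem_R hg) fun h =>
    s.F.mem_R (mul_mem mw hg) (t0c (ha _ (mul_mem mw hg)).symm (by rw [conj2, h, cb (ha w mw).symm e2]))) e1
  have k := (isConj_mk g w).symm
  rcases s.F.mem hg.1 (conj_sq e1 g) with q | q | q | q
  · exact (s.bc (by simpa [conj_eq_one_iff.1 q] using e2)).elim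
  · exact q ▸ k
  · exact (isConj_mk s.τ s.a).trans (s.τa.trans q.symm ▸ k)
  · exact (isConj_mk s.τ⁻¹ s.a).trans ((show s.τ⁻¹ * s.a * s.τ⁻¹⁻¹ = g * w * g⁻¹ by rw [q, ← s.τc]; group) ▸ k)

theorem wre (ha : ∀ g ∈ S, s.a * g = g * s.a) (hR : s.F.R ≤ S) (h : r ∈ s.F.R) (e : r * r = s.a) (m : x ∈ S)
    (hx : x * s.b * x⁻¹ = s.c) : False := by
  have hS := strA ha hR (tauR h) (by rw [conj_mul, e, s.τa])
  obtain ⟨w, mw, w2, hw, cw⟩ := ex_s ha hR hS m hx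
  obtain ⟨u, v, huv, rw⟩ := swi (ha w mw).symm hw w2
  have hC := fun g => cms (g := g) ha h.1 (fun q => s.F.ia.1 (e ▸ s.F.sq_of q)) (dg23 ha hS)
  obtain ⟨x, y, z, rr⟩ := T0.ex h.1
  obtain ⟨e1, e2, e3⟩ := ((rr.mul rr).of (dg_mul _ _ _ _ _ _)).dg_inj (e ▸ s.ra)
  obtain ⟨r', mr, er, cr⟩ : ∃ r' ∈ s.F.R, r' * r' = s.a ∧ w * r' = r' * w := by
    rcases mul_self_eq_mul_self_iff.1 (e1.trans e2.symm) with rfl | rfl
    · exact ⟨r, h, e, (gs s.h).cm_comm ((rw.cm _ rr).2 (by simp [dg, sw, mul_comm]))⟩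
    · refine ⟨r * s.b, mul_mem h (s.F.e_mem (.inr (.inr (.inl rfl)))), ?_,
        (gs s.h).cm_comm ((rw.cm _ (rr.mul s.rb)).2 (by simp [dg, sw, mul_comm]))⟩
      rw [mul_assoc, ← mul_assoc s.b, ← h.1.cb, mul_assoc, s.F.ib.2, mul_one, e]
  obtain ⟨g, e4, hg⟩ := extremal S ha cw
  have m1 := hg r' (hR mr) cr
  have := sq0 (ha _ m1).symm (hS _ m1)
  rw [conj_mul, er] at this
  have mg : g ∈ Ms P := by
    rcases s.F.mem this (conj_sq s.F.ia.2 g) with q | q | q | q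
    · exact (s.F.ia.1 (conj_eq_one_iff.1 q)).elim
    · rw [show w = s.a by simpa using e4.trans q.symm, s.F.comm, mul_inv_cancel_right] at hw
      exact (s.bc hw).elim
    · simpa using mul_mem s.τ_mem (hC (s.τ⁻¹ * g) (by rw [← mul_inv_eq_iff_eq_mul, conj2, q, ← s.τa]; group))
    · simpa using mul_mem (inv_mem s.τ_mem) (hC (s.τ * g) (by rw [← mul_inv_eq_iff_eq_mul, conj2, q, s.τc]))
  exact wr4 (s := s) (inv_mem mg) huv (by rw [← e4]; simpa [mul_assoc] using rw) (s.tc rr) (by rw [e2, e3])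

theorem d8 (ha : ∀ g ∈ S, s.a * g = g * s.a) (hR : s.F.R ≤ S) (a : s.T0 t) (h : ¬ s.E t) {n : ℕ} (hn : Odd n)
    (en : t ^ n = 1) (m : x ∈ S) (hx : x * s.b * x⁻¹ = s.c) : False := by
  have hC := fun g => odd_mono (g := g) ha a h hn en
  obtain ⟨w, mw, w2, hw, cw⟩ := ex_s ha hR (fun g hg => hC g (ha g hg).symm) m hx
  obtain ⟨u, v, huv, rw⟩ := swi (ha w mw).symm hw w2
  have F' : (gs s.h).Fg s.a w (s.a * w) := ⟨s.F.ia, Inv.of_isConj s.F.ia cw, fun e => s.bc (by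
    rw [← hw, ← e, s.F.comm, mul_inv_cancel_right]), (gs s.h).cm_symm (s.ns w (ha w mw).symm), rfl⟩
  obtain ⟨S', ha', hR'⟩ := F'.setup ha (IsConj.refl _)
  obtain ⟨τ, e1, e2⟩ := F'.tau s.ns cw ha' hR'
  obtain ⟨t', x, y, z, r, hz, e⟩ := ex_z a h
  have r1 := rw.conj r (Z := dg y x z) (by simp [dg, sw, mul_comm])
  have r2 := (r.mul r1).of (Y := dg (x * y) (x * y) (z * z)) (by rw [dg_mul, mul_comm y])
  have p : (t' * (w * t' * w⁻¹)) ^ n = 1 := by
    rw [(show Commute _ _ from s.F.ab (s.t0 r) (s.t0 r1)).mul_pow, conj_pow, e n en]; simp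
  generalize t' * (w * t' * w⁻¹) = k at r2 p
  have e3 : τ⁻¹ * w * τ⁻¹⁻¹ = s.a := by rw [← e1]; group
  have e4 : τ⁻¹ * s.a * τ⁻¹⁻¹ = s.a * w := by
    have : τ * (s.a * w) * τ⁻¹ = s.a := by rw [← conj_mul, e2, e1, ← mul_assoc, ← ha w mw, mul_assoc, w2, mul_one]
    conv_lhs => rw [← this]
    group
  have c1 := (gs s.h).cm_conj τ⁻¹ ((r2.cm s.h rw).2 (by simp [dg, sw, mul_comm]))
  have c2 := (gs s.h).cm_conj τ⁻¹ (s.t0 r2).1
  rw [e3] at c1
  rw [e4] at c2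
  have c3 := (gs s.h).cm_comm c1
  rcases hC _ c3 with q | q
  · obtain ⟨x', y', z', r'⟩ := q.ex
    have := congrFun₂ ((r'.cm s.h (s.ra.mul rw)).1 c2) 0 1
    simp [dg, sw, mul_comm u, rw.sw_ne.1] at this
    have e5 := scal huv rw e3 r2 (this ▸ r')
    have := s.prod r
    exact hz (by rw [e5, one_mul] at this; simp [this])
  · have := swap_pow q (cb c3 q) hn
    rw [conj_pow, p] at this
    exact s.bc (by simpa using this)

theorem t0E (ha : ∀ g ∈ S, s.a * g = g * s.a) (hR : s.F.R ≤ S) (a : s.T0 t) : s.E t := by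
  by_contra h
  by_cases hS : ∀ g ∈ S, s.T0 g
  · exact h (abel (fun g => ct0 ha a h hS) a)
  obtain ⟨x, m, hx⟩ := s.F.exists_sw s.nb s.ns ha hR fun q => hS fun g hg => (q hg).1
  by_cases h1 : ∀ r ∈ s.F.R, s.E r
  · obtain ⟨n, hn, e1, e2⟩ := ex_odd h1 a h
    exact d8 ha hR (a.mul a) e1 hn e2 m hx
  · obtain ⟨r, hr⟩ := not_forall.1 h1
    obtain ⟨mr, hr⟩ := Classical.not_imp.1 hr
    obtain ⟨r, mr, hr⟩ := ex_sq mr hr
    exact wre ha hR mr hr m hx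

theorem dih (ha : ∀ g ∈ S, s.a * g = g * s.a) (hR : s.F.R ≤ S) : ∃ y, DH S.1 y s.b := by
  have := s.h.sbar
  have hE : ∀ g ∈ S, s.b * g = g * s.b → g = 1 ∨ g = s.a ∨ g = s.b ∨ g = s.a * s.b := fun g hg e =>
    s.F.e.symm ▸ t0E ha hR (t0' (s.ns g (ha g hg).symm) (s.nb g e.symm))
  obtain ⟨y, y1, hb, hS, ma, h⟩ := max_class S.2 s.F.ia s.F.ib (hR (s.F.e_mem (.inr (.inl rfl))))
    (hR (s.F.e_mem (.inr (.inr (.inl rfl))))) s.F.ne ha hE
  refine ⟨y, y1, s.F.ib.2, h.resolve_right fun h => ?_, hb, hS⟩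
  have my : y ∈ S := (hS y).2 (.inl (mem_zpowers y))
  obtain ⟨k, hk⟩ := two_pow_of_mem S.2 my
  have ay : Commute s.a y := ha y my
  have b2 := s.F.ib.2
  have p4 : ∀ u : bar P, u ^ 4 = u * u * (u * u) := fun u => by simp [pow_succ, mul_assoc]
  have bi := s.F.ib.inv_eq
  have h4 : y ^ 4 ≠ 1 := fun e => by
    have k : y ≠ s.a := fun e => s.F.ia.1 (by simpa [e] using h)
    rcases mem_zp4 e ma with q | q | q | q
    · exact s.F.ia.1 q
    · exact k q.symm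
    · exact s.F.ia.1 (q.trans (s.F.sq_of (s.F.e ▸ hE y my (mul_inv_eq_iff_eq_mul.1 (by simpa [q] using h)))))
    · exact k (by rw [← s.F.ia.inv_eq, q, eq_inv_iff_mul_eq_one, ← e]; simp [pow_succ, mul_assoc])
  have uq : ∀ u ∈ zpowers y, u * u = 1 → u = 1 ∨ u = s.a := fun u hu e =>
    (em _).imp_right fun h => inv_zp hu ma ⟨h, e⟩ s.F.ia
  obtain ⟨j, hj⟩ := exists_inv_pow (x := y ^ 4) (k := k) (by rw [← pow_mul, mul_comm, pow_mul, hk, one_pow]) h4
  obtain ⟨w, ew⟩ : ∃ w, w = (y * y) ^ 2 ^ j := ⟨_, rfl⟩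
  have le : zpowers (y * y) ≤ zpowers y := zpowers_le.2 (mul_mem (mem_zpowers y) (mem_zpowers y))
  have mw : w ∈ zpowers (y * y) := ew ▸ pow_mem (mem_zpowers _) _
  have w2 : w * w = s.a := by
    rw [ew, ← (Commute.refl _).mul_pow, show y * y * (y * y) = y ^ 4 by simp [pow_succ, mul_assoc]]
    exact inv_zp (pow_mem (pow_mem (mem_zpowers y) _) _) ma hj s.F.ia
  have ma2 : s.a ∈ zpowers (y * y) := w2 ▸ mul_mem mw mw
  have iv : ∀ u ∈ zpowers (y * y), s.b * u * s.b⁻¹ = u⁻¹ := by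
    rintro _ ⟨n, rfl⟩
    simp only
    rw [← conj_zpow, ← conj_mul, h, mul_assoc, ← mul_assoc y⁻¹, ← ay.inv_right.eq, ← mul_assoc, ← mul_assoc, s.F.ia.2]
    simp [← _root_.mul_inv_rev]
  have ev : ∀ n : ℕ, y ^ (2 * n) ∈ zpowers (y * y) := fun n => by rw [pow_mul, pow_two]; exact pow_mem (mem_zpowers _) _
  have par : ∀ u ∈ zpowers y, u ∈ zpowers (y * y) ∨ ∃ v ∈ zpowers (y * y), u = y * v := fun u hu => by
    obtain ⟨n, rfl⟩ := mem_powers_iff_mem_zpowers.2 hu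
    obtain ⟨n, rfl | rfl⟩ := Nat.even_or_odd' n
    exacts [.inl (ev n), .inr ⟨_, ev n, pow_succ' _ _⟩]
  have v2 : ∀ v ∈ zpowers (y * y), s.b * (y * v) * (s.b * (y * v)) = s.a := fun v hv => by
    have c : Commute y v := by obtain ⟨n, rfl⟩ := le hv; exact (Commute.refl y).zpow_right n
    rw [show s.b * (y * v) * (s.b * (y * v)) = s.b * y * s.b⁻¹ * (s.b * v * s.b⁻¹) * (s.b * s.b) * (y * v) by group,
      h, iv v hv, b2, c.eq]
    simp [mul_assoc]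
  have v1 : s.b * y * (s.b * y) = s.a := by simpa using v2 1 (one_mem _)
  have bb : ∀ u v, s.b * u = v → u = s.b * v := fun u v e => by rw [← e, ← mul_assoc, b2, one_mul]
  obtain ⟨g, hg⟩ := th (hy_perf s.h) S (M := ext2 (zpowers (y * y)) s.b (by simp [b2]) fun u hu => iv u hu ▸ inv_mem hu)
    (a := y) (v := s.b * y) (fun g hg => by
      simp only [mem_ext2]
      rcases (hS g).1 hg with q | q <;> rcases par _ q with q | ⟨v, hv, q⟩
      · exact .inl (.inl q)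
      · exact .inr (.inl (by rw [q, ← mul_assoc]; exact mul_mem (mem_zpowers _) hv))
      · exact .inl (.inr q)
      · refine .inr (.inr ?_)
        rw [bb _ _ q, show s.b * (y * (s.b * (y * v))) = s.b * y * (s.b * y) * v by group, v1]
        exact mul_mem ma2 hv) (by rw [p4, v1, s.F.ia.2])
    (fun g hg => by
      rw [pow_two, v1] at hg ⊢
      have i := s.F.ia.conj g
      generalize g * s.a * g⁻¹ = u at hg i
      rw [mem_ext2]
      rcases (hS u).1 hg with q | q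
      · exact .inl (inv_zp q ma i s.F.ia ▸ ma2)
      · rcases par _ q with q | ⟨v, hv, q⟩
        · exact .inr q
        · exact (s.F.ia.1 (by rw [← v2 v hv, ← bb _ _ q, i.2])).elim)
  have cj := isConj_mk g (s.b * y)
  have i : Inv (g * (s.b * y) * g⁻¹ * (g * (s.b * y) * g⁻¹)) := by rw [conj_mul, v1]; exact s.F.ia.conj g
  generalize g * (s.b * y) * g⁻¹ = u at hg cj i
  refine sd4 ay.symm.eq h ew (by
    rw [← iv w mw, ← s.F.e, ← w2]
    simp [mul_assoc, bi, ← mul_assoc s.b s.b, b2]) w2 ?_ h4 fun n hn e => ?_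
  · rcases mem_ext2.1 hg with q | q
    · have e := inv_zp (le (mul_mem q q)) ma i s.F.ia
      have c : Commute u w⁻¹ := by
        obtain ⟨n, rfl⟩ := q
        obtain ⟨m, rfl⟩ := mw
        exact ((Commute.refl _).zpow_zpow _ _).inv_right
      rcases uq _ (le (mul_mem q (inv_mem mw))) (by
        rw [← pow_two, c.mul_pow, pow_two, e, inv_pow, pow_two, w2, mul_inv_cancel]) with q | q
      · exact .inl (mul_inv_eq_one.1 q ▸ cj)
      · refine .inr ((show u = w⁻¹ from ?_) ▸ cj)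
        rw [mul_inv_eq_iff_eq_mul.1 q, eq_inv_iff_mul_eq_one, mul_assoc, w2, s.F.ia.2]
    · refine (i.1 ?_).elim
      have := iv _ q
      rw [bi, ← mul_assoc, b2, one_mul, eq_inv_iff_mul_eq_one, mul_assoc, ← mul_assoc s.b, b2, one_mul] at this
      exact this
  · have k2 : (y * y) ^ 2 ^ k = 1 := by rw [(Commute.refl y).mul_pow, hk, one_mul]
    have k3 : y * y = 1 → y ^ 4 = 1 := fun e => by rw [p4, e, one_mul]
    rcases hn with rfl | rfl | rfl | rfl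
    · exact uq _ (pow_mem (mem_zpowers y) 4) (by rw [← (Commute.refl y).mul_pow, e])
    · exact .inl (k3 (GS.eq_one_of k2 e (by decide)))
    · exact .inl (GS.eq_one_of (k := k) (n := 3) (by rw [← pow_mul, mul_comm, pow_mul, hk, one_pow])
        (by rw [← e, ← pow_two, ← pow_mul, ← pow_mul]) (by decide))
    · exact .inl (k3 (GS.eq_one_of k2 e (by decide)))

end St
end Cfsg.Agent.H7.Lw
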