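import Cfsg.Agent.H7.LwM

set_option autoImplicit false

/-! Package LOW: the Sylow `2`-subgroups when there is no elementary abelian subgroup of order `16`. -/

namespace Cfsg.Agent.H7.Lw
open Cfsg Subgroup Cfsg.Agent.H2.M4 Cfsg.Agent.H7.M4 Cfsg.Agent.MH

theorem dh_map {G H : Type*} [Group G] [Group H] [Finite G] (e : G ≃* H) {S : Sylow 2 G} {x s : G} (h : DH S.1 x s) :
    ∃ S : Sylow 2 H, DH S.1 (e x) (e s) := by
  have k : ∀ g, e g ∈ zpowers (e x) ↔ g ∈ zpowers x := fun g =>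
    ⟨fun ⟨n, h⟩ => ⟨n, e.injective (by simpa using h)⟩, fun ⟨n, h⟩ => ⟨n, by simp [← h]⟩⟩
  refine ⟨S.mapSurjective (f := e.toMonoidHom) e.surjective, by simpa using h.1, by rw [← map_mul, h.2.1, map_one],
    by rw [← map_inv, ← map_mul, ← map_mul, h.2.2.1, map_inv], fun q => h.2.2.2.1 ((k s).1 q), fun g => ?_⟩
  obtain ⟨g, rfl⟩ := e.surjective g
  rw [← map_mul, k, k, ← h.2.2.2.2]
  exact mem_map_iff_mem (f := e.toMonoidHom) e.injective

variable {K : Type*} [Field K] {P : Subgroup (G4 K)}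

theorem cm_cg (h : Hy P) (Q : G4 K) {g z : bar P} :
    (gs (h.cj Q)).cm (barCg Q P g) (barCg Q P z) ↔ (gs h).cm g z := ⟨Tw.of_conj (pr Q), fun a => a.conj _⟩

theorem exists_st (h : Hy P) {a b c τ : bar P} (F : (gs h).Fg a b c) (ns : (gs h).NS a) (e1 : τ * a * τ⁻¹ = b)
    (e2 : τ * b * τ⁻¹ = c) : ∃ (Q : G4 K) (s : St (cg Q P)), s.a = barCg Q P a ∧ s.b = barCg Q P b ∧ s.c = barCg Q P c := by
  obtain ⟨T, eT⟩ := pr_surj τ.1
  have pc : ∀ {A : G4 K} {x : bar P}, pr A = x → pr (T * A * T⁻¹) = (τ * x * τ⁻¹).1 := fun e => by simp [e, eT]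
  have cm : ∀ {A : G4 K}, pr A = a → A * (T * A * T⁻¹) = T * A * T⁻¹ * A := fun {A} e =>
    Units.ext (by simpa using Tw.lift (c := (1 : K)) (G := A) (Z := T * A * T⁻¹) (by rw [e, pc e, e1]; exact F.cm))
  obtain ⟨A, eA, A2, A3⟩ : ∃ A : G4 K, pr A = a ∧ A * A = 1 ∧ T * (T * A * T⁻¹) * T⁻¹ = A * (T * A * T⁻¹) := by
    obtain ⟨A, eA, A2⟩ := exists_lift h a.2 (coe_inv' F.ia).2
    obtain ⟨ε, e⟩ := pr_eq_iff.1 (show pr (T * (T * A * T⁻¹) * T⁻¹) = pr (A * (T * A * T⁻¹)) by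
      rw [pc (pc eA), map_mul, pc eA, eA, e1, e2, ← F.e]; rfl)
    have e3 : ε * ε = 1 := by
      have k : (T * (T * A * T⁻¹) * T⁻¹ * (T * (T * A * T⁻¹) * T⁻¹)).val = 1 := by rw [conj_sq (conj_sq A2 T) T]; rfl
      rw [Units.val_mul, e, Matrix.smul_mul, Matrix.mul_smul, smul_smul, ← Units.val_mul, mul_assoc A, ← mul_assoc _ A,
        ← cm eA, mul_assoc A, conj_sq A2, mul_one, A2] at k
      exact smul_inj' (k.trans (one_smul _ _).symm)
    have ε0 := left_ne_zero_of_mul_eq_one e3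
    refine ⟨sc ε ε0 * A, by rw [map_mul, pr_eq_one.2 (sc_mem _ _), one_mul, eA], Units.ext ?_, Units.ext ?_⟩
    · simp [smul_smul, e3, ← Units.val_mul, A2]
    · simp only [Units.val_mul, sc_val, Matrix.mul_smul, Matrix.smul_mul, one_mul, smul_smul] at e ⊢
      rw [e, smul_smul]
  have eB := (pc eA).trans (congrArg Subtype.val e1)
  have eC : pr (A * (T * A * T⁻¹)) = c := by rw [map_mul, eA, eB, ← F.e]; rfl
  obtain ⟨Q, q1, q2⟩ := frame h.two A2 (conj_sq A2 T) (cm eA) (tz h (eA ▸ a.2) A2 (eA ▸ (coe_inv' F.ia).1))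
    (tz h (eB ▸ b.2) (conj_sq A2 T) (eB ▸ (coe_inv' F.ib).1))
    (tz h (eC ▸ c.2) (A3 ▸ conj_sq (conj_sq A2 T) T) (eC ▸ (coe_inv' F.ic).1))
  have r : Rep (barCg Q P τ) (Q * T * Q⁻¹).val := ⟨_, by simp [barCg_apply, eT], rfl⟩
  have t1 : Q * T * Q⁻¹ * D1 = D2 * (Q * T * Q⁻¹) := by rw [← q1, ← q2]; group
  have t2 : Q * T * Q⁻¹ * D2 = D1 * D2 * (Q * T * Q⁻¹) := by rw [← q1, ← q2, conj_mul, conj_mul, ← A3]; group
  replace t1 := congrArg Units.val t1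
  replace t2 := congrArg Units.val t2
  rw [Units.val_mul, Units.val_mul _ (Q * T * Q⁻¹)] at t1 t2
  generalize (Q * T * Q⁻¹).val = X at r t1 t2
  replace t1 := congrFun₂ t1
  replace t2 := congrFun₂ t2
  simp [Fin.forall_fin_succ, D1_val, D2_val] at t1 t2
  have h2 := h.two
  have e : X = !![0, X 0 1, 0, 0; 0, 0, X 1 2, 0; X 2 0, 0, 0, 0; 0, 0, 0, X 3 3] := by
    ext i j; fin_cases i <;> fin_cases j <;> simp <;> grind
  have x0 : X 3 3 ≠ 0 := fun e0 => r.det (Matrix.det_eq_zero_of_row_eq_zero 3 fun j => by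
    rw [e]; fin_cases j <;> simp [e0])
  refine ⟨Q, ⟨h.cj Q, barCg Q P a, barCg Q P b, barCg Q P c, barCg Q P τ, by rw [barCg_apply, ← eA, ← q1]; simp,
    by rw [barCg_apply, ← eB, ← q2]; simp, ⟨⟨by simpa using F.ia.1, by rw [← map_mul, F.ia.2, map_one]⟩,
      ⟨by simpa using F.ib.1, by rw [← map_mul, F.ib.2, map_one]⟩, by simpa using F.ne, (cm_cg h Q).2 F.cm,
      by rw [← map_mul, F.e]⟩, fun g hg => ?_, X 0 1 / X 3 3, X 1 2 / X 3 3, X 2 0 / X 3 3,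
    (r.smul (inv_ne_zero x0)).of ?_⟩, rfl, rfl, rfl⟩
  · obtain ⟨g, rfl⟩ := (barCg Q P).surjective g
    exact (cm_cg h Q).2 (ns g ((barCg Q P).injective (by simpa using hg)))
  · rw [e]
    ext i j; fin_cases i <;> fin_cases j <;> simp [x0, div_eq_inv_mul]

variable [Finite K]

theorem ns_main (h : Hy P) {a b c z : bar P} (F : (gs h).Fg a b c) (ns : (gs h).NS a) (e : IsConj a b)
    {S : Sylow 2 (bar P)} (hz : ∀ g ∈ S, z * g = g * z) (ez : IsConj z a) :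
    (∀ t, t * a = a * t → t * b = b * t → t = 1 ∨ t = a ∨ t = b ∨ t = c) ∧ ∃ (S : Sylow 2 (bar P)) (x s : bar P), DH S.1 x s := by
  obtain ⟨S1, ha, hR⟩ := F.setup hz ez
  obtain ⟨τ, e1, e2⟩ := F.tau ns e ha hR
  obtain ⟨Q, s, ea, eb, ec⟩ := exists_st h F ns e1 e2
  obtain ⟨S2, ha2, hR2⟩ := s.F.setup (S := S1.mapSurjective (f := (barCg Q P).toMonoidHom) (barCg Q P).surjective)
    (z := s.a) (by rintro _ ⟨g, hg, rfl⟩; simpa [ea] using congrArg (barCg Q P) (ha g hg)) (IsConj.refl _)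
  refine ⟨fun t h1 h2 => ?_, ?_⟩
  · simpa [St.E, ea, eb, ec] using St.t0E ha2 hR2 (t := barCg Q P t) (St.t0'
      (s.ns _ (by simpa [ea] using congrArg (barCg Q P) h1)) (s.nb _ (by simpa [eb] using congrArg (barCg Q P) h2)))
  · obtain ⟨y, hy⟩ := St.dih ha2 hR2
    obtain ⟨S3, h3⟩ := dh_map (barCg Q P).symm hy
    exact ⟨S3, _, _, h3⟩

theorem dh_one {G : Type*} [Group G] [Finite G] (hp : commutator G = ⊤) {S : Sylow 2 G} {x s u v : G} (h : DH S.1 x s)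
    (iu : Inv u) (iv : Inv v) : IsConj u v := by
  obtain ⟨g, hg⟩ := th2 hp S (M := zpowers x) (a := s) (fun g => (h.2.2.2.2 g).1) iu.2
  obtain ⟨k, hk⟩ := th2 hp S (M := zpowers x) (a := s) (fun g => (h.2.2.2.2 g).1) iv.2
  exact (isConj_mk g u).trans (inv_zp hg hk (iu.conj g) (iv.conj k) ▸ (isConj_mk k v).symm)

theorem exists_central {G : Type*} [Group G] [Finite G] (h : Even (Nat.card G)) (S : Sylow 2 G) :
    ∃ z ∈ S, Inv z ∧ ∀ g ∈ S, z * g = g * z := by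
  have : Nontrivial S := (Subgroup.nontrivial_iff_ne_bot _).2 (S.ne_bot_of_dvd_card h.two_dvd)
  obtain ⟨z, hz, z1⟩ := (nontrivial_iff_exists_ne_one _).1 S.2.center_nontrivial
  obtain ⟨k, hk⟩ := two_pow_of_mem S.2 z.2
  obtain ⟨j, hj⟩ := exists_inv_pow hk fun e => z1 (Subtype.ext e)
  refine ⟨_, pow_mem z.2 _, hj, fun g hg => ?_⟩
  exact ((show Commute z.1 g from congrArg Subtype.val (mem_center_iff.1 hz ⟨g, hg⟩).symm).pow_left _).eq

theorem low : Low K := by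
  intro P h hev h16
  have := h.sbar
  have hp := hy_perf h
  have hN : N16 (bar P) := fun E h1 h2 => h16 ⟨E.map (bar P).subtype, map_subtype_le _,
    (card_map_of_injective Subtype.val_injective).trans h2, by
      rintro _ ⟨x, hx, rfl⟩; exact congrArg Subtype.val (h1 x hx)⟩
  obtain ⟨S⟩ : Nonempty (Sylow 2 (bar P)) := inferInstance
  have fg : ∀ x ∈ P, ∀ y ∈ P, x * y = y * x → pr x * pr x = 1 → pr y * pr y = 1 → pr x ≠ 1 → pr y ≠ 1 → pr x ≠ pr y →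
      ∃ a b : bar P, a.1 = pr x ∧ b.1 = pr y ∧ (gs h).Fg a b (a * b) := fun x hx y hy e x2 y2 x1 y1 ne =>
    ⟨⟨_, mem_bar hx⟩, ⟨_, mem_bar hy⟩, rfl, rfl, ⟨fun e => x1 (congrArg Subtype.val e), Subtype.ext x2⟩,
      ⟨fun e => y1 (congrArg Subtype.val e), Subtype.ext y2⟩, fun e => ne (congrArg Subtype.val e),
      tw_of (by simpa using congrArg Units.val e), rfl⟩
  by_cases h1 : ∃ u v : bar P, (gs h).Fg u v (u * v)
  swap
  · obtain ⟨z, mz, iz, hz⟩ := exists_central hev S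
    obtain ⟨x, s, d⟩ := (gs h).dcase hp iz mz hz fun t _ it c => by_contra fun ne => h1 ⟨t, z, it, iz, ne, c, rfl⟩
    exact .inl ⟨⟨S, x, s, d⟩, fun x hx y hy e x2 y2 x1 y1 ne =>
      (fg x hx y hy e x2 y2 x1 y1 ne).elim fun a ⟨b, _, _, F⟩ => (h1 ⟨a, b, F⟩).elim⟩
  obtain ⟨u, v, F⟩ := h1
  obtain ⟨u, v, F, mu, mv⟩ : ∃ u v, (gs h).Fg u v (u * v) ∧ u ∈ S ∧ v ∈ S := by
    obtain ⟨c, -, hc⟩ := ext_conj Nat.prime_two S (C := ⊤) le_top le_top (pgroup_pair (k := 1) (l := 1)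
      (by simpa [pow_two] using F.ia.2) (by simpa [pow_two] using F.ib.2) F.comm)
    exact ⟨_, _, ⟨F.ia.conj c, F.ib.conj c, by simpa using F.ne, (gs h).cm_conj c F.cm, rfl⟩,
      hc u (subset_closure (by simp)), hc v (subset_closure (by simp))⟩
  have ex : ∀ z : bar P, MH.Inv z → (∀ g ∈ S, z * g = g * z) → ∃ b ∈ S, Inv b ∧ z ≠ b ∧ (gs h).cm z b := fun z iz hz => by
    by_cases e1 : z = u
    · exact ⟨v, mv, F.ib, e1 ▸ F.ne, e1 ▸ F.cm⟩
    by_cases e2 : z = v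
    · exact ⟨u, mu, F.ia, e2 ▸ F.ne.symm, e2 ▸ F.s12.cm⟩
    rcases (gs h).tri iz.2 (hz u mu).symm with c1 | c1
    · exact ⟨u, mu, F.ia, e1, (gs h).cm_symm c1⟩
    rcases (gs h).tri iz.2 (hz v mv).symm with c2 | c2
    · exact ⟨v, mv, F.ib, e2, (gs h).cm_symm c2⟩
    refine ⟨u * v, mul_mem mu mv, F.ic, fun e => (gs h).excl ?_ c1, (gs h).cm_symm ((gs h).aa c1 c2)⟩
    exact e ▸ F.ta.2.2
  by_cases h2 : ∀ z ∈ S, Inv z → (∀ s ∈ S, z * s = s * z) → ∃ x ∈ S, (gs h).an x z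
  · obtain ⟨z, mz, iz, hz⟩ := exists_central hev S
    obtain ⟨b, mb, ib, ne, c⟩ := ex z iz hz
    obtain ⟨⟨_, x, hx, rfl⟩, ⟨_, y, hy, rfl⟩, e, an, x4, y4, c, hS⟩ := GS.sw hp hN h2 iz mz hz ib mb ne c
    obtain ⟨i, hi⟩ := exists_tw (congrArg Subtype.val e)
    exact .inr ⟨S, x, y, i, hx, hy, (hi.mul hi).uniq an, hi.lift, congrArg Subtype.val x4, congrArg Subtype.val y4, c,
      fun g => (hS g).trans (by simp [Subtype.ext_iff])⟩
  push Not at h2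
  obtain ⟨z, mz, iz, hz, h2⟩ := h2
  have ns := GS.ns_of iz hz h2
  obtain ⟨t, mt, ne, ct⟩ := zs hp S iz hz
  obtain ⟨S', x, s, d⟩ := (ns_main h ⟨iz, Inv.of_isConj iz ct, ne.symm, (gs h).cm_symm (ns t (hz t mt).symm), rfl⟩
    ns ct hz (IsConj.refl _)).2
  refine .inl ⟨⟨S', x, s, d⟩, fun x hx y hy e x2 y2 x1 y1 ne g hg h1 h2 => ?_⟩
  obtain ⟨a, b, ea, eb, F⟩ := fg x hx y hy e x2 y2 x1 y1 ne
  have ca := dh_one hp d iz F.ia
  simpa [Subtype.ext_iff, ea, eb] using (ns_main h F (ns.conj ca) (dh_one hp d F.ia F.ib) hz ca).1 ⟨g, hg⟩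
    (Subtype.ext (by simpa [ea] using h1)) (Subtype.ext (by simpa [eb] using h2))

end Cfsg.Agent.H7.Lw
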