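import Cfsg.Agent.H8.Imp3

/-!
Orthogonal groups: stabilisers of non-degenerate three-dimensional subspaces in dimensions five and six.
-/

set_option autoImplicit false
set_option linter.unusedSectionVars false

namespace Cfsg.Agent.H7

open Module QuadraticMap Cfsg.Agent.H8

variable {F V : Type*} [Field F] [AddCommGroup V] [Module F V] {Q : QuadraticForm F V}
variable [Finite F] [FiniteDimensional F V]

theorem nondeg_max_three (hN : ND Q) (h5 : 5 ≤ finrank F V) (h2 : (2 : F) ≠ 0) (hq : 4 ≤ Nat.card F)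
    {X : Submodule F V} (hX : NDOn Q X) (h3 : finrank F X = 3) (hle : finrank F (perp Q X) ≤ finrank F X)
    (hiso : ∀ g ∈ OG Q, X.map (g : V →ₗ[F] V) ≠ perp Q X) : Geo.IsMaximalIn (Om Q) (Stab X ⊓ Om Q) := by
  have h1 : X ≠ ⊤ := fun e => by rw [e, finrank_top] at h3; omega
  have hG := hX.good_of_three hN h2 h3 hq
  have h0 : X ≠ ⊥ := fun e => by rw [e, finrank_bot] at h3; omega
  let D : Fin 2 → Submodule F V := ![X, perp Q X]
  have hD : OD0 Q D := ⟨Fin.forall_fin_two.2 ⟨hX, hX.perp hN⟩, Fin.forall_fin_two.2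
      ⟨Fin.forall_fin_two.2 ⟨fun e => absurd rfl e, fun _ x hx y hy => hy x hx⟩,
        Fin.forall_fin_two.2 ⟨fun _ x hx y hy => by rw [pol_comm]; exact hx y hy,
          fun e => absurd rfl e⟩⟩, by
    rw [eq_top_iff, ← hX.isCompl.sup_eq_top]
    exact sup_le (le_iSup D 0) (le_iSup D 1)⟩
  have key : ∀ g ∈ OG Q, (∃ l, ∀ x ∈ X, g x ∈ D l) → g ∈ Stab X := fun g hg ⟨l, hl⟩ => by
    fin_cases l
    · exact mem_Stab_of_maps hl
    · exact absurd (map_eq_of_maps hl hle) (hiso g hg)
  have key' : ∀ g ∈ OG Q, g ∈ Stab X → g ∈ DStab D := fun g hg hgX =>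
    mem_DStab_of_Stab (Fin.forall_fin_two.2 ⟨hgX, Stab_perp hg hgX⟩)
  refine isMaximalIn_of (exists_Om_not_Stab hN h5 h0 h1) fun K hK1 hK2 g hg hgX => ?_
  have hK : Over Q D K := ⟨hD, hN, h5, hK2.trans Om_le_OG, fun g h1 h2 =>
    hK1 ⟨key g (Om_le_OG h2) (DStab_maps h1 0), h2⟩⟩
  have hS : NewS Q D K 0 := by
    by_contra hS
    by_cases hB : Bad Q D K
    · refine hgX (key g (hK.le hg) (DStab_maps (hK.bad_three hB (fun x hx i d hd hQd hm => ?_)
        ?_ (j := 0) (by change 3 ≤ finrank F X; omega) hG (not_NewS hS) hg) 0))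
      · obtain ⟨c, hc, hQc⟩ := hX.exists_value_two hN (by omega) (Q d)
        exact key' x hx (key x hx (hG.maps hD hx hc (by rwa [hQc]) fun a ha hQa =>
          hm 0 a ha (hQa.trans hQc)))
      · refine Fin.forall_fin_two.2 ⟨fun _ _ _ => by change 2 ≤ finrank F X; omega,
          Fin.forall_fin_two.2 ⟨fun _ e => ?_, fun e => absurd rfl e⟩⟩
        change finrank F (perp Q X) = finrank F X at e
        change 2 ≤ finrank F (perp Q X); omega
    · obtain ⟨i, d, hd, hQd, c, hcd, hc, hnew⟩ := hK.exists_new hB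
      have hQc : Q c ≠ 0 := by rwa [hcd]
      by_cases s1 : Q (pr Q X c) = 0
      · refine hS (hK.newS_of_sing hd hc hQc (hnew 0) (hnew 1) s1 (Or.inr (hc.trans
          (hK.rel_of_norm (j := 1) hd (hX.sub_pr_mem c) ?_))))
        change _ = Q (c - pr Q X c)
        rw [hX.Q_sub_pr, s1, hcd, sub_zero]
      have hp : ∀ c, c ∉ X → c ∉ perp Q (D 1) := fun c e e' => e (by rwa [← hN.perp_perp X])
      by_cases s2 : Q (pr Q X c) = Q c
      swap
      · exact hS (hK.three_aux h2 hq (j := 0) (l := 1) h3 hd hc hcd hQc (by decide) (hp c (hnew 0)) s1 s2)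
      have w1 := hX.sub_pr_mem c
      have w2 : Q (c - pr Q X c) = 0 := by rw [hX.Q_sub_pr, s2, sub_self]
      obtain ⟨w', w3, w4, w5⟩ := (hX.perp hN).exists_partner w1 (fun e => hnew 0 (hX.mem_of_sub_pr e)) w2
      obtain ⟨φ, hφ⟩ := exists_not_mem_list [(0 : F), 1, -1] (by simp; omega)
      simp only [List.mem_cons, List.not_mem_nil, or_false, not_or] at hφ
      have φ0 := hφ.1
      have m1 : φ⁻¹ • (c - pr Q X c) + (φ * Q c) • w' ∈ perp Q X :=
        add_mem (Submodule.smul_mem _ _ w1) (Submodule.smul_mem _ _ w3)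
      obtain ⟨k1, k2, -, -, k5⟩ := hK.refl_new (j := 1) hd hc hcd hQc m1 (φ := φ)
        (by rw [Q_add, Q_smul, Q_smul, w2, w4, pol_smul_left, pol_smul_right, w5]; field_simp; ring) (by
          have := mem_perp.1 m1 _ (pr_mem (Q := Q) X c)
          have e : ∀ y, polar Q y c = polar Q (c - pr Q X c) y + polar Q (pr Q X c) y := fun y => by
            rw [← polar_add_left, sub_add_cancel, pol_comm]
          rw [e, this, polar_add_right, pol_smul_right, pol_smul_right, pol_self, w2, w5]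
          ring)
      have k6 : Q (pr Q X (φ⁻¹ • (c - pr Q X c) + (φ * Q c) • w' - φ • c)) = φ * φ * Q c := by
        rw [show pr Q X _ = _ from k5 0 (by decide), Q_smul]; change _ * Q (pr Q X c) = _; rw [s2]; ring
      have k7 : φ * φ * Q c ≠ Q d := fun e => by
        have : (φ - 1) * (φ + 1) * Q c = 0 := by linear_combination e - hcd
        rcases mul_eq_zero.1 ((mul_eq_zero.1 this).resolve_right hQc) with e | e
        · exact hφ.2.1 (by linear_combination e)
        · exact hφ.2.2 (by linear_combination e)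
      exact hS (hK.three_aux h2 hq (j := 0) (l := 1) h3 hd k1 k2 (by rwa [k2]) (by decide)
        (hp _ fun e => k7 (by rw [← k6, hX.pr_of_mem e, k2]))
        (by change Q (pr Q X _) ≠ 0; rw [k6]; exact mul_ne_zero (mul_ne_zero φ0 φ0) hQc)
        (by change Q (pr Q X _) ≠ _; rw [k6, k2]; exact k7))
  obtain ⟨u, hu, hu0, hQu, v, hv, hvj⟩ := hS
  refine hK.fin_three (j := 0) (by change 3 ≤ finrank F X; omega) hu hQu hu0 hv hvj
    (Fin.forall_fin_two.2 ⟨fun e => absurd rfl e, fun _ e => by omega⟩) fun l m h1 h2 h3 => ?_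
  exfalso
  fin_cases l <;> fin_cases m <;> simp_all

end Cfsg.Agent.H7
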