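import Cfsg.Agent.H7.OmX1

/-!
Orthogonal groups: field extension subgroups of orthogonal type, the parabolic subgroup.
-/

set_option autoImplicit false
set_option linter.unusedSectionVars false

namespace Cfsg.Agent.H7

open Module QuadraticMap Cfsg.Agent.H8

variable {F K : Type*} [Field F] [Field K] [Algebra F K] {V : Type*} [AddCommGroup V] [Module F V] [Module K V]
  [IsScalarTower F K V] [FiniteDimensional F K] [FiniteDimensional K V] [FiniteDimensional F V] [Finite F]
variable {τ : K →ₗ[F] F} {R : QuadraticForm K V} {Q : QuadraticForm F V} {M : Subgroup (V ≃ₗ[F] V)}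

/-- The functional `x ↦ f(x,u)` as an `F`-linear map. -/
def plin (F : Type*) [Field F] [Algebra F K] [Module F V] [IsScalarTower F K V] (R : QuadraticForm K V) (u : V) :
    V →ₗ[F] K := (R.polarBilin.flip u).restrictScalars F

@[simp] theorem plin_apply (u x : V) : plin F R u x = polar R x u := rfl

/-- The line `k ↦ k u` as an `F`-linear map. -/
def kln (F K : Type*) [Field F] [Field K] [Algebra F K] [Module F V] [Module K V] [IsScalarTower F K V] (u : V) :
    K →ₗ[F] V := (LinearMap.toSpanSingleton K V u).restrictScalars F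

@[simp] theorem kln_apply (u : V) (k : K) : kln F K u k = k • u := rfl

theorem exists_OG_of {Q : QuadraticForm F V} (hN : ND Q) (G : V →ₗ[F] V) (h : ∀ x, Q (G x) = Q x) :
    ∃ g ∈ OG Q, ∀ x, g x = G x := by
  have hG : Function.Injective G := by
    rw [injective_iff_map_eq_zero]
    refine fun x e => hN x fun y => ?_
    have := h (x + y)
    rw [map_add, e, zero_add, h, Q_add, ← h x, e] at this
    simpa using this.symm
  exact ⟨LinearEquiv.ofInjectiveEndo G hG, mem_OG.2 h, fun x => rfl⟩

namespace ExtO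

theorem ext_tau (h : ExtO τ R Q) {a b : K} (e : ∀ k, τ (k * a) = τ (k * b)) : a = b :=
  sub_eq_zero.1 (eq_zero_of_tau h.tau fun k => by rw [mul_sub, map_sub, e, sub_self])

theorem pol_smul (h : ExtO τ R Q) (k : K) (x y : V) : polar Q (k • x) y = polar Q x (k • y) := by simp [h.pol]

theorem lin_of_unip (h : ExtO τ R Q) (hM : M ≤ OG Q) (hK : ∀ u w, (siegel R u w).restrictScalars F ∈ M) {u : V}
    (hu0 : u ≠ 0) (hu : R u = 0) (hY : ∀ ρ ∈ M, (∀ w, polar R w u = 0 → ρ w = w) → ρ = 1) {n : V ≃ₗ[F] V}
    (hn : n ∈ M) (n1 : ∀ k : K, n (k • u) = k • u) (n2 : ∀ y, polar R y u = 0 → ∃ k : K, n y = y + k • u) :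
    KLin K n := by
  obtain ⟨x, -, hx⟩ := h.exists_partner hu0 hu
  have huu : polar R u u = 0 := by simp [hu]
  have c1 : polar R (n x) u = 1 := hx ▸ h.ext_tau fun k => by
    have := OG_pol (hM hn) x (k • u)
    simpa [n1, h.pol] using this
  have c2 : ∀ w, polar R w u = 0 → n w = w - polar R w (n x - x) • u := fun w e => by
    have e' : polar R u w = 0 := by rwa [pol_comm]
    have := inv_mul_eq_one.1 (hY _ (M.mul_mem (M.inv_mem (M.mul_mem (hK u w) hn)) (M.mul_mem hn (hK u w)))
      fun y e'' => by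
        obtain ⟨k, e3⟩ := n2 y e''
        rw [LinearEquiv.mul_apply, LinearEquiv.coe_inv, LinearEquiv.symm_apply_eq]
        simp only [LinearEquiv.mul_apply, LinearEquiv.restrictScalars_apply, siegel_apply_of_perp hu e' e'',
          map_sub, n1, e3]
        rw [siegel_apply_of_perp hu e' (by simp [e'', huu])]
        simp [e', sub_eq_add_neg])
    have := LinearEquiv.congr_fun this x
    simp only [LinearEquiv.mul_apply, LinearEquiv.restrictScalars_apply, siegel_apply hu e', hx, c1, map_sub,
      map_add, n1, one_smul] at this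
    rw [polar_sub_right, pol_comm R w, pol_comm R w]
    linear_combination (norm := module) -this
  have e : polar R u (n x - x) = 0 := by rw [pol_comm]; simp [hx, c1]
  rw [← inv_mul_eq_one.1 (hY _ (M.mul_mem (M.inv_mem (hK u (n x - x))) hn) fun w e' => by
    rw [LinearEquiv.mul_apply, LinearEquiv.coe_inv, LinearEquiv.symm_apply_eq, c2 w e']
    exact (siegel_apply_of_perp hu e e').symm)]
  exact kLin_res _

theorem exists_perp_pair (h : ExtO τ R Q) {u : V} (hu0 : u ≠ 0) (k : K) :
    ∃ w w', polar R u w = 0 ∧ polar R u w' = 0 ∧ polar R w w' = k := by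
  obtain ⟨w, hw, hw'⟩ := exists_not_mem (T := perp R (sp K [u])) (S := sp K [u]) (by
    have := h.nd.finrank_perp (sp K [u])
    have := finrank_sp_le (F := K) [u]
    have := h.three
    simp at *; omega)
  obtain ⟨w', a1, a2⟩ := h.nd.exists_dual hw'
  exact ⟨w, k • w', mem_perp_sp.1 hw u (by simp), by simp [a2 u (mem_sp_of_mem (by simp))], by simp [a1]⟩

/-- The stabiliser of a singular point of the extension space. -/
theorem semi_of_stab (h : ExtO τ R Q) (hM : M ≤ Om Q) (hH : ∀ g ∈ Om Q, KSemi K g → g ∈ M) {u : V}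
    (hu0 : u ≠ 0) (hu : R u = 0) (hY : ∀ ρ ∈ M, (∀ w, polar R w u = 0 → ρ w = w) → ρ = 1) {g : V ≃ₗ[F] V}
    (hg : g ∈ M) (h1 : ∀ k : K, ∃ k' : K, g (k • u) = k' • u) : KSemi K g := by
  have hK : ∀ u w, (siegel R u w).restrictScalars F ∈ M := fun u w => hH _ (h.siegel_mem u w) (kLin_res _).semi
  have hM' : M ≤ OG Q := hM.trans Om_le_OG
  have hgO := hM' hg
  have huu : polar R u u = 0 := by simp [hu]
  have h2 : ∀ k : K, ∃ k' : K, g.symm (k • u) = k' • u := fun k =>
    mem_dz.1 (dz_inv_top (eq_top_iff.2 fun k _ => mem_dz.2 (h1 k)) ▸ Submodule.mem_top : k ∈ dz K u g⁻¹)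
  have hgL : ∀ w, polar R w u = 0 → polar R (g w) u = 0 := fun w e => eq_zero_of_tau h.tau fun k => by
    obtain ⟨k', e'⟩ := h2 k
    have := OG_pol hgO w (g.symm (k • u))
    rw [g.apply_symm_apply, e'] at this
    simpa [h.pol, e] using this
  have hE : ∀ w, polar R u w = 0 → KLin K (g⁻¹ * (siegel R u w).restrictScalars F * g) := fun w e =>
    h.lin_of_unip hM' hK hu0 hu hY (M.mul_mem (M.mul_mem (M.inv_mem hg) (hK u w)) hg)
      (fun k => by
        obtain ⟨k', e'⟩ := h1 k
        simp [LinearEquiv.mul_apply, e', siegel_apply hu e, huu, e, LinearEquiv.symm_apply_eq])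
      fun y e' => by
        obtain ⟨k', e''⟩ := h2 (polar R (g y) w)
        exact ⟨-k', by simp [LinearEquiv.mul_apply, siegel_apply_of_perp hu e (hgL y e'), e'', sub_eq_add_neg]⟩
  obtain ⟨x, hx0, hx⟩ := h.exists_partner hu0 hu
  have hux : polar R u x = 1 := by rwa [pol_comm]
  let J : K →ₗ[F] V →ₗ[F] V := LinearMap.mk₂ F (fun k v => g (k • g.symm v)) (by simp [add_smul]) (by simp)
    (by simp) (fun c k v => by rw [map_smul g.symm, smul_comm, map_smul])
  have hJ : ∀ (k : K) v, g (k • g.symm v) = J k v := fun k v => rfl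
  let σ : K →ₗ[F] K := plin F R u ∘ₗ J.flip x
  have hσ : ∀ k, polar R (J k x) u = σ k := fun k => rfl
  have a1 : ∀ k w, polar R u w = 0 → J k (w - (polar R x w + R w) • u) =
      σ k • w - (polar R (J k x) w + R w * σ k) • u := fun k w e => by
    have := congrArg g (hE w e k (g.symm x))
    simp only [LinearEquiv.mul_apply, LinearEquiv.coe_inv, LinearEquiv.apply_symm_apply,
      LinearEquiv.restrictScalars_apply, hJ, siegel_apply hu e, hx, hσ, mul_one, one_smul, map_add,
      map_sub (J k)] at this ⊢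
    linear_combination (norm := module) -this
  have a2 : ∀ k l : K, J k (l • u) = (σ k * l) • u := fun k l => by
    obtain ⟨w, w', b1, b2, b3⟩ := h.exists_perp_pair hu0 l
    have e1 := a1 k w b1
    have e2 := a1 k w' b2
    have e3 := a1 k (w + w') (by simp [b1, b2])
    simp only [Q_add, b3, polar_add_right, add_smul, map_add, map_sub] at e1 e2 e3
    linear_combination (norm := module) e1 + e2 - e3
  have a3 : ∀ k w, polar R w u = 0 → J k w = σ k • w := by
    have b1 : ∀ k w, polar R w u = 0 → J k w = σ k • w - polar R (J k x - σ k • x) w • u := fun k w e => by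
      have := a1 k w (by rwa [pol_comm])
      rw [map_sub, a2] at this
      simp only [polar_sub_left, pol_smul_left]
      linear_combination (norm := module) this
    intro k w e
    rw [b1 k w e, show polar R (J k x - σ k • x) w = 0 from eq_zero_of_tau h.tau fun l => ?_, zero_smul, sub_zero]
    have b2 : polar Q (J k (l • w)) x = polar Q (l • w) (J k x) := by
      rw [← hJ, ← hJ, ← OG_pol_inv hgO, pol_comm Q (g _), ← OG_pol_inv hgO, pol_comm, h.pol_smul]; rfl
    rw [b1 k _ (by simp [e])] at b2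
    simp only [h.pol, polar_sub_left, pol_smul_left, pol_smul_right, hux, map_sub, mul_one, pol_comm R w,
      mul_left_comm (σ k) l] at b2
    have : 2 * τ (l * polar R (J k x - σ k • x) w) = 0 := by
      simp only [polar_sub_left, pol_smul_left, mul_sub l, map_sub] at b2 ⊢
      linear_combination -b2
    exact (mul_eq_zero.1 this).resolve_left h.two
  have a4 : ∀ (k : K) w, polar R w u = 0 → g (k • w) = σ k • g w := fun k w e => by
    rw [← a3 k _ (hgL w e), ← hJ, g.symm_apply_apply]
  have a5 : ∀ k l, σ (k * l) = σ k * σ l := fun k l => by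
    have := a4 (k * l) u huu
    rw [mul_smul, a4 k _ (by simp [huu]), a4 l u huu, smul_smul] at this
    exact (smul_left_injective K (by simpa using hu0) this).symm
  have a6 : polar R (g x) u ≠ 0 := fun e => by
    obtain ⟨k, hk⟩ := not_forall.1 (mt LinearMap.ext h.tau)
    obtain ⟨k', e'⟩ := h1 k
    have := OG_pol hgO x (k • u)
    rw [e'] at this
    exact hk (by simpa [h.pol, e, hx] using this.symm)
  set c := R (g x) / polar R (g x) u with hc
  have a7 : R (g x - c • u) = 0 := by rw [Q_sub, Q_smul, pol_smul_right, hu, hc]; field_simp; ring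
  have p : ∀ v, polar R (v - polar R v u • x) u = 0 := fun v => by simp [hx]
  let G : V →ₗ[F] V := kln F K (g x - c • u) ∘ₗ σ ∘ₗ plin F R u +
    (g : V →ₗ[F] V) ∘ₗ (LinearMap.id - kln F K x ∘ₗ plin F R u)
  have hG : ∀ v, G v = σ (polar R v u) • (g x - c • u) + g (v - polar R v u • x) := fun v => rfl
  obtain ⟨g₀, b1, b2⟩ := exists_OG_of h.nondeg G fun v => by
    rw [hG, Q_add, h.pol_smul, ← a4 _ _ (p v), polar_sub_left, OG_pol hgO, mem_OG.1 hgO, h.Q (_ • _), Q_smul, a7,
      h.pol (c • u), pol_smul_left, pol_comm R u, hgL _ (by rw [pol_smul_left, p, mul_zero]), ← h.pol_smul]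
    conv_rhs => rw [← sub_add_cancel v (polar R v u • x), Q_add, h.Q (_ • _), Q_smul, hx0, pol_comm Q]
    simp
  have b3 : KSemi K g₀ := fun k => ⟨σ k, fun v => by
    rw [b2, b2, hG, hG, pol_smul_left, a5, mul_smul k, ← smul_sub k, a4 k _ (p v), smul_add, mul_smul]⟩
  have b4 : ∀ w, polar R w u = 0 → (g₀⁻¹ * g) w = w := fun w e => by
    rw [LinearEquiv.mul_apply, LinearEquiv.coe_inv, LinearEquiv.symm_apply_eq, b2, hG, e]; simp
  have b5 := (OG Q).mul_mem ((OG Q).inv_mem b1) hgO
  have b6 := mem_Om_of_sq_zero h.nondeg h.five h.two b5 fun y => b4 _ (eq_zero_of_tau h.tau fun k => by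
    have := OG_pol b5 y (k • u)
    rw [b4 (k • u) (by simp [huu])] at this
    simpa [h.pol, mul_sub, sub_eq_zero] using this)
  have b7 : g₀ ∈ M := hH _ (by simpa using (Om Q).mul_mem (hM hg) ((Om Q).inv_mem b6)) b3
  rwa [← inv_mul_eq_one.1 (hY _ (M.mul_mem (M.inv_mem b7) hg) b4)]

end ExtO

end Cfsg.Agent.H7
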