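import Cfsg.Agent.H7.SUX1
import Cfsg.Agent.H7.OmX2

/-!
Unitary groups: field extension subgroups, the extremal argument.
-/

set_option autoImplicit false
set_option linter.unusedSectionVars false

namespace Cfsg.Agent.H7

open Module Cfsg.Agent.Form Cfsg.Agent.H6.SU
open scoped Matrix

variable {F K : Type*} [Field F] [Field K] [Algebra F K] {V : Type*} [AddCommGroup V] [Module F V] [Module K V]
  [IsScalarTower F K V] [FiniteDimensional F K] [FiniteDimensional K V] [FiniteDimensional F V] [Finite F]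
variable {σ : F →+* F} {hσ : ∀ a, σ (σ a) = a} {s : K →+* K} {hs : ∀ a, s (s a) = a}

/-- The unitary space `S` is obtained from the unitary space `f` over the extension field. -/
structure ExtH (τ : K →ₗ[F] F) (f : PQ (FP.unit s hs) V) (S : PQ (FP.unit σ hσ) V) : Prop extends FT σ s τ where
  two : 2 ≤ finrank K V
  nd : f.Nondeg
  B : ∀ x y, S.B x y = τ (f.B x y)

/-- `G` contains the transvections over the extension field with centre `u`. -/
def TG (f : PQ (FP.unit s hs) V) (G : Subgroup (V ≃ₗ[F] V)) (u : V) : Prop :=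
  ∀ κ, κ + s κ = 0 → ∃ t ∈ G, ∀ y, t y = y + (κ * f.B y u) • u

/-- `G` induces transvections on the point spanned by `u`. -/
def Fam (σ : F →+* F) (τ : K →ₗ[F] F) (G : Subgroup (V ≃ₗ[F] V)) (u : V) : Prop :=
  ∃ β δ : K, β ≠ 0 ∧ δ ≠ 0 ∧ ∀ c, σ c = c → ∃ t ∈ G, ∀ b : K, t (b • u) = b • u + (c * τ (β * b)) • δ • u

variable {τ : K →ₗ[F] F} {f : PQ (FP.unit s hs) V} {S : PQ (FP.unit σ hσ) V} {M : Subgroup (V ≃ₗ[F] V)}

theorem uB_smul_left (c : F) (x y : V) : f.B (c • x) y = c • f.B x y := by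
  rw [← algebraMap_smul K c x, f.B_smul_left, Algebra.smul_def]

/-- The functional `x ↦ f(x,u)` as an `F`-linear map. -/
def ulin (F : Type*) [Field F] [Algebra F K] [Module F V] [IsScalarTower F K V] (f : PQ (FP.unit s hs) V) (u : V) :
    V →ₗ[F] K := (f.lin u).restrictScalars F

@[simp] theorem ulin_apply (u x : V) : ulin F f u x = f.B x u := rfl

theorem finrank_dz_le {u : V} (hu : u ≠ 0) (g : V ≃ₗ[F] V) : finrank F (dz K u g) ≤ finrank F (dz K u g⁻¹) := by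
  obtain ⟨ψ, hψ, -⟩ := exists_dual_one (F := K) (W := ⊥) (x := u) (by simpa using hu)
  have e : ∀ k : dz K u g, g (k.1 • u) = ψ (g (k.1 • u)) • u := fun k => by
    obtain ⟨k', e⟩ := mem_dz.1 k.2
    simp [e, hψ]
  refine LinearMap.finrank_le_finrank_of_injective (f := LinearMap.codRestrict (dz K u g⁻¹)
    (ψ.restrictScalars F ∘ₗ (g : V →ₗ[F] V) ∘ₗ kln F K u ∘ₗ (dz K u g).subtype) fun k => mem_dz.2 ⟨k, ?_⟩)
    fun a b hab => ?_
  · exact (congrArg _ (e k).symm).trans (g.symm_apply_apply _)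
  · have := (e a).trans ((congrArg (· • u) (congrArg Subtype.val hab)).trans (e b).symm)
    exact Subtype.ext (smul_left_injective K hu (g.injective this))

namespace ExtH

theorem ext (h : ExtH τ f S) {a b : K} (e : ∀ k, τ (k * a) = τ (k * b)) : a = b :=
  sub_eq_zero.1 (eq_zero_of_tau h.tau fun k => by rw [mul_sub, map_sub, e, sub_self])

theorem ext' (h : ExtH τ f S) {a b : K} (e : ∀ k, τ (s k * a) = τ (s k * b)) : a = b :=
  h.ext fun k => by simpa [hs] using e (s k)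

theorem uB_smul_right (h : ExtH τ f S) (c : F) (x y : V) : f.B x (c • y) = σ c • f.B x y := by
  rw [← algebraMap_smul K c y, Bsr, h.sF, Algebra.smul_def]

theorem nondeg (h : ExtH τ f S) : S.Nondeg := fun x hx =>
  h.nd x fun y => h.ext' fun k => by simpa [h.B] using hx (k • y)

theorem res_isom (h : ExtH τ f S) {g : V ≃ₗ[K] V} (hg : g ∈ f.isom) : g.restrictScalars F ∈ S.isom :=
  (S.unit_mem_isom _).2 fun x y => by rw [h.B, h.B]; exact congrArg τ (PQ.B_isom hg x y)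

theorem res_mem (h : ExtH τ f S) {g : V ≃ₗ[K] V} (hg : g ∈ sisom f) : g.restrictScalars F ∈ sisom S :=
  mem_sisom.2 ⟨h.res_isom hg.1, Units.ext (by
    rw [LinearEquiv.coe_det]
    refine (LinearMap.det_restrictScalars (S := K) (f := (g : V →ₗ[K] V))).trans ?_
    rw [← LinearEquiv.coe_det, (mem_sisom.1 hg).2]; simp)⟩

theorem six (h : ExtH τ f S) : 6 ≤ finrank F V := by
  rw [← Module.finrank_mul_finrank F K V]; exact Nat.mul_le_mul h.three h.two

theorem mem_span_of_perp (h : ExtH τ f S) {u y : V} (hy : ∀ w, f.B w u = 0 → S.B y w = 0) :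
    ∃ k : K, y = k • u := by
  have : y ∈ f.perp (f.perp (K ∙ u)) := fun w hw => h.ext' fun k => by
    simpa [h.B] using hy (k • w) (by simp [f.mem_perp_span_singleton.1 hw])
  rw [h.nd.perp_perp] at this
  obtain ⟨k, hk⟩ := Submodule.mem_span_singleton.1 this
  exact ⟨k, hk.symm⟩

theorem exists_iso' (h : ExtH τ f S) {u : V} (hu : f.B u u = 0) {g : V ≃ₗ[F] V} (hg : g ∈ S.isom) :
    ∃ a : K, a ≠ 0 ∧ f.B (g (a • u)) (g (a • u)) = 0 :=
  h.exists_iso (fun a b => f.B (g (a • u)) (g (b • u))) (fun x y z => by simp [add_smul])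
    (fun c x y => by simp [uB_smul_left]) (fun x y => (Bs f _ _).symm)
    fun x => by rw [← h.B, PQ.B_isom hg, h.B]; simp [hu]

theorem tg (h : ExtH τ f S) (hK : ∀ g ∈ sisom f, g.restrictScalars F ∈ M) {u : V} (hu : f.B u u = 0) : TG f M u :=
  fun κ hκ => ⟨_, hK _ (tau_mem_sisom f (sing hu) κ (tauOK_of hu hκ)), fun _ => rfl⟩

variable [Finite K]

theorem exists_nbr (h : ExtH τ f S) {u v : V} (hu : u ≠ 0) (hv : v ≠ 0) :
    ∃ d, f.B d d = 0 ∧ f.B u d ≠ 0 ∧ f.B v d ≠ 0 := by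
  have hT := f.nondegOn_top.2 h.nd
  obtain ⟨y, -, hy⟩ := exists_sing_on h.neK hT (by simpa using h.two)
    (notMem_perp hT (x := u) trivial hu) (notMem_perp hT (x := v) trivial hv)
  exact ⟨y, hy⟩

theorem exists_step (h : ExtH τ f S) {d x y : V} (hd : f.B d d = 0) (hx : f.B x x = 0) (hy : f.B y y = 0)
    (e : f.B x d = f.B y d) (e0 : f.B x d ≠ 0) : ∃ l ∈ sisom f, l x = y := by
  obtain ⟨w, q, a1, -, a2⟩ := exists_eich_map f (sing hd) e e0 ((f.unit_Q_sub_mem f _ _).2 (hy.trans hx.symm))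
  exact ⟨_, eich_mem_sisom f _ _ _ a1, a2⟩

theorem exists_pt (h : ExtH τ f S) {u v : V} (hu0 : u ≠ 0) (hu : f.B u u = 0) (hv0 : v ≠ 0) (hv : f.B v v = 0) :
    ∃ l ∈ sisom f, ∃ k : K, l v = k • u := by
  obtain ⟨d, d1, d2, d3⟩ := h.exists_nbr hu0 hv0
  obtain ⟨l, l1, l2⟩ := h.exists_step (y := (f.B v d / f.B u d) • u) d1 hv (by simp [hu]) (by simp [d2]) d3
  exact ⟨l, l1, _, l2⟩

theorem semi_of_iso (h : ExtH τ f S) {g : V ≃ₗ[F] V} (hg : g ∈ S.isom)
    (h1 : ∀ v, v ≠ 0 → f.B v v = 0 → f.B (g v) (g v) = 0 ∧ ∀ k : K, ∃ k' : K, g (k • v) = k' • g v) : KSemi K g := by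
  intro k
  obtain ⟨θ, hθ⟩ := h.ne
  obtain ⟨ω, ω0, ω1⟩ := exists_tr_zero h.neK hs
  have h2 : ∀ v, ∃ c : K, v ≠ 0 → f.B v v = 0 → g (k • v) = c • g v := fun v => by
    by_cases e : v ≠ 0 ∧ f.B v v = 0
    · obtain ⟨c, hc⟩ := (h1 v e.1 e.2).2 k
      exact ⟨c, fun _ _ => hc⟩
    · exact ⟨0, fun a b => (e ⟨a, b⟩).elim⟩
  choose c hc using h2
  have h3 : ∀ u x, f.B u u = 0 → f.B x x = 0 → f.B u x ≠ 0 → f.B (u + x) (u + x) = 0 → c u = c x := by
    intro u x hu hx e e'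
    have u0 : u ≠ 0 := by rintro rfl; simp at e
    have x0 : x ≠ 0 := by rintro rfl; simp at e
    have a1 : f.B (g u) (g x) ≠ 0 := fun e0 => e (h.ext fun l => by
      obtain ⟨l', hl⟩ := (h1 u u0 hu).2 l
      have := PQ.B_isom hg (l • u) x
      simpa [hl, h.B, e0] using this.symm)
    have := hc (u + x) (fun e0 => e (by simpa [hx] using congrArg (f.B · x) e0)) e'
    rw [smul_add, map_add, map_add, hc u u0 hu, hc x x0 hx] at this
    have e1 := congrArg (f.B · (g x)) this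
    have e2 := congrArg (f.B · (g u)) this
    simp only [PQ.B_add_left, PQ.B_smul_left, (h1 u u0 hu).1, (h1 x x0 hx).1, mul_zero, add_zero, zero_add] at e1 e2
    rw [mul_right_cancel₀ a1 e1, mul_right_cancel₀ (ne_swap a1) e2]
  have h4 : ∀ y, y ≠ 0 → f.B y y = 0 → ∀ l : K, g (k • l • y) = c y • g (l • y) := fun y y0 hy l => by
    obtain ⟨x, -, hx, e⟩ := exists_partner_on (f.nondegOn_top.2 h.nd) (u := y) trivial y0 hy
    have e' : f.B x y = 1 := by rw [← Bs, e, map_one]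
    have a1 : ∀ a : K, a ≠ 0 → s a = a → c (ω • x) = c (a • y) := fun a a0 ha =>
      h3 _ _ (by simp [hx]) (by simp [hy]) (by simp [e', ω0, a0]) (by
        simp [hx, hy, e, e', ha]; linear_combination a * ω1)
    have a2 : ∀ a : K, s a = a → g (k • a • y) = c y • g (a • y) := fun a ha => by
      by_cases a0 : a = 0
      · simp [a0]
      rw [hc _ (smul_ne_zero a0 y0) (by simp [hy]), ← a1 a a0 ha, a1 1 one_ne_zero (map_one s), one_smul]
    obtain ⟨a, b, ha, hb, rfl⟩ := h.dec hθ l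
    rw [add_smul, smul_add, map_add, map_add, a2 a ha, smul_assoc, smul_comm k θ, map_smul g θ, map_smul g θ, a2 b hb,
      smul_add, smul_comm θ]
  have h5 : ∀ u x, f.B u u = 0 → f.B x x = 0 → f.B u x ≠ 0 → c u = c x := fun u x hu hx e => by
    have x0 : x ≠ 0 := by rintro rfl; simp at e
    obtain ⟨a, a0, ha⟩ := exists_sing_comb h.neK hu hx e
    rw [h3 u (a • x) hu (by simp [hx]) (by simp [e, a0]) ha]
    have := (hc _ (smul_ne_zero a0 x0) (by simp [hx])).symm.trans (h4 x x0 hx a)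
    exact smul_left_injective K (by simp [a0, x0]) this
  have hT := f.nondegOn_top.2 h.nd
  obtain ⟨u, -, x, -, hu, -, e⟩ := exists_hyp_on h.neK hT (by simpa using h.two)
  have u0 : u ≠ 0 := by rintro rfl; simp at e
  let N : Submodule K V :=
    { carrier := {v | ∀ l : K, g (k • l • v) = c u • g (l • v)}
      add_mem' := fun ha hb l => by simp [ha l, hb l]
      zero_mem' := by simp
      smul_mem' := fun a v hv l => by rw [smul_smul l]; exact hv _ }
  refine ⟨c u, fun v => ?_⟩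
  have := le_of_sing h.neK hT (by simpa using h.two) (A := N) (fun y _ hy l => by
    by_cases y0 : y = 0
    · simp [y0]
    obtain ⟨d, d1, d2, d3⟩ := h.exists_nbr u0 y0
    rw [h4 y y0 hy, h5 _ _ hu d1 d2, h5 _ _ hy d1 d3]) (Submodule.mem_top (x := v)) 1
  simpa using this

theorem exists_dz (h : ExtH τ f S) (hM : M ≤ S.isom) (hK : ∀ g ∈ sisom f, g.restrictScalars F ∈ M) {g : V ≃ₗ[F] V}
    (hg : g ∈ M) (hg' : ¬ KSemi K g) : ∃ u, u ≠ 0 ∧ f.B u u = 0 ∧ ∃ g ∈ M, dz K u g ≠ ⊤ ∧ dz K u g ≠ ⊥ := by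
  by_contra hc
  push Not at hc
  refine hg' (h.semi_of_iso (hM hg) fun v v0 hv => ?_)
  obtain ⟨a, a0, ha⟩ := h.exists_iso' hv (hM hg)
  obtain ⟨l, l1, k, l2⟩ := h.exists_pt v0 hv (by simp [a0, v0]) ha
  have e : dz K v (l.restrictScalars F * g) = ⊤ := by
    by_contra e'
    have : a ∈ dz K v (l.restrictScalars F * g) := mem_dz.2 ⟨k, l2⟩
    rw [hc v v0 hv _ (M.mul_mem (hK l l1) hg) e'] at this
    exact a0 ((Submodule.mem_bot F).1 this)
  have e1 : ∀ b : K, ∃ k : K, l (g (b • v)) = k • v := fun b => mem_dz.1 (e ▸ Submodule.mem_top : b ∈ dz K v _)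
  obtain ⟨k₁, e2⟩ := e1 1
  rw [one_smul] at e2
  have k0 : k₁ ≠ 0 := by rintro rfl; simp [v0] at e2
  refine ⟨by rw [← PQ.B_isom l1.1, e2]; simp [hv], fun b => ?_⟩
  obtain ⟨k', e3⟩ := e1 b
  exact ⟨k' / k₁, l.injective (by rw [e3, map_smul, e2, smul_smul, div_mul_cancel₀ _ k0])⟩

theorem extremal (h : ExtH τ f S) {G : Subgroup (V ≃ₗ[F] V)} (hG : G ≤ S.isom) {u : V} (hu0 : u ≠ 0)
    (hu : f.B u u = 0) (hT : TG f G u) (hex : ∃ g ∈ G, dz K u g ≠ ⊤ ∧ dz K u g ≠ ⊥) :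
    (∃ g ∈ G, dz K u g ≠ ⊤ ∧ dz K u g ≠ ⊥ ∧ ∀ b : K, f.B (g (b • u)) u = 0) ∨ Fam σ τ G u := by
  obtain ⟨g₀, hg₀, a1, a2⟩ := hex
  obtain ⟨g, ⟨hg, b1⟩, hmax⟩ := (measure fun g => finrank F K - finrank F (dz K u g)).wf.has_min
    {g | g ∈ G ∧ dz K u g ≠ ⊤} ⟨g₀, hg₀, a1⟩
  have hmax' : ∀ g' ∈ G, finrank F (dz K u g) < finrank F (dz K u g') → dz K u g' = ⊤ := fun g' hg' e => by
    by_contra e'
    refine hmax g' ⟨hg', e'⟩ ?_
    have := Submodule.finrank_le (dz K u g')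
    change finrank F K - finrank F (dz K u g') < finrank F K - finrank F (dz K u g)
    omega
  have b2 : dz K u g ≠ ⊥ := fun e => a1 (hmax' g₀ hg₀ (by
    rw [e, finrank_bot]; exact Nat.pos_of_ne_zero fun e' => a2 (Submodule.finrank_eq_zero.1 e')))
  by_cases hφ : ∀ b : K, f.B (g (b • u)) u = 0
  · exact .inl ⟨g, hg, b1, b2, hφ⟩
  right
  push Not at hφ
  obtain ⟨a₀, ha₀⟩ := hφ
  let φ : K →ₗ[F] K := ulin F f u ∘ₗ (g : V →ₗ[F] V) ∘ₗ kln F K u
  have hφ : ∀ b, f.B (g (b • u)) u = φ b := fun b => rfl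
  rw [hφ] at ha₀
  obtain ⟨ω, ω0, ω1⟩ := exists_tr_zero h.ne hσ
  obtain ⟨θ, hθ⟩ := h.ne
  have hn : ∀ κ, s κ = κ → ∃ n ∈ G, ∀ b : K, n (b • u) = b • u + ω • g.symm ((κ * φ b) • u) := fun κ hκ => by
    obtain ⟨t, t1, t2⟩ := hT (ω • κ) (by rw [h.s_smul, hκ, ← add_smul, ω1, zero_smul])
    exact ⟨_, G.mul_mem (G.mul_mem (G.inv_mem hg) t1) hg, fun b => by simp [LinearEquiv.mul_apply, t2, hφ]⟩
  have c1 : ∀ κ, s κ = κ → ∀ a, a ∉ dz K u g → κ * φ a ∈ dz K u g⁻¹ → ∀ b, κ * φ b ∈ dz K u g⁻¹ := by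
    intro κ hκ a ha hδ b
    obtain ⟨n, n1, n2⟩ := hn κ hκ
    have := hmax' _ n1 (Submodule.finrank_lt_finrank_of_lt (SetLike.lt_iff_le_and_exists.2 ⟨fun c hc => ?_, a, ?_, ha⟩))
    · obtain ⟨k, hk⟩ := mem_dz.1 (this ▸ Submodule.mem_top : b ∈ dz K u _)
      rw [n2] at hk
      refine mem_dz.2 ⟨ω⁻¹ • (k - b), ?_⟩
      rw [smul_assoc, sub_smul, ← hk, add_sub_cancel_left, inv_smul_smul₀ ω0]; rfl
    · obtain ⟨k, hk⟩ := mem_dz.1 hc
      exact mem_dz.2 ⟨c, by rw [n2, ← hφ c, hk]; simp [hu]⟩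
    · obtain ⟨k, hk⟩ := mem_dz.1 hδ
      exact mem_dz.2 ⟨a + ω • k, by rw [n2, add_smul, smul_assoc, ← hk]; rfl⟩
  have c2 : LinearMap.ker φ = dz K u g := by
    refine le_antisymm (fun a ha => by_contra fun hc => b1 ?_) fun c hc => ?_
    · rw [← inv_inv g]
      refine dz_inv_top (eq_top_iff.2 fun l _ => ?_)
      obtain ⟨x, y, hx, hy, e⟩ := h.dec hθ (l / φ a₀)
      rw [← div_mul_cancel₀ l ha₀, e, add_mul, smul_mul_assoc]
      exact add_mem (c1 x hx a hc (by simp [LinearMap.mem_ker.1 ha]) _)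
        (Submodule.smul_mem _ _ (c1 y hy a hc (by simp [LinearMap.mem_ker.1 ha]) _))
    · obtain ⟨k, hk⟩ := mem_dz.1 hc
      rw [LinearMap.mem_ker, ← hφ, hk]; simp [hu]
  have c3 := LinearMap.finrank_range_add_finrank_ker φ
  have c4 := finrank_dz_le (K := K) hu0 g
  have c5 := finrank_dz_le (K := K) hu0 g⁻¹
  rw [inv_inv] at c5
  rw [c2] at c3
  obtain ⟨θ', hθ'⟩ := exists_tr_one h.ne hσ
  let T : PQ (FP.unit σ hσ) K := PQ.ofHerm σ hσ θ' hθ' (fun a b => τ (a * s b)) (by simp [add_mul]) (by simp)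
    fun a b => by rw [← h.τs, map_mul s, hs, mul_comm]
  have hT : T.Nondeg := fun a ha => h.ext' fun k => by rw [mul_comm, mul_zero, map_zero]; exact ha k
  have c6 : dz K u g⁻¹ = T.perp (LinearMap.range φ) := by
    refine Submodule.eq_of_le_of_finrank_le ?_ (by have := hT.finrank_perp (LinearMap.range φ); omega)
    rintro k hk _ ⟨b, rfl⟩
    obtain ⟨k', e⟩ := mem_dz.1 hk
    have := PQ.B_isom (hG hg) (g.symm (k • u)) (b • u)
    rw [g.apply_symm_apply, show g.symm _ = _ from e, h.B, h.B, f.B_smul_left, f.B_smul_left, ← Bs f _ u] at this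
    exact this.trans (by simp [hu])
  obtain ⟨l, -, l0, l2, κ, k0, k1, k2⟩ := h.line (I := LinearMap.range φ) (D := dz K u g⁻¹)
    (fun e => ha₀ ((Submodule.mem_bot F).1 (e ▸ LinearMap.mem_range_self φ a₀)))
    (fun e => b2 (Submodule.finrank_eq_zero.1 (by have := Submodule.finrank_eq_zero.2 e; omega))) (by omega)
    (fun k hk => c6 ▸ hk) (by
      rintro κ hκ _ ⟨a, rfl⟩ a0 e _ ⟨b, rfl⟩
      exact c1 κ hκ a (c2 ▸ a0) e b)
  obtain ⟨ψ, ψ1, -⟩ := exists_dual_one (F := F) (W := ⊥) (x := l) (by simpa using l0)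
  obtain ⟨β, hβ⟩ := exists_tau_eq h.tau (ψ ∘ₗ φ)
  have c7 : ∀ b, φ b = τ (β * b) • l := fun b => by
    obtain ⟨c, hc⟩ := l2 _ (LinearMap.mem_range_self φ b)
    rw [← hβ, LinearMap.comp_apply ψ, hc, map_smul, ψ1, smul_eq_mul, mul_one]
  obtain ⟨δ, hδ⟩ := mem_dz.1 k2
  refine ⟨β, ω • δ, ?_, smul_ne_zero ω0 ?_, fun c hc => ?_⟩
  · rintro rfl; exact ha₀ (by simpa using c7 a₀)
  · rintro rfl; simp [k0, l0, hu0] at hδ
  · obtain ⟨n, n1, n2⟩ := hn (c • κ) (by rw [h.s_smul, hc, k1])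
    refine ⟨n, n1, fun b => ?_⟩
    rw [n2, c7 b, smul_mul_assoc, mul_smul_comm, smul_assoc, smul_assoc, map_smul, map_smul,
      show g.symm _ = _ from hδ, smul_assoc]
    module

theorem lin_of_unip (h : ExtH τ f S) (hM : M ≤ S.isom) (hK : ∀ g ∈ sisom f, g.restrictScalars F ∈ M) {u : V}
    (hu0 : u ≠ 0) (hu : f.B u u = 0) (hY : ∀ ρ ∈ M, (∀ w, f.B w u = 0 → ρ w = w) → KLin K ρ) {c : V ≃ₗ[F] V}
    (hc : c ∈ M) (c1 : ∀ k : K, c (k • u) = k • u) (c2 : ∀ y, f.B y u = 0 → ∃ k : K, c y = y + k • u) (k : K)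
    {w : V} (hw : f.B w u = 0) : c (k • w) = k • c w := by
  obtain ⟨x, hx⟩ := h.nd.exists_eq hu0 1
  have e1 : ∀ y, f.B (c.symm y) u = f.B y u := fun y => h.ext' fun l => by
    have := PQ.B_isom (hM hc) (c.symm y) (l • u)
    simpa [c1, h.B] using this.symm
  have key : ∀ w, f.B w u = 0 → (f.B (c.symm (k • x)) w - k * f.B (c.symm x) w) • u = c (k • w) - k • c w := by
    intro w hw
    have ok := exists_eichOK f hu hw
    have m := hK _ (eich_mem_sisom f _ _ _ ok)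
    have := (kLin_res (F := F) (f.eich _ _ _ ok)).mul (hY _ (M.mul_mem (M.inv_mem m)
      (M.mul_mem (M.mul_mem hc m) (M.inv_mem hc))) fun y hy => by
        obtain ⟨l, hl⟩ := c2 y hy
        have : c.symm y = y - l • u := by rw [LinearEquiv.symm_apply_eq, map_sub, hl, c1, add_sub_cancel_right]
        rw [LinearEquiv.mul_apply, LinearEquiv.coe_inv, LinearEquiv.symm_apply_eq]
        simp [LinearEquiv.mul_apply, this, hy, hu, f.B_comm_zero hw, c1, hl]) k x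
    simp only [mul_inv_cancel_left, LinearEquiv.mul_apply, LinearEquiv.coe_inv, LinearEquiv.restrictScalars_apply,
      eich_ap, e1, PQ.B_smul_left, hx, map_sub, map_add, c1, LinearEquiv.apply_symm_apply, one_smul, mul_one] at this
    linear_combination (norm := module) this
  obtain ⟨θ, hθ⟩ := h.ne
  have a1 := key w hw
  have a2 := key (θ • w) (by simp [uB_smul_left, hw])
  rw [h.uB_smul_right, h.uB_smul_right, smul_comm k θ, map_smul c θ, map_smul c θ, smul_comm k θ, mul_smul_comm, ← smul_sub,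
    smul_assoc, a1, ← smul_sub] at a2
  exact sub_eq_zero.1 ((smul_eq_zero.1 ((sub_smul _ _ _).trans (sub_eq_zero.2 a2))).resolve_left (sub_ne_zero.2 hθ))

theorem not_hY (h : ExtH τ f S) (hM : M ≤ S.isom) (hK : ∀ g ∈ sisom f, g.restrictScalars F ∈ M) {u : V}
    (hu0 : u ≠ 0) (hu : f.B u u = 0) {g : V ≃ₗ[F] V} (hg : g ∈ M) (a1 : dz K u g ≠ ⊤) (a2 : dz K u g ≠ ⊥)
    (hφ : ∀ b : K, f.B (g (b • u)) u = 0) (hY : ∀ ρ ∈ M, (∀ w, f.B w u = 0 → ρ w = w) → KLin K ρ) : False := by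
  obtain ⟨ω, ω0, ω1⟩ := exists_tr_zero h.neK hs
  obtain ⟨t, t1, t2⟩ := h.tg hK hu ω ω1
  have hn := M.mul_mem (M.mul_mem hg t1) (M.inv_mem hg)
  have n1 : ∀ y, (g * t * g⁻¹) y = y + g ((ω * f.B (g.symm y) u) • u) := fun y => by simp [LinearEquiv.mul_apply, t2]
  generalize g * t * g⁻¹ = n at hn n1
  have n2 : ∀ k : K, n (k • u) = k • u := fun k => by
    have : f.B (g.symm (k • u)) u = 0 := h.ext' fun l => by
      have := PQ.B_isom (hM hg) (g.symm (k • u)) (l • u)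
      simpa [h.B, f.B_comm_zero (hφ l)] using this.symm
    simp [n1, this]
  have n3 : ∀ (k : K) y, f.B y u = 0 → ∃ l : K, n (k • y) - k • n y = l • u := fun k y hy =>
    h.mem_span_of_perp fun w hw => by
      have ok := exists_eichOK f hu hw
      have m := hK _ (eich_mem_sisom f _ _ _ ok)
      have e : ∀ y, f.B y u = 0 → (((f.eich _ _ _ ok).restrictScalars F)⁻¹ * (n⁻¹ * (f.eich _ _ _ ok).restrictScalars F * n)) y
          = y + (f.B (n y) w - f.B y w) • u := fun y hy => by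
        have : f.B (n y) u = 0 := by simp [n1, hy, hφ]
        have n2' : ∀ k : K, n.symm (k • u) = k • u := fun k => by rw [LinearEquiv.symm_apply_eq, n2]
        rw [LinearEquiv.mul_apply, LinearEquiv.coe_inv, LinearEquiv.symm_apply_eq]
        simp [LinearEquiv.mul_apply, this, hy, hu, f.B_comm_zero hw, n2', sub_smul, add_assoc]
      have := h.lin_of_unip hM hK hu0 hu hY (M.mul_mem (M.inv_mem m) (M.mul_mem (M.mul_mem (M.inv_mem hn) m) hn))
        (fun k => by rw [e _ (by simp [hu]), n2]; simp) (fun y hy => ⟨_, e y hy⟩) k hy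
      rw [e _ hy, e _ (by simp [hy]), smul_add, add_right_inj, smul_smul] at this
      have := smul_left_injective K hu0 this
      rw [h.B, f.B_sub_left, f.B_smul_left] at *
      rw [show f.B (n (k • y)) w - k * f.B (n y) w = 0 by linear_combination this, map_zero]
  have n4 : ∀ y, f.B y u = 0 → ∃ l : K, n y = y + l • u := fun y hy => by
    obtain ⟨k, hk, k0⟩ := Submodule.exists_mem_ne_zero_of_ne_bot (LinearMap.ker_ne_bot_of_finrank_lt
      (f := (dz K u g).mkQ ∘ₗ LinearMap.mulLeft F ω ∘ₗ ulin F f u ∘ₗ (g.symm : V →ₗ[F] V) ∘ₗ kln F K y) (by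
        have := Submodule.finrank_quotient_add_finrank (dz K u g)
        have : finrank F (dz K u g) ≠ 0 := fun e => a2 (Submodule.finrank_eq_zero.1 e)
        omega))
    obtain ⟨l, hl⟩ := mem_dz.1 ((Submodule.Quotient.mk_eq_zero _).1 hk)
    obtain ⟨l', hl'⟩ := n3 k y hy
    rw [n1, show g ((ω * f.B (g.symm (k • y)) u) • u) = _ from hl] at hl'
    refine ⟨(l - l') / k, smul_right_injective V k0 ?_⟩
    simp only [smul_add, smul_smul, mul_div_cancel₀ _ k0]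
    linear_combination (norm := module) -hl'
  refine a1 (eq_top_iff.2 fun b _ => mem_dz.2 (h.mem_span_of_perp fun y hy => ?_))
  have : f.B (g.symm y) u = 0 := by
    by_contra hc
    obtain ⟨l, hl⟩ := n4 y hy
    have l0 : l ≠ 0 := by rintro rfl; simp [n1, ω0, hc, hu0] at hl
    apply a1
    rw [← inv_inv g]
    refine dz_inv_top (eq_top_iff.2 fun k _ => mem_dz.2 ⟨ω * f.B (g.symm ((k / l) • y)) u, ?_⟩)
    have := h.lin_of_unip hM hK hu0 hu hY hn n2 n4 (k / l) hy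
    rw [hl, n1, smul_add, add_right_inj, smul_smul, div_mul_cancel₀ _ l0] at this
    rw [← this]; exact g.symm_apply_apply _
  rw [PQ.B_isom_symm (hM hg), h.B]; simp [f.B_comm_zero this]

theorem exists_fam (h : ExtH τ f S) (hM : M ≤ S.isom) (hK : ∀ g ∈ sisom f, g.restrictScalars F ∈ M) {g : V ≃ₗ[F] V}
    (hg : g ∈ M) (hg' : ¬ KSemi K g) : ∃ u, u ≠ 0 ∧ f.B u u = 0 ∧ Fam σ τ M u := by
  obtain ⟨u, hu0, hu, hd⟩ := h.exists_dz hM hK hg hg'
  rcases h.extremal hM hu0 hu (h.tg hK hu) hd with ⟨g, hg, a1, a2, a3⟩ | e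
  swap
  · exact ⟨u, hu0, hu, e⟩
  have hY : ¬ _ := h.not_hY hM hK hu0 hu hg a1 a2 a3
  push Not at hY
  obtain ⟨ρ₀, r1, r2, r3⟩ := hY
  obtain ⟨x, -, hx, hux⟩ := exists_partner_on (f.nondegOn_top.2 h.nd) (u := u) trivial hu0 hu
  have hxu : f.B x u = 1 := by rw [← Bs, hux, map_one]
  have x0 : x ≠ 0 := by rintro rfl; simp at hux
  have key : ∀ ρ ∈ M, (∀ w, f.B w u = 0 → ρ w = w) → ∀ y, ∃ k : K, ρ y - y = k • u := fun ρ r1 r2 y =>
    h.mem_span_of_perp fun w e => by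
      rw [S.B_sub_left, sub_eq_zero]
      conv_lhs => rw [← r2 w e]
      exact PQ.B_isom (hM r1) y w
  obtain ⟨ρ, r1, r2, r3, a, a0, r4⟩ : ∃ ρ ∈ M, (∀ w, f.B w u = 0 → ρ w = w) ∧ ρ ≠ 1 ∧
      ∃ a : K, a ≠ 0 ∧ ρ (a • x) = a • x := by
    obtain ⟨a, a0, ha⟩ := h.exists_iso' hx (hM r1)
    obtain ⟨k, hk⟩ := key ρ₀ r1 r2 (a • x)
    rw [sub_eq_iff_eq_add.1 hk] at ha
    have sa : s a ≠ 0 := by simpa using a0
    obtain ⟨t, t1, t2⟩ := h.tg hK hu (-k / a) (by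
      simp [hu, hx, hux, hxu] at ha
      rw [map_div₀, map_neg]; field_simp; linear_combination -ha)
    refine ⟨_, M.mul_mem t1 r1, fun w e => by simp [LinearEquiv.mul_apply, r2 w e, e, t2], fun e => r3 ?_, a, a0, ?_⟩
    · rw [eq_inv_of_mul_eq_one_right e]
      exact KLin.inv fun l y => by simp [t2, smul_smul, mul_left_comm]
    · simp [LinearEquiv.mul_apply, sub_eq_iff_eq_add.1 hk, t2, hu, hxu, a0]
  let P := (Submodule.span K {x, u}).restrictScalars F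
  have pu : ∀ k : K, k • u ∈ P := fun k => Submodule.smul_mem (Submodule.span K {x, u}) _ (Submodule.subset_span (by simp))
  have px : ∀ k : K, k • x ∈ P := fun k => Submodule.smul_mem (Submodule.span K {x, u}) _ (Submodule.subset_span (by simp))
  refine (h.extremal (G := M ⊓ stabSub P) (inf_le_left.trans hM) x0 hx (fun κ hκ => ?_)
    ⟨ρ, ⟨r1, fun w hw => ?_⟩, fun e => r3 ?_, fun e => a0 ?_⟩).elim ?_ ?_
  · obtain ⟨t, t1, t2⟩ := h.tg hK hx κ hκ
    exact ⟨t, ⟨t1, fun w hw => t2 w ▸ add_mem hw (px _)⟩, t2⟩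
  · obtain ⟨k, hk⟩ := key ρ r1 r2 w
    rw [sub_eq_iff_eq_add.1 hk]
    exact add_mem (pu k) hw
  · ext y
    obtain ⟨k, hk⟩ := mem_dz.1 (e ▸ Submodule.mem_top : f.B y u ∈ dz K x ρ)
    obtain ⟨l, hl⟩ := key ρ r1 r2 (f.B y u • x)
    have e2 := congrArg (f.B · x) hl
    have e3 := r2 (y - f.B y u • x) (by simp [hxu])
    simp only [hk, PQ.B_sub_left, PQ.B_smul_left, hx, hux, mul_zero, sub_zero, mul_one] at e2
    rw [← e2, zero_smul, sub_eq_zero] at hl
    rwa [map_sub, hl, sub_left_inj] at e3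
  · exact (Submodule.mem_bot F).1 (e ▸ mem_dz.2 ⟨a, r4⟩)
  · rintro ⟨g, hg, a1, -, a3⟩
    refine (a1 (eq_top_iff.2 fun b _ => ?_)).elim
    obtain ⟨s, t, e'⟩ := Submodule.mem_span_pair.1 (hg.2 _ (px b))
    have := a3 b
    rw [← e'] at this
    have : t = 0 := by simpa [hux, hx] using this
    exact mem_dz.2 ⟨s, by rw [← e', this, zero_smul, add_zero]⟩
  · rintro ⟨β, δ, b1, b2, b3⟩
    exact ⟨x, x0, hx, β, δ, b1, b2, fun c hc => by obtain ⟨t, t1, t2⟩ := b3 c hc; exact ⟨t, t1.1, t2⟩⟩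

end ExtH

end Cfsg.Agent.H7
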