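import Cfsg.Agent.H7.OmX4
import Cfsg.Agent.H7.SUX2

/-!
Orthogonal groups: field extension subgroups in dimension three, general lemmas.
-/

set_option autoImplicit false
set_option linter.unusedSectionVars false

namespace Cfsg.Agent.H7

open Module QuadraticMap Cfsg.Agent.H8

theorem sum_mono_zero {F : Type*} [Field F] [Fintype F] (h2 : (2 : F) ≠ 0) (i j : ℕ) (h : i + j ≤ 3) :
    ∑ c : F × F, c.1 ^ i * c.2 ^ j = 0 := by
  have h3 : 3 ≤ Fintype.card F := by
    have := FiniteField.odd_card_of_char_ne_two (F := F) fun e => h2 (by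
      exact_mod_cast (e ▸ ringChar.Nat.cast_ringChar : ((2 : ℕ) : F) = 0))
    have := Fintype.one_lt_card (α := F)
    omega
  simp only [Fintype.sum_prod_type, ← Finset.sum_mul_sum]
  by_cases e : i ≤ 1
  · rw [FiniteField.sum_pow_lt_card_sub_one F i (by omega), zero_mul]
  · rw [FiniteField.sum_pow_lt_card_sub_one F j (by omega), mul_zero]

theorem sum_cubic_zero {F V : Type*} [Field F] [Fintype F] [AddCommGroup V] [Module F V] (h2 : (2 : F) ≠ 0)
    (B : V →ₗ[F] V →ₗ[F] F) (b0 b1 b2 d0 d1 d2 d3 d4 d5 : V) :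
    ∑ c : F × F, B (b0 + c.1 • b1 + c.2 • b2)
      (d0 + c.1 • d1 + c.2 • d2 + c.1 ^ 2 • d3 + (c.1 * c.2) • d4 + c.2 ^ 2 • d5) = 0 := by
  have e : ∀ c : F × F, B (b0 + c.1 • b1 + c.2 • b2)
      (d0 + c.1 • d1 + c.2 • d2 + c.1 ^ 2 • d3 + (c.1 * c.2) • d4 + c.2 ^ 2 • d5) =
      B b0 d0 * (c.1 ^ 0 * c.2 ^ 0) + (B b0 d1 + B b1 d0) * (c.1 ^ 1 * c.2 ^ 0) +
      (B b0 d2 + B b2 d0) * (c.1 ^ 0 * c.2 ^ 1) + (B b0 d3 + B b1 d1) * (c.1 ^ 2 * c.2 ^ 0) +
      (B b0 d4 + B b1 d2 + B b2 d1) * (c.1 ^ 1 * c.2 ^ 1) + (B b0 d5 + B b2 d2) * (c.1 ^ 0 * c.2 ^ 2) +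
      B b1 d3 * (c.1 ^ 3 * c.2 ^ 0) + (B b1 d4 + B b2 d3) * (c.1 ^ 2 * c.2 ^ 1) +
      (B b1 d5 + B b2 d4) * (c.1 ^ 1 * c.2 ^ 2) + B b2 d5 * (c.1 ^ 0 * c.2 ^ 3) := fun c => by
    simp only [map_add, map_smul, LinearMap.add_apply, LinearMap.smul_apply, smul_eq_mul]; ring
  simp only [e, Finset.sum_add_distrib, ← Finset.mul_sum]
  repeat rw [sum_mono_zero h2 _ _ (by norm_num)]
  simp

theorem sum_eq_of_act {F K X : Type*} [Field F] [Fintype F] [AddCommGroup K] [Module F K] [FiniteDimensional F K]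
    [Fintype X] (act : K → X → X) (h0 : ∀ x, act 0 x = x) (hadd : ∀ a b x, act (a + b) x = act a (act b x))
    (h3 : 3 ≤ finrank F K) (x0 : X) (hx0 : ∀ a, act a x0 = x0)
    (hst : ∀ x, x ≠ x0 → ∃ κ0, ∀ κ, act κ x = x → κ ∈ F ∙ κ0) (t : X → F)
    (ht : ∀ x κ1 κ2, ∑ c : F × F, t (act (c.1 • κ1 + c.2 • κ2) x) = 0) : ∑ x, t x = t x0 := by
  classical
  have hj : ∀ S : Set K, ∃ j : K × K, (∃ κ0, ∀ κ ∈ S, κ ∈ F ∙ κ0) →
      ∀ c : F × F, c.1 • j.1 + c.2 • j.2 ∈ S → c = 0 := fun S => by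
    by_cases e : ∃ κ0, ∀ κ ∈ S, κ ∈ F ∙ κ0
    · obtain ⟨κ0, e⟩ := e
      obtain ⟨κ1, -, a1⟩ := exists_not_mem (T := ⊤) (S := sp F [κ0]) (by
        have := finrank_sp_le (F := F) [κ0]; simp at *; omega)
      obtain ⟨κ2, -, a2⟩ := exists_not_mem (T := ⊤) (S := sp F [κ0, κ1]) (by
        have := finrank_sp_le (F := F) [κ0, κ1]; simp at *; omega)
      refine ⟨(κ1, κ2), fun _ c hc => ?_⟩
      obtain ⟨a, ha⟩ := Submodule.mem_span_singleton.1 (e _ hc)
      have m0 : a • κ0 ∈ sp F [κ0, κ1] := Submodule.smul_mem _ _ (mem_sp_of_mem (by simp))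
      have m1 : c.1 • κ1 ∈ sp F [κ0, κ1] := Submodule.smul_mem _ _ (mem_sp_of_mem (by simp))
      have c2 : c.2 = 0 := by
        by_contra e'
        exact a2 ((Submodule.smul_mem_iff _ e').1 (by simpa [ha] using sub_mem m0 m1))
      have c1 : c.1 = 0 := by
        by_contra e'
        exact a1 ((Submodule.smul_mem_iff _ e').1 (mem_sp_one.2 ⟨a, by simpa [c2] using ha.symm⟩))
      exact Prod.ext c1 c2
    · exact ⟨0, fun e' => (e e').elim⟩
  choose j hj using hj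
  have inv : ∀ a x, act (-a) (act a x) = x := fun a x => by rw [← hadd, neg_add_cancel, h0]
  let st : X → Set K := fun x => {κ | act κ x = x}
  have hs : ∀ a x, st (act a x) = st x := fun a x => Set.ext fun κ =>
    ⟨fun e => by
      have := congrArg (act (-a)) (e : act κ (act a x) = act a x)
      rwa [← hadd κ, add_comm, hadd, inv, inv] at this,
    fun e => by change act κ (act a x) = _; rw [← hadd, add_comm, hadd, (e : act κ x = x)]⟩
  let J : X → F × F → K := fun x c => c.1 • (j (st x)).1 + c.2 • (j (st x)).2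
  have hJ : ∀ x c c', J x (c + c') = J x c + J x c' := fun x c c' => by simp only [J, Prod.fst_add, Prod.snd_add]; module
  have hJ' : ∀ x c, J x (-c) = -J x c := fun x c => by simp only [J, Prod.fst_neg, Prod.snd_neg]; module
  have hJs : ∀ a x, J (act a x) = J x := fun a x => by simp only [J, hs]
  let Rel : Setoid X := ⟨fun y x => ∃ c, y = act (J x c) x, fun x => ⟨0, by simp [J, h0]⟩,
    fun ⟨c, e⟩ => ⟨-c, by rw [e, hJs, hJ', inv]⟩,
    fun ⟨c, e⟩ ⟨c', e'⟩ => ⟨c + c', by rw [e, e', hJs, hJ, ← hadd]⟩⟩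
  rw [← Finset.add_sum_erase _ _ (Finset.mem_univ x0), add_eq_left]
  refine Finset.sum_cancels_of_partition_cancels Rel fun x hx => ?_
  have x1 := Finset.ne_of_mem_erase hx
  rw [← ht x (j (st x)).1 (j (st x)).2]
  refine (Finset.sum_bij (fun c _ => act (J x c) x) (fun c _ => ?_) (fun c _ c' _ e => ?_) (fun y hy => ?_)
    fun _ _ => rfl).symm
  · refine Finset.mem_filter.2 ⟨Finset.mem_erase.2 ⟨fun e => x1 ?_, Finset.mem_univ _⟩, c, rfl⟩
    rw [← inv (J x c) x, e, hx0]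
  · refine sub_eq_zero.1 (hj _ (hst x x1) _ (?_ : act (J x (c - c')) x = x))
    rw [sub_eq_neg_add, hJ, hJ', hadd, e, inv]
  · obtain ⟨c, e⟩ := (Finset.mem_filter.1 hy).2
    exact ⟨c, Finset.mem_univ _, e.symm⟩

variable {F K : Type*} [Field F] [Field K] [Algebra F K] [FiniteDimensional F K] [Finite F]

theorem exists_sq_mul (h2 : (2 : F) ≠ 0) (ho : Odd (finrank F K)) {k : K} (hk : k ≠ 0) :
    ∃ (c : F) (l : K), c ≠ 0 ∧ l ≠ 0 ∧ k = algebraMap F K c * l ^ 2 := by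
  have : Finite K := Module.finite_of_finite F
  have := Fintype.ofFinite F
  have h1 : Odd (Nat.card F) := by
    rw [Nat.card_eq_fintype_card, Nat.odd_iff]
    exact FiniteField.odd_card_of_char_ne_two (F := F) fun e => h2 (by
      exact_mod_cast (e ▸ ringChar.Nat.cast_ringChar : ((2 : ℕ) : F) = 0))
  obtain ⟨n, hn⟩ : Odd (∑ i ∈ Finset.range (finrank F K), Nat.card F ^ i) := by
    rwa [Finset.odd_sum_iff_odd_card_odd, Finset.filter_true_of_mem fun _ _ => h1.pow, Finset.card_range]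
  refine ⟨Algebra.norm F k, (k ^ n)⁻¹, Algebra.norm_ne_zero_iff.2 hk, by simp [hk], ?_⟩
  rw [FiniteField.algebraMap_norm_eq_pow_sum, hn]; field_simp; ring

theorem exists_sep {τ : K →ₗ[F] F} (hτ : τ ≠ 0) (Δ : AddSubgroup K) {η : K} (hη : η ∉ Δ) :
    ∃ (ψ : F →+ F) (k : K), (∀ w : K, (∀ y, ψ (τ (y * w)) = 0) → w = 0) ∧ (∀ δ ∈ Δ, ψ (τ (k * δ)) = 0) ∧
      ψ (τ (k * η)) ≠ 0 := by
  let E : Subfield F := ⊥
  have : Finite K := Module.finite_of_finite F
  have : Fact (ringChar F).Prime := ⟨CharP.char_is_prime F _⟩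
  let D : Submodule E K :=
    { Δ with
      smul_mem' := fun c x hx => by
        obtain ⟨n, hn⟩ := (mem_bot_iff_intCast (ringChar F) F).1 c.2
        change (c : F) • x ∈ Δ
        rw [← hn, Int.cast_smul_eq_zsmul]; exact Δ.zsmul_mem hx n }
  obtain ⟨φ, φ1, φ2⟩ := exists_dual_one (W := D) hη
  obtain ⟨π, π1, -⟩ := exists_dual_one (F := E) (W := ⊥) (x := (1 : F)) (by simp)
  have h1 : π ∘ₗ τ.restrictScalars E ≠ 0 := fun e => by
    obtain ⟨k, hk⟩ := Module.Dual.range_eq_top_of_ne_zero hτ ▸ (Submodule.mem_top : (1 : F) ∈ ⊤)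
    have := LinearMap.congr_fun e k
    simp [hk, π1] at this
  obtain ⟨k, hk⟩ := exists_tau_eq h1 φ
  refine ⟨E.subtype.toAddMonoidHom.comp π.toAddMonoidHom, k, fun w e => eq_zero_of_tau h1 fun y => ?_,
    fun δ e => ?_, ?_⟩
  · simpa using e y
  · simpa using (hk δ).symm.trans (φ2 δ e)
  · have := (hk η).symm.trans φ1
    simp only [LinearMap.comp_apply, LinearMap.restrictScalars_apply] at this
    simp [this]

variable {V : Type*} [AddCommGroup V] [Module F V] [Module K V] [IsScalarTower F K V]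

theorem KSemi.exists_alg {g : V ≃ₗ[F] V} (h : KSemi K g) {u : V} (hu : u ≠ 0) :
    ∃ σ : K ≃ₐ[F] K, ∀ k v, g (k • v) = σ k • g v := by
  choose σ hσ using h
  have inj : Function.Injective fun k : K => k • g u := smul_left_injective K (by simpa using hu)
  let s : K →ₐ[F] K :=
    { toFun := σ
      map_one' := inj (by simp [← hσ])
      map_mul' := fun a b => inj (by simp [← hσ, mul_smul])
      map_zero' := inj (by simp [← hσ])
      map_add' := fun a b => inj (by simp [← hσ, add_smul])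
      commutes' := fun c => inj (by simp [← hσ]) }
  exact ⟨AlgEquiv.ofBijective s (Algebra.IsAlgebraic.algHom_bijective s), hσ⟩

end Cfsg.Agent.H7
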