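import Cfsg.Agent.H7.OmT1

/-!
Orthogonal groups: field extension subgroups in dimension three, the invariant trilinear form.
-/

set_option autoImplicit false
set_option linter.unusedSectionVars false

namespace Cfsg.Agent.H7

open Module QuadraticMap Cfsg.Agent.H8
open scoped Matrix

variable {F K : Type*} [Field F] [Field K] [Algebra F K] {V : Type*} [AddCommGroup V] [Module F V] [Module K V]
  [IsScalarTower F K V] [FiniteDimensional F K] [FiniteDimensional K V] [FiniteDimensional F V] [Finite F]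
variable {τ : K →ₗ[F] F} {R : QuadraticForm K V} {Q : QuadraticForm F V} {M : Subgroup (V ≃ₗ[F] V)}

theorem gram_det (R : QuadraticForm K V) (e : Basis (Fin 3) K V) (y v : Fin 3 → V) :
    (Matrix.of fun i j => polar R (y i) (v j)).det =
      e.det y * (Matrix.of fun i j => polar R (e i) (e j)).det * e.det v := by
  rw [e.det_apply, e.det_apply, ← Matrix.det_transpose (e.toMatrix y), ← Matrix.det_mul, ← Matrix.det_mul]
  congr 1
  ext i j
  conv_lhs => rw [Matrix.of_apply, ← e.sum_repr (y i), ← e.sum_repr (v j)]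
  simp only [Matrix.mul_apply, Basis.toMatrix_apply, Fin.sum_univ_three, Matrix.transpose_apply, Matrix.of_apply,
    polar_add_left, polar_add_right, pol_smul_left, pol_smul_right]
  ring

theorem gram_ne (hN : ND R) (e : Basis (Fin 3) K V) : (Matrix.of fun i j => polar R (e i) (e j)).det ≠ 0 := fun h0 => by
  obtain ⟨v, hv0, hv⟩ := Matrix.exists_vecMul_eq_zero_iff.2 h0
  refine hv0 (funext (Fintype.linearIndependent_iff.1 e.linearIndependent v (hN _ fun y => ?_)))
  have := fun i => congrFun hv i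
  rw [← e.sum_repr y]
  simp only [Matrix.vecMul, dotProduct, Fin.sum_univ_three, Matrix.of_apply, Pi.zero_apply, polar_add_left,
    polar_add_right, pol_smul_left, pol_smul_right] at this ⊢
  linear_combination e.repr y 0 * this 0 + e.repr y 1 * this 1 + e.repr y 2 * this 2

theorem det3 (e : Basis (Fin 3) K V) (a b c : V) :
    e.det ![a, b, c] = e.repr a 0 * (e.repr b 1 * e.repr c 2 - e.repr b 2 * e.repr c 1) -
      e.repr a 1 * (e.repr b 0 * e.repr c 2 - e.repr b 2 * e.repr c 0) +
      e.repr a 2 * (e.repr b 0 * e.repr c 1 - e.repr b 1 * e.repr c 0) := by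
  simp [e.det_apply, Matrix.det_fin_three, Basis.toMatrix_apply]; ring

theorem repr_smul (e : Basis (Fin 3) K V) (c : F) (a : V) (i : Fin 3) :
    e.repr (c • a) i = algebraMap F K c * e.repr a i := by
  rw [← algebraMap_smul K c, map_smul]; rfl

theorem smul_tau (τ : K →ₗ[F] F) (c : F) (a : K) : c • τ a = τ (algebraMap F K c * a) := by
  rw [← map_smul, Algebra.smul_def]

/-- The trace of the determinant, in the last variable. -/
noncomputable def triL (τ : K →ₗ[F] F) (l : K) (e : Basis (Fin 3) K V) (a b : V) : V →ₗ[F] F where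
  toFun c := τ (l * e.det ![a, b, c])
  map_add' x y := by rw [← map_add]; congr 1; simp only [det3, map_add, Finsupp.add_apply]; ring
  map_smul' x y := by rw [RingHom.id_apply, smul_tau]; congr 1; simp only [det3, repr_smul]; ring

theorem triL_apply (τ : K →ₗ[F] F) (l : K) (e : Basis (Fin 3) K V) (a b c : V) :
    triL τ l e a b c = τ (l * e.det ![a, b, c]) := rfl

/-- The trace of the determinant. -/
noncomputable def triT (τ : K →ₗ[F] F) (l : K) (e : Basis (Fin 3) K V) : V →ₗ[F] V →ₗ[F] V →ₗ[F] F :=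
  LinearMap.mk₂ F (triL τ l e)
    (fun x y z => LinearMap.ext fun w => by
      simp only [LinearMap.add_apply, triL_apply, ← map_add τ]; congr 1
      simp only [det3, map_add, Finsupp.add_apply]; ring)
    (fun x y z => LinearMap.ext fun w => by
      simp only [LinearMap.smul_apply, triL_apply, smul_tau]; congr 1; simp only [det3, repr_smul]; ring)
    (fun x y z => LinearMap.ext fun w => by
      simp only [LinearMap.add_apply, triL_apply, ← map_add τ]; congr 1
      simp only [det3, map_add, Finsupp.add_apply]; ring)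
    (fun x y z => LinearMap.ext fun w => by
      simp only [LinearMap.smul_apply, triL_apply, smul_tau]; congr 1; simp only [det3, repr_smul]; ring)

theorem triT_apply (τ : K →ₗ[F] F) (l : K) (e : Basis (Fin 3) K V) (a b c : V) :
    triT τ l e a b c = τ (l * e.det ![a, b, c]) := rfl

theorem mem_line_of_det3 (e : Basis (Fin 3) K V) {a b : V} (a0 : a ≠ 0) (a1 : ∀ c, e.det ![a, b, c] = 0) :
    ∃ k : K, b = k • a := by
  have a2 := a1 (e 0)
  have a3 := a1 (e 1)
  have a4 := a1 (e 2)
  simp [det3] at a2 a3 a4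
  obtain ⟨i, hi⟩ : ∃ i, e.repr a i ≠ 0 := by
    by_contra hc
    push Not at hc
    exact a0 (e.forall_coord_eq_zero_iff.1 hc)
  refine ⟨e.repr b i / e.repr a i, e.ext_elem fun j => ?_⟩
  rw [map_smul, Finsupp.smul_apply, smul_eq_mul, div_mul_eq_mul_div, eq_div_iff hi]
  fin_cases i <;> fin_cases j <;> simp only [Fin.zero_eta, Fin.mk_one, Fin.reduceFinMk, Fin.isValue] <;>
    first | ring1 | linear_combination a2 | linear_combination -a2 | linear_combination a3 | linear_combination -a3
          | linear_combination a4 | linear_combination -a4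

theorem det_of_mem_Om {g : V ≃ₗ[F] V} (hg : g ∈ Om Q) : LinearEquiv.det g = 1 :=
  (show Om Q ≤ LinearEquiv.det.ker from Subgroup.commutator_le.2 fun a _ b _ => by
    simp [MonoidHom.mem_ker, commutatorElement_def]) hg

namespace ExtO

theorem exists_aniso (h : ExtO τ R Q) {u : V} (hu0 : u ≠ 0) : ∃ z, polar R u z = 0 ∧ R z ≠ 0 := by
  obtain ⟨w, w', a1, a2, a3⟩ := h.exists_perp_pair hu0 1
  by_contra hc
  push Not at hc
  have := hc (w + w') (by simp [a1, a2])
  simp [Q_add, hc w a1, hc w' a2, a3] at this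

theorem frame (h : ExtO τ R Q) (h3 : finrank K V = 3) {u z : V} (hu0 : u ≠ 0) (hu : R u = 0) (e : polar R u z = 0)
    (hz : R z ≠ 0) {y : V} (y1 : polar R y u = 0) (y2 : polar R y z = 0) : ∃ k : K, y = k • u := by
  have a1 := h.nd.finrank_perp (sp K [u, z])
  have a2 : finrank K (K ∙ u) < finrank K (sp K [u, z]) := Submodule.finrank_lt_finrank_of_lt
    (SetLike.lt_iff_le_and_exists.2 ⟨(Submodule.span_singleton_le_iff_mem _ _).2 (mem_sp_of_mem (by simp)), z,
      mem_sp_of_mem (by simp), fun e' => by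
        obtain ⟨c, rfl⟩ := Submodule.mem_span_singleton.1 e'
        simp [Q_smul, hu] at hz⟩)
  rw [finrank_span_singleton hu0] at a2
  have a3 : (K ∙ u) = perp R (sp K [u, z]) := Submodule.eq_of_le_of_finrank_le
    ((Submodule.span_singleton_le_iff_mem _ _).2 (mem_perp_sp.2 (by simp [hu, pol_comm R z, e])))
    (by rw [finrank_span_singleton hu0]; omega)
  obtain ⟨k, hk⟩ := Submodule.mem_span_singleton.1 (a3 ▸ mem_perp_sp.2 (by simp [pol_comm R _ y, y1, y2]) : y ∈ K ∙ u)
  exact ⟨k, hk.symm⟩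

theorem torus (h : ExtO τ R Q) {u : V} (hu0 : u ≠ 0) (hu : R u = 0) {l : K} (hl : l ≠ 0) :
    ∃ g ∈ OG R, g.restrictScalars F ∈ Om Q ∧ g u = l ^ 2 • u := by
  have : Finite K := Module.finite_of_finite F
  obtain ⟨x, hx0, hx⟩ := h.exists_partner hu0 hu
  have hux : polar R u x = 1 := by rwa [pol_comm]
  obtain ⟨g, g1, g2⟩ := exists_OG_of h.nd (LinearMap.id + (l - 1) • (R.polarBilin x).smulRight u +
      (l⁻¹ - 1) • (R.polarBilin u).smulRight x) fun y => by
    simp [Q_add, Q_smul, hu, hx0, hux, pol_comm R y]; field_simp; ring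
  have : g u = l • u := by simp [g2, hx, hu, sub_smul]
  exact ⟨g * g, (OG R).mul_mem g1 g1, sq_mem_Om h.nondeg h.five (h.res_mem g1), by
    simp [this, smul_smul, _root_.sq]⟩

/-- Transitivity on singular points, up to scalars of the small field. -/
theorem exists_trans3 (h : ExtO τ R Q) (ho : Odd (finrank F K)) {u v : V} (hu0 : u ≠ 0) (hu : R u = 0) (hv0 : v ≠ 0)
    (hv : R v = 0) : ∃ l ∈ OG R, l.restrictScalars F ∈ Om Q ∧ ∃ c : F, c ≠ 0 ∧ l u = c • v := by
  obtain ⟨d, d0, d1, d2⟩ : ∃ d, R d = 0 ∧ polar R u d ≠ 0 ∧ polar R v d ≠ 0 := by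
    by_cases e : polar R u v = 0
    · obtain ⟨y, -, y1, y2⟩ := h.nd.exists_perp_two (S := ⊥) (x := u) (y := v) (by simpa using hu0) (by simpa using hv0)
      refine ⟨y - (R y / polar R u y) • u, ?_, by simpa [pol_self, hu] using y1, by simpa [e, pol_comm R v u] using y2⟩
      rw [Q_sub, Q_smul, pol_smul_right, hu, pol_comm R y]; field_simp; ring
    · obtain ⟨z, z1, z2⟩ := h.exists_aniso hu0
      refine ⟨siegel R u z v, by rw [mem_OG.1 (siegel_mem_OG u z), hv], ?_, ?_⟩ <;>
        simp [siegel_apply hu z1, hu, hv, z1, e, pol_comm R v u, add_mul, mul_comm (polar R v z), z2]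
  obtain ⟨c, l, c0, l0, e⟩ := exists_sq_mul h.two ho (div_ne_zero d1 d2)
  obtain ⟨g, g1, g2, g3⟩ := h.torus hv0 hv (inv_ne_zero l0)
  have := siegel_move (x := u) (y := (polar R u d / polar R v d) • v) d0 (by simp [Q_smul, hu, hv])
    (by simp [d2]) d1
  generalize (polar R u d)⁻¹ • (_ : V) = w at this
  refine ⟨_, (OG R).mul_mem g1 (siegel_mem_OG d w), (Om Q).mul_mem g2 (h.siegel_mem d w), c, c0, ?_⟩
  rw [LinearEquiv.mul_apply, this, map_smul, g3, e, smul_smul, ← algebraMap_smul K c]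
  congr 1; field_simp

theorem pol_semi (h : ExtO τ R Q) (hτ : ∀ (σ : K ≃ₐ[F] K) k, τ (σ k) = τ k) {g : V ≃ₗ[F] V} (hg : g ∈ OG Q)
    {σ : K ≃ₐ[F] K} (hσ : ∀ k v, g (k • v) = σ k • g v) (x y : V) : polar R (g x) (g y) = σ (polar R x y) :=
  h.ext_tau fun k => by
    have := OG_pol hg (σ.symm k • x) y
    rw [hσ, h.pol, h.pol, σ.apply_symm_apply, pol_smul_left, pol_smul_left, ← hτ σ (σ.symm k * _)] at this
    simpa using this

theorem det_semi (h : ExtO τ R Q) (ho : Odd (finrank F K)) (hτ : ∀ (σ : K ≃ₐ[F] K) k, τ (σ k) = τ k)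
    {e : Basis (Fin 3) K V} {c : F} {l : K} (c0 : c ≠ 0) (l0 : l ≠ 0)
    (hG : (Matrix.of fun i j => polar R (e i) (e j)).det = algebraMap F K c * l ^ 2) {g : V ≃ₗ[F] V} (hg : g ∈ Om Q)
    {σ : K ≃ₐ[F] K} (hσ : ∀ k v, g (k • v) = σ k • g v) (y : Fin 3 → V) : l * e.det (g ∘ y) = σ (l * e.det y) := by
  have : Finite K := Module.finite_of_finite F
  have a1 : ∀ y v : Fin 3 → V, e.det (g ∘ y) * e.det (g ∘ v) * l ^ 2 = σ (e.det y * e.det v * l ^ 2) :=
    fun y v => by
      have b1 := gram_det R e (g ∘ y) (g ∘ v)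
      have b2 := congrArg σ (gram_det R e y v)
      rw [AlgEquiv.map_det] at b2
      rw [hG] at b1 b2
      have : σ.mapMatrix (Matrix.of fun i j => polar R (y i) (v j)) =
          Matrix.of fun i j => polar R ((g ∘ y) i) ((g ∘ v) j) := by
        ext i j; exact (h.pol_semi hτ (Om_le_OG hg) hσ _ _).symm
      rw [this, b1] at b2
      simp only [map_mul, AlgEquiv.commutes] at b2 ⊢
      exact mul_left_cancel₀ ((map_ne_zero (algebraMap F K)).2 c0) (by linear_combination b2)
  obtain ⟨ε, ε1, ε2⟩ : ∃ ε : F, (ε = 1 ∨ ε = -1) ∧ l * e.det (g ∘ e) = algebraMap F K ε * σ l := by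
    have := a1 e e
    rw [e.det_self, one_mul, one_mul, map_pow] at this
    rcases sq_eq_sq_iff_eq_or_eq_neg.1 (show (l * e.det (g ∘ e)) ^ 2 = σ l ^ 2 by linear_combination this) with b | b
    · exact ⟨1, .inl rfl, by simpa using b⟩
    · exact ⟨-1, .inr rfl, by simpa using b⟩
  have ε3 : algebraMap F K ε * algebraMap F K ε = 1 := by rcases ε1 with rfl | rfl <;> simp
  have a2 : ∀ y : Fin 3 → V, l * e.det (g ∘ y) = algebraMap F K ε * σ (l * e.det y) := fun y => by
    have := a1 y e
    rw [e.det_self] at this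
    simp only [map_mul, map_pow, map_one] at this ⊢
    refine mul_left_cancel₀ ((map_ne_zero σ).2 l0) ?_
    linear_combination algebraMap F K ε * this - algebraMap F K ε * l * e.det (g ∘ y) * ε2 -
      σ l * l * e.det (g ∘ y) * ε3
  have a3 : ∀ n : ℕ, (∀ k v, (g ^ n) (k • v) = (σ ^ n) k • (g ^ n) v) ∧
      l * e.det (⇑(g ^ n) ∘ e) = algebraMap F K (ε ^ n) * (σ ^ n) l := fun n => by
    induction n with
    | zero => exact ⟨fun _ _ => rfl, by simp [e.det_self]⟩
    | succ n ih =>
      refine ⟨fun k v => by simp [pow_succ', ih.1, hσ], ?_⟩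
      have := a2 (⇑(g ^ n) ∘ e)
      rw [ih.2, map_mul, AlgEquiv.commutes] at this
      rw [pow_succ', pow_succ', pow_succ', map_mul, mul_assoc]
      exact this
  obtain ⟨b1, b2⟩ := a3 (finrank F K)
  have b3 : σ ^ finrank F K = 1 := by rw [← IsGalois.card_aut_eq_finrank]; exact pow_card_eq_one'
  rw [b3] at b1 b2
  let G : V →ₗ[K] V := ⟨⟨⇑(g ^ finrank F K), map_add _⟩, b1⟩
  have b4 : LinearMap.det G = algebraMap F K (ε ^ finrank F K) := by
    have := e.det_comp G e
    rw [e.det_self, mul_one] at this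
    exact mul_left_cancel₀ l0 (by rw [← this, mul_comm l (algebraMap F K _)]; exact b2)
  have b5 := LinearMap.det_restrictScalars (R := F) (f := G)
  have b6 : LinearMap.det (G.restrictScalars F) = 1 := by
    have := congrArg Units.val (det_of_mem_Om ((Om Q).pow_mem hg (finrank F K)))
    rwa [LinearEquiv.coe_det] at this
  rw [b6, b4, Algebra.norm_algebraMap] at b5
  have b7 : ε = 1 := ε1.resolve_right fun e' => h.two (by
    rw [e', ho.neg_one_pow, ho.neg_one_pow] at b5; linear_combination b5)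
  rw [a2, b7, map_one, one_mul]

theorem exists_tri (h : ExtO τ R Q) (h3 : finrank K V = 3) (ho : Odd (finrank F K))
    (hτ : ∀ (σ : K ≃ₐ[F] K) k, τ (σ k) = τ k) : ∃ T : V →ₗ[F] V →ₗ[F] V →ₗ[F] F,
      (∀ g ∈ Om Q, KSemi K g → ∀ a b c, T (g a) (g b) (g c) = T a b c) ∧
      (∀ a b c, T a b c = -T b a c) ∧ (∀ a b c, T a b c = -T a c b) ∧
      ∀ a b, a ≠ 0 → ((∀ c, T a b c = 0) ↔ ∃ k : K, b = k • a) := by
  let e := finBasisOfFinrankEq K V h3
  obtain ⟨c, l, c0, l0, hG⟩ := exists_sq_mul h.two ho (gram_ne h.nd e)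
  refine ⟨triT τ l e, fun g hg hg' a b c => ?_, fun a b c => ?_, fun a b c => ?_, fun a b a0 => ⟨fun H => ?_, ?_⟩⟩
  · obtain ⟨σ, hσ⟩ := hg'.exists_alg (e.ne_zero 0)
    rw [triT_apply, triT_apply, ← hτ σ (l * e.det ![a, b, c]), ← h.det_semi ho hτ c0 l0 hG hg hσ,
      show g ∘ ![a, b, c] = ![g a, g b, g c] by ext i; fin_cases i <;> rfl]
  · rw [triT_apply, triT_apply, ← map_neg, det3, det3]; congr 1; ring
  · rw [triT_apply, triT_apply, ← map_neg, det3, det3]; congr 1; ring
  · refine mem_line_of_det3 e a0 fun c => (mul_eq_zero.1 (eq_zero_of_tau h.tau fun k => ?_)).resolve_left l0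
    rw [← H (k • c), triT_apply, det3, det3]; congr 1; simp; ring
  · rintro ⟨k, rfl⟩ c
    rw [triT_apply, det3, ← map_zero τ]; congr 1; simp; ring_nf; simp

end ExtO

end Cfsg.Agent.H7
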