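import Cfsg.Agent.H7.OmT2

/-!
Orthogonal groups: field extension subgroups in dimension three, the averaging argument.
-/

set_option autoImplicit false
set_option linter.unusedSectionVars false

namespace Cfsg.Agent.H7

open Module QuadraticMap Cfsg.Agent.H8

variable {F K : Type*} [Field F] [Field K] [Algebra F K] {V : Type*} [AddCommGroup V] [Module F V] [Module K V]
  [IsScalarTower F K V] [FiniteDimensional F K] [FiniteDimensional K V] [FiniteDimensional F V] [Finite F]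
variable {τ : K →ₗ[F] F} {R : QuadraticForm K V} {Q : QuadraticForm F V} {M : Subgroup (V ≃ₗ[F] V)}

namespace ExtO

theorem sing_induction (h : ExtO τ R Q) {P : V → Prop} (h1 : ∀ a, R a = 0 → P a) (h2 : ∀ a b, P a → P b → P (a + b))
    (y : V) : P y := by
  have : Finite K := Module.finite_of_finite F
  obtain ⟨u, -, hu0, hu⟩ := exists_sing_three R (T := ⊤) (by simpa using h.three)
  obtain ⟨x, hx0, hx⟩ := h.exists_partner hu0 hu
  have := h2 _ _ (h2 _ _ (h1 (y + (1 - polar R y u) • x - R (y + (1 - polar R y u) • x) • u)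
    (by rw [Q_sub, Q_smul, hu]; simp [hx])) (h1 (R (y + (1 - polar R y u) • x) • u) (by simp [Q_smul, hu])))
    (h1 (-(1 - polar R y u) • x) (by simp [Q_smul, hx0]))
  convert this using 1
  module

theorem tri_eq (h : ExtO τ R Q) (S T : V →ₗ[F] V →ₗ[F] V →ₗ[F] F) (s1 : ∀ a b c, S a b c = -S b a c)
    (s2 : ∀ a b c, S a b c = -S a c b) (t1 : ∀ a b c, T a b c = -T b a c) (t2 : ∀ a b c, T a b c = -T a c b)
    (h0 : ∀ a b c, R a = 0 → polar R b a = 0 → S a b c = T a b c) (a b c : V) : S a b c = T a b c := by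
  refine h.sing_induction (P := fun a => S a b c = T a b c) (fun a ha => ?_) (fun a a' e e' => by simp [e, e']) a
  refine h.sing_induction (P := fun b => S a b c = T a b c) (fun b hb => ?_) (fun b b' e e' => by simp [e, e']) b
  by_cases e : polar R b a = 0
  · exact h0 a b c ha e
  have e1 := h0 a (c - (polar R c a / polar R b a) • b) b ha (by simp [e])
  have e2 := h0 b ((polar R c a / polar R b a) • b) a hb (by simp [hb])
  rw [s2, t2 a, neg_inj] at e1
  rw [s2, s1, t2 b, t1 b, neg_inj, neg_inj] at e2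
  simpa [e2] using e1

theorem eq_zero_of_lin (h : ExtO τ R Q) (h3 : finrank K V = 3) {u z : V} (hu0 : u ≠ 0) (hu : R u = 0)
    (e : polar R u z = 0) (hz : R z ≠ 0) {g : V ≃ₗ[F] V} (hg : ¬ ∀ k : K, ∃ k' : K, g (k • u) = k' • u) {κ k' : K}
    (h1 : ∀ k : K, siegel R u (κ • z) (g (k • u)) = g ((k * k') • u)) : κ = 0 := by
  have e' : polar R u (κ • z) = 0 := by simp [e]
  have huu : polar R u u = 0 := by simp [hu]
  have a1 : ∀ k : K, siegel R u (κ • z) (g (k • u)) - g (k • u) = g ((k * (k' - 1)) • u) := fun k => by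
    rw [h1, ← map_sub, ← sub_smul, mul_sub, mul_one]
  have a2 : ∀ k : K, polar R (g ((k * (k' - 1)) • u)) u = 0 := fun k => by
    rw [← a1, siegel_apply hu e']; simp [huu, pol_comm R z, e]
  have a3 := a1 (k' - 1)
  have a4 := a1 ((k' - 1) * (k' - 1))
  have a5 := a2 1
  rw [one_mul] at a5
  rw [siegel_apply_of_perp hu e' a5, sub_sub_cancel_left] at a3
  rw [← a3, map_neg, siegel_apply_of_perp hu e' (by simp [huu])] at a4
  have a6 : k' = 1 := by simpa [e, hu0, sub_eq_zero] using a4.symm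
  by_contra hκ
  refine hg fun k => ?_
  have b1 := h1 k
  rw [a6, mul_one, siegel_apply hu e'] at b1
  have b2 : polar R (g (k • u)) u = 0 := by
    simpa [e, hκ, hz, h.twoK] using congrArg (polar R · z) b1
  exact h.frame h3 hu0 hu e hz b2 (by simpa [b2, hκ, hu0, sub_eq_self] using b1)

theorem stab_le_line (h : ExtO τ R Q) (h3 : finrank K V = 3) {u z : V} (hu0 : u ≠ 0) (hu : R u = 0)
    (e : polar R u z = 0) (hz : R z ≠ 0) {g : V ≃ₗ[F] V} (hg : ¬ ∀ k : K, ∃ k' : K, g (k • u) = k' • u) :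
    ∃ κ0 : K, ∀ κ : K, (∀ k : K, ∃ k' : K, (g⁻¹ * (siegel R u (κ • z)).restrictScalars F * g) (k • u) = k' • u) →
      KSemi K (g⁻¹ * (siegel R u (κ • z)).restrictScalars F * g) → κ ∈ F ∙ κ0 := by
  have : Finite K := Module.finite_of_finite F
  have : Fact (finrank F K).Prime := ⟨h.prime⟩
  let c : K → V ≃ₗ[F] V := fun κ => g⁻¹ * (siegel R u (κ • z)).restrictScalars F * g
  have c0 : c 0 = 1 := by ext y; simp [c, siegel_zero]
  have c1 : ∀ a b, c (a + b) = c a * c b := fun a b => by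
    ext y; simp [c, add_smul, ← siegel_mul hu (show polar R u (a • z) = 0 by simp [e]) (show polar R u (b • z) = 0 by simp [e])]
  let P : K → (K ≃ₐ[F] K) → Prop := fun κ σ => (∀ k : K, ∃ k' : K, c κ (k • u) = k' • u) ∧
    ∀ k v, c κ (k • v) = σ k • c κ v
  have p1 : ∀ a b σ σ', P a σ → P b σ' → P (a + b) (σ * σ') := fun a b σ σ' ⟨a1, a2⟩ ⟨b1, b2⟩ =>
    ⟨fun k => by
      obtain ⟨k', e'⟩ := b1 k
      rw [c1, LinearEquiv.mul_apply, e']; exact a1 k', fun k v => by simp [c1, a2, b2]⟩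
  have p2 : ∀ a σ, P a σ → ∀ n : ℕ, P (n • a) (σ ^ n) := fun a σ ha n => by
    induction n with
    | zero => rw [zero_smul]; exact ⟨fun k => ⟨k, by rw [c0]; rfl⟩, fun k v => by rw [c0]; rfl⟩
    | succ n ih => rw [succ_nsmul, pow_succ]; exact p1 _ _ _ _ ih ha
  have p3 : ∀ a, P a 1 → a = 0 := fun a ⟨a1, a2⟩ => by
    obtain ⟨k', e'⟩ := a1 1
    refine h.eq_zero_of_lin h3 hu0 hu e hz hg (k' := k') fun k => g.symm_apply_eq.1 ?_
    rw [mul_smul, ← e', one_smul]; exact a2 k u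
  by_cases hc : ∃ κ0, κ0 ≠ 0 ∧ ∃ σ, P κ0 σ
  · obtain ⟨κ0, a0, σ0, a1⟩ := hc
    refine ⟨κ0, fun κ b1 b2 => ?_⟩
    obtain ⟨σ, hσ⟩ := b2.exists_alg hu0
    obtain ⟨n, hn⟩ := mem_powers_of_prime_card (IsGalois.card_aut_eq_finrank F K) (g := σ0) (g' := σ⁻¹)
      (by rintro rfl; exact a0 (p3 _ a1))
    have := p1 _ _ _ _ ⟨b1, hσ⟩ (p2 _ _ a1 n)
    rw [show σ0 ^ n = σ⁻¹ from hn, mul_inv_cancel] at this
    rw [eq_neg_of_add_eq_zero_left (p3 _ this)]
    exact neg_mem (nsmul_mem (Submodule.mem_span_singleton_self _) n)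
  · push Not at hc
    refine ⟨0, fun κ b1 b2 => ?_⟩
    obtain ⟨σ, hσ⟩ := b2.exists_alg hu0
    by_contra e'
    exact hc κ (by rintro rfl; exact e' (zero_mem _)) σ ⟨b1, hσ⟩

theorem semi_of_hY (h : ExtO τ R Q) (h3 : finrank K V = 3) (ho : Odd (finrank F K))
    (hτ : ∀ (σ : K ≃ₐ[F] K) k, τ (σ k) = τ k) (hM : M ≤ Om Q) (hH : ∀ g ∈ Om Q, KSemi K g → g ∈ M)
    (hY : ∀ u, u ≠ 0 → R u = 0 → ∀ ρ ∈ M, (∀ w, polar R w u = 0 → ρ w = w) → ρ = 1) {g : V ≃ₗ[F] V} (hg : g ∈ M) :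
    KSemi K g := by
  classical
  have : Finite K := Module.finite_of_finite F
  have : Finite V := Module.finite_of_finite F
  have : Finite (V ≃ₗ[F] V) := DFunLike.finite _
  have := Fintype.ofFinite F
  obtain ⟨u, -, hu0, hu⟩ := exists_sing_three R (T := ⊤) (by simpa using h.three)
  obtain ⟨z, z1, z2⟩ := h.exists_aniso hu0
  obtain ⟨T, T1, T2, T3, T4⟩ := h.exists_tri h3 ho hτ
  have hS := fun g => h.semi_of_stab hM hH hu0 hu (hY u hu0 hu) (g := g)
  let N : Subgroup M := (stabSub ((sp K [u]).restrictScalars F)).subgroupOf M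
  have hN : ∀ n : M, n ∈ N ↔ ∀ k : K, ∃ k' : K, n.1 (k • u) = k' • u := fun n =>
    ⟨fun e k => mem_sp_one.1 (e _ (mem_sp_one.2 ⟨k, rfl⟩)), fun e w hw => by
      obtain ⟨k, rfl⟩ := mem_sp_one.1 hw
      exact mem_sp_one.2 (e k)⟩
  have := Fintype.ofFinite (M ⧸ N)
  let tt : (V ≃ₗ[F] V) → V →ₗ[F] V →ₗ[F] V →ₗ[F] F := fun m =>
    (T.compl₁₂ (m : V →ₗ[F] V) (m : V →ₗ[F] V)).compr₂ (LinearMap.lcomp F F (m : V →ₗ[F] V))
  have htt : ∀ m a b c, tt m a b c = T (m a) (m b) (m c) := fun _ _ _ _ => rfl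
  let t : M ⧸ N → V →ₗ[F] V →ₗ[F] V →ₗ[F] F := fun ξ => tt (ξ.out⁻¹ : M)
  have ht : ∀ (m : M) a b c, t (m : M ⧸ N) a b c = T ((m⁻¹ : M).1 a) ((m⁻¹ : M).1 b) ((m⁻¹ : M).1 c) := fun m a b c => by
    obtain ⟨n, hn⟩ := QuotientGroup.mk_out_eq_mul N m
    simp only [t, htt, hn, mul_inv_rev]
    exact T1 _ (hM (n⁻¹ : N).1.2) (hS _ (n⁻¹ : N).1.2 ((hN _).1 (n⁻¹ : N).2)) _ _ _
  have S1 : ∀ m ∈ M, ∀ a b c, (∑ ξ, t ξ) (m a) (m b) (m c) = (∑ ξ, t ξ) a b c := fun m hm a b c => by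
    simp only [LinearMap.sum_apply]
    rw [← Equiv.sum_comp (MulAction.toPerm (⟨m, hm⟩ : M))]
    refine Finset.sum_congr rfl fun ξ _ => ?_
    obtain ⟨x, rfl⟩ := QuotientGroup.mk_surjective ξ
    rw [MulAction.toPerm_apply, MulAction.Quotient.smul_mk, ht, ht]
    simp
  let E : K → M := fun κ => ⟨(siegel R u (κ • z)).restrictScalars F, hH _ (h.siegel_mem _ _) (kLin_res _).semi⟩
  have E1 : ∀ a b, E (a + b) = E b * E a := fun a b => Subtype.ext (by
    ext y; simp [E, add_comm a, add_smul, ← siegel_mul hu (show polar R u (b • z) = 0 by simp [z1])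
      (show polar R u (a • z) = 0 by simp [z1])])
  have E2 : ∀ a (k : K), (E a).1 (k • u) = k • u := fun a k => by
    simp [E, siegel_apply hu (show polar R u (a • z) = 0 by simp [z1]), hu, z1]
  have S2 : ∀ (k : K) b c, polar R b u = 0 → (∑ ξ, t ξ) (k • u) b c = T (k • u) b c := fun k b c e => by
    simp only [LinearMap.sum_apply]
    rw [sum_eq_of_act (F := F) (fun κ (ξ : M ⧸ N) => (E κ)⁻¹ • ξ) (fun x => ?_) (fun a b x => ?_) ?_ ((1 : M) : M ⧸ N)
      (fun a => ?_) (fun ξ x1 => ?_) (fun ξ => t ξ (k • u) b c) fun ξ κ1 κ2 => ?_, ht]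
    · rfl
    · have := h.prime.two_le
      obtain ⟨l, hl⟩ := ho
      omega
    · rw [show E 0 = 1 from Subtype.ext (by ext y; simp [E, siegel_zero]), inv_one, one_smul]
    · rw [E1, mul_inv_rev, mul_smul]
    · rw [MulAction.Quotient.smul_mk, QuotientGroup.eq, hN]
      exact fun k => ⟨k, by simpa using E2 a k⟩
    · obtain ⟨x, rfl⟩ := QuotientGroup.mk_surjective ξ
      obtain ⟨κ0, e0⟩ := h.stab_le_line h3 hu0 hu z1 z2 (g := x.1) fun e' => x1
        (by rw [eq_comm, QuotientGroup.eq, hN]; simpa using e')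
      refine ⟨κ0, fun κ e1 => ?_⟩
      rw [MulAction.Quotient.smul_mk, QuotientGroup.eq, smul_eq_mul, mul_inv_rev, inv_inv, hN] at e1
      exact e0 κ e1 (hS _ (x⁻¹ * E κ * x).2 e1)
    · obtain ⟨x, rfl⟩ := QuotientGroup.mk_surjective ξ
      rw [← sum_cubic_zero h.two (tt (x⁻¹ : M) (k • u)) b (-(κ1 * polar R b z) • u) (-(κ2 * polar R b z) • u) c
        ((polar R c u * κ1) • z - (κ1 * polar R c z) • u) ((polar R c u * κ2) • z - (κ2 * polar R c z) • u)
        (-(κ1 * κ1 * R z * polar R c u) • u) (-(2 * κ1 * κ2 * R z * polar R c u) • u)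
        (-(κ2 * κ2 * R z * polar R c u) • u)]
      refine Finset.sum_congr rfl fun p _ => ?_
      have e' : polar R u ((p.1 • κ1 + p.2 • κ2) • z) = 0 := by simp [z1]
      rw [MulAction.Quotient.smul_mk, ht, smul_eq_mul, mul_inv_rev, inv_inv, htt]
      change T (x⁻¹.1 ((E _).1 _)) (x⁻¹.1 (siegel R u _ b)) (x⁻¹.1 (siegel R u _ c)) = _
      rw [E2, siegel_apply_of_perp hu e' e, siegel_apply hu e', Q_smul, pol_smul_right, pol_smul_right]
      simp only [Algebra.smul_def, ← algebraMap_smul K (_ : F) (_ : V), map_mul, map_pow]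
      congr 3 <;> module
  have S3 := h.tri_eq (∑ ξ, t ξ) T (fun a b c => ?_) (fun a b c => ?_) T2 T3 fun a b c ha e => ?_
  · have T5 : ∀ m ∈ M, ∀ a b c, T (m a) (m b) (m c) = T a b c := fun m hm a b c => by
      rw [← S3, S1 m hm, S3]
    have T6 : ∀ m ∈ M, ∀ a, a ≠ 0 → ∀ k : K, ∃ k' : K, m (k • a) = k' • m a := fun m hm a a0 k =>
      (T4 _ _ (by simpa using a0)).1 fun c => by
        rw [← m.apply_symm_apply c, T5 m hm]; exact (T4 _ _ a0).2 ⟨k, rfl⟩ _
    have b1 : R (g u) = 0 := (mul_eq_zero.1 (eq_zero_of_tau h.tau fun k => by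
      obtain ⟨k', e'⟩ := T6 _ (M.inv_mem hg) (g u) (by simpa using hu0) k
      have := OG_pol (Om_le_OG (hM (M.inv_mem hg))) (k • g u) (g u)
      rw [e', inv_apply_apply] at this
      simpa [h.pol, hu] using this.symm)).resolve_left h.twoK
    obtain ⟨l, -, l2, c, -, l3⟩ := h.exists_trans3 ho (u := g u) (by simpa using hu0) b1 hu0 hu
    have := hS _ (M.mul_mem (hH _ l2 (kLin_res l).semi) hg) fun k => by
      obtain ⟨k', e'⟩ := T6 g hg u hu0 k
      exact ⟨k' * algebraMap F K c, by simp [e', l3, mul_smul]⟩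
    simpa using (kLin_res l).inv.semi.mul this
  · simp only [LinearMap.sum_apply, t, htt]
    rw [Finset.sum_congr rfl fun ξ _ => T2 _ _ _, Finset.sum_neg_distrib]
  · simp only [LinearMap.sum_apply, t, htt]
    rw [Finset.sum_congr rfl fun ξ _ => T3 _ _ _, Finset.sum_neg_distrib]
  · by_cases a0 : a = 0
    · simp [a0]
    obtain ⟨l, l1, l2, d, d0, l3⟩ := h.exists_trans3 ho a0 ha hu0 hu
    rw [← S1 _ (hH _ l2 (kLin_res l).semi), ← T1 _ l2 (kLin_res l).semi a]
    have := OG_pol l1 b a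
    rw [l3, e, ← algebraMap_smul K] at this
    have b1 := S2 (algebraMap F K d) (l b) (l c) (by simpa [d0, -algebraMap_smul] using this)
    rwa [algebraMap_smul, ← l3] at b1

end ExtO

end Cfsg.Agent.H7
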