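import Cfsg.Agent.H7.OmT3

/-!
Orthogonal groups: field extension subgroups in dimension three, the extremal argument.
-/

set_option autoImplicit false
set_option linter.unusedSectionVars false

namespace Cfsg.Agent.H7

open Module QuadraticMap Cfsg.Agent.H8

variable {F K : Type*} [Field F] [Field K] [Algebra F K] {V : Type*} [AddCommGroup V] [Module F V] [Module K V]
  [IsScalarTower F K V] [FiniteDimensional F K] [FiniteDimensional K V] [FiniteDimensional F V] [Finite F]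
variable {τ : K →ₗ[F] F} {R : QuadraticForm K V} {Q : QuadraticForm F V} {M : Subgroup (V ≃ₗ[F] V)}

/-- The elements of `M` fixing `u^⊥` pointwise take all possible values. -/
def EV (τ : K →ₗ[F] F) (R : QuadraticForm K V) (M : Subgroup (V ≃ₗ[F] V)) (u : V) : Prop :=
  ∀ a, a ≠ 0 → ∀ η, τ (a * η) = 0 →
    ∃ ρ ∈ M, (∀ w, polar R w u = 0 → ρ w = w) ∧ ∀ y, polar R y u = a → ρ y = y + η • u

namespace ExtO

theorem ev (h : ExtO τ R Q) (ho : Odd (finrank F K)) (hM : M ≤ OG Q) (hH : ∀ g ∈ Om Q, KSemi K g → g ∈ M) {u : V}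
    (hu0 : u ≠ 0) (hu : R u = 0) {ρ : V ≃ₗ[F] V} (r1 : ρ ∈ M) (r2 : ∀ w, polar R w u = 0 → ρ w = w) (r3 : ρ ≠ 1) :
    EV τ R M u := fun a ha η hη => by
  have : Finite K := Module.finite_of_finite F
  have := Fintype.ofFinite K
  obtain ⟨s, s1, s2⟩ := h.exists_skew hu0 hu (hM r1) r2
  have huu : polar R u u = 0 := by simp [hu]
  let Δ : AddSubgroup K :=
    { carrier := {η | ∃ ρ ∈ M, (∀ w, polar R w u = 0 → ρ w = w) ∧ ∀ y, polar R y u = a → ρ y = y + η • u}
      zero_mem' := ⟨1, M.one_mem, fun _ _ => rfl, by simp⟩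
      add_mem' := fun ⟨ρ, a1, a2, a3⟩ ⟨ρ', b1, b2, b3⟩ => ⟨ρ * ρ', M.mul_mem a1 b1,
        fun w e => by rw [LinearEquiv.mul_apply, b2 w e, a2 w e], fun y e => by
          rw [LinearEquiv.mul_apply, b3 y e, map_add, a3 y e, a2 _ (by simp [huu])]; module⟩
      neg_mem' := fun ⟨ρ, a1, a2, a3⟩ => ⟨ρ⁻¹, M.inv_mem a1, fun w e => ρ.symm_apply_eq.2 (a2 w e).symm,
        fun y e => ρ.symm_apply_eq.2 (by rw [map_add, a3 y e, a2 _ (by simp [huu])]; module)⟩ }
  by_contra hc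
  obtain ⟨ψ, k₀, p1, p2, p3⟩ := exists_sep h.tau Δ (η := η) hc
  obtain ⟨k, rfl⟩ : ∃ k, k₀ = k * a := ⟨k₀ / a, by field_simp⟩
  let β : K →+ K →+ F := AddMonoidHom.mk' (fun x => AddMonoidHom.mk' (fun y => ψ (τ (k * a * (x * s (y * a)))))
    (by simp [add_mul, mul_add])) fun _ _ => by ext; simp [add_mul, mul_add]
  have hβ : ∀ x y, β x y = ψ (τ (k * a * (x * s (y * a)))) := fun _ _ => rfl
  have b1 : ∀ t, β (t ^ 2) (t ^ 2) = 0 := fun t => by
    by_cases ht : t = 0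
    · simp [ht]
    obtain ⟨l, l1, l2, l3⟩ := h.torus hu0 hu ht
    have hl := hH _ l2 (kLin_res l).semi
    have e1 : ∀ y, l (ρ (l.symm y)) = y + (t ^ 2 * s (t ^ 2 * polar R y u)) • u := fun y => by
      rw [s1, map_add, map_smul, l3, l.apply_symm_apply, ← OG_pol l1, l3, l.apply_symm_apply, pol_smul_right, smul_smul,
        mul_comm]
    exact p2 _ ⟨_, M.mul_mem (M.mul_mem hl r1) (M.inv_mem hl), fun w e => (e1 w).trans (by simp [e]),
      fun y e => (e1 y).trans (by rw [e])⟩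
  have b2 : ∀ y, β 1 (y * y) + β (y * y) 1 + 4 * β y y = 0 := fun y => by
    have e1 := b1 (1 + y)
    have e2 := b1 (1 - y)
    have e3 := b1 1
    have e4 := b1 y
    rw [show (1 + y) ^ 2 = 1 + y + y + y * y by ring] at e1
    rw [show (1 - y) ^ 2 = 1 - y - y + y * y by ring] at e2
    rw [one_pow] at e3
    rw [_root_.sq] at e4
    simp only [map_add, map_sub, AddMonoidHom.add_apply, AddMonoidHom.sub_apply] at e1 e2
    exact mul_left_cancel₀ h.two (by linear_combination e1 + e2 - 2 * e3 - 2 * e4)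
  have b3 : ∀ y z, β y z + β z y = ψ (τ (y * (a * (k * s (z * a) - s (k * (z * a)))))) := fun y z => by
    rw [hβ, hβ, show k * a * (z * s (y * a)) = k * (z * a) * s (y * a) by ring, s2, ← map_add, ← sub_eq_add_neg,
      ← map_sub]
    congr 2; ring
  have b4 : ∀ z, 2 * (k * s (z * a) - s (k * (z * a))) + z * (k * s a - s (k * a)) = 0 := fun z => by
    refine (mul_eq_zero.1 (p1 (a * _) fun y => ?_)).resolve_left ha
    have e1 := b2 (y + z)
    rw [show (y + z) * (y + z) = y * y + y * z + y * z + z * z by ring] at e1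
    simp only [map_add, AddMonoidHom.add_apply] at e1
    have e2 := b3 (y * z) 1
    rw [one_mul] at e2
    rw [show ∀ p q : K, y * (a * (2 * p + z * q)) = y * (a * p) + y * (a * p) + y * z * (a * q) by intros; ring,
      map_add, map_add, map_add, map_add, ← b3, ← e2]
    exact mul_left_cancel₀ h.two (by linear_combination e1 - b2 y - b2 z)
  obtain ⟨μ, hμ⟩ : ∃ μ, ∀ w, k * s w - s (k * w) = μ * w := ⟨-(k * s a - s (k * a)) / (2 * a), fun w => by
    have := b4 (w / a)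
    have h2 := h.twoK
    rw [div_mul_cancel₀ _ ha] at this
    field_simp at this ⊢
    linear_combination this⟩
  have b5 : ∀ (n : ℕ) w, k * (k ^ n * s w - s (k ^ n * w)) = n * μ * k ^ n * w := fun n w => by
    induction n with
    | zero => simp
    | succ n ih =>
      rw [pow_succ', mul_assoc k _ w]; push_cast
      linear_combination k * ih + k * hμ (k ^ n * w)
  obtain ⟨c, rfl⟩ := mem_bot_of_prime h.prime (exists_ker_of_skew h.tau h.two ho s s2) (c := k)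
    (fun e => r3 (LinearEquiv.ext fun y => by simp [s1, LinearMap.ker_eq_top.1 e])) fun w hw => by
      have := b5 (Fintype.card K) w
      rw [FiniteField.pow_card, FiniteField.cast_card_eq_zero, LinearMap.mem_ker.1 hw] at this
      by_cases e : k = 0
      · simp [e]
      · simpa [e, mul_comm] using this
  exact p3 (by rw [mul_assoc, ← smul_tau, hη, smul_zero, map_zero])

theorem case_one3 (h : ExtO τ R Q) (hK : ∀ u w, (siegel R u w).restrictScalars F ∈ M)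
    {u : V} (hu0 : u ≠ 0) (hu : R u = 0) (hE : EV τ R M u) {g : V ≃ₗ[F] V} (hg : g ∈ M) (b1 : dz K u g ≠ ⊤) (b2 : dz K u g ≠ ⊥)
    (hmax : ∀ g' ∈ M, dz K u g < dz K u g' → dz K u g' = ⊤) {k₀ : K} (c1 : k₀ ∉ dz K u g)
    (c2 : polar R (g (k₀ • u)) u = 0) : ∃ χ : Dual F K, χ ≠ 0 ∧ Tv M u χ := by
  have huu : polar R u u = 0 := by simp [hu]
  set y := g (k₀ • u) with hy
  have y1 : y ∉ sp K [u] := fun e => c1 (mem_dz.2 (mem_sp_one.1 e))
  have d1 : dz K u g⁻¹ ≠ ⊤ := fun e => b1 (by simpa using dz_inv_top e)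
  have a1 : ∀ w, polar R u w = 0 → polar R y w ∈ dz K u g⁻¹ → ∀ k : K, ∃ k' : K,
      siegel R u w (g (k • u)) = g (k' • u) := fun w e e' k => by
    have := hmax _ (M.mul_mem (M.mul_mem (M.inv_mem hg) (hK u w)) hg)
      (SetLike.lt_iff_le_and_exists.2 ⟨fun l hl => ?_, k₀, ?_, c1⟩)
    · obtain ⟨k', hk'⟩ := mem_dz.1 (this ▸ Submodule.mem_top : k ∈ dz K u _)
      exact ⟨k', g.symm_apply_eq.1 hk'⟩
    · obtain ⟨l', hl'⟩ := mem_dz.1 hl
      exact mem_dz.2 ⟨l, g.symm_apply_eq.2 (by simp [hl', siegel_apply hu e, huu, e])⟩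
    · obtain ⟨l', hl'⟩ := mem_dz.1 e'
      refine mem_dz.2 ⟨k₀ - l', g.symm_apply_eq.2 ?_⟩
      rw [sub_smul, map_sub, ← hl']
      simpa using siegel_apply_of_perp hu e c2
  have a2 : ∀ k : K, polar R (g (k • u)) u = 0 := fun k₁ => by
    by_contra hc
    have e1 : LinearMap.ker (τ ∘ₗ LinearMap.mulLeft F (polar R (g (k₁ • u)) u)) ≤ dz K u g⁻¹ := fun η hη => by
      obtain ⟨ρ, r1, r2, r3⟩ := hE _ hc η hη
      have := hmax _ (M.mul_mem (M.mul_mem (M.inv_mem hg) r1) hg)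
        (SetLike.lt_iff_le_and_exists.2 ⟨fun l hl => ?_, k₀, mem_dz.2 ⟨k₀, g.symm_apply_eq.2 (r2 _ c2)⟩, c1⟩)
      · obtain ⟨k', hk'⟩ := mem_dz.1 (this ▸ Submodule.mem_top : k₁ ∈ dz K u _)
        refine mem_dz.2 ⟨k' - k₁, g.symm_apply_eq.2 ?_⟩
        rw [sub_smul, map_sub, ← g.symm_apply_eq.1 hk']
        exact (sub_eq_iff_eq_add'.2 (r3 _ rfl)).symm
      · obtain ⟨l', hl'⟩ := mem_dz.1 hl
        exact mem_dz.2 ⟨l, g.symm_apply_eq.2 (r2 _ (by simp [hl', huu]))⟩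
    have e2 := finrank_ker_dual (h.tau_mul_ne hc)
    have e3 := finrank_dz_le (K := K) hu0 g⁻¹
    rw [inv_inv] at e3
    have e4 : dz K u g < LinearMap.ker (plin F R u ∘ₗ (g : V →ₗ[F] V) ∘ₗ kln F K u) :=
      SetLike.lt_iff_le_and_exists.2 ⟨fun l hl => by
        obtain ⟨l', hl'⟩ := mem_dz.1 hl
        simp [hl', huu], k₀, c2, c1⟩
    have e5 := Submodule.finrank_lt (s := LinearMap.ker (plin F R u ∘ₗ (g : V →ₗ[F] V) ∘ₗ kln F K u))
      fun e => hc (LinearMap.congr_fun (LinearMap.ker_eq_top.1 e) k₁)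
    have := Submodule.finrank_mono e1
    have := Submodule.finrank_lt_finrank_of_lt e4
    omega
  have a3 : ∀ w, polar R u w = 0 → polar R y w ∈ dz K u g⁻¹ → ∀ k : K, polar R (g (k • u)) w ∈ dz K u g⁻¹ :=
    fun w e e' k => by
      obtain ⟨k', hk'⟩ := a1 w e e' k
      rw [siegel_apply_of_perp hu e (a2 k)] at hk'
      exact mem_dz.2 ⟨k - k', g.symm_apply_eq.2 (by rw [sub_smul, map_sub, ← hk']; abel)⟩
  obtain ⟨w₀, p1, p2⟩ := h.nd.exists_dual y1
  replace p2 : polar R u w₀ = 0 := p2 u (mem_sp_of_mem (by simp))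
  obtain ⟨π, π1, -⟩ := exists_dual_one (F := F) (W := ⊥) (x := (1 : K)) (by simp)
  let χ : Dual F K := π ∘ₗ plin F R w₀ ∘ₗ (g : V →ₗ[F] V) ∘ₗ kln F K u
  have a4 : ∀ k : K, polar R (g (k • u)) w₀ = algebraMap F K (χ k) := fun k => by
    obtain ⟨c, hc⟩ := mem_bot_of_prime h.prime (dz_inv_ne_bot hu0 b2) d1 (c := polar R (g (k • u)) w₀)
      fun δ hδ => by simpa using a3 (δ • w₀) (by simp [p2]) (by simpa [p1] using hδ) k
    have : χ k = π (polar R (g (k • u)) w₀) := rfl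
    rw [this, hc, Algebra.algebraMap_eq_smul_one, map_smul, π1, smul_eq_mul, mul_one, Algebra.algebraMap_eq_smul_one]
  have a5 : ∀ k : K, χ k = 0 → k ∈ dz K u g := fun k hk => by
    have : g (k • u) ∈ perp R (perp R (sp K [u])) := mem_perp'.2 fun w hw => by
      have e := mem_perp_sp.1 hw u (by simp)
      have e' : polar R (g (k • u)) (w - polar R y w • w₀) = 0 := by
        by_contra hc
        refine d1 (eq_top_iff.2 fun l _ => ?_)
        have := a3 ((l / polar R (g (k • u)) (w - polar R y w • w₀)) • (w - polar R y w • w₀)) (by simp [e, p2])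
          (by simp [p1]) k
        rwa [pol_smul_right, div_mul_cancel₀ _ hc] at this
      simpa [a4, hk] using e'
    rw [h.nd.perp_perp] at this
    exact mem_dz.2 (mem_sp_one.1 this)
  refine ⟨χ, fun e => c1 (a5 _ (by simp [e])), fun δ hδ => ?_⟩
  obtain ⟨δ', e⟩ := mem_dz.1 (a5 δ hδ)
  refine ⟨_, M.mul_mem (M.mul_mem (M.inv_mem hg) (hK u (-δ' • w₀))) hg, fun k => g.symm_apply_eq.2 ?_⟩
  change siegel R u _ (g (k • u)) = _
  rw [map_add, map_smul g, e, siegel_apply_of_perp hu (by simp [p2]) (a2 k), pol_smul_right, a4,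
    ← algebraMap_smul K (χ k)]
  module

theorem exists_tv3 (h : ExtO τ R Q) (h7 : 7 ≤ finrank F V) (hM : M ≤ OG Q)
    (hK : ∀ u w, (siegel R u w).restrictScalars F ∈ M) {u : V} (hu0 : u ≠ 0) (hu : R u = 0) (hE : EV τ R M u)
    (hex : ∃ g ∈ M, dz K u g ≠ ⊤ ∧ dz K u g ≠ ⊥) : ∃ χ : Dual F K, χ ≠ 0 ∧ Tv M u χ := by
  obtain ⟨g₀, hg₀, a1, a2⟩ := hex
  obtain ⟨g, ⟨hg, b1⟩, hmax⟩ := (measure fun g => finrank F K - finrank F (dz K u g)).wf.has_min
    {g | g ∈ M ∧ dz K u g ≠ ⊤} ⟨g₀, hg₀, a1⟩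
  have hmax' : ∀ g' ∈ M, finrank F (dz K u g) < finrank F (dz K u g') → dz K u g' = ⊤ := fun g' hg' e => by
    by_contra e'
    refine hmax g' ⟨hg', e'⟩ ?_
    have := Submodule.finrank_le (dz K u g')
    change finrank F K - finrank F (dz K u g') < finrank F K - finrank F (dz K u g)
    omega
  have b2 : dz K u g ≠ ⊥ := fun e => a1 (hmax' g₀ hg₀ (by
    rw [e, finrank_bot]; exact Nat.pos_of_ne_zero fun e' => a2 (Submodule.finrank_eq_zero.1 e')))
  by_cases hc : ∃ k₀ ∉ dz K u g, polar R (g (k₀ • u)) u = 0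
  · obtain ⟨k₀, c1, c2⟩ := hc
    exact h.case_one3 hK hu0 hu hE hg b1 b2 (fun g' a b => hmax' g' a (Submodule.finrank_lt_finrank_of_lt b)) c1 c2
  push Not at hc
  obtain ⟨k₀, -, c1⟩ := SetLike.exists_of_lt (lt_top_iff_ne_top.2 b1)
  have huu : polar R u u = 0 := by simp [hu]
  have α0 := hc k₀ c1
  set α := polar R (g (k₀ • u)) u with hα
  obtain ⟨x, -, hx⟩ := h.exists_partner hu0 hu
  obtain ⟨w, w1, w0, w3⟩ := exists_sing_three Q (h.three_le_perp h7 u x)
  have w2 : w ∉ sp K [u] := fun e => by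
    obtain ⟨c, rfl⟩ := mem_sp_one.1 e
    have := mem_perp_sp.1 w1 x (by simp)
    simp_all
  replace w1 := mem_perp_sp.1 w1 u (by simp)
  have w4 : polar R u (α⁻¹ • w) = 0 := by simp [w1]
  obtain ⟨ψ, hψ⟩ : -(τ ∘ₗ plin F R w ∘ₗ (g : V →ₗ[F] V) ∘ₗ kln F K u) ∈
      LinearMap.range (plin F R u ∘ₗ (g : V →ₗ[F] V) ∘ₗ kln F K u).dualMap := by
    rw [LinearMap.range_dualMap_eq_dualAnnihilator_ker, Submodule.mem_dualAnnihilator]
    intro k hk
    obtain ⟨l, hl⟩ := mem_dz.1 (by_contra fun e => hc k e hk : k ∈ dz K u g)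
    simp [hl, w1]
  obtain ⟨θ, hθ⟩ := exists_tau_eq h.tau ψ
  have e0 : ∀ k : K, τ (θ * polar R (g (k • u)) u) = -τ (polar R (g (k • u)) w) := fun k => by
    rw [← hθ]; exact LinearMap.congr_fun hψ k
  obtain ⟨ρ, r1, r2, r3⟩ := hE α α0 (θ + α⁻¹ * (polar R (g (k₀ • u)) w + R w)) (by
    rw [mul_add, mul_inv_cancel_left₀ α0, map_add, map_add, mul_comm, e0, ← h.Q, w3]; ring)
  have e1 : ρ (siegel R u (α⁻¹ • w) (g (k₀ • u))) = g (k₀ • u) + w + θ • u := by
    rw [r3 _ (by rw [siegel_apply hu w4]; simp [huu, pol_comm R w, w1, hα]), siegel_apply hu w4, ← hα, Q_smul,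
      pol_smul_right, smul_inv_smul₀ α0, show α⁻¹ * α⁻¹ * R w * α = α⁻¹ * R w by field_simp]
    module
  have d1 : dz K u g ≤ dz K u (g⁻¹ * (ρ * (siegel R u (α⁻¹ • w)).restrictScalars F) * g) := fun l hl => by
    obtain ⟨l', hl'⟩ := mem_dz.1 hl
    exact mem_dz.2 ⟨l, g.symm_apply_eq.2 (by simp [hl', siegel_apply hu w4, huu, w1, r2])⟩
  have d2 : k₀ ∉ dz K u (g⁻¹ * (ρ * (siegel R u (α⁻¹ • w)).restrictScalars F) * g) := fun e => by
    obtain ⟨l, hl⟩ := mem_dz.1 e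
    have e1 := e1.symm.trans (g.symm_apply_eq.1 hl)
    have e2 : l - k₀ ∈ dz K u g := by
      by_contra e3
      refine hc _ e3 ?_
      rw [sub_smul, map_sub, ← e1]
      simp [huu, pol_comm R w, w1]
    obtain ⟨l', hl'⟩ := mem_dz.1 e2
    rw [sub_smul, map_sub, ← e1] at hl'
    exact w2 (mem_sp_one.2 ⟨l' - θ, by linear_combination (norm := module) hl'⟩)
  refine h.case_one3 hK hu0 hu hE (M.mul_mem (M.mul_mem (M.inv_mem hg) (M.mul_mem r1 (hK u _))) hg)
    (fun e => d2 (e ▸ Submodule.mem_top)) (fun e => b2 (eq_bot_iff.2 (e ▸ d1)))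
    (fun g' a b => hmax' g' a (Submodule.finrank_lt_finrank_of_lt (d1.trans_lt b))) d2
    (eq_zero_of_tau h.tau fun k => ?_)
  have a1 := OG_pol_inv (hM hg) (g (k₀ • u) + w + θ • u) (k • u)
  rw [polar_add_left, polar_add_left, OG_pol (hM hg), ← e1] at a1
  simp only [h.pol, pol_smul_right, pol_smul_left, huu, mul_zero, map_zero, pol_comm R _ (g (k • u)), e0] at a1
  exact a1.trans (by ring)

end ExtO

end Cfsg.Agent.H7
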