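import Cfsg.Agent.H7.OmX4

/-!
Orthogonal groups: field extension subgroups of orthogonal type, for matrices.
-/

set_option autoImplicit false
set_option linter.unusedSectionVars false

namespace Cfsg.Agent.H7

open Module QuadraticMap Cfsg.Agent.H8
open scoped Matrix MatrixGroups

section
variable {F K : Type*} [Field F] [Field K] [Algebra F K] {V : Type*} [AddCommGroup V] [Module F V] [Module K V]
  [IsScalarTower F K V] [FiniteDimensional F K] [FiniteDimensional K V] [FiniteDimensional F V] [Finite F]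

theorem exists_extO {Q : QuadraticForm F V} (hN : ND Q) (h2 : (2 : F) ≠ 0) (hp : (finrank F K).Prime)
    (h3 : 3 ≤ finrank K V) (hsa : ∀ (k : K) x y, polar Q (k • x) y = polar Q x (k • y)) :
    ∃ (τ : K →ₗ[F] F) (R : QuadraticForm K V), ExtO τ R Q := by
  obtain ⟨τ, τ1, -⟩ := exists_dual_one (F := F) (W := ⊥) (x := (1 : K)) (by simp)
  have hτ : τ ≠ 0 := by rintro rfl; simp at τ1
  have hK : (2 : K) ≠ 0 := by rw [← map_ofNat (algebraMap F K)]; exact (map_ne_zero _).2 h2
  obtain ⟨f, hf⟩ := exists_lift_form hτ (polar Q) (polar_add_left Q) (polar_smul_left Q)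
  have ext : ∀ a b : K, (∀ k, τ (k * a) = τ (k * b)) → a = b := fun a b e =>
    sub_eq_zero.1 (eq_zero_of_tau hτ fun k => by rw [mul_sub, map_sub, e, sub_self])
  have sy : ∀ x y, f x y = f y x := fun x y => ext _ _ fun k => by rw [hf, hf, hsa, pol_comm]
  have a1 : ∀ x y v, f (x + y) v = f x v + f y v := fun x y v => ext _ _ fun k => by simp [hf, mul_add]
  have a2 : ∀ (c : K) x v, f (c • x) v = c • f x v := fun c x v => ext _ _ fun k => by
    rw [hf, smul_eq_mul, ← mul_assoc, hf, mul_smul]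
  let B : LinearMap.BilinForm K V := LinearMap.mk₂ K f a1 a2 (fun x y v => by rw [sy, a1, sy y, sy v])
    (fun c x v => by rw [sy, a2, sy v])
  have hp' : ∀ x y, polar ((2 : K)⁻¹ • B.toQuadraticMap) x y = f x y := fun x y => by
    rw [FunLike.coe_smul, polar_smul, LinearMap.BilinMap.polar_toQuadraticMap]
    simp [B, sy y x]; field_simp; ring
  refine ⟨τ, (2 : K)⁻¹ • B.toQuadraticMap, h2, hτ, hp, h3, fun x hx => hN x fun y => ?_, fun x => ?_⟩
  · have := hf x y 1
    rw [← hp', hx y] at this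
    simpa using this.symm
  · have := hf x x 2⁻¹
    rw [show (2 : K)⁻¹ = algebraMap F K 2⁻¹ by simp [map_ofNat], algebraMap_smul, pol_smul_left, pol_self] at this
    rw [show Q x = 2⁻¹ * (2 * Q x) by field_simp, ← this]
    simp [B, map_ofNat]

end

theorem om_max_ext {ι : Type} [Fintype ι] [DecidableEq ι] {F : Type*} [Field F] [Fintype F] {Q : (ι → F) → F}
    (hQ : Geo.IsNondegenerateQuadraticForm Q) (hodd : Odd (Fintype.card F)) {r : ℕ} (hr : r.Prime)
    (h4 : 3 * r < Fintype.card ι) {A : Subalgebra F (Matrix ι ι F)} (hA : Geo.IsFieldSubalgebra r A)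
    (hsa : Geo.IsSelfAdjointFor (polar Q) A) :
    Geo.IsMaximalIn (Geo.omegaGL Q) (Geo.subalgebraNormalizer A ⊓ Geo.omegaGL Q) := by
  have r2 := hr.two_le
  have hnl := omega_not_le_subalgebraNormalizer hQ (by omega) hA hr.one_lt
  obtain ⟨Q, rfl, hN⟩ := exists_quadraticForm hQ
  have : Nonempty ι := Fintype.card_pos_iff.1 (by omega)
  let _ := Asch.fieldOf A hA.comm hA.inv
  let inst : Module A (ι → F) :=
    Module.compHom _ ((Matrix.toLinAlgEquiv' (R := F)).toRingHom.comp A.val.toRingHom)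
  have : @IsScalarTower F A (ι → F) Algebra.toSMul inst.toSMul _ :=
    ⟨fun c k v => Matrix.smul_mulVec c k.1 v⟩
  have : FiniteDimensional A (ι → F) := Module.Finite.right F A _
  have h4' : 4 ≤ finrank A (ι → F) := by
    have := Module.finrank_mul_finrank F A (ι → F)
    rw [finrank_pi_card, hA.finrank_eq] at this
    by_contra hc
    have := Nat.mul_le_mul_left r (show finrank A (ι → F) ≤ 3 by omega)
    omega
  obtain ⟨τ, R, h⟩ := exists_extO (K := A) hN (two_ne_zero_of_odd hodd) (hA.finrank_eq ▸ hr) (by omega)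
    fun k => hsa k k.2
  refine ⟨lt_of_le_of_ne inf_le_right fun e => hnl (e ▸ inf_le_left), fun M h1 h2 => ?_⟩
  obtain ⟨M, rfl⟩ := exists_pull M
  rw [omegaGL_eq] at h1 h2 ⊢
  by_cases hg : ∃ g ∈ M, ¬ KSemi A g
  · refine .inr (le_antisymm h2 (pull_le_pull.2 (h.max h4' (pull_le_pull.1 h2) (fun g g1 g2 => ?_) hg)))
    obtain ⟨g, rfl⟩ := H8.toLE.surjective g
    exact h1 ⟨(mem_subalgebraNormalizer_iff' A g).2 g2, g1⟩
  · push Not at hg
    exact .inl (le_antisymm (fun g g1 => ⟨(mem_subalgebraNormalizer_iff' A g).2 (hg _ g1), h2 g1⟩) h1)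

end Cfsg.Agent.H7
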