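import Cfsg.Agent.H7.OmT4
import Cfsg.Agent.H7.OmX5

/-!
Orthogonal groups: maximality of field extension subgroups in dimension three.
-/

set_option autoImplicit false
set_option linter.unusedSectionVars false

namespace Cfsg.Agent.H7

open Module QuadraticMap Cfsg.Agent.H8
open scoped Matrix MatrixGroups

section
variable {F K : Type*} [Field F] [Field K] [Algebra F K] {V : Type*} [AddCommGroup V] [Module F V] [Module K V]
  [IsScalarTower F K V] [FiniteDimensional F K] [FiniteDimensional K V] [FiniteDimensional F V] [Finite F]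
variable {τ : K →ₗ[F] F} {R : QuadraticForm K V} {Q : QuadraticForm F V} {M : Subgroup (V ≃ₗ[F] V)}

namespace ExtO

theorem seven (h : ExtO τ R Q) (ho : Odd (finrank F K)) : 7 ≤ finrank F V := by
  rw [← Module.finrank_mul_finrank F K V]
  have := h.prime.two_le
  obtain ⟨l, hl⟩ := ho
  nlinarith [h.three, show 3 ≤ finrank F K by omega]

theorem tv_all3 (h : ExtO τ R Q) (ho : Odd (finrank F K)) (hH : ∀ g ∈ Om Q, KSemi K g → g ∈ M) {x : V} (hx0 : x ≠ 0)
    (hx : R x = 0) {χ : Dual F K} (hχ : χ ≠ 0) (ht : Tv M x χ) {u : V} (hu0 : u ≠ 0) (hu : R u = 0) {β δ : K}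
    (e : τ (β * δ) = 0) : ∃ t ∈ M, ∀ k : K, t (k • u) = k • u + τ (β * k) • δ • u := by
  by_cases hβ : β = 0
  · exact ⟨1, M.one_mem, by simp [hβ]⟩
  obtain ⟨γ, hγ⟩ := exists_tau_eq h.tau χ
  have γ0 : γ ≠ 0 := by rintro rfl; exact hχ (LinearMap.ext fun b => by simp [hγ])
  obtain ⟨l, -, l2, c, c0, l3⟩ := h.exists_trans3 ho hx0 hx (smul_ne_zero (div_ne_zero γ0 hβ) hu0) (by simp [Q_smul, hu])
  obtain ⟨t, t1, t2⟩ := ht (β / γ * δ) (by rw [hγ, ← e]; congr 1; field_simp)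
  have hl := hH _ l2 (kLin_res l).semi
  refine ⟨_, M.mul_mem (M.mul_mem hl t1) (M.inv_mem hl), fun k => ?_⟩
  have c1 : algebraMap F K c ≠ 0 := (map_ne_zero _).2 c0
  rw [← algebraMap_smul K, smul_smul] at l3
  have e1 : l.symm (k • u) = (c⁻¹ • (β / γ * k)) • x := by
    rw [LinearEquiv.symm_apply_eq, map_smul, l3, smul_smul, Algebra.smul_def, map_inv₀]; congr 1; field_simp
  change l (t (l.symm (k • u))) = _
  rw [e1, t2, map_add, LinearMapClass.map_smul_of_tower l (χ _), map_smul l, map_smul l, l3, map_smul χ, hγ,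
    show γ * (β / γ * k) = β * k by field_simp]
  simp only [← algebraMap_smul K (_ : F) (_ • u), smul_smul, Algebra.smul_def, map_mul, map_inv₀,
    Algebra.algebraMap_self, RingHom.id_apply]
  congr 2 <;> field_simp

theorem ms_of_skew3 (h : ExtO τ R Q) (hr : Odd (finrank F K)) (hM : M ≤ OG Q) (hH : ∀ g ∈ Om Q, KSemi K g → g ∈ M)
    {u : V} (hu0 : u ≠ 0) (hu : R u = 0) {ρ : V ≃ₗ[F] V} (r1 : ρ ∈ M) (r2 : ∀ w, polar R w u = 0 → ρ w = w)
    (r3 : ρ ≠ 1) : ∃ a : K, a ≠ 0 ∧ ∀ b : K, b • u ∈ MS Q M (a • u) := by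
  obtain ⟨s, s1, s2⟩ := h.exists_skew hu0 hu (hM r1) r2
  have huu : polar R u u = 0 := by simp [hu]
  have s3 : ∀ a, τ (a * s a) = 0 := fun a =>
    (mul_eq_zero.1 (show 2 * τ (a * s a) = 0 by linear_combination s2 a a)).resolve_left h.two
  obtain ⟨β, hβ⟩ : ∃ β, s β ≠ 0 := by
    by_contra hc
    push Not at hc
    exact r3 (LinearEquiv.ext fun y => by simp [s1, hc])
  have β0 : β ≠ 0 := by rintro rfl; simp at hβ
  have hK : ∀ u w, (siegel R u w).restrictScalars F ∈ M := fun u w => hH _ (h.siegel_mem u w) (kLin_res _).semi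
  refine ⟨s β, hβ, ?_⟩
  obtain ⟨x, hx0, hx⟩ := h.exists_partner hu0 hu
  have x0 : x ≠ 0 := by rintro rfl; simp at hx
  have dzx : dz K x ρ = LinearMap.ker s := by
    ext k
    rw [mem_dz, s1, pol_smul_left, hx, mul_one]
    refine ⟨fun ⟨k', e⟩ => ?_, fun e => ⟨k, by rw [LinearMap.mem_ker.1 e, zero_smul, add_zero]⟩⟩
    simpa [hx0, pol_comm R u, hx] using congrArg (polar R · x) e
  obtain ⟨l, l1, l2, c, c0, l3⟩ := h.exists_trans3 hr hu0 hu x0 hx0
  have hl := hH _ l2 (kLin_res l).semi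
  have hE := h.ev hr hM hH x0 hx0 (M.mul_mem (M.mul_mem hl r1) (M.inv_mem hl)) (fun w e => by
    have : polar R (l.symm w) u = 0 := by
      rw [← OG_pol l1, l3, l.apply_symm_apply, ← algebraMap_smul K, pol_smul_right, e, mul_zero]
    change l (ρ (l.symm w)) = w
    rw [r2 _ this, l.apply_symm_apply]) (by simpa [mul_inv_eq_one] using r3)
  obtain ⟨χ, hχ, ht⟩ := h.exists_tv3 (h.seven hr) hM hK x0 hx0 hE ⟨ρ, r1, fun e => hβ (by rw [dzx] at e; exact (e ▸ Submodule.mem_top : β ∈ LinearMap.ker s)),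
    dzx ▸ exists_ker_of_skew h.tau h.two hr s s2⟩
  have T := fun β δ e => h.tv_all3 hr hH x0 hx0 hχ ht hu0 hu (β := β) (δ := δ) e
  have m1 : ∀ δ, τ (β * δ) = 0 → siegel Q (s β • u) (δ • u) ∈ M := fun δ e => by
    obtain ⟨t, t1, t2⟩ := T β (-δ) (by simp [e])
    suffices H : siegel Q (s β • u) (δ • u) = ρ⁻¹ * (t * ρ * t⁻¹) from
      H ▸ M.mul_mem (M.inv_mem r1) (M.mul_mem (M.mul_mem t1 r1) (M.inv_mem t1))
    ext y
    have e1 : polar R (t⁻¹ y) u = polar R y u - τ (δ * polar R y u) • β := h.ext_tau fun k => by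
      have := OG_pol_inv (hM t1) y (k • u)
      rw [t2, polar_add_right, pol_smul_right Q] at this
      simp only [h.pol, pol_smul_right] at this
      rw [this, mul_sub, mul_smul_comm, map_sub, map_smul, mul_comm k β]; simp; ring
    have e2 : ∀ (c : F) (k : K), polar R (c • k • u) u = 0 := fun c k => by
      rw [← smul_assoc, pol_smul_left, huu, mul_zero]
    rw [LinearEquiv.mul_apply, LinearEquiv.coe_inv, LinearEquiv.eq_symm_apply, h.siegel_ku hu, s1,
      polar_sub_left, polar_add_left, e2, e2, LinearEquiv.mul_apply, LinearEquiv.mul_apply, s1, map_add, t2, e1,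
      apply_inv_apply]
    simp only [map_sub, map_smul, mul_sub, mul_smul_comm, s3, s2 _ β, mul_comm (polar R y u), add_zero, sub_zero, sub_smul, smul_assoc]
    module
  obtain ⟨δ, hδ, hδ'⟩ := exists_mem_notMem_of_finrank_lt (U := LinearMap.ker (τ ∘ₗ LinearMap.mulLeft F β))
    (W := F ∙ s β) (by
      have := finrank_ker_dual (h.tau_mul_ne β0)
      have := finrank_span_singleton_le (F := F) (s β)
      have := h.prime.two_le
      obtain ⟨k, hk⟩ := hr
      omega)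
  replace hδ : τ (β * δ) = 0 := hδ
  have m2 : δ • u ∈ MS Q M (s β • u) := mem_MS.2 ⟨by simp [h.pol, hu], fun c => by
    rw [← smul_assoc]; exact m1 _ (by simp [hδ])⟩
  obtain ⟨φ, φ1, φ2⟩ := exists_dual_one hδ'
  obtain ⟨β', hβ'⟩ := exists_tau_eq h.tau φ
  intro b
  obtain ⟨t, t1, t2⟩ := T β' (b - φ b • δ) (by simp [← hβ', φ1])
  have := MS_fix (hM t1) t1 (by rw [t2, ← hβ', φ2 _ (Submodule.mem_span_singleton_self _)]; simp) m2
  rw [t2, ← hβ', φ1, one_smul, sub_smul, smul_assoc] at this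
  simpa using add_mem (sub_mem this m2) (Submodule.smul_mem _ (φ b) m2)

theorem max3 (h : ExtO τ R Q) (h3 : finrank K V = 3) (ho : Odd (finrank F K))
    (hτ : ∀ (σ : K ≃ₐ[F] K) k, τ (σ k) = τ k) (hM : M ≤ Om Q) (hH : ∀ g ∈ Om Q, KSemi K g → g ∈ M)
    (hg : ∃ g ∈ M, ¬ KSemi K g) : Om Q ≤ M := by
  have hM' : M ≤ OG Q := hM.trans Om_le_OG
  by_cases hY : ∀ u, u ≠ 0 → R u = 0 → ∀ ρ ∈ M, (∀ w, polar R w u = 0 → ρ w = w) → ρ = 1
  · obtain ⟨g, hg, hg'⟩ := hg
    exact (hg' (h.semi_of_hY h3 ho hτ hM hH hY hg)).elim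
  push Not at hY
  obtain ⟨u, hu0, hu, ρ, r1, r2, r3⟩ := hY
  obtain ⟨a, a0, ha⟩ := h.ms_of_skew3 ho hM' hH hu0 hu r1 r2 r3
  have hZ : ∀ v, R v = 0 → ∀ k : K, k • v ∈ MS Q M v := fun v hv k => by
    by_cases v0 : v = 0
    · simp [v0]
    obtain ⟨l, l1, l2, c, c0, l3⟩ := h.exists_trans3 ho (smul_ne_zero a0 hu0) (by simp [Q_smul, hu]) v0 hv
    have := MS_conj (h.res_mem l1) (hH _ l2 (kLin_res l).semi) (ha (k * a))
    rw [LinearEquiv.restrictScalars_apply, LinearEquiv.restrictScalars_apply, mul_smul, map_smul l k, l3,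
      smul_comm k] at this
    exact (Submodule.smul_mem_iff _ c0).1 (MS_of_smul c0 this)
  obtain ⟨x, hx0, hx⟩ := h.exists_partner hu0 hu
  obtain ⟨θ, hθ⟩ := h.exists_tau_one one_ne_zero
  have θ0 : θ ≠ 0 := by rintro rfl; simp at hθ
  exact Om_le_of_two h.nondeg h.five (u := u) (w := θ • x) (by simp [h.Q, hu]) (by simp [h.Q, Q_smul, hx0])
    (by rw [h.pol, pol_smul_right, pol_comm, hx, hθ]; exact one_ne_zero) (h.ms_three (h.seven ho) hZ hu0 hu)
    (h.ms_three (h.seven ho) hZ (smul_ne_zero θ0 (by rintro rfl; simp at hx)) (by simp [Q_smul, hx0]))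

end ExtO

theorem exists_extO' {Q : QuadraticForm F V} (hτ : τ ≠ 0) (hN : ND Q) (h2 : (2 : F) ≠ 0) (hp : (finrank F K).Prime)
    (h3 : 3 ≤ finrank K V) (hsa : ∀ (k : K) x y, polar Q (k • x) y = polar Q x (k • y)) :
    ∃ R : QuadraticForm K V, ExtO τ R Q := by
  have hK : (2 : K) ≠ 0 := by rw [← map_ofNat (algebraMap F K)]; exact (map_ne_zero _).2 h2
  obtain ⟨f, hf⟩ := exists_lift_form hτ (polar Q) (polar_add_left Q) (polar_smul_left Q)
  have ext : ∀ a b : K, (∀ k, τ (k * a) = τ (k * b)) → a = b := fun a b e =>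
    sub_eq_zero.1 (eq_zero_of_tau hτ fun k => by rw [mul_sub, map_sub, e, sub_self])
  have sy : ∀ x y, f x y = f y x := fun x y => ext _ _ fun k => by rw [hf, hf, hsa, pol_comm]
  have a1 : ∀ x y v, f (x + y) v = f x v + f y v := fun x y v => ext _ _ fun k => by simp [hf, mul_add]
  have a2 : ∀ (c : K) x v, f (c • x) v = c • f x v := fun c x v => ext _ _ fun k => by
    rw [hf, smul_eq_mul, ← mul_assoc, hf, mul_smul]
  let B : LinearMap.BilinForm K V := LinearMap.mk₂ K f a1 a2 (fun x y v => by rw [sy, a1, sy y, sy v])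
    (fun c x v => by rw [sy, a2, sy v])
  have hp' : ∀ x y, polar ((2 : K)⁻¹ • B.toQuadraticMap) x y = f x y := fun x y => by
    rw [FunLike.coe_smul, polar_smul, LinearMap.BilinMap.polar_toQuadraticMap]
    simp [B, sy y x]; field_simp; ring
  refine ⟨(2 : K)⁻¹ • B.toQuadraticMap, h2, hτ, hp, h3, fun x hx => hN x fun y => ?_, fun x => ?_⟩
  · have := hf x y 1
    rw [← hp', hx y] at this
    simpa using this.symm
  · have := hf x x 2⁻¹
    rw [show (2 : K)⁻¹ = algebraMap F K 2⁻¹ by simp [map_ofNat], algebraMap_smul, pol_smul_left, pol_self] at this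
    rw [show Q x = 2⁻¹ * (2 * Q x) by field_simp, ← this]
    simp [B, map_ofNat]

end

theorem om_max_ext3 {ι : Type} [Fintype ι] [DecidableEq ι] {F : Type*} [Field F] [Fintype F] {Q : (ι → F) → F}
    (hQ : Geo.IsNondegenerateQuadraticForm Q) (hodd : Odd (Fintype.card F)) {r : ℕ} (hr : r.Prime)
    (hro : Odd r)
    (h4 : 3 * r ≤ Fintype.card ι) {A : Subalgebra F (Matrix ι ι F)} (hA : Geo.IsFieldSubalgebra r A)
    (hsa : Geo.IsSelfAdjointFor (polar Q) A) :
    Geo.IsMaximalIn (Geo.omegaGL Q) (Geo.subalgebraNormalizer A ⊓ Geo.omegaGL Q) := by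
  rcases h4.lt_or_eq with h4 | h4
  · exact om_max_ext hQ hodd hr h4 hA hsa
  have r2 := hr.two_le
  have hnl := omega_not_le_subalgebraNormalizer hQ (by omega) hA hr.one_lt
  obtain ⟨Q, rfl, hN⟩ := exists_quadraticForm hQ
  have : Nonempty ι := Fintype.card_pos_iff.1 (by omega)
  let _ := Asch.fieldOf A hA.comm hA.inv
  let inst : Module A (ι → F) :=
    Module.compHom _ ((Matrix.toLinAlgEquiv' (R := F)).toRingHom.comp A.val.toRingHom)
  have : @IsScalarTower F A (ι → F) Algebra.toSMul inst.toSMul _ :=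
    ⟨fun c k v => Matrix.smul_mulVec c k.1 v⟩
  have : FiniteDimensional A (ι → F) := Module.Finite.right F A _
  have h3 : finrank A (ι → F) = 3 := by
    have := Module.finrank_mul_finrank F A (ι → F)
    rw [finrank_pi_card, hA.finrank_eq, ← h4, mul_comm 3] at this
    exact Nat.eq_of_mul_eq_mul_left hr.pos this
  obtain ⟨R, h⟩ := exists_extO' (K := A) (Algebra.trace_ne_zero F A) hN (two_ne_zero_of_odd hodd)
    (hA.finrank_eq ▸ hr) h3.ge fun k => hsa k k.2
  refine ⟨lt_of_le_of_ne inf_le_right fun e => hnl (e ▸ inf_le_left), fun M h1 h2 => ?_⟩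
  obtain ⟨M, rfl⟩ := exists_pull M
  rw [omegaGL_eq] at h1 h2 ⊢
  by_cases hg : ∃ g ∈ M, ¬ KSemi A g
  · refine .inr (le_antisymm h2 (pull_le_pull.2 (h.max3 h3 (hA.finrank_eq ▸ hro)
      Algebra.trace_eq_of_algEquiv (pull_le_pull.1 h2) (fun g g1 g2 => ?_) hg)))
    obtain ⟨g, rfl⟩ := H8.toLE.surjective g
    exact h1 ⟨(mem_subalgebraNormalizer_iff' A g).2 g2, g1⟩
  · push Not at hg
    exact .inl (le_antisymm (fun g g1 => ⟨(mem_subalgebraNormalizer_iff' A g).2 (hg _ g1), h2 g1⟩) h1)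

theorem fieldSub_dvd_card {ι : Type} [Fintype ι] [DecidableEq ι] [Nonempty ι] {F : Type*} [Field F] [Fintype F] {r : ℕ}
    {A : Subalgebra F (Matrix ι ι F)} (hA : Geo.IsFieldSubalgebra r A) : r ∣ Fintype.card ι := by
  let _ := Asch.fieldOf A hA.comm hA.inv
  let inst : Module A (ι → F) :=
    Module.compHom _ ((Matrix.toLinAlgEquiv' (R := F)).toRingHom.comp A.val.toRingHom)
  have : @IsScalarTower F A (ι → F) Algebra.toSMul inst.toSMul _ :=
    ⟨fun c k v => Matrix.smul_mulVec c k.1 v⟩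
  have := Module.finrank_mul_finrank F A (ι → F)
  rw [finrank_pi_card, hA.finrank_eq] at this
  exact ⟨_, this.symm⟩

/-- The field extension clause in odd dimension. -/
theorem om_max_ext_odd {ι : Type} [Fintype ι] [DecidableEq ι] {F : Type*} [Field F] [Fintype F] {Q : (ι → F) → F}
    (hQ : Geo.IsNondegenerateQuadraticForm Q) (hodd : Odd (Fintype.card F)) (hn : Odd (Fintype.card ι)) {r : ℕ}
    (hr : r.Prime) (hrn : Fintype.card ι ≠ r) {A : Subalgebra F (Matrix ι ι F)} (hA : Geo.IsFieldSubalgebra r A)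
    (hsa : Geo.IsSelfAdjointFor (polar Q) A) :
    Geo.IsMaximalIn (Geo.omegaGL Q) (Geo.subalgebraNormalizer A ⊓ Geo.omegaGL Q) := by
  have : Nonempty ι := Fintype.card_pos_iff.1 hn.pos
  obtain ⟨k, hk⟩ := fieldSub_dvd_card hA
  obtain ⟨h1, l, rfl⟩ := Nat.odd_mul.1 (hk ▸ hn)
  refine om_max_ext3 hQ hodd hr h1 ?_ hA hsa
  rcases l with _ | l
  · simp [hk] at hrn
  · rw [hk]; nlinarith

end Cfsg.Agent.H7
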