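import Cfsg.Agent.H7.OmX2

/-!
Orthogonal groups: field extension subgroups of orthogonal type, the extremal argument.
-/

set_option autoImplicit false
set_option linter.unusedSectionVars false

namespace Cfsg.Agent.H7

open Module QuadraticMap Cfsg.Agent.H8

variable {F K : Type*} [Field F] [Field K] [Algebra F K] {V : Type*} [AddCommGroup V] [Module F V] [Module K V]
  [IsScalarTower F K V] [FiniteDimensional F K] [FiniteDimensional K V] [FiniteDimensional F V] [Finite F]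
variable {τ : K →ₗ[F] F} {R : QuadraticForm K V} {Q : QuadraticForm F V} {M : Subgroup (V ≃ₗ[F] V)}

/-- `M` induces on the line `K u` all transvections with axis `ker χ`. -/
def Tv (M : Subgroup (V ≃ₗ[F] V)) (u : V) (χ : Dual F K) : Prop :=
  ∀ δ, χ δ = 0 → ∃ t ∈ M, ∀ k : K, t (k • u) = k • u + χ k • δ • u

/-- The polar form as an `F`-bilinear map. -/
def polF (F : Type*) [Field F] [Algebra F K] [Module F V] [IsScalarTower F K V] (R : QuadraticForm K V) :
    V →ₗ[F] V →ₗ[F] K := R.polarBilin.restrictScalars₁₂ F F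

@[simp] theorem polF_apply (x y : V) : polF F R x y = polar R x y := rfl

theorem finrank_ker_dual {χ : Dual F K} (h : χ ≠ 0) : finrank F (LinearMap.ker χ) + 1 = finrank F K := by
  have a1 := LinearMap.finrank_range_add_finrank_ker χ
  have a2 : finrank F (LinearMap.range χ) = 1 := by rw [Module.Dual.range_eq_top_of_ne_zero h]; simp
  omega

theorem dz_inv_ne_bot {u : V} (hu : u ≠ 0) {g : V ≃ₗ[F] V} (h : dz K u g ≠ ⊥) : dz K u g⁻¹ ≠ ⊥ := by
  obtain ⟨δ, hδ, hδ0⟩ := Submodule.exists_mem_ne_zero_of_ne_bot h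
  obtain ⟨k, hk⟩ := mem_dz.1 hδ
  refine (Submodule.ne_bot_iff _).2 ⟨k, mem_dz.2 ⟨δ, by rw [← hk]; exact g.symm_apply_apply _⟩, ?_⟩
  rintro rfl; simp [hδ0, hu] at hk

namespace ExtO

theorem tau_mul_ne (h : ExtO τ R Q) {k : K} (hk : k ≠ 0) : τ ∘ₗ LinearMap.mulLeft F k ≠ 0 := fun e =>
  hk (eq_zero_of_tau h.tau fun l => by rw [mul_comm]; exact LinearMap.congr_fun e l)

theorem case_two (h : ExtO τ R Q) (h4 : 4 ≤ finrank K V) {u : V} (hu0 : u ≠ 0) (hu : R u = 0) {g : V ≃ₗ[F] V}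
    (hg : g ∈ OG Q) (b2 : dz K u g ≠ ⊥) (k₀ : K) : ∃ w, polar R u w = 0 ∧ w ∉ sp K [u] ∧
      polar R (g.symm (siegel R u w (g (k₀ • u)))) u = 0 := by
  obtain ⟨x, hx0, hx⟩ := h.exists_partner hu0 hu
  obtain ⟨k₁, c1, c2⟩ := Submodule.exists_mem_ne_zero_of_ne_bot b2
  obtain ⟨k₂, c3⟩ := mem_dz.1 c1
  let W := (perp R (sp K [u, x])).restrictScalars F
  have hW : ∀ w : W, polar R u w = 0 := fun w => mem_perp_sp.1 w.2 u (by simp)
  let ψ : V →ₗ[F] K := plin F R u ∘ₗ (g.symm : V →ₗ[F] V)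
  let b : W →ₗ[F] W →ₗ[F] K := ((polF F R).compl₁₂ W.subtype W.subtype).compr₂
    (-ψ ∘ₗ kln F K ((polar R (g (k₀ • u)) u / 2) • u))
  let l : W →ₗ[F] K := ψ ∘ₗ ((LinearMap.lsmul K V (polar R (g (k₀ • u)) u)).restrictScalars F -
    kln F K u ∘ₗ polF F R (g (k₀ • u))) ∘ₗ W.subtype
  have e : ∀ w : W, b w w + l w = polar R (g.symm (siegel R u w (g (k₀ • u)))) u := fun w => by
    have h2 := h.twoK
    have : (2 * R w) • (polar R (g (k₀ • u)) u / 2) • u = (R w * polar R (g (k₀ • u)) u) • u := by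
      rw [smul_smul]; congr 1; field_simp
    simp [b, l, ψ, this, siegel_apply hu (hW w), hu, add_smul]; ring
  obtain ⟨w, w0, w1⟩ := exists_zero_quad b l (LinearMap.ker (τ ∘ₗ LinearMap.mulLeft F k₁)) (fun w => by
    have a1 := OG_pol_inv hg (siegel R u w (g (k₀ • u))) (k₁ • u)
    have a2 := OG_pol hg (k₀ • u) (k₁ • u)
    rw [c3] at a1 a2
    rw [e]
    simp only [h.pol, pol_smul_right, pol_smul_left, pol_self, hu, mul_zero, map_zero] at a1 a2
    refine a1.trans ?_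
    simp only [siegel_apply hu (hW w) (g _), polar_sub_left, polar_add_left, pol_smul_left, pol_self, hu,
      pol_comm R w u, hW w, mul_zero, add_zero, sub_zero, a2]) (by
      have a1 := finrank_ker_dual (h.tau_mul_ne c2)
      have a2 : finrank F W = finrank F K * finrank K (perp R (sp K [u, x])) :=
        (Module.finrank_mul_finrank F K (perp R (sp K [u, x]))).symm
      have a3 := h.nd.finrank_perp (sp K [u, x])
      have a4 := finrank_sp_le (F := K) [u, x]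
      have a5 : 2 ≤ finrank K (perp R (sp K [u, x])) := by simp at a4; omega
      nlinarith)
  refine ⟨w, hW w, fun e' => w0 ?_, by rw [← e, w1]⟩
  obtain ⟨c, hc⟩ := mem_sp_one.1 e'
  have := mem_perp_sp.1 w.2 x (by simp)
  rw [hc, pol_smul_right, hx, mul_one] at this
  exact Subtype.ext (by simp [hc, this])

theorem case_one (h : ExtO τ R Q) (h4 : 4 ≤ finrank K V) (hK : ∀ u w, (siegel R u w).restrictScalars F ∈ M)
    {u : V} (hu0 : u ≠ 0) (hu : R u = 0) {g : V ≃ₗ[F] V} (hg : g ∈ M) (b1 : dz K u g ≠ ⊤) (b2 : dz K u g ≠ ⊥)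
    (hmax : ∀ g' ∈ M, dz K u g < dz K u g' → dz K u g' = ⊤) {k₀ : K} (c1 : k₀ ∉ dz K u g)
    (c2 : polar R (g (k₀ • u)) u = 0) : ∃ χ : Dual F K, χ ≠ 0 ∧ Tv M u χ := by
  have huu : polar R u u = 0 := by simp [hu]
  set y := g (k₀ • u) with hy
  have y1 : y ∉ sp K [u] := fun e => c1 (mem_dz.2 (mem_sp_one.1 e))
  have d1 : dz K u g⁻¹ ≠ ⊤ := fun e => b1 (by simpa using dz_inv_top e)
  have a1 : ∀ w, polar R u w = 0 → polar R y w ∈ dz K u g⁻¹ → ∀ k : K, ∃ k' : K,
      siegel R u w (g (k • u)) = g (k' • u) := fun w e e' k => by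
    have := hmax _ (M.mul_mem (M.mul_mem (M.inv_mem hg) (hK u w)) hg)
      (SetLike.lt_iff_le_and_exists.2 ⟨fun l hl => ?_, k₀, ?_, c1⟩)
    · obtain ⟨k', hk'⟩ := mem_dz.1 (this ▸ Submodule.mem_top : k ∈ dz K u _)
      exact ⟨k', g.symm_apply_eq.1 hk'⟩
    · obtain ⟨l', hl'⟩ := mem_dz.1 hl
      exact mem_dz.2 ⟨l, g.symm_apply_eq.2 (by simp [hl', siegel_apply hu e, huu, e])⟩
    · obtain ⟨l', hl'⟩ := mem_dz.1 e'
      refine mem_dz.2 ⟨k₀ - l', g.symm_apply_eq.2 ?_⟩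
      rw [sub_smul, map_sub, ← hl']
      simpa using siegel_apply_of_perp hu e c2
  have a2 : ∀ k : K, polar R (g (k • u)) u = 0 := fun k₁ => by
    by_contra hc
    obtain ⟨w, hw, hw'⟩ := exists_not_mem (T := perp R (sp K [u, y])) (S := sp K [u]) (by
      have := h.nd.finrank_perp (sp K [u, y])
      have := finrank_sp_le (F := K) [u, y]
      have := finrank_sp_le (F := K) [u]
      simp at *; omega)
    have w1 := mem_perp_sp.1 hw u (by simp)
    have w2 := mem_perp_sp.1 hw y (by simp)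
    let L := (sp K [u]).restrictScalars F
    have e1 : LinearMap.range (L.mkQ ∘ₗ kln F K w) ≤ LinearMap.range (L.mkQ ∘ₗ (g : V →ₗ[F] V) ∘ₗ kln F K u) := by
      rintro _ ⟨κ, rfl⟩
      obtain ⟨k', hk'⟩ := a1 ((κ / polar R (g (k₁ • u)) u) • w) (by simp [w1]) (by simp [w2]) k₁
      rw [siegel_apply hu (by simp [w1]), smul_smul, mul_div_cancel₀ _ hc] at hk'
      generalize polar R (g (k₁ • u)) _ + _ = c at hk'
      refine ⟨k' - k₁, (Submodule.Quotient.eq L).2 (mem_sp_one.2 ⟨-c, ?_⟩)⟩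
      change g ((k' - k₁) • u) - κ • w = _
      rw [sub_smul, map_sub, ← hk']
      module
    have e2 := LinearMap.finrank_range_of_inj (f := L.mkQ ∘ₗ kln F K w) (by
      rw [injective_iff_map_eq_zero]
      intro κ e
      by_contra hκ
      exact hw' (((sp K [u]).smul_mem_iff hκ).1 ((Submodule.Quotient.mk_eq_zero L).1 e)))
    have e3 := LinearMap.finrank_range_add_finrank_ker (L.mkQ ∘ₗ (g : V →ₗ[F] V) ∘ₗ kln F K u)
    have e4 : finrank F (LinearMap.ker (L.mkQ ∘ₗ (g : V →ₗ[F] V) ∘ₗ kln F K u)) ≠ 0 := fun e => b2 (by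
      refine eq_bot_iff.2 fun k hk => Submodule.finrank_eq_zero.1 e ▸ ?_
      exact (Submodule.Quotient.mk_eq_zero L).2 (mem_sp_one.2 (mem_dz.1 hk)))
    have := Submodule.finrank_mono e1
    omega
  have a3 : ∀ w, polar R u w = 0 → polar R y w ∈ dz K u g⁻¹ → ∀ k : K, polar R (g (k • u)) w ∈ dz K u g⁻¹ :=
    fun w e e' k => by
      obtain ⟨k', hk'⟩ := a1 w e e' k
      rw [siegel_apply_of_perp hu e (a2 k)] at hk'
      exact mem_dz.2 ⟨k - k', g.symm_apply_eq.2 (by rw [sub_smul, map_sub, ← hk']; abel)⟩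
  obtain ⟨w₀, p1, p2⟩ := h.nd.exists_dual y1
  replace p2 : polar R u w₀ = 0 := p2 u (mem_sp_of_mem (by simp))
  obtain ⟨π, π1, -⟩ := exists_dual_one (F := F) (W := ⊥) (x := (1 : K)) (by simp)
  let χ : Dual F K := π ∘ₗ plin F R w₀ ∘ₗ (g : V →ₗ[F] V) ∘ₗ kln F K u
  have a4 : ∀ k : K, polar R (g (k • u)) w₀ = algebraMap F K (χ k) := fun k => by
    obtain ⟨c, hc⟩ := mem_bot_of_prime h.prime (dz_inv_ne_bot hu0 b2) d1 (c := polar R (g (k • u)) w₀)
      fun δ hδ => by simpa using a3 (δ • w₀) (by simp [p2]) (by simpa [p1] using hδ) k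
    have : χ k = π (polar R (g (k • u)) w₀) := rfl
    rw [this, hc, Algebra.algebraMap_eq_smul_one, map_smul, π1, smul_eq_mul, mul_one, Algebra.algebraMap_eq_smul_one]
  have a5 : ∀ k : K, χ k = 0 → k ∈ dz K u g := fun k hk => by
    have : g (k • u) ∈ perp R (perp R (sp K [u])) := mem_perp'.2 fun w hw => by
      have e := mem_perp_sp.1 hw u (by simp)
      have e' : polar R (g (k • u)) (w - polar R y w • w₀) = 0 := by
        by_contra hc
        refine d1 (eq_top_iff.2 fun l _ => ?_)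
        have := a3 ((l / polar R (g (k • u)) (w - polar R y w • w₀)) • (w - polar R y w • w₀)) (by simp [e, p2])
          (by simp [p1]) k
        rwa [pol_smul_right, div_mul_cancel₀ _ hc] at this
      simpa [a4, hk] using e'
    rw [h.nd.perp_perp] at this
    exact mem_dz.2 (mem_sp_one.1 this)
  refine ⟨χ, fun e => c1 (a5 _ (by simp [e])), fun δ hδ => ?_⟩
  obtain ⟨δ', e⟩ := mem_dz.1 (a5 δ hδ)
  refine ⟨_, M.mul_mem (M.mul_mem (M.inv_mem hg) (hK u (-δ' • w₀))) hg, fun k => g.symm_apply_eq.2 ?_⟩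
  change siegel R u _ (g (k • u)) = _
  rw [map_add, map_smul g, e, siegel_apply_of_perp hu (by simp [p2]) (a2 k), pol_smul_right, a4,
    ← algebraMap_smul K (χ k)]
  module

theorem exists_tv (h : ExtO τ R Q) (h4 : 4 ≤ finrank K V) (hM : M ≤ OG Q)
    (hK : ∀ u w, (siegel R u w).restrictScalars F ∈ M) {u : V} (hu0 : u ≠ 0) (hu : R u = 0)
    (hex : ∃ g ∈ M, dz K u g ≠ ⊤ ∧ dz K u g ≠ ⊥) : ∃ χ : Dual F K, χ ≠ 0 ∧ Tv M u χ := by
  obtain ⟨g₀, hg₀, a1, a2⟩ := hex
  obtain ⟨g, ⟨hg, b1⟩, hmax⟩ := (measure fun g => finrank F K - finrank F (dz K u g)).wf.has_min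
    {g | g ∈ M ∧ dz K u g ≠ ⊤} ⟨g₀, hg₀, a1⟩
  have hmax' : ∀ g' ∈ M, finrank F (dz K u g) < finrank F (dz K u g') → dz K u g' = ⊤ := fun g' hg' e => by
    by_contra e'
    refine hmax g' ⟨hg', e'⟩ ?_
    have := Submodule.finrank_le (dz K u g')
    change finrank F K - finrank F (dz K u g') < finrank F K - finrank F (dz K u g)
    omega
  have b2 : dz K u g ≠ ⊥ := fun e => a1 (hmax' g₀ hg₀ (by
    rw [e, finrank_bot]; exact Nat.pos_of_ne_zero fun e' => a2 (Submodule.finrank_eq_zero.1 e')))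
  by_cases hc : ∃ k₀ ∉ dz K u g, polar R (g (k₀ • u)) u = 0
  · obtain ⟨k₀, c1, c2⟩ := hc
    exact h.case_one h4 hK hu0 hu hg b1 b2 (fun g' a b => hmax' g' a (Submodule.finrank_lt_finrank_of_lt b)) c1 c2
  push Not at hc
  obtain ⟨k₀, -, c1⟩ := SetLike.exists_of_lt (lt_top_iff_ne_top.2 b1)
  obtain ⟨w, w1, w2, w3⟩ := h.case_two h4 hu0 hu (hM hg) b2 k₀
  have huu : polar R u u = 0 := by simp [hu]
  have d1 : dz K u g ≤ dz K u (g⁻¹ * (siegel R u w).restrictScalars F * g) := fun l hl => by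
    obtain ⟨l', hl'⟩ := mem_dz.1 hl
    exact mem_dz.2 ⟨l, g.symm_apply_eq.2 (by simp [hl', siegel_apply hu w1, huu, w1])⟩
  have d2 : k₀ ∉ dz K u (g⁻¹ * (siegel R u w).restrictScalars F * g) := fun e => by
    obtain ⟨l, hl⟩ := mem_dz.1 e
    have e1 : siegel R u w (g (k₀ • u)) = g (l • u) := g.symm_apply_eq.1 hl
    have e2 : l - k₀ ∈ dz K u g := by
      by_contra e3
      refine hc _ e3 ?_
      rw [sub_smul, map_sub, ← e1, siegel_apply hu w1]
      simp [huu, pol_comm R w, w1]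
    obtain ⟨l', hl'⟩ := mem_dz.1 e2
    rw [sub_smul, map_sub, ← e1, siegel_apply hu w1] at hl'
    exact w2 (((sp K [u]).smul_mem_iff (hc k₀ c1)).1 (mem_sp_one.2
      ⟨l' + (polar R (g (k₀ • u)) w + R w * polar R (g (k₀ • u)) u), by linear_combination (norm := module) hl'⟩))
  exact h.case_one h4 hK hu0 hu (M.mul_mem (M.mul_mem (M.inv_mem hg) (hK u w)) hg)
    (fun e => d2 (e ▸ Submodule.mem_top)) (fun e => b2 (eq_bot_iff.2 (e ▸ d1)))
    (fun g' a b => hmax' g' a (Submodule.finrank_lt_finrank_of_lt (d1.trans_lt b))) d2 w3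

theorem not_tv (h : ExtO τ R Q) {u : V} (hu0 : u ≠ 0)
    (hS : ∀ g ∈ M, (∀ k : K, ∃ k' : K, g (k • u) = k' • u) → KSemi K g) {χ : Dual F K} (hχ : χ ≠ 0) :
    ¬ Tv M u χ := fun ht => by
  obtain ⟨δ, hδ, hδ0⟩ := Submodule.exists_mem_ne_zero_of_ne_bot (p := LinearMap.ker χ) fun e => by
    have a1 := finrank_ker_dual hχ
    have := h.prime.two_le
    rw [e, finrank_bot] at a1; omega
  replace hδ : χ δ = 0 := hδ
  obtain ⟨k₁, hk₁⟩ := Module.Dual.range_eq_top_of_ne_zero hχ ▸ (Submodule.mem_top : (1 : F) ∈ ⊤)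
  obtain ⟨t, t1, t2⟩ := ht δ hδ
  obtain ⟨l, hl⟩ := hS t t1 (fun k => ⟨k + χ k • δ, by rw [t2, add_smul, smul_assoc]⟩) (k₁ / δ)
  have e : ∀ k : K, k₁ / δ * k + χ (k₁ / δ * k) • δ = l * (k + χ k • δ) := fun k => by
    have := hl (k • u)
    rw [smul_smul, t2, t2, ← smul_assoc, ← smul_assoc, ← add_smul, ← add_smul, smul_smul] at this
    exact smul_left_injective K hu0 this
  have e1 := e δ
  have e2 := e k₁
  rw [div_mul_cancel₀ _ hδ0, hk₁, hδ, zero_smul, add_zero, one_smul] at e1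
  rw [hk₁, one_smul, Algebra.smul_def] at e2
  have e3 : (2 : F) • k₁ = (χ (k₁ / δ * k₁) - 1) • δ := by
    have e4 : l = k₁ / δ + 1 := by field_simp; exact e1.symm
    rw [e4] at e2
    simp only [Algebra.smul_def, map_sub, map_one, map_ofNat]
    generalize algebraMap F K (χ (k₁ / δ * k₁)) = c at e2 ⊢
    field_simp at e2
    exact mul_left_cancel₀ hδ0 (by linear_combination -e2)
  have := congrArg χ e3
  simp [hk₁, hδ, h.two] at this

end ExtO

end Cfsg.Agent.H7
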