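import Cfsg.Agent.H7.OmX3
import Cfsg.Agent.H8.Proper

/-!
Orthogonal groups: maximality of field extension subgroups of orthogonal type.
-/

set_option autoImplicit false
set_option linter.unusedSectionVars false

namespace Cfsg.Agent.H7

open Module QuadraticMap Cfsg.Agent.H8
open scoped Matrix MatrixGroups

variable {F K : Type*} [Field F] [Field K] [Algebra F K] {V : Type*} [AddCommGroup V] [Module F V] [Module K V]
  [IsScalarTower F K V] [FiniteDimensional F K] [FiniteDimensional K V] [FiniteDimensional F V] [Finite F]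
variable {τ : K →ₗ[F] F} {R : QuadraticForm K V} {Q : QuadraticForm F V} {M : Subgroup (V ≃ₗ[F] V)}

theorem exists_ker_of_skew {τ : K →ₗ[F] F} (hτ : τ ≠ 0) (h2 : (2 : F) ≠ 0) (ho : Odd (finrank F K)) (s : K →ₗ[F] K)
    (hs : ∀ a b, τ (b * s a) = -τ (a * s b)) : LinearMap.ker s ≠ ⊥ := by
  classical
  let e := finBasis F K
  let A : Matrix (Fin (finrank F K)) (Fin (finrank F K)) F := fun i j => τ (e i * s (e j))
  have h1 : Aᵀ = -A := by ext i j; exact hs _ _
  have h3 : A.det = 0 := by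
    have := Matrix.det_transpose A
    rw [h1, Matrix.det_neg, Fintype.card_fin, ho.neg_one_pow] at this
    exact (mul_eq_zero.1 (show 2 * A.det = 0 by linear_combination -this)).resolve_left h2
  obtain ⟨v, hv0, hv⟩ := Matrix.exists_mulVec_eq_zero_iff.2 h3
  refine (Submodule.ne_bot_iff _).2 ⟨∑ j, v j • e j, eq_zero_of_tau hτ fun k => ?_,
    fun e0 => hv0 (funext (Fintype.linearIndependent_iff.1 e.linearIndependent v e0))⟩
  have : ∀ i, τ (e i * s (∑ j, v j • e j)) = 0 := fun i => by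
    simpa [A, Matrix.mulVec, dotProduct, Finset.mul_sum, mul_comm] using congrFun hv i
  rw [← e.sum_repr k, Finset.sum_mul, map_sum]
  exact Finset.sum_eq_zero fun i _ => by rw [smul_mul_assoc, map_smul, this, smul_zero]

namespace ExtO

theorem exists_tau_one (h : ExtO τ R Q) {γ : K} (hγ : γ ≠ 0) : ∃ θ, τ (θ * γ) = 1 := by
  obtain ⟨k, hk⟩ := Module.Dual.range_eq_top_of_ne_zero h.tau ▸ (Submodule.mem_top : (1 : F) ∈ ⊤)
  exact ⟨k / γ, by rwa [div_mul_cancel₀ _ hγ]⟩

theorem siegel_ku (h : ExtO τ R Q) {u : V} (hu : R u = 0) (a b : K) (y : V) :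
    siegel Q (a • u) (b • u) y = y + τ (a * polar R y u) • b • u - τ (b * polar R y u) • a • u := by
  rw [siegel_apply (by simp [h.Q, Q_smul, hu]) (by simp [h.pol, hu])]
  simp [h.pol, h.Q, Q_smul, hu]

theorem tv_all (h : ExtO τ R Q) (h4 : 4 ≤ finrank K V) (hH : ∀ g ∈ Om Q, KSemi K g → g ∈ M) {x : V} (hx0 : x ≠ 0)
    (hx : R x = 0) {χ : Dual F K} (hχ : χ ≠ 0) (ht : Tv M x χ) {u : V} (hu0 : u ≠ 0) (hu : R u = 0) {β δ : K}
    (e : τ (β * δ) = 0) : ∃ t ∈ M, ∀ k : K, t (k • u) = k • u + τ (β * k) • δ • u := by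
  by_cases hβ : β = 0
  · exact ⟨1, M.one_mem, by simp [hβ]⟩
  obtain ⟨γ, hγ⟩ := exists_tau_eq h.tau χ
  have γ0 : γ ≠ 0 := by rintro rfl; exact hχ (LinearMap.ext fun b => by simp [hγ])
  obtain ⟨l, -, l2, l3⟩ := h.exists_trans h4 hx0 hx (smul_ne_zero (div_ne_zero γ0 hβ) hu0) (by simp [Q_smul, hu])
  obtain ⟨t, t1, t2⟩ := ht (β / γ * δ) (by rw [hγ, ← e]; congr 1; field_simp)
  have hl := hH _ l2 (kLin_res l).semi
  refine ⟨_, M.mul_mem (M.mul_mem hl t1) (M.inv_mem hl), fun k => ?_⟩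
  have e1 : l.symm (k • u) = (β / γ * k) • x := by
    rw [LinearEquiv.symm_apply_eq, map_smul, l3, smul_smul]; congr 1; field_simp
  change l (t (l.symm (k • u))) = _
  rw [e1, t2, map_add, LinearMapClass.map_smul_of_tower l (χ _), map_smul, map_smul, l3, smul_smul, smul_smul (β / γ * δ), hγ]
  congr 3 <;> field_simp

theorem exists_skew (h : ExtO τ R Q) {u : V} (hu0 : u ≠ 0) (hu : R u = 0) {ρ : V ≃ₗ[F] V} (r1 : ρ ∈ OG Q)
    (r2 : ∀ w, polar R w u = 0 → ρ w = w) : ∃ s : K →ₗ[F] K, (∀ y, ρ y = y + s (polar R y u) • u) ∧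
      ∀ a b, τ (b * s a) = -τ (a * s b) := by
  obtain ⟨x, hx0, hx⟩ := h.exists_partner hu0 hu
  have hux : polar R u x = 1 := by rwa [pol_comm]
  let s : K →ₗ[F] K := plin F R x ∘ₗ (ρ : V →ₗ[F] V) ∘ₗ kln F K x
  have hs : ∀ a : K, ρ (a • x) = a • x + s a • u := fun a => by
    obtain ⟨k, hk⟩ := h.mem_span_of_perp (u := u) (y := ρ (a • x) - a • x) fun w e => by
      rw [polar_sub_left, sub_eq_zero]
      conv_lhs => rw [← r2 w e]
      exact OG_pol r1 _ w
    have e : s a = polar R (ρ (a • x)) x := rfl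
    rw [e, sub_eq_iff_eq_add.1 hk]; simp [hux, hx0, add_comm]
  refine ⟨s, fun y => ?_, fun a b => ?_⟩
  · have := r2 (y - polar R y u • x) (by simp [hx])
    rw [map_sub, hs] at this
    linear_combination (norm := module) this
  · have := OG_pol r1 (a • x) (b • x)
    simp only [hs, h.pol, polar_add_left, polar_add_right, pol_smul_left, pol_smul_right, hx, hux, pol_self, hu,
      hx0, mul_zero, mul_one, map_add, map_zero, zero_add, add_zero, mul_comm (s b) a] at this
    linear_combination this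

theorem ms_of_skew (h : ExtO τ R Q) (h4 : 4 ≤ finrank K V) (hM : M ≤ OG Q) (hH : ∀ g ∈ Om Q, KSemi K g → g ∈ M)
    {u : V} (hu0 : u ≠ 0) (hu : R u = 0) {ρ : V ≃ₗ[F] V} (r1 : ρ ∈ M) (r2 : ∀ w, polar R w u = 0 → ρ w = w)
    (r3 : ρ ≠ 1) : ∃ a : K, a ≠ 0 ∧ ∀ b : K, b • u ∈ MS Q M (a • u) := by
  obtain ⟨s, s1, s2⟩ := h.exists_skew hu0 hu (hM r1) r2
  have huu : polar R u u = 0 := by simp [hu]
  have s3 : ∀ a, τ (a * s a) = 0 := fun a =>
    (mul_eq_zero.1 (show 2 * τ (a * s a) = 0 by linear_combination s2 a a)).resolve_left h.two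
  obtain ⟨β, hβ⟩ : ∃ β, s β ≠ 0 := by
    by_contra hc
    push Not at hc
    exact r3 (LinearEquiv.ext fun y => by simp [s1, hc])
  have β0 : β ≠ 0 := by rintro rfl; simp at hβ
  have hK : ∀ u w, (siegel R u w).restrictScalars F ∈ M := fun u w => hH _ (h.siegel_mem u w) (kLin_res _).semi
  refine ⟨s β, hβ, ?_⟩
  rcases h.prime.eq_two_or_odd' with hr | hr
  · obtain ⟨θ, hθ⟩ := h.exists_tau_one hβ
    have dec : ∀ γ : K, γ ≠ 0 → ∀ a b : K, a ≠ 0 → τ (a * γ) = 0 → τ (b * γ) = 1 → ∀ k : K,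
        ∃ c : F, k = c • a + τ (k * γ) • b := fun γ hγ a b a0 a1 a2 k => by
      obtain ⟨c, hc⟩ := exists_smul_of_finrank_one (A := LinearMap.ker (τ ∘ₗ LinearMap.mulLeft F γ))
        (by have := finrank_ker_dual (h.tau_mul_ne hγ); omega) (x := a) (y := k - τ (k * γ) • b)
        (by simpa [mul_comm] using a1) a0 (by simp [sub_mul, mul_comm γ, a2])
      exact ⟨c, by rw [← hc, sub_add_cancel]⟩
    have a1 : τ (β * s θ) = -1 := by rw [s2, hθ]
    have a2 : ∀ k, s k = -τ (k * s β) • -s θ + τ (k * -s θ) • s β := fun k => by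
      obtain ⟨c, hc⟩ := dec _ hβ β θ β0 (s3 β) hθ k
      have : τ (k * s θ) = -c := by rw [hc, add_mul, map_add, smul_mul_assoc, smul_mul_assoc, map_smul, map_smul, a1, s3]; simp
      conv_lhs => rw [hc]
      simp [this, add_comm]
    let Y : F → Prop := fun c => ∃ g ∈ M, ∀ y, g y = y + c • s (polar R y u) • u
    have Y1 : ∀ c : F, Y (c ^ 2) := fun c => by
      by_cases hc : c = 0
      · exact ⟨1, M.one_mem, by simp [hc]⟩
      obtain ⟨l, l1, l2, l3⟩ := h.exists_trans h4 hu0 hu (smul_ne_zero hc hu0)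
        (by rw [← algebraMap_smul K, Q_smul, hu, mul_zero])
      have hl := hH _ l2 (kLin_res l).semi
      refine ⟨_, M.mul_mem (M.mul_mem hl r1) (M.inv_mem hl), fun y => ?_⟩
      have e1 : polar R (l.symm y) u = c • polar R y u := by
        rw [← OG_pol l1, l3, l.apply_symm_apply, ← algebraMap_smul K c u, pol_smul_right, Algebra.smul_def]
      change l (ρ (l.symm y)) = _
      rw [s1, map_add, map_smul, l3, e1, l.apply_symm_apply, map_smul, smul_assoc, smul_comm _ c u, smul_smul, _root_.sq]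
    have Y2 : ∀ c : F, siegel Q (s β • u) (c • s θ • u) ∈ M := fun c => by
      obtain ⟨g, hg, e⟩ := Y1 ((c + 1) / 2)
      obtain ⟨g', hg', e'⟩ := Y1 ((c - 1) / 2)
      suffices H : siegel Q (s β • u) (c • s θ • u) = g'⁻¹ * g from H ▸ M.mul_mem (M.inv_mem hg') hg
      ext y
      have h2 := h.two
      have : c = ((c + 1) / 2) ^ 2 - ((c - 1) / 2) ^ 2 := by field_simp; ring
      rw [LinearEquiv.mul_apply, LinearEquiv.coe_inv, LinearEquiv.eq_symm_apply, ← smul_assoc, h.siegel_ku hu, e, e']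
      have e1 : ∀ (c : F) (k : K), polar R (c • k • u) u = 0 := fun c k => by
        rw [← smul_assoc, pol_smul_left, huu, mul_zero]
      rw [polar_sub_left, polar_add_left, e1, e1, add_zero, sub_zero, a2 (polar R y u)]
      generalize ((c + 1) / 2) ^ 2 = p at this
      generalize ((c - 1) / 2) ^ 2 = p' at this
      simp only [smul_mul_assoc, map_smul, neg_mul, map_neg, mul_comm (polar R y u), smul_eq_mul, add_smul, smul_assoc,
        this]
      module
    intro b
    obtain ⟨c, hc⟩ := dec _ β0 (s β) (-s θ) hβ (by rw [mul_comm, s3]) (by rw [neg_mul, map_neg, mul_comm, a1, neg_neg]) b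
    rw [hc, add_smul, smul_assoc, smul_assoc, neg_smul]
    exact add_mem (Submodule.smul_mem _ _ (self_mem_MS (by simp [h.Q, Q_smul, hu])))
      (Submodule.smul_mem _ _ (neg_mem (mem_MS.2 ⟨by simp [h.pol, hu], Y2⟩)))
  obtain ⟨x, hx0, hx⟩ := h.exists_partner hu0 hu
  have x0 : x ≠ 0 := by rintro rfl; simp at hx
  have dzx : dz K x ρ = LinearMap.ker s := by
    ext k
    rw [mem_dz, s1, pol_smul_left, hx, mul_one]
    refine ⟨fun ⟨k', e⟩ => ?_, fun e => ⟨k, by rw [LinearMap.mem_ker.1 e, zero_smul, add_zero]⟩⟩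
    simpa [hx0, pol_comm R u, hx] using congrArg (polar R · x) e
  obtain ⟨χ, hχ, ht⟩ := h.exists_tv h4 hM hK x0 hx0 ⟨ρ, r1, fun e => hβ (by rw [dzx] at e; exact (e ▸ Submodule.mem_top : β ∈ LinearMap.ker s)),
    dzx ▸ exists_ker_of_skew h.tau h.two hr s s2⟩
  have T := fun β δ e => h.tv_all h4 hH x0 hx0 hχ ht hu0 hu (β := β) (δ := δ) e
  have m1 : ∀ δ, τ (β * δ) = 0 → siegel Q (s β • u) (δ • u) ∈ M := fun δ e => by
    obtain ⟨t, t1, t2⟩ := T β (-δ) (by simp [e])
    suffices H : siegel Q (s β • u) (δ • u) = ρ⁻¹ * (t * ρ * t⁻¹) from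
      H ▸ M.mul_mem (M.inv_mem r1) (M.mul_mem (M.mul_mem t1 r1) (M.inv_mem t1))
    ext y
    have e1 : polar R (t⁻¹ y) u = polar R y u - τ (δ * polar R y u) • β := h.ext_tau fun k => by
      have := OG_pol_inv (hM t1) y (k • u)
      rw [t2, polar_add_right, pol_smul_right Q] at this
      simp only [h.pol, pol_smul_right] at this
      rw [this, mul_sub, mul_smul_comm, map_sub, map_smul, mul_comm k β]; simp; ring
    have e2 : ∀ (c : F) (k : K), polar R (c • k • u) u = 0 := fun c k => by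
      rw [← smul_assoc, pol_smul_left, huu, mul_zero]
    rw [LinearEquiv.mul_apply, LinearEquiv.coe_inv, LinearEquiv.eq_symm_apply, h.siegel_ku hu, s1,
      polar_sub_left, polar_add_left, e2, e2, LinearEquiv.mul_apply, LinearEquiv.mul_apply, s1, map_add, t2, e1,
      apply_inv_apply]
    simp only [map_sub, map_smul, mul_sub, mul_smul_comm, s3, s2 _ β, mul_comm (polar R y u), add_zero, sub_zero, sub_smul, smul_assoc]
    module
  obtain ⟨δ, hδ, hδ'⟩ := exists_mem_notMem_of_finrank_lt (U := LinearMap.ker (τ ∘ₗ LinearMap.mulLeft F β))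
    (W := F ∙ s β) (by
      have := finrank_ker_dual (h.tau_mul_ne β0)
      have := finrank_span_singleton_le (F := F) (s β)
      have := h.prime.two_le
      obtain ⟨k, hk⟩ := hr
      omega)
  replace hδ : τ (β * δ) = 0 := hδ
  have m2 : δ • u ∈ MS Q M (s β • u) := mem_MS.2 ⟨by simp [h.pol, hu], fun c => by
    rw [← smul_assoc]; exact m1 _ (by simp [hδ])⟩
  obtain ⟨φ, φ1, φ2⟩ := exists_dual_one hδ'
  obtain ⟨β', hβ'⟩ := exists_tau_eq h.tau φ
  intro b
  obtain ⟨t, t1, t2⟩ := T β' (b - φ b • δ) (by simp [← hβ', φ1])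
  have := MS_fix (hM t1) t1 (by rw [t2, ← hβ', φ2 _ (Submodule.mem_span_singleton_self _)]; simp) m2
  rw [t2, ← hβ', φ1, one_smul, sub_smul, smul_assoc] at this
  simpa using add_mem (sub_mem this m2) (Submodule.smul_mem _ (φ b) m2)

theorem ms_one (h : ExtO τ R Q) (hZ : ∀ v, R v = 0 → ∀ k : K, k • v ∈ MS Q M v) {a c : V} (ha0 : a ≠ 0)
    (ha : R a = 0) (e1 : polar R a c = 0) (e2 : τ (R c) = 0) (e3 : R c ≠ 0) : c ∈ MS Q M a := by
  obtain ⟨θ, hθ⟩ := h.exists_tau_one e3
  have h2 := h.two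
  set ν := (2 : F) • θ - algebraMap F K (τ (θ * (θ * R c))) with hν
  have ν0 : ν ≠ 0 := fun e => by
    have := congrArg (fun k => τ (k * R c)) (sub_eq_zero.1 e)
    simp [hθ, ← Algebra.smul_def, e2, h2] at this
  obtain ⟨y, y1, y2⟩ := h.nd.exists_dual (S := sp K [c]) (x := a) fun e => by
    obtain ⟨t, rfl⟩ := mem_sp_one.1 e
    rw [Q_smul] at ha
    simp_all
  replace y2 : polar R c y = 0 := y2 c (mem_sp_of_mem (by simp))
  obtain ⟨d, d1, d2, d3⟩ : ∃ d, polar R c d = 0 ∧ R d = -R c ∧ polar R a d = R c / ν := by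
    refine ⟨(R c / ν) • y + (-ν - R c / ν * R y) • a, by simp [y2, pol_comm R c a, e1], ?_, by simp [y1, ha]⟩
    rw [Q_add, Q_smul, Q_smul, ha, pol_smul_left, pol_smul_right, pol_comm, y1]; field_simp; ring
  have u0 : R (c + d) = 0 := by rw [Q_add, d1, d2]; ring
  have x0 : R (c - d) = 0 := by rw [Q_sub, d1, d2]; ring
  have ux : polar R (c + d) (c - d) = (4 : F) • R c := by
    simp [pol_comm R d c, d1, d2, Algebra.smul_def, map_ofNat]; ring
  have h4 : (4 : F) ≠ 0 := by rw [show (4 : F) = 2 * 2 by norm_num]; exact mul_ne_zero h2 h2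
  have ρ1 := (mem_MS.1 (hZ _ x0 θ)).2 (-1 / 4)
  have ρ2 : ∀ k : K, siegel Q (c - d) ((-1 / 4 : F) • θ • (c - d)) (k • (c + d)) =
      k • (c + d) - τ (k * R c) • θ • (c - d) + τ (θ * (k * R c)) • (c - d) := fun k => by
    have := h.siegel_ku x0 1 ((-1 / 4 : F) • θ) (k • (c + d))
    rw [one_smul, smul_assoc] at this
    rw [this, pol_smul_left, ux]
    simp only [one_mul, mul_smul_comm, smul_mul_assoc, map_smul, smul_eq_mul, smul_smul (_ : F)]
    rw [show 4 * τ (k * R c) * (-1 / 4) = -τ (k * R c) by field_simp,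
      show 4 * (-1 / 4) * τ (θ * (k * R c)) = -τ (θ * (k * R c)) by field_simp]
    module
  have m1 := MS_conj (siegel_mem_OG _ _) ρ1 (hZ _ u0 θ)
  have := ρ2 1
  rw [one_smul, one_mul, e2, hθ, show c + d - (0 : F) • θ • (c - d) + (1 : F) • (c - d) = (2 : F) • c by
    rw [zero_smul, one_smul, two_smul]; abel] at this
  rw [this, ρ2, hθ] at m1
  have c0 : Q c = 0 := (h.Q c).trans e2
  have m2 : ν • d ∈ MS Q M c := by
    convert sub_mem (MS_of_smul h2 m1) (Submodule.smul_mem _ (τ (θ * (θ * R c))) (self_mem_MS c0)) using 1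
    rw [hν, sub_smul, algebraMap_smul, smul_assoc, two_smul]; module
  have m3 := MS_fix (siegel_mem_OG _ _) (MS_siegel (hZ a ha θ))
    (siegel_fix (by simp [h.pol, pol_comm R c, e1]) (by simp [h.pol, pol_comm R c, e1])) m2
  have := h.siegel_ku ha 1 θ (ν • d)
  rw [one_smul, pol_smul_left, pol_comm, d3, mul_div_cancel₀ _ ν0, one_mul, e2, hθ, zero_smul, add_zero,
    one_smul] at this
  rw [this] at m3
  exact MS_swap c0 (by simp [h.Q, ha]) (by simpa using sub_mem m2 m3)

theorem exists_ker_tau (h : ExtO τ R Q) : ∃ γ : K, γ ≠ 0 ∧ τ γ = 0 := by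
  obtain ⟨γ, a, b⟩ := Submodule.exists_mem_ne_zero_of_ne_bot (p := LinearMap.ker τ) fun e => by
    have a1 := finrank_ker_dual h.tau
    have := h.prime.two_le
    rw [e, finrank_bot] at a1; omega
  exact ⟨γ, b, a⟩

theorem ndOn_res (h : ExtO τ R Q) {X : Submodule K V} (hX : NDOn R X) : NDOn Q (X.restrictScalars F) :=
  fun x hx e => hX x hx fun y hy => eq_zero_of_tau h.tau fun k => by simpa [h.pol] using e (k • y) (X.smul_mem k hy)

theorem three_le_perp (h : ExtO τ R Q) (h7 : 7 ≤ finrank F V) (a x : V) :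
    3 ≤ finrank F ((perp R (sp K [a, x])).restrictScalars F) := by
  have a2 : finrank F ((perp R (sp K [a, x])).restrictScalars F) = finrank F K * finrank K (perp R (sp K [a, x])) :=
    (Module.finrank_mul_finrank F K (perp R (sp K [a, x]))).symm
  have a3 := h.nd.finrank_perp (sp K [a, x])
  have a4 : finrank K (sp K [a, x]) ≤ 2 := finrank_sp_le (F := K) [a, x]
  have a5 := h.three
  have a6 := h.prime.two_le
  rw [← Module.finrank_mul_finrank F K V] at h7
  by_cases e : finrank K V = 3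
  · rw [e] at h7; nlinarith [show 3 ≤ finrank F K by omega, show 1 ≤ finrank K (perp R (sp K [a, x])) by omega]
  · nlinarith [show 2 ≤ finrank K (perp R (sp K [a, x])) by omega]

theorem ms_two (h : ExtO τ R Q) (h7 : 7 ≤ finrank F V) (hZ : ∀ v, R v = 0 → ∀ k : K, k • v ∈ MS Q M v) {a w : V}
    (ha0 : a ≠ 0) (ha : R a = 0) (e : polar R a w = 0) : w ∈ MS Q M a := by
  obtain ⟨x, hx0, hx⟩ := h.exists_partner ha0 ha
  have hX := (ndOn_pair ha hx0 (by rw [pol_comm, hx]; exact one_ne_zero)).perp h.nd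
  have := (h.ndOn_res hX).le_of_sing h.nondeg (T := MS Q M a) (h.three_le_perp h7 a x) fun z hz z1 => by
    have z2 : ∀ z ∈ perp R (sp K [a, x]), polar R a z = 0 := fun z hz => mem_perp_sp.1 hz a (by simp)
    by_cases z3 : R z = 0
    · by_cases z0 : z = 0
      · exact z0 ▸ zero_mem _
      obtain ⟨z', b1, b2, b3⟩ := hX.exists_partner hz z0 z3
      obtain ⟨γ, γ0, γ1⟩ := h.exists_ker_tau
      have q1 : R (z + γ • z') = γ := by rw [Q_add, Q_smul, pol_smul_right, z3, b2, b3]; ring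
      have q2 : R (z + (z + γ • z')) = (2 : F) • γ := by
        rw [Q_add, q1, polar_add_right, pol_smul_right, pol_self, z3, b3, two_smul]; ring
      have := sub_mem (h.ms_one hZ ha0 ha (c := z + (z + γ • z')) (by simp [z2 z hz, z2 z' b1]) (by simp [q2, γ1])
        (by rw [q2]; exact smul_ne_zero h.two γ0))
        (h.ms_one hZ ha0 ha (c := z + γ • z') (by simp [z2 z hz, z2 z' b1]) (by rw [q1, γ1]) (by rwa [q1]))
      rwa [add_sub_cancel_right] at this
    · exact h.ms_one hZ ha0 ha (z2 z hz) (by rwa [← h.Q]) z3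
  simpa using add_mem (this (x := w - polar R x w • a) (mem_perp_sp.2 (by simp [e, ha, hx]))) (hZ a ha (polar R x w))

theorem ms_three (h : ExtO τ R Q) (h7 : 7 ≤ finrank F V) (hZ : ∀ v, R v = 0 → ∀ k : K, k • v ∈ MS Q M v) {a : V}
    (ha0 : a ≠ 0) (ha : R a = 0) (y : V) : siegel Q a y ∈ M := by
  refine siegel_all_of_MS (fun y e => ?_) y
  obtain ⟨x, hx0, hx⟩ := h.exists_partner ha0 ha
  have hax : polar R a x = 1 := by rwa [pol_comm]
  have m1 := h.ms_two h7 hZ ha0 ha (w := y - polar R a y • x) (by simp [hax])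
  rw [h.pol] at e
  generalize polar R a y = α at e m1
  by_cases α0 : α = 0
  · simpa [α0] using m1
  have hX := h.ndOn_res ((ndOn_pair ha hx0 (by rw [hax]; exact one_ne_zero)).perp h.nd)
  obtain ⟨w, w1, w0⟩ := Submodule.exists_mem_ne_zero_of_ne_bot (p := (perp R (sp K [a, x])).restrictScalars F)
    fun e => by have := h.three_le_perp h7 a x; rw [e, finrank_bot] at this; omega
  obtain ⟨w', w2, w3⟩ := hX.exists_pol_eq_one w1 w0
  have p1 := mem_perp_sp.1 w1 a (by simp)
  have p2 := mem_perp_sp.1 w1 x (by simp)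
  have p3 := mem_perp_sp.1 w2 a (by simp)
  have p4 := mem_perp_sp.1 w2 x (by simp)
  have m2 := h.ms_two h7 hZ ha0 ha p1
  have m3 := MS_fix (siegel_mem_OG _ _) (MS_siegel (h.ms_two h7 hZ (a := α • x) (w := w')
    (smul_ne_zero α0 (by rintro rfl; simp at hx)) (by simp [Q_smul, hx0]) (by simp [p4])))
    (siegel_fix (by simp [h.pol, hax, e]) (by simp [h.pol, p3])) m2
  rw [siegel_apply_of_perp (by simp [h.Q, Q_smul, hx0]) (by simp [h.pol, p4]) (by simp [h.pol, pol_comm R w, p2]), w3,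
    one_smul] at m3
  simpa using add_mem m1 (sub_mem m2 m3)

theorem max (h : ExtO τ R Q) (h4 : 4 ≤ finrank K V) (hM : M ≤ Om Q) (hH : ∀ g ∈ Om Q, KSemi K g → g ∈ M)
    (hg : ∃ g ∈ M, ¬ KSemi K g) : Om Q ≤ M := by
  have : Finite K := Module.finite_of_finite F
  have hM' : M ≤ OG Q := hM.trans Om_le_OG
  have hK : ∀ u w, (siegel R u w).restrictScalars F ∈ M := fun u w => hH _ (h.siegel_mem u w) (kLin_res _).semi
  have h8 : 8 ≤ finrank F V := by
    rw [← Module.finrank_mul_finrank F K V]; exact Nat.mul_le_mul h.prime.two_le h4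
  by_cases hY : ∀ u, u ≠ 0 → R u = 0 → ∀ ρ ∈ M, (∀ w, polar R w u = 0 → ρ w = w) → ρ = 1
  · obtain ⟨g, hg, hg'⟩ := hg
    obtain ⟨v, v0, v1⟩ := exists_zero_quad ((polF F R).compr₂ (LinearMap.inl F K K) +
      ((polF F R).compl₁₂ (g : V →ₗ[F] V) (g : V →ₗ[F] V) - polF F R).compr₂ (LinearMap.inr F K K)) 0
      (LinearMap.ker (τ ∘ₗ LinearMap.snd F K K)) (fun w => by
        have := OG_pol (hM' hg) w w
        simpa [h.pol, sub_eq_zero, -polar_self] using this) (by
        have := Module.Dual.finrank_ker_add_one_of_ne_zero (f := τ ∘ₗ LinearMap.snd F K K) fun e =>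
          h.tau (LinearMap.ext fun k => LinearMap.congr_fun e (0, k))
        rw [finrank_prod] at this
        rw [← Module.finrank_mul_finrank F K V]
        nlinarith)
    have v2 : R v = 0 := by simpa [h.twoK] using congrArg Prod.fst v1
    have v3 : R (g v) = 0 := by simpa [h.twoK, v2] using congrArg Prod.snd v1
    obtain ⟨l, -, l2, l3⟩ := h.exists_trans h4 (u := g v) (by simpa using v0) v3 v0 v2
    have hl := M.mul_mem (hH _ l2 (kLin_res l).semi) hg
    have hS := fun g => h.semi_of_stab hM hH v0 v2 (hY v v0 v2) (g := g)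
    by_cases e : dz K v (l.restrictScalars F * g) = ⊤
    · simpa using hg' (by simpa using (kLin_res l).inv.semi.mul (hS _ hl fun k => mem_dz.1 (e ▸ Submodule.mem_top)))
    obtain ⟨χ, hχ, ht⟩ := h.exists_tv h4 hM' hK v0 v2 ⟨_, hl, e, (Submodule.ne_bot_iff _).2
      ⟨1, mem_dz.2 ⟨1, by simp [LinearEquiv.mul_apply, l3]⟩, one_ne_zero⟩⟩
    exact (h.not_tv v0 hS hχ ht).elim
  push Not at hY
  obtain ⟨u, hu0, hu, ρ, r1, r2, r3⟩ := hY
  obtain ⟨a, a0, ha⟩ := h.ms_of_skew h4 hM' hH hu0 hu r1 r2 r3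
  have hZ : ∀ v, R v = 0 → ∀ k : K, k • v ∈ MS Q M v := fun v hv k => by
    by_cases v0 : v = 0
    · simp [v0]
    obtain ⟨l, l1, l2, l3⟩ := h.exists_trans h4 (smul_ne_zero a0 hu0) (by simp [Q_smul, hu]) v0 hv
    have := MS_conj (h.res_mem l1) (hH _ l2 (kLin_res l).semi) (ha (k * a))
    rwa [LinearEquiv.restrictScalars_apply, LinearEquiv.restrictScalars_apply, mul_smul, map_smul l k, l3] at this
  obtain ⟨x, hx0, hx⟩ := h.exists_partner hu0 hu
  obtain ⟨θ, hθ⟩ := h.exists_tau_one one_ne_zero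
  have θ0 : θ ≠ 0 := by rintro rfl; simp at hθ
  exact Om_le_of_two h.nondeg h.five (u := u) (w := θ • x) (by simp [h.Q, hu]) (by simp [h.Q, Q_smul, hx0])
    (by rw [h.pol, pol_smul_right, pol_comm, hx, hθ]; exact one_ne_zero) (h.ms_three (by omega) hZ hu0 hu)
    (h.ms_three (by omega) hZ (smul_ne_zero θ0 (by rintro rfl; simp at hx)) (by simp [Q_smul, hx0]))

end ExtO

end Cfsg.Agent.H7
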