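import Cfsg.Agent.H1.PS0

set_option autoImplicit false

/-! The package `Ub` of the bound `4 ^ n` (S0725): the minimum of `dd`. -/

namespace Cfsg.Agent.H7.PSb
open MulAction Finset Cfsg.Agent.H1.PS
open scoped Pointwise

universe u

section
variable {G : Type u} {α : Type u} [Group G] [MulAction G α] [Fintype α] [DecidableEq α]

omit [Fintype α] [DecidableEq α] in
theorem rel_iff (x a b : α) : Rel G {x} a b ↔ ∃ g : G, g • x = x ∧ g • a = b := by
  simp [H1.PS.Rel]

omit [Fintype α] [DecidableEq α] in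
theorem rel_symm {x a b : α} (h : Rel G {x} a b) : Rel G {x} b a := by
  rw [rel_iff] at *
  obtain ⟨g, h1, h2⟩ := h
  exact ⟨g⁻¹, by rw [inv_smul_eq_iff, h1], by rw [inv_smul_eq_iff, h2]⟩

omit [Fintype α] [DecidableEq α] in
theorem rel_trans {x a b c : α} (h : Rel G {x} a b) (h' : Rel G {x} b c) : Rel G {x} a c := by
  rw [rel_iff] at *
  obtain ⟨g, h1, h2⟩ := h
  obtain ⟨k, h3, h4⟩ := h'
  exact ⟨k * g, by rw [mul_smul, h1, h3], by rw [mul_smul, h2, h4]⟩

omit [Fintype α] [DecidableEq α] in
theorem rel_smul {x a b : α} (g : G) (h : Rel G {x} a b) : Rel G {g • x} (g • a) (g • b) := by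
  rw [rel_iff] at *
  obtain ⟨k, h1, h2⟩ := h
  exact ⟨g * k * g⁻¹, by rw [mul_smul, mul_smul, inv_smul_smul, h1], by rw [mul_smul, mul_smul, inv_smul_smul, h2]⟩

omit [DecidableEq α] in
theorem dd_self (a : α) : dd G a a = 0 := by
  classical
  unfold dd
  rw [card_eq_zero, filter_eq_empty_iff]
  intro x _ h
  exact h ((rel_iff x a a).2 ⟨1, one_smul _ _, one_smul _ _⟩)

omit [DecidableEq α] in
theorem dd_symm (a b : α) : dd G a b = dd G b a := by
  classical
  unfold dd
  congr 1
  ext x
  simp only [mem_filter, mem_univ, true_and]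
  exact ⟨fun h h' => h (rel_symm h'), fun h h' => h (rel_symm h')⟩

theorem dd_tri (a b c : α) : dd G a c ≤ dd G a b + dd G b c := by
  classical
  unfold dd
  refine le_trans (card_le_card ?_) (card_union_le _ _)
  intro x hx
  simp only [mem_filter, mem_univ, true_and, mem_union] at hx ⊢
  by_contra h
  push Not at h
  exact hx (rel_trans h.1 h.2)

omit [DecidableEq α] in
theorem dd_smul_le (g : G) (a b : α) : dd G (g • a) (g • b) ≤ dd G a b := by
  classical
  unfold dd
  refine card_le_card_of_injOn (fun x => g⁻¹ • x) ?_ (fun x _ y _ h => (smul_left_cancel_iff _).1 h)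
  intro x hx
  simp only [coe_filter, mem_univ, true_and, Set.mem_ofPred_eq] at hx ⊢
  intro h
  have := rel_smul g h
  rw [smul_inv_smul] at this
  exact hx this

omit [DecidableEq α] in
theorem dd_smul (g : G) (a b : α) : dd G (g • a) (g • b) = dd G a b := by
  refine le_antisymm (dd_smul_le g a b) ?_
  have := dd_smul_le g⁻¹ (g • a) (g • b)
  rwa [inv_smul_smul, inv_smul_smul] at this

variable (G) in
/-- The orbital graph of `{a, b}`. -/
def gr (a b : α) : SimpleGraph α where
  Adj x y := x ≠ y ∧ ∃ g : G, (g • a = x ∧ g • b = y) ∨ (g • a = y ∧ g • b = x)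
  symm := ⟨fun _ _ ⟨h, g, h'⟩ => ⟨h.symm, g, h'.symm⟩⟩
  loopless := ⟨fun _ h => h.1 rfl⟩

omit [Fintype α] [DecidableEq α] in
theorem adj_smul {a b x y : α} (g : G) (h : (gr G a b).Adj x y) : (gr G a b).Adj (g • x) (g • y) := by
  obtain ⟨h, k, h'⟩ := h
  refine ⟨fun e => h ((smul_left_cancel_iff _).1 e), g * k, ?_⟩
  simp only [mul_smul]
  rcases h' with ⟨h1, h2⟩ | ⟨h1, h2⟩
  · exact Or.inl ⟨by rw [h1], by rw [h2]⟩
  · exact Or.inr ⟨by rw [h1], by rw [h2]⟩

/-- An element of `G` as an endomorphism of the graph. -/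
def hm (a b : α) (g : G) : gr G a b →g gr G a b := ⟨fun x => g • x, fun h => adj_smul g h⟩

omit [Fintype α] [DecidableEq α] in
theorem reach_smul {a b x y : α} (g : G) (h : (gr G a b).Reachable x y) : (gr G a b).Reachable (g • x) (g • y) :=
  h.map (hm a b g)

omit [DecidableEq α] in
theorem dd_adj {a b x y : α} (h : (gr G a b).Adj x y) : dd G x y = dd G a b := by
  obtain ⟨_, g, ⟨rfl, rfl⟩ | ⟨rfl, rfl⟩⟩ := h
  · exact dd_smul g a b
  · rw [dd_symm]; exact dd_smul g a b

theorem dd_walk {a b x y : α} (p : (gr G a b).Walk x y) : dd G x y ≤ p.length * dd G a b := by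
  induction p with
  | nil => rw [dd_self]; exact Nat.zero_le _
  | @cons u v w h p ih =>
    have := dd_tri (G := G) u v w
    rw [dd_adj h] at this
    rw [SimpleGraph.Walk.length_cons, add_mul, one_mul]
    omega

omit [Fintype α] [DecidableEq α] in
theorem conn (hp : IsPreprimitive G α) {a b : α} (hab : a ≠ b) : (gr G a b).Connected := by
  have hB : IsBlock G {x | (gr G a b).Reachable a x} := by
    rw [isBlock_iff_smul_eq_of_mem]
    intro g x hx hgx
    have h1 : (gr G a b).Reachable a (g • a) := hgx.trans (reach_smul g hx).symm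
    ext y
    rw [Set.mem_smul_set_iff_inv_smul_mem]
    constructor
    · intro h
      have := reach_smul g h
      rw [smul_inv_smul] at this
      exact h1.trans this
    · intro h
      have := reach_smul g⁻¹ (h1.symm.trans h)
      rwa [inv_smul_smul] at this
  have hadj : (gr G a b).Adj a b := ⟨hab, 1, Or.inl ⟨one_smul _ _, one_smul _ _⟩⟩
  rcases hp.isTrivialBlock_of_isBlock hB with h | h
  · exact absurd (h (SimpleGraph.Reachable.refl a) hadj.reachable) hab
  · have : Nonempty α := ⟨a⟩
    refine ⟨fun x y => ?_⟩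
    have hx : x ∈ {x | (gr G a b).Reachable a x} := h ▸ Set.mem_univ x
    have hy : y ∈ {x | (gr G a b).Reachable a x} := h ▸ Set.mem_univ y
    exact SimpleGraph.Reachable.trans (SimpleGraph.Reachable.symm hx) hy

omit [Fintype α] [DecidableEq α] in
theorem dist_smul {a b : α} (hc : (gr G a b).Connected) (g : G) (x y : α) :
    (gr G a b).dist (g • x) (g • y) ≤ (gr G a b).dist x y := by
  obtain ⟨p, hp⟩ := hc.exists_walk_length_eq_dist x y
  have := SimpleGraph.dist_le (p.map (hm a b g))
  rwa [SimpleGraph.Walk.length_map, hp] at this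

omit [Fintype α] [DecidableEq α] in
theorem closer {Γ : SimpleGraph α} (hc : Γ.Connected) {x y : α} (h : y ≠ x) :
    ∃ z, Γ.Adj y z ∧ Γ.dist z x + 1 = Γ.dist y x := by
  obtain ⟨p, hp⟩ := hc.exists_walk_length_eq_dist y x
  cases p with
  | nil => exact absurd rfl h
  | @cons _ z _ h' q =>
    refine ⟨z, h', ?_⟩
    have h1 := SimpleGraph.dist_le q
    have h2 := hc.dist_triangle (u := y) (v := z) (w := x)
    rw [SimpleGraph.dist_eq_one_iff_adj.2 h'] at h2
    rw [SimpleGraph.Walk.length_cons] at hp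
    omega

omit [Fintype α] [DecidableEq α] in
theorem exists_three {Γ : SimpleGraph α} (hc : Γ.Connected) (x : α) :
    ∀ (d : ℕ) (y : α), Γ.dist y x = d + 3 → ∃ z, Γ.dist z x = 3
  | 0, y, h => ⟨y, h⟩
  | d + 1, y, h => by
    obtain ⟨z, _, hz⟩ := closer hc (x := x) (y := y) (by rintro rfl; simp at h)
    exact exists_three hc x d z (by omega)

variable (G) in
open Classical in
/-- The valency. -/
noncomputable def kap (a b x : α) : ℕ := #{y : α | (gr G a b).Adj x y}

omit [DecidableEq α] in
theorem kap_eq (hp : IsPreprimitive G α) (a b x y : α) : kap G a b x = kap G a b y := by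
  classical
  have key : ∀ x y, kap G a b x ≤ kap G a b y := by
    intro x y
    obtain ⟨g, rfl⟩ := exists_smul_eq G x y
    unfold kap
    refine card_le_card_of_injOn (fun x => g • x) ?_ (fun x _ y _ h => (smul_left_cancel_iff _).1 h)
    intro z hz
    simp only [coe_filter, mem_univ, true_and, Set.mem_ofPred_eq] at hz ⊢
    exact adj_smul g hz
  exact le_antisymm (key x y) (key y x)

theorem three {a b x y : α} (hc : (gr G a b).Connected) (h : (gr G a b).dist x y = 3) :
    kap G a b x + kap G a b y + 2 ≤ 3 * dd G a b := by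
  classical
  obtain ⟨p, hp⟩ := hc.exists_walk_length_eq_dist x y
  have h1 := dd_walk p
  rw [hp, h] at h1
  refine le_trans ?_ h1
  have hxy : x ≠ y := by rintro rfl; simp at h
  have hn : ¬ (gr G a b).Adj x y := fun h' => by
    rw [SimpleGraph.dist_eq_one_iff_adj.2 h'] at h; omega
  have h2 : ∀ z, (gr G a b).Adj x z → (gr G a b).Adj y z → False := by
    intro z h1 h2
    have h3 := hc.dist_triangle (u := x) (v := z) (w := y)
    rw [SimpleGraph.dist_eq_one_iff_adj.2 h1, SimpleGraph.dist_eq_one_iff_adj.2 h2.symm] at h3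
    omega
  unfold kap dd
  have e : #{z : α | (gr G a b).Adj x z} + #{z : α | (gr G a b).Adj y z} + 2 =
      #(insert x (insert y (({z : α | (gr G a b).Adj x z} : Finset α) ∪ ({z : α | (gr G a b).Adj y z} : Finset α)))) := by
    rw [card_insert_of_notMem, card_insert_of_notMem, card_union_of_disjoint]
    · rw [disjoint_left]
      intro z h1 h3
      exact h2 z (mem_filter.1 h1).2 (mem_filter.1 h3).2
    · simp [hn]
    · simp [hxy, (gr G a b).adj_comm y x, hn]
  rw [e]
  refine card_le_card fun z hz => ?_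
  simp only [mem_insert, mem_union, mem_filter, mem_univ, true_and] at hz ⊢
  intro hr
  obtain ⟨g, h3, h4⟩ := (rel_iff _ _ _).1 hr
  rcases hz with rfl | rfl | hz | hz
  · exact hxy (h3.symm.trans h4)
  · exact hxy ((smul_left_cancel_iff g).1 (h4.trans h3.symm))
  · have := adj_smul g hz
    rw [h3, h4] at this
    exact h2 z hz this
  · have := adj_smul g⁻¹ hz
    rw [← h4, inv_smul_smul, inv_smul_eq_iff.2 h3.symm] at this
    exact h2 z this hz

theorem count {a b : α} (hp : IsPreprimitive G α) (hc : (gr G a b).Connected) :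
    2 * (Fintype.card α - 1) ≤ kap G a b a * dd G a b := by
  classical
  let E : Finset (α × α) := {p | (gr G a b).Adj p.1 p.2}
  have hE : #E = Fintype.card α * kap G a b a := by
    rw [card_eq_sum_card_fiberwise (f := Prod.fst) (t := univ) (fun _ _ => mem_univ _), ← card_univ, ← smul_eq_mul,
      ← sum_const]
    refine sum_congr rfl fun x _ => ?_
    rw [kap_eq hp a b a x]
    unfold kap
    refine card_bij (fun p _ => p.2) ?_ ?_ ?_
    · rintro ⟨u, v⟩ h
      simp only [E, mem_filter, mem_univ, true_and] at h ⊢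
      obtain ⟨h, rfl⟩ := h
      exact h
    · rintro ⟨u, v⟩ h ⟨u', v'⟩ h' e
      simp only [E, mem_filter, mem_univ, true_and] at h h' e
      rw [h.2, h'.2, e]
    · intro v hv
      exact ⟨(x, v), by simpa [E] using hv, rfl⟩
  have h1 : ∀ x, 2 * (Fintype.card α - 1) ≤ #{p ∈ E | ¬ Rel G {x} p.1 p.2} := by
    intro x
    have hd : ∀ u v, Rel G {x} u v → (gr G a b).dist v x ≤ (gr G a b).dist u x := by
      intro u v h
      obtain ⟨g, h3, h4⟩ := (rel_iff _ _ _).1 h
      have := dist_smul hc g u x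
      rwa [h3, h4] at this
    let L : Finset (α × α) := {p ∈ E | (gr G a b).dist p.2 x < (gr G a b).dist p.1 x}
    have hL : Fintype.card α - 1 ≤ #L := by
      rw [← card_univ, ← card_erase_of_mem (mem_univ x)]
      refine card_le_card_of_surjOn Prod.fst fun y hy => ?_
      obtain ⟨z, h1, h2⟩ := closer hc (x := x) (y := y) (mem_erase.1 hy).1
      refine ⟨(y, z), ?_, rfl⟩
      simp only [L, E, coe_filter, mem_filter, mem_univ, true_and, Set.mem_ofPred_eq]
      exact ⟨h1, by omega⟩
    have hdisj : Disjoint L (L.map (Equiv.prodComm α α).toEmbedding) := by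
      rw [disjoint_left]
      rintro ⟨u, v⟩ h h'
      simp only [L, mem_map_equiv, mem_filter, Equiv.prodComm_symm, Equiv.prodComm_apply, Prod.swap] at h h'
      omega
    have hsub : L ∪ L.map (Equiv.prodComm α α).toEmbedding ⊆ {p ∈ E | ¬ Rel G {x} p.1 p.2} := by
      rintro ⟨u, v⟩ h
      simp only [L, E, mem_union, mem_map_equiv, mem_filter, Equiv.prodComm_symm, Equiv.prodComm_apply, Prod.swap,
        mem_univ, true_and] at h ⊢
      rcases h with ⟨h, h'⟩ | ⟨h, h'⟩
      · exact ⟨h, fun hr => absurd (hd v u (rel_symm hr)) (by omega)⟩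
      · exact ⟨h.symm, fun hr => absurd (hd u v hr) (by omega)⟩
    have := card_le_card hsub
    rw [card_union_of_disjoint hdisj, card_map] at this
    omega
  have h2 : ∑ x, #{p ∈ E | ¬ Rel G {x} p.1 p.2} = #E * dd G a b := by
    simp only [card_filter]
    rw [sum_comm, ← smul_eq_mul, ← sum_const]
    refine sum_congr rfl fun p hp => ?_
    rw [← dd_adj (mem_filter.1 hp).2]
    unfold dd
    rw [card_filter]
  have h3 : Fintype.card α * (2 * (Fintype.card α - 1)) ≤ ∑ x, #{p ∈ E | ¬ Rel G {x} p.1 p.2} := by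
    rw [← card_univ, ← smul_eq_mul, ← sum_const]
    exact sum_le_sum fun x _ => by rw [card_univ]; exact h1 x
  rw [h2, hE, mul_assoc] at h3
  exact Nat.le_of_mul_le_mul_left h3 (Fintype.card_pos_iff.2 ⟨a⟩)

end

theorem ub : Ub.{u} := by
  intro G α _ _ _ _ hp hsum a b hab
  classical
  have hc := conn hp hab
  have hn : 1 < Fintype.card α := Fintype.one_lt_card_iff.2 ⟨a, b, hab⟩
  by_cases h : ∀ x y, (gr G a b).dist x y ≤ 2
  · refine le_trans (min_le_left _ _) (Nat.ceil_le.2 ?_)
    have h1 : ∑ p ∈ (univ : Finset α).offDiag, (dd G p.1 p.2 : ℚ) ≤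
        ∑ p ∈ (univ : Finset α).offDiag, (2 * dd G a b : ℚ) := by
      refine sum_le_sum fun p _ => ?_
      obtain ⟨q, hq⟩ := hc.exists_walk_length_eq_dist p.1 p.2
      have := (dd_walk q).trans (Nat.mul_le_mul_right _ (hq ▸ h p.1 p.2))
      exact_mod_cast this
    rw [sum_const, offDiag_card, card_univ, nsmul_eq_mul, Nat.cast_sub (Nat.le_mul_self _)] at h1
    have hn' : (1 : ℚ) < Fintype.card α := by exact_mod_cast hn
    have hpos : (0 : ℚ) < (Fintype.card α : ℚ) * (Fintype.card α - 1) := mul_pos (by linarith) (by linarith)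
    have h2 : (Fintype.card α : ℚ) * (Fintype.card α - 1) * A0 (Fintype.card α) ≤
        (Fintype.card α : ℚ) * (Fintype.card α - 1) * (2 * dd G a b) := by
      refine (hsum.trans h1).trans (le_of_eq ?_)
      push_cast; ring
    have := le_of_mul_le_mul_left h2 hpos
    linarith
  · push Not at h
    obtain ⟨y, x, h⟩ := h
    obtain ⟨z, hz⟩ := exists_three hc x ((gr G a b).dist y x - 3) y (by omega)
    have h1 := three hc hz
    rw [kap_eq hp a b z a, kap_eq hp a b x a] at h1
    have h2 := count hp hc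
    refine le_trans (min_le_right _ _) (Nat.succ_le_of_lt (Nat.sqrt_lt'.2 ?_))
    have h3 : 2 * (kap G a b a * dd G a b) ≤ 3 * dd G a b ^ 2 := by nlinarith
    omega

end Cfsg.Agent.H7.PSb
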