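import Cfsg.Agent.H1.PS0
import Cfsg.Agent.S0711
import Cfsg.Agent.S0698

set_option autoImplicit false

/-! The reductions `Ra`, `Rb` of the bound `4 ^ n` (S0725): stabilisers of `t - 2` points. -/

namespace Cfsg.Agent.H7.PSr
open MulAction Cfsg.Agent.H1.PS
open scoped Pointwise

universe u

section gen
variable {G α : Type*} [Group G] [MulAction G α]

/-- `H` is `m`-transitive on the set `T`. -/
def TrOn (H : Subgroup G) (T : Set α) (m : ℕ) : Prop :=
  ∀ x y : Fin m ↪ α, (∀ i, x i ∈ T) → (∀ i, y i ∈ T) → ∃ h ∈ H, ∀ i, h • x i = y i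

theorem TrOn.mono {H K : Subgroup G} {T : Set α} {m : ℕ} (h : TrOn K T m) (hle : K ≤ H) : TrOn H T m := by
  intro x y hx hy
  obtain ⟨g, hg, h'⟩ := h x y hx hy
  exact ⟨g, hle hg, h'⟩

theorem mt_of_trOn (H : Subgroup G) (A : SubMulAction H α) (m : ℕ) (h : TrOn H (A : Set α) m) :
    IsMultiplyPretransitive H A m := by
  refine ⟨fun x y => ?_⟩
  obtain ⟨g, hg, h'⟩ := h (x.trans (Function.Embedding.subtype _)) (y.trans (Function.Embedding.subtype _))
    (fun i => (x i).2) (fun i => (y i).2)
  refine ⟨⟨g, hg⟩, ?_⟩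
  ext i
  exact h' i

theorem trOn_of_mt (H K : Subgroup G) (A : SubMulAction H α) (m : ℕ)
    (h : IsMultiplyPretransitive (K.subgroupOf H) A m) : TrOn K (A : Set α) m := by
  intro x y hx hy
  obtain ⟨g, hg⟩ := h.exists_smul_eq (x.codRestrict (A : Set α) hx) (y.codRestrict (A : Set α) hy)
  refine ⟨g.1.1, g.2, fun i => ?_⟩
  have := congrArg (fun f : Fin m ↪ A => ((f i : A) : α)) hg
  exact this

theorem trOn_of_mt' (H : Subgroup G) (A : SubMulAction H α) (m : ℕ)
    (h : IsMultiplyPretransitive H A m) : TrOn H (A : Set α) m := by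
  intro x y hx hy
  obtain ⟨g, hg⟩ := h.exists_smul_eq (x.codRestrict (A : Set α) hx) (y.codRestrict (A : Set α) hy)
  refine ⟨g.1, g.2, fun i => ?_⟩
  have := congrArg (fun f : Fin m ↪ A => ((f i : A) : α)) hg
  exact this

/-- If `G` is `s`-transitive and the fixing subgroup of `s` points is `m`-transitive on the others, then `G` is
`(s + m)`-transitive. -/
theorem mt_add {s m : ℕ} (hs : IsMultiplyPretransitive G α s) (e : Fin s ↪ α)
    (h : TrOn (fixingSubgroup G (Set.range e)) (Set.range e)ᶜ m) : IsMultiplyPretransitive G α (s + m) := by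
  have key : ∀ x : Fin (s + m) ↪ α, ∃ g : G, (∀ i, g • x (Fin.castAdd m i) = e i) ∧
      ∀ i, g • x (Fin.natAdd s i) ∈ (Set.range e)ᶜ := by
    intro x
    obtain ⟨g, hg⟩ := hs.exists_smul_eq ((Fin.castAddEmb m).trans x) e
    have h1 : ∀ i, g • x (Fin.castAdd m i) = e i := fun i => congrArg (fun f : Fin s ↪ α => f i) hg
    refine ⟨g, h1, fun i ⟨j, hj⟩ => ?_⟩
    rw [← h1, smul_left_cancel_iff, x.injective.eq_iff] at hj
    have := congrArg Fin.val hj
    have := j.2
    simp only [Fin.val_castAdd, Fin.val_natAdd] at *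
    omega
  refine ⟨fun x y => ?_⟩
  obtain ⟨g, hg1, hg2⟩ := key x
  obtain ⟨k, hk1, hk2⟩ := key y
  obtain ⟨t, ht, h'⟩ := h (g • (Fin.natAddEmb s).trans x) (k • (Fin.natAddEmb s).trans y) hg2 hk2
  refine ⟨k⁻¹ * t * g, ?_⟩
  ext i
  rw [Function.Embedding.smul_apply, mul_smul, mul_smul, inv_smul_eq_iff]
  refine Fin.addCases (fun j => ?_) (fun j => ?_) i
  · rw [hg1, hk1]
    exact (mem_fixingSubgroup_iff G).1 ht _ ⟨j, rfl⟩
  · exact h' j

/-- Jordan's theorem for `k = 4`, for an arbitrary action. -/
theorem normal3 {M β : Type*} [Group M] [MulAction M β] [Fintype β] (hβ : 4 < Fintype.card β)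
    (h4 : IsMultiplyPretransitive M β 4) (K : Subgroup M) [hK : K.Normal] (k : M) (hk : k ∈ K) (b : β)
    (hb : k • b ≠ b) : IsMultiplyPretransitive K β 3 := by
  classical
  let φ := (MulAction.toPermHom M β).rangeRestrict
  have hφ : Function.Surjective φ := MonoidHom.rangeRestrict_surjective _
  have h4' : IsMultiplyPretransitive (MulAction.toPermHom M β).range β 4 := by
    refine ⟨fun x y => ?_⟩
    obtain ⟨g, hg⟩ := h4.exists_smul_eq x y
    refine ⟨φ g, ?_⟩
    rw [← hg]
    ext i
    rfl
  have : (K.map φ).Normal := hK.map φ hφ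
  have hne : K.map φ ≠ ⊥ := by
    intro h
    have : φ k ∈ K.map φ := Subgroup.mem_map_of_mem φ hk
    rw [h, Subgroup.mem_bot] at this
    apply hb
    have h2 := congrArg (fun f : (MulAction.toPermHom M β).range => f.1 b) this
    exact h2
  rcases Cfsg.Agent.S0698.result (MulAction.toPermHom M β).range (k := 4) (by norm_num) hβ h4' (K.map φ) hne with h | h
  · refine ⟨fun x y => ?_⟩
    obtain ⟨⟨_, g, hg, rfl⟩, h'⟩ := h.exists_smul_eq x y
    refine ⟨⟨g, hg⟩, ?_⟩
    rw [← h']
    ext i
    rfl
  · omega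

end gen

theorem card_compl {α : Type*} [Fintype α] {N s : ℕ} (h : N + s = Fintype.card α) (e : Fin s ↪ α) :
    Nat.card ((Set.range e)ᶜ : Set α) = N := by
  have h1 : (Set.range e).ncard = s := by
    rw [← Nat.card_coe_set_eq, Nat.card_range_of_injective e.injective]; simp
  have h2 := Set.ncard_add_ncard_compl (Set.range e)
  rw [Nat.card_coe_set_eq]
  rw [Nat.card_eq_fintype_card] at h2
  omega

theorem ra (h : H2.{u}) : Ra.{u} := by
  intro α _ _ G N s hN h5 h2 h3
  classical
  obtain ⟨e⟩ : Nonempty (Fin s ↪ α) := Function.Embedding.nonempty_of_card_le (by simp; omega)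
  have h1 : (Set.range e).ncard = s := by
    rw [← Nat.card_coe_set_eq, Nat.card_range_of_injective e.injective]; simp
  have hs : IsMultiplyPretransitive G α s :=
    isMultiplyPretransitive_of_le (n := s + 2) (by omega) (by rw [Nat.card_eq_fintype_card]; omega)
  have hidx := hs.index_of_fixingSubgroup_mul h1
  let K := fixingSubgroup G (Set.range e)
  let A := SubMulAction.ofFixingSubgroup G (Set.range e)
  have hA : Fintype.card A = N := by
    rw [← Nat.card_eq_fintype_card]; exact card_compl hN e
  have : FaithfulSMul K A := by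
    refine ⟨fun {a b} hab => ?_⟩
    ext x
    by_cases hx : x ∈ Set.range e
    · have ha := (mem_fixingSubgroup_iff G).1 a.2 x hx
      have hb := (mem_fixingSubgroup_iff G).1 b.2 x hx
      exact ha.trans hb.symm
    · exact congrArg Subtype.val (hab ⟨x, hx⟩)
  have hK2 : IsMultiplyPretransitive K A 2 :=
    SubMulAction.ofFixingSubgroup.isMultiplyPretransitive G (n := s + 2) _ (by rw [h1])
  have hK3 : ¬ IsMultiplyPretransitive K A 3 := fun hh => h3 (mt_add hs e (trOn_of_mt' K A 3 hh))
  have hb := h K A hK2 hK3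
  rw [hA] at hb
  rw [Nat.card_eq_fintype_card, ← hN, Nat.add_sub_cancel] at hidx
  rw [← hidx, ← K.index_mul_card]
  push_cast
  have : (0 : ℚ) ≤ (K.index : ℚ) * N.factorial := by positivity
  calc (K.index : ℚ) * Nat.card K * N.factorial = (K.index : ℚ) * N.factorial * Nat.card K := by ring
    _ ≤ _ := mul_le_mul_of_nonneg_left hb this

theorem rb (h : H3.{u}) : Rb.{u} := by
  intro α _ _ G N s hN h5 h2 h3 halt
  classical
  obtain ⟨e⟩ : Nonempty (Fin s ↪ α) := Function.Embedding.nonempty_of_card_le (by simp; omega)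
  have h1 : (Set.range e).ncard = s := by
    rw [← Nat.card_coe_set_eq, Nat.card_range_of_injective e.injective]; simp
  have hs : IsMultiplyPretransitive G α s :=
    isMultiplyPretransitive_of_le (n := s + 2) (by omega) (by rw [Nat.card_eq_fintype_card]; omega)
  let S : Finset α := Finset.univ.map e
  have hS : ∀ x, x ∈ S ↔ x ∈ Set.range e := by
    intro x; simp [S]
  have hSc : S.card = s := by simp [S]
  let K := fixingSubgroup G (Set.range e)
  let M := stabilizer G S
  have hM : ∀ g ∈ M, ∀ x, g • x ∈ Set.range e ↔ x ∈ Set.range e := by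
    intro g hg x
    rw [← hS, ← hS]
    have : g • S = S := hg
    conv_lhs => rw [← this]
    exact Finset.smul_mem_smul_finset_iff g
  have hKM : K ≤ M := by
    intro g hg
    have hg' := (mem_fixingSubgroup_iff G).1 hg
    show g • S = S
    apply Finset.eq_of_subset_of_card_le
    · intro x hx
      obtain ⟨y, hy, rfl⟩ := Finset.mem_smul_finset.1 hx
      rw [hg' y ((hS y).1 hy)]
      exact hy
    · rw [Finset.card_smul_finset]
  let A : SubMulAction M α :=
    { carrier := (Set.range e)ᶜ
      smul_mem' := fun c x hx hc => hx ((hM c.1 c.2 x).1 hc) }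
  have hA : Fintype.card A = N := by
    rw [← Nat.card_eq_fintype_card]; exact card_compl hN e
  have : FaithfulSMul M A := by
    rw [faithfulSMul_iff]
    intro g hg
    by_contra hne
    have hne' : (g.1.1 : Equiv.Perm α) ≠ 1 := fun hh => hne (Subtype.ext (Subtype.ext hh))
    have hsub : (g.1.1 : Equiv.Perm α).support ⊆ S := by
      intro x hx
      by_contra hx'
      rw [hS] at hx'
      exact (Equiv.Perm.mem_support.1 hx) (congrArg Subtype.val (hg ⟨x, hx'⟩))
    have hle := Finset.card_le_card hsub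
    rw [hSc] at hle
    have hpos : 0 < (g.1.1 : Equiv.Perm α).support.card := by
      rw [Finset.card_pos, Finset.nonempty_iff_ne_empty]
      exact fun hh => hne' (Equiv.Perm.support_eq_empty_iff.1 hh)
    exact halt (Cfsg.Agent.S0711.result G (k := s + 2) (by omega) (by omega) h2 g.1.1 g.1.2 hne' (by omega)).2
  have hK2 : TrOn K (Set.range e)ᶜ 2 := trOn_of_mt' K (SubMulAction.ofFixingSubgroup G (Set.range e)) 2
    (SubMulAction.ofFixingSubgroup.isMultiplyPretransitive G (n := s + 2) _ (by rw [h1]))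
  have hM2 : IsMultiplyPretransitive M A 2 := mt_of_trOn M A 2 (hK2.mono hKM)
  have hM4 : ¬ IsMultiplyPretransitive M A 4 := by
    intro h4
    have : (K.subgroupOf M).Normal := by
      refine ⟨fun k hk g => ?_⟩
      rw [Subgroup.mem_subgroupOf] at hk ⊢
      refine (mem_fixingSubgroup_iff G).2 fun x hx => ?_
      have hx' : (g.1)⁻¹ • x ∈ Set.range e := (hM _ (M.inv_mem g.2) x).2 hx
      have := (mem_fixingSubgroup_iff G).1 hk _ hx'
      show (g.1 * k.1 * g.1⁻¹) • x = x
      rw [mul_smul, mul_smul, this, smul_inv_smul]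
    obtain ⟨x⟩ : Nonempty (Fin 2 ↪ A) := Function.Embedding.nonempty_of_card_le (by simp; omega)
    obtain ⟨k, hk, hk'⟩ := hK2 (x.trans (Function.Embedding.subtype _))
      (((Equiv.swap (0 : Fin 2) 1).toEmbedding.trans x).trans (Function.Embedding.subtype _))
      (fun i => (x i).2) (fun i => (x _).2)
    have hb : (⟨k, hKM hk⟩ : M) • x 0 ≠ x 0 := by
      intro hh
      have h01 : x 1 = x 0 := by
        rw [← hh]
        apply Subtype.ext
        have := hk' 0
        simp only [Function.Embedding.trans_apply, Equiv.coe_toEmbedding, Equiv.swap_apply_left,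
          Function.Embedding.subtype_apply] at this
        exact this.symm
      exact absurd (x.injective h01) (by decide)
    have h3' := normal3 (by omega) h4 (K.subgroupOf M) ⟨k, hKM hk⟩ hk (x 0) hb
    exact h3 (mt_add hs e (trOn_of_mt M K A 3 h3'))
  have hb := h M A hM2 hM4
  rw [hA] at hb
  have hidx : M.index ≤ (N + s).choose N := by
    rw [Nat.choose_symm_add, MulAction.index_stabilizer]
    have : orbit G S ⊆ ((Finset.powersetCard s (Finset.univ : Finset α) : Finset (Finset α)) : Set (Finset α)) := by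
      rintro _ ⟨g, rfl⟩
      simp [hSc]
    have h' := Set.ncard_le_ncard this
    rw [Set.ncard_coe_finset, Finset.card_powersetCard, Finset.card_univ, ← hN] at h'
    exact h'
  rw [← M.index_mul_card]
  push_cast
  have h0 : (0 : ℚ) ≤ Nat.card M := by positivity
  exact mul_le_mul (by exact_mod_cast hidx) hb h0 (by positivity)

end Cfsg.Agent.H7.PSr
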