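import Cfsg.Agent.H1.C2d

/-!
Imprimitive maximal subgroups of `SL₄(q)`: two planes (`q ≥ 4`) and four lines (`q ≥ 7`).
-/

set_option autoImplicit false
set_option linter.unusedSectionVars false

namespace Cfsg.Agent.H7.SL4a

open Module Cfsg.Agent.H7 Cfsg.Agent.H1 Cfsg.Agent.H1.Root Cfsg.Agent.H1.C2b Cfsg.Agent.H1.C2c
open scoped Matrix MatrixGroups

section planes
open Cfsg.Agent.H1.C2a

variable {F : Type*} [Field F] {V : Type*} [AddCommGroup V] [Module F V] [FiniteDimensional F V]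
  {D : Fin 2 → Submodule F V} {π : Fin 2 → V →ₗ[F] V} {m : ℕ} {K : Subgroup (V ≃ₗ[F] V)}

theorem sum_two (hπ : Projs D π) {a b : Fin 2} (hab : a ≠ b) (z : V) : π a z + π b z = z := by
  have := hπ.sum z
  rw [Fin.sum_univ_two] at this
  fin_cases a <;> fin_cases b
  · exact (hab rfl).elim
  · exact this
  · rw [add_comm]; exact this
  · exact (hab rfl).elim

theorem cross2 (hπ : Projs D π) (hD : ∀ i, finrank F (D i) = m) (hm : 2 ≤ m) (hK : HasStab D K)
    {s : F} (hs0 : s ≠ 0) (hs1 : s ^ 2 ≠ 1) {φ : Dual F V} {w : V} (h : ∀ c : F, Has K (c • φ) w)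
    (hw : φ w = 0) (hφ : φ ≠ 0) (hs : ∀ a, π a w ≠ 0) : ∃ a b, a ≠ b ∧ X D π K a b := by
  obtain ⟨b, y', hy', hy'1⟩ := hπ.exists_dual_ne hφ
  obtain ⟨a, hab⟩ := exists_ne b
  have h1' : Has K φ w := by simpa using h 1
  by_cases h1 : φ (π b w) = 0
  · have h2 : φ (π a w) = 0 := by
      have := congrArg φ (sum_two hπ hab w)
      rwa [map_add, h1, hw, add_zero] at this
    obtain ⟨χa, ea, -⟩ := exists_dual_one (F := F) (W := ⊥) (x := π a w) (by simpa using hs a)
    obtain ⟨χb, eb, -⟩ := exists_dual_one (F := F) (W := ⊥) (x := π b w) (by simpa using hs b)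
    obtain ⟨d1, hd1, f1, g1⟩ := exists_dil hπ (hπ.mem a w) ea (Units.mk0 s hs0)
    obtain ⟨d2, hd2, f2, g2⟩ := exists_dil hπ (hπ.mem b w) eb (Units.mk0 s hs0)
    obtain ⟨d3, hd3, f3, g3⟩ := exists_dil hπ ((D b).smul_mem (φ y')⁻¹ hy') (χ := φ) (by simp [hy'1])
      ((Units.mk0 s hs0) ^ 2)⁻¹
    have hd : d1 * d2 * d3 ∈ K := hK _ (by rw [map_mul, map_mul, hd1, hd2, hd3]; group)
      ⟨1, fun i => map_eq_of_maps hD (fun x hx => g1 i _ (g2 i _ (g3 i x hx)))⟩
    have e4 : (d1 * d2 * d3) w = s • w := by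
      have e5 : d3 w = w := by simp [f3, h1]
      simp only [LinearEquiv.mul_apply, e5]
      rw [f2, f1, map_add, map_smul, hπ.proj_proj_ne hab, smul_zero, add_zero, ea, eb]
      simp only [Units.val_mk0, mul_one]
      conv_rhs => rw [← sum_two hπ hab w]
      nth_rewrite 1 [← sum_two hπ hab w]
      module
    have e5 : (d1 * d2 * d3)⁻¹ w = s⁻¹ • w := by
      rw [LinearEquiv.coe_inv, LinearEquiv.symm_apply_eq, map_smul, e4, smul_smul, inv_mul_cancel₀ hs0,
        one_smul]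
    have h3 := (h s).conj (K.inv_mem hd)
    rw [e5] at h3
    have e6 : ∀ z, φ (d1 (d2 (d3 z))) = φ (d3 z) := fun z => by
      rw [f1, f2]; simp [h1, h2]
    have h4 : Has K (φ ∘ₗ (d3 : V →ₗ[F] V)) w := h3.congr fun z => by
      change (s * φ (d1 (d2 (d3 z)))) • s⁻¹ • w = φ (d3 z) • w
      rw [e6, smul_smul]; congr 1; field_simp
    have e7 : (φ ∘ₗ (d3 : V →ₗ[F] V)) w = 0 := by simp [f3, h1, hw]
    have h5 := h4.sub_left h1' e7 hw
    refine cross_of_zero hπ hD hm hK h5 (by rw [LinearMap.sub_apply, e7, hw, sub_zero]) ?_ (hs a) ?_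
    · intro h0
      have := LinearMap.congr_fun h0 y'
      simp [f3, hπ.self b y' hy', hy'1, sub_eq_zero, hs1] at this
    · intro y hy
      simp [f3, hπ.ne b a hab.symm y hy]
  · obtain ⟨y, hy, hy2⟩ := exists_mem_notMem_of_finrank_lt (U := D b) (W := F ∙ π b w)
      (lt_of_le_of_lt (finrank_span_singleton_le _) (by rw [hD]; omega))
    obtain ⟨χ, e1, e2⟩ := exists_dual_one hy2
    have e3 : χ (π b w) = 0 := e2 _ (Submodule.mem_span_singleton_self _)
    have h2 := h1'.comm_left (has_int hπ hD hK (hπ.mem b w) e3) hw (by simp [hπ.proj_proj, e3])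
      (by simp [e3])
    refine cross_of_zero hπ hD hm hK h2 (by simp [e3]) ?_ (hs a) ?_
    · intro h0
      have := LinearMap.congr_fun h0 y
      simp [h1, hπ.self b y hy, e1] at this
    · intro z hz
      simp [hπ.ne b a hab.symm z hz]

theorem abstract_max2 (hπ : Projs D π) (hD : ∀ i, finrank F (D i) = m) (hm : 2 ≤ m) (hK : HasStab D K)
    {s : F} (hs0 : s ≠ 0) (hs1 : s ^ 2 ≠ 1) :
    (∀ g ∈ K, Stab D g) ∨ ∀ g, LinearEquiv.det g = 1 → g ∈ K := by
  by_cases h : ∀ g ∈ K, ∀ i, ∀ v ∈ D i, ∃ j, g v ∈ D j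
  · left
    intro g hg
    refine stab_of_maps hπ hD (by omega) fun i => ?_
    obtain ⟨x, hx, hx0⟩ := exists_ne_zero_of_finrank_pos (A := D i) (by rw [hD]; omega)
    obtain ⟨j, hj⟩ := h g hg i x hx
    refine ⟨j, fun y hy => ?_⟩
    obtain ⟨k, hk⟩ := h g hg i y hy
    by_cases hkj : k = j
    · exact hkj ▸ hk
    obtain ⟨l, hl⟩ := h g hg i (x + y) (add_mem hx hy)
    rw [map_add] at hl
    by_cases hlj : l = j
    · subst hlj; simpa using sub_mem hl hj
    · exfalso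
      have h1 := hπ.ne j l (Ne.symm hlj) _ hl
      rw [map_add, hπ.self j _ hj, hπ.ne j k (Ne.symm hkj) _ hk, add_zero] at h1
      exact hx0 (by simpa using h1)
  right
  push Not at h
  obtain ⟨g, hg, i, v, hv, h⟩ := h
  obtain ⟨y, hy, hy2⟩ := exists_mem_notMem_of_finrank_lt (U := D i) (W := F ∙ v)
    (lt_of_le_of_lt (finrank_span_singleton_le _) (by rw [hD]; omega))
  obtain ⟨χ, e1, e2⟩ := exists_dual_one hy2
  have e3 : χ v = 0 := e2 _ (Submodule.mem_span_singleton_self _)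
  obtain ⟨a, b, hab, hX⟩ := cross2 hπ hD hm hK hs0 hs1
    (φ := (χ ∘ₗ π i) ∘ₗ (g.symm : V →ₗ[F] V)) (w := g v)
    (fun c => ((has_int hπ hD hK hv (χ := c • χ) (by simp [e3])).conj hg).congr fun z => by simp)
    (by simp [hπ.self i v hv, e3]) (fun h0 => by
      have := LinearMap.congr_fun h0 (g y)
      simp [hπ.self i y hy, e1] at this) (fun a ha => by
      obtain ⟨b, hb⟩ := exists_ne a
      refine h b ?_
      rw [← sum_two hπ hb (g v), ha, add_zero]
      exact hπ.mem b _)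
  exact mem_of_X hπ hD (by omega) hK hab hX

end planes

variable {ι : Type} [Fintype ι] [DecidableEq ι] {F : Type*} [Field F]

theorem planes_max [Fintype F] (hq : 4 ≤ Fintype.card F) {m : ℕ} (hm : 2 ≤ m)
    {D : Fin 2 → Submodule F (ι → F)} (hD : Geo.IsMDecomposition m D) :
    Geo.IsMaximalIn (Geo.specialLinear ι F) (Geo.decompositionStabilizer D ⊓ Geo.specialLinear ι F) := by
  have hc := card_eq_of_isMDecomposition hD
  have hne := not_le_inf_of_not_le (SL_not_le_decompositionStabilizer (by omega) hD)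
  obtain ⟨π, hπ⟩ := exists_projs hD.indep hD.iSup_eq_top
  obtain ⟨s, hs0, hs1⟩ := exists_pow_ne_one_of_lt (F := F) (k := 2) (by norm_num) (by omega)
  refine isMaximalIn_of_equiv toLE _ _ (fun g => LinearEquiv.det g = 1)
    (fun g => C2a.Stab D g ∧ LinearEquiv.det g = 1) mem_SL_iff (fun g => ?_) (fun g h => h.2) hne
    (fun M h3 h4 => ?_)
  · rw [Subgroup.mem_inf, mem_SL_iff, mem_decompositionStabilizer_iff]; rfl
  · rcases abstract_max2 hπ hD.finrank_eq hm (K := M) (fun g a1 a2 => h3 g ⟨a2, a1⟩) hs0 hs1 with h | h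
    · exact Or.inl fun g hg => ⟨h g hg, h4 g hg⟩
    · exact Or.inr h

section lines
open Cfsg.Agent.H1.C2d

variable {K : Subgroup ((ι → F) ≃ₗ[F] (ι → F))}

theorem three_col (g : (ι → F) ≃ₗ[F] (ι → F)) {a b : ι → F}
    (hab : ∀ r t : F, r • a + t • b = 0 → r = 0 ∧ t = 0) {l : F} (hl0 : l ≠ 0) (hl : l ^ 2 ≠ 1)
    (h : ∀ n : ℕ, ∃ i, ∃ c : F, c ≠ 0 ∧ a + l ^ n • b = c • g (ee F i)) : False := by
  have hl1 : l ≠ 1 := by rintro rfl; simp at hl
  have key : ∀ {x y : F} {i : ι} {c c' : F}, c' ≠ 0 → a + x • b = c • g (ee F i) →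
      a + y • b = c' • g (ee F i) → x = y := by
    intro x y i c c' hc' e e'
    obtain ⟨e1, e2⟩ := hab (c' - c) (c' * x - c * y) (by
      have : c' • (a + x • b) = c • (a + y • b) := by rw [e, e', smul_comm]
      linear_combination (norm := module) this)
    have e3 : c = c' := by linear_combination -e1
    subst e3
    exact mul_left_cancel₀ hc' (by linear_combination e2)
  obtain ⟨i0, c0, h0, e0⟩ := h 0
  obtain ⟨i1, c1, h1, e1⟩ := h 1
  obtain ⟨i2, c2, h2, e2⟩ := h 2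
  have n1 : i1 ≠ i0 := by rintro rfl; exact hl1 (by simpa using key h0 e1 e0)
  have n2 : i2 ≠ i0 := by rintro rfl; exact hl (by simpa using key h0 e2 e0)
  have e3 : g ((l * c0) • ee F i0 - ((l + 1) * c1) • ee F i1 + c2 • ee F i2) = 0 := by
    rw [map_add, map_sub, map_smul, map_smul, map_smul, mul_smul, mul_smul, ← e0, ← e1, ← e2]
    module
  have e4 := congrFun ((map_eq_zero_iff _ g.injective).1 e3) i0
  simp [ee_ne n1.symm, ee_ne n2.symm, hl0, h0] at e4

theorem perm' (hR : Rigid K) {g m : (ι → F) ≃ₗ[F] (ι → F)} (hg : g ∈ K) (hm : m ∈ K) {j : ι} {c : F}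
    (hc : c ≠ 0) (h : m (g (ee F j)) = c • g (ee F j)) : Mono (g⁻¹ * m * g) :=
  hR (g⁻¹ * m * g) (K.mul_mem (K.mul_mem (K.inv_mem hg) hm) hg) j ⟨j, c, hc, by simp [h]⟩

theorem col_of_mono {g m : (ι → F) ≃ₗ[F] (ι → F)} (h : Mono (g⁻¹ * m * g)) (i : ι) :
    ∃ i', ∃ c : F, c ≠ 0 ∧ m (g (ee F i)) = c • g (ee F i') := by
  obtain ⟨i', c, hc, e⟩ := h i
  refine ⟨i', c, hc, ?_⟩
  rw [← map_smul, ← e]; simp

theorem row (hR : Rigid K) {g m : (ι → F) ≃ₗ[F] (ι → F)} (hg : g ∈ K) (hm : m ∈ K) {j : ι} {c : F}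
    (hc : c ≠ 0) (h : m (g (ee F j)) = c • g (ee F j)) (x : ι → F) :
    g.symm (m x) j = c * g.symm x j := by
  have hM := perm' hR hg hm hc h
  have e0 : (g⁻¹ * m * g) (ee F j) = c • ee F j := by simp [h]
  obtain ⟨y, rfl⟩ := g.surjective x
  change (g⁻¹ * m * g) y j = _
  rw [LinearEquiv.symm_apply_apply]
  conv_lhs => rw [pi_eq_sum_univ' y, map_sum]
  simp only [map_smul, Finset.sum_apply, Pi.smul_apply, smul_eq_mul]
  rw [Finset.sum_eq_single j (fun i _ hi => ?_) (by simp)]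
  · change y j * (g⁻¹ * m * g) (ee F j) j = _
    rw [e0]; simp [mul_comm]
  · obtain ⟨i', c', -, e⟩ := hM i
    have : i' ≠ j := by rintro rfl; exact hi (col_inj hc e0 e)
    change y i * (g⁻¹ * m * g) (ee F i) j = _
    rw [e]; simp [ee_ne this.symm]

theorem not_isE_col (hR : Rigid K) {g : (ι → F) ≃ₗ[F] (ι → F)} (hg : g ∈ K) (hM : ¬ Mono g) (i k : ι) :
    ∃ l, l ≠ k ∧ g (ee F i) l ≠ 0 := by
  obtain ⟨x, y, hxy, hx, hy⟩ := exists_two_of_not_isE (v := g (ee F i)) (by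
    rw [Ne, map_eq_zero_iff _ g.injective]
    intro h; simpa using congrFun h i) (fun h => hM (hR g hg i h))
  by_cases h : x = k
  · exact ⟨y, fun e => hxy (h.trans e.symm), hy⟩
  · exact ⟨x, h, hx⟩

theorem indep_split {u : ι → F} {k l : ι} (hlk : l ≠ k) (hk : u k ≠ 0) (hl : u l ≠ 0) (r t : F)
    (h : r • (u - u k • ee F k) + t • (u k • ee F k) = 0) : r = 0 ∧ t = 0 := by
  have e1 := congrFun h k
  have e2 := congrFun h l
  simp [ee_ne hlk, hk, hl] at e1 e2
  exact ⟨e2, e1⟩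

theorem not_two_zeros4 [Fintype F] (hq : 6 ≤ Fintype.card F) (hK : HasMono K) (hR : Rigid K)
    {g : (ι → F) ≃ₗ[F] (ι → F)} (hg : g ∈ K) (hM : ¬ Mono g) {j k l : ι} (hkl : k ≠ l)
    (hk : g (ee F j) k = 0) (hl : g (ee F j) l = 0) : False := by
  obtain ⟨s, hs0, hs⟩ := exists_pow_ne_one_of_lt (F := F) (k := 4) (by norm_num) (by omega)
  obtain ⟨i, hi⟩ := exists_col_ne g (φ := pr F k) (fun h => by simpa using LinearMap.congr_fun h (ee F k))
  replace hi : g (ee F i) k ≠ 0 := hi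
  have h1 := (two_zeros_aux (by omega) hK hR hg hkl hk hl i).resolve_right fun h => hi h.1
  obtain ⟨l', hl', hl''⟩ := not_isE_col hR hg hM i k
  refine three_col g (indep_split hl' hi hl'') (l := s ^ 2) (pow_ne_zero _ hs0)
    (by rwa [← pow_mul]) fun n => ?_
  obtain ⟨i', c, hc, e⟩ := hR.perm hg (hK.tor_mem k l (Units.mk0 s hs0 ^ n)) (j := j) (by
    ext x
    by_cases a1 : x = k
    · subst a1; simp [hk]
    by_cases a2 : x = l
    · subst a2; simp [hl]
    simp [tor_ne a1 a2]) i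
  refine ⟨i', s ^ n * c, mul_ne_zero (pow_ne_zero _ hs0) hc, ?_⟩
  rw [mul_smul, ← e]
  ext x
  by_cases a1 : x = k
  · subst a1; simp [tor_left hkl]; ring
  by_cases a2 : x = l
  · subst a2; simp [tor_right hkl, ee_ne a1, hs0]
  simp [ee_ne a1, h1 x a1 a2]

theorem exists_pow8 [Fintype F] (hq : 7 ≤ Fintype.card F) (h3 : (3 : F) ≠ 0) :
    ∃ s : F, s ≠ 0 ∧ s ^ 8 ≠ 1 := by
  by_cases h : 10 ≤ Fintype.card F
  · exact exists_pow_ne_one_of_lt (by norm_num) (by omega)
  obtain ⟨s, hs0, hs⟩ := exists_pow_ne_one_of_lt (F := F) (k := 2) (by norm_num) (by omega)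
  have h1 := FiniteField.pow_card_sub_one_eq_one s hs0
  have h2 : Fintype.card F = 7 ∨ Fintype.card F = 8 ∨ Fintype.card F = 9 := by omega
  refine ⟨s, hs0, fun h8 => ?_⟩
  rcases h2 with h2 | h2 | h2
  · rw [h2] at h1
    exact hs (by linear_combination h8 - s ^ 2 * h1)
  · rw [h2] at h1
    have : s = 1 := by linear_combination h8 - s * h1
    exact hs (by rw [this]; simp)
  · have := FiniteField.cast_card_eq_zero F
    rw [h2] at this
    exact h3 (pow_eq_zero_iff (n := 2) (by norm_num) |>.1 (by push_cast at this; linear_combination this))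

/-- Conjugate of an even permutation matrix by a diagonal matrix. -/
theorem conj_perm_mem (hK : HasMono K) (d : ι → Fˣ) {σ : Equiv.Perm ι} (hσ : Equiv.Perm.sign σ = 1) :
    dg d * pm F σ * (dg d)⁻¹ ∈ K := by
  refine hK _ ?_ (mono_mul (mono_mul (mono_dg d) (mono_pm σ)) (mono_symm (mono_dg d)))
  have : LinearEquiv.det (pm F σ) = 1 := Units.ext (by rw [det_pm, hσ]; simp)
  simp [this]

theorem row_perm (hK : HasMono K) (hR : Rigid K) {g : (ι → F) ≃ₗ[F] (ι → F)} (hg : g ∈ K) {j : ι}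
    {σ : Equiv.Perm ι} (hσ : Equiv.Perm.sign σ = 1) (h : ∀ a, g (ee F j) a = 0 → σ a = a) (a : ι) :
    g (ee F j) (σ a) * g.symm (ee F (σ a)) j = g (ee F j) a * g.symm (ee F a) j := by
  classical
  set v := g (ee F j) with hv
  by_cases ha : v a = 0
  · rw [h a ha]
  have ha' : v (σ a) ≠ 0 := fun h0 => ha (by rw [← σ.injective (h _ h0)]; exact h0)
  let d : ι → Fˣ := fun a => if h : v a = 0 then 1 else Units.mk0 (v a) h
  have hd : ∀ a, v a ≠ 0 → (d a : F) = v a := fun a ha => by simp [d, ha]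
  have := row hR hg (conj_perm_mem hK d hσ) (j := j) one_ne_zero (by
    ext b
    simp only [LinearEquiv.mul_apply, dg_apply, pm_apply, LinearEquiv.coe_inv, dg_symm_apply, ← hv,
      one_smul]
    by_cases hb : v b = 0
    · rw [h b hb, hb]; simp
    · have hb' : v (σ b) ≠ 0 := fun h0 => hb (by rw [← σ.injective (h _ h0)]; exact h0)
      rw [hd b hb, hd _ hb']; field_simp) (v (σ a) • ee F (σ a))
  rw [one_mul, map_smul g.symm, Pi.smul_apply, smul_eq_mul] at this
  rw [← this]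
  have e : (dg d * pm F σ * (dg d)⁻¹) (v (σ a) • ee F (σ a)) = v a • ee F a := by
    simp only [LinearEquiv.mul_apply, LinearEquiv.coe_inv, map_smul, dg_symm_ee, pm_ee,
      Equiv.symm_apply_apply, dg_ee, smul_smul, hd _ ha, hd _ ha']
    congr 1; field_simp
  rw [e, map_smul]; rfl

theorem symm_apply_sum (g : (ι → F) ≃ₗ[F] (ι → F)) (x : ι → F) (j : ι) :
    g.symm x j = ∑ a, x a * g.symm (ee F a) j := by
  conv_lhs => rw [pi_eq_sum_univ' x, map_sum]
  simp [Finset.sum_apply]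

end lines

section four
open Cfsg.Agent.H1.C2d

variable {K : Subgroup ((Fin 4 → F) ≃ₗ[F] (Fin 4 → F))}

theorem exists_others (k : Fin 4) : ∃ a b c : Fin 4, a ≠ b ∧ a ≠ c ∧ b ≠ c ∧ a ≠ k ∧ b ≠ k ∧ c ≠ k ∧
    ∀ f : Fin 4 → F, ∑ x, f x = f a + f b + f c + f k := by
  fin_cases k
  · exact ⟨1, 2, 3, by decide, by decide, by decide, by decide, by decide, by decide, fun f => by
      rw [Fin.sum_univ_four]; simp; ring⟩
  · exact ⟨0, 2, 3, by decide, by decide, by decide, by decide, by decide, by decide, fun f => by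
      rw [Fin.sum_univ_four]; simp; ring⟩
  · exact ⟨0, 1, 3, by decide, by decide, by decide, by decide, by decide, by decide, fun f => by
      rw [Fin.sum_univ_four]; simp; ring⟩
  · exact ⟨0, 1, 2, by decide, by decide, by decide, by decide, by decide, by decide, fun f => by
      rw [Fin.sum_univ_four]; simp⟩

theorem full4 [Fintype F] (hq : 7 ≤ Fintype.card F) (hK : HasMono K) (hR : Rigid K)
    {g : (Fin 4 → F) ≃ₗ[F] (Fin 4 → F)} (hg : g ∈ K) (hM : ¬ Mono g) (j k : Fin 4) :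
    g (ee F j) k ≠ 0 := by
  intro hk
  have h1 : ∀ l, l ≠ k → g (ee F j) l ≠ 0 := fun l hl h =>
    not_two_zeros4 (by omega) hK hR hg hM hl h hk
  -- the field does not have characteristic three
  have h3 : (3 : F) ≠ 0 := by
    obtain ⟨a, b, c, hab, hac, hbc, ha, hb, hc, hs⟩ := exists_others (F := F) k
    let ρ : Equiv.Perm (Fin 4) := Equiv.swap a b * Equiv.swap b c
    have ρa : ρ a = b := by simp [ρ, Equiv.swap_apply_of_ne_of_ne, hab, hac]
    have ρb : ρ b = c := by simp [ρ, Equiv.swap_apply_of_ne_of_ne, hac.symm, hbc.symm]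
    have ρk : ρ k = k := by simp [ρ, Equiv.swap_apply_of_ne_of_ne, ha.symm, hb.symm, hc.symm]
    have sρ : Equiv.Perm.sign ρ = 1 := by simp [ρ, hab, hbc]
    have h2 := row_perm hK hR hg (j := j) sρ (fun x hx => by
      by_contra hne
      exact h1 x (by rintro rfl; exact hne ρk) hx)
    have e1 := h2 a
    have e2 := h2 b
    rw [ρa] at e1
    rw [ρb] at e2
    have e3 := symm_apply_sum g (g (ee F j)) j
    rw [hs, e2, e1, hk, LinearEquiv.symm_apply_apply] at e3
    intro h3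
    simp only [Pi.single_eq_same] at e3
    exact one_ne_zero (α := F) (by
      linear_combination e3 + (g (ee F j) a * g.symm (ee F a) j) * h3)
  obtain ⟨s, hs0, hs⟩ := exists_pow8 hq h3
  obtain ⟨i, hi⟩ := exists_col_ne g (φ := pr F k) (fun h => by simpa using LinearMap.congr_fun h (ee F k))
  replace hi : g (ee F i) k ≠ 0 := hi
  obtain ⟨l', hl', hl''⟩ := not_isE_col hR hg hM i k
  refine three_col g (indep_split hl' hi hl'') (l := s ^ 4) (pow_ne_zero _ hs0)
    (by rwa [← pow_mul]) fun n => ?_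
  let u : Fˣ := Units.mk0 s hs0 ^ n
  let d : Fin 4 → Fˣ := fun x => u⁻¹ * Pi.mulSingle (M := fun _ => Fˣ) k (u ^ 4) x
  have hd : dg d ∈ K := hK.dg_mem (by simp [d, Finset.prod_mul_distrib])
  obtain ⟨i', c, hc, e⟩ := col_of_mono (perm' hR hg hd (j := j) (c := (u : F)⁻¹) (by simp) (by
    ext x
    by_cases a1 : x = k
    · subst a1; simp [hk]
    · simp [d, a1])) i
  refine ⟨i', s ^ n * c, mul_ne_zero (pow_ne_zero _ hs0) hc, ?_⟩
  rw [mul_smul, ← e]
  ext x
  by_cases a1 : x = k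
  · subst a1; simp [d, u]; field_simp; ring
  · simp [d, u, a1, hs0]

theorem rigid_mono4 [Fintype F] (hq : 7 ≤ Fintype.card F) (hK : HasMono K) (hR : Rigid K)
    {g : (Fin 4 → F) ≃ₗ[F] (Fin 4 → F)} (hg : g ∈ K) : Mono g := by
  by_contra hM
  obtain ⟨s, hs0, hs⟩ := exists_pow_ne_one_of_lt (F := F) (k := 4) (by norm_num) (by omega)
  have hv := full4 hq hK hR hg hM 0
  set v := g (ee F 0) with hvdef
  let κ : Equiv.Perm (Fin 4) := Equiv.swap 0 1 * Equiv.swap 2 3
  have h2 := row_perm hK hR hg (j := 0) (σ := κ) (by decide) (fun x hx => (hv x hx).elim)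
  have e1 := h2 0
  have e2 := h2 2
  rw [show κ 0 = 1 by decide] at e1
  rw [show κ 2 = 3 by decide] at e2
  refine three_col g (a := ![0, 0, v 2, -v 3]) (b := ![v 0, -v 1, 0, 0]) (fun r t h => ?_)
    (l := s ^ 2) (pow_ne_zero _ hs0) (by rwa [← pow_mul]) fun n => ?_
  · have a1 := congrFun h 0
    have a2 := congrFun h 2
    simp [hv 0, hv 2] at a1 a2
    exact ⟨a2, a1⟩
  let u : Fˣ := Units.mk0 s hs0 ^ n
  let d : Fin 4 → Fˣ := ![u, -u, u⁻¹, -u⁻¹]
  have hd : dg d ∈ K := hK.dg_mem (by simp [d, Fin.prod_univ_four])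
  have hm : Mono (g⁻¹ * dg d * g) := by
    by_contra hM'
    refine full4 hq hK hR (K.mul_mem (K.mul_mem (K.inv_mem hg) hd) hg) hM' 0 0 ?_
    change g.symm (dg d v) 0 = 0
    rw [symm_apply_sum, Fin.sum_univ_four]
    simp only [dg_apply, d, Matrix.cons_val_zero, Matrix.cons_val_one, Matrix.cons_val, Units.val_neg]
    linear_combination (-(u : F)) * e1 - ((u⁻¹ : Fˣ) : F) * e2
  obtain ⟨i', c, hc, e⟩ := col_of_mono hm 0
  refine ⟨i', s ^ n * c, mul_ne_zero (pow_ne_zero _ hs0) hc, ?_⟩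
  rw [mul_smul, ← e, ← hvdef]
  ext x
  fin_cases x <;> simp [d, u, hs0] <;> ring

theorem lines_max [Fintype F] (hq : 7 ≤ Fintype.card F) {D : Fin 4 → Submodule F (Fin 4 → F)}
    (hD : Geo.IsMDecomposition 1 D) :
    Geo.IsMaximalIn (Geo.specialLinear (Fin 4) F)
      (Geo.decompositionStabilizer D ⊓ Geo.specialLinear (Fin 4) F) := by
  have hne := not_le_inf_of_not_le (SL_not_le_decompositionStabilizer (by simp) hD)
  obtain ⟨b, rfl⟩ := exists_basis_of_isMDecomposition hD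
  let Ψ : (Fin 4 → F) ≃ₗ[F] (Fin 4 → F) := b.equivFun.symm
  have hΨ : ∀ i, Ψ (ee F i) = b i := fun i => by simp [Ψ, Pi.single_apply]
  refine isMaximalIn_of_equiv (toLE.trans (conjLE Ψ).symm) _ _ (fun g => LinearEquiv.det g = 1)
    (fun g => Mono g ∧ LinearEquiv.det g = 1) (fun g => ?_) (fun g => ?_) (fun g h => h.2) hne
    (fun M h3 h4 => ?_)
  · rw [mem_SL_iff, ← det_conjLE Ψ ((toLE.trans (conjLE Ψ).symm) g)]; simp
  · rw [Subgroup.mem_inf, mem_SL_iff, ← det_conjLE Ψ ((toLE.trans (conjLE Ψ).symm) g)]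
    simp only [MulEquiv.trans_apply, MulEquiv.apply_symm_apply]
    refine and_congr_left fun _ => ⟨fun h j => ?_, fun h => ?_⟩
    · obtain ⟨σ, c, a1, a2, -⟩ := monomial_of_mem b h
      exact ⟨σ j, c j, a1 j, by rw [conjLE_symm_apply, hΨ, a2, map_smul, ← hΨ]; simp⟩
    · obtain ⟨π, hπ⟩ := exists_projs hD.indep hD.iSup_eq_top
      rw [mem_decompositionStabilizer_iff]
      refine C2a.stab_of_maps hπ hD.finrank_eq one_pos fun i => ?_
      obtain ⟨j, c, -, e⟩ := h i
      rw [conjLE_symm_apply, hΨ, LinearEquiv.symm_apply_eq, map_smul, hΨ] at e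
      refine ⟨j, fun x hx => ?_⟩
      obtain ⟨a, rfl⟩ := Submodule.mem_span_singleton.1 hx
      rw [map_smul, e]
      exact Submodule.smul_mem _ _ (Submodule.smul_mem _ _ (Submodule.mem_span_singleton_self _))
  · have hK : HasMono M := fun g a1 a2 => h3 g ⟨a2, a1⟩
    by_cases hN : NRoot M
    · exact Or.inr (all_of_nroot (by simp) hK hN)
    · exact Or.inl fun g hg => ⟨rigid_mono4 hq hK
        (fun g hg i h => mono_of_isE (by simp) hK h4 hN (by omega) hg h) hg, h4 g hg⟩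

end four

end Cfsg.Agent.H7.SL4a
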