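import Cfsg.Agent.H1.C8

/-!
The similarity groups of symplectic and unitary forms are maximal in the special linear group, in
dimension at least four.
-/

set_option autoImplicit false

namespace Cfsg.Agent.H7.SL4b

open Module Cfsg.Agent.Form Cfsg.Agent.H7 Cfsg.Agent.H1.Fill
open scoped Matrix MatrixGroups

section abstract
variable {F : Type*} [Field F] {P : FP F} {V : Type*} [AddCommGroup V] [Module F V]
  [FiniteDimensional F V]

/-- The axes of the transvections of `K` with centre `w`. -/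
def axes (S : PQ P V) (K : Subgroup (V ≃ₗ[F] V)) (w : V) : AddSubgroup V where
  carrier := {u | S.B w u = 0 ∧ Has K (S.lin u) w}
  zero_mem' := ⟨by simp, (has_zero_left w).congr (fun z => by simp)⟩
  add_mem' := by
    rintro a b ⟨ha, ha'⟩ ⟨hb, hb'⟩
    exact ⟨by simp [ha, hb], (ha'.add_left hb' ha).congr (fun z => by simp)⟩
  neg_mem' := by
    rintro a ⟨ha, ha'⟩
    exact ⟨by simp [ha], (ha'.neg_left ha).congr (fun z => by simp)⟩

variable {S : PQ P V} {K : Subgroup (V ≃ₗ[F] V)}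

theorem axes_map (hK : sisom S ≤ K) {w : V} {s : V ≃ₗ[F] V} (hs : s ∈ sisom S) (hw : s w = w) {u : V}
    (hu : u ∈ axes S K w) : s u ∈ axes S K w := by
  refine ⟨by rw [← hw, PQ.B_isom hs.1, hu.1], ?_⟩
  have := hu.2.conj (hK hs)
  rw [hw] at this
  refine this.congr (fun z => ?_)
  simp only [LinearMap.comp_apply, LinearEquiv.coe_coe, PQ.lin_apply]
  rw [← PQ.B_isom hs.1, LinearEquiv.apply_symm_apply]

theorem axes_eich (hK : sisom S ≤ K) (w : V) : EichStable S (F ∙ w) (axes S K w) := by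
  intro d y q h hd hy u hu
  have hd' := S.B_comm_zero (S.mem_perp_span_singleton.1 hd)
  have hy' := S.B_comm_zero (S.mem_perp_span_singleton.1 hy)
  exact axes_map hK (eich_mem_sisom S d y q h) (by simp [hd', hy']) hu

theorem full_of_axes (hS : S.Nondeg) {w : V} (h : ∀ u, S.B u w = 0 → u ∈ axes S K w) :
    w ∈ fullCenters K := by
  intro φ hφ
  obtain ⟨u, rfl⟩ := hS.exists_lin φ
  exact (h u (S.B_comm_zero hφ)).2

theorem mem_of_full (hS : S.Nondeg) (hk : SingK S 2) (hn : 4 ≤ finrank F V) (hK : sisom S ≤ K) {w : V}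
    (hw : w ≠ 0) (hwc : w ∈ fullCenters K) (g : V ≃ₗ[F] V) (hg : LinearEquiv.det g = 1) : g ∈ K := by
  refine mem_of_fullCenters_eq_top (eq_top_iff.2 fun u _ => ?_) g hg
  refine fill hS hk (Z := ⊥) (A := (fullCenters K).toAddSubgroup) (by
    rw [bot_inf_eq, finrank_bot]; omega) ?_ hwc (by simp) (by simpa using hw) (by simp)
  intro d y q h _ _ u hu
  exact fullCenters_apply hu (hK (eich_mem_sisom S d y q h))

theorem exists_axis (hP : TrP P) (hS : S.Nondeg) (hK : sisom S ≤ K) {g : V ≃ₗ[F] V} (hg : g ∈ K) {v : V}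
    (hv : S.Sing v) : ∃ u0 ∈ axes S K (g v), ∃ c : F, c ≠ 0 ∧ ∀ z, S.B (g z) u0 = c * S.B z v := by
  obtain ⟨c, hc, hc0⟩ := hP.ex
  have h1 : Has K (c • S.lin v) v :=
    ⟨_, hK (tau_mem_sisom S hv c (tauOK_of_sing hv hc)), fun z => by simp⟩
  have h2 := h1.conj hg
  obtain ⟨u0, hu0⟩ := hS.exists_lin ((c • S.lin v) ∘ₗ (g.symm : V →ₗ[F] V))
  rw [← hu0] at h2
  have h3 : ∀ z, S.B (g z) u0 = c * S.B z v := fun z => by
    simpa using LinearMap.congr_fun hu0 (g z)
  exact ⟨u0, ⟨by rw [h3, hv.B_self, mul_zero], h2⟩, c, hc0, h3⟩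

theorem symp_max4 {S : PQ (FP.symp F) V} (hS : S.Nondeg) (hn : 4 ≤ finrank F V) (hK : sisom S ≤ K) :
    (∀ g ∈ K, ∃ c : F, c ≠ 0 ∧ ∀ x y, S.B (g x) (g y) = c * S.B x y) ∨
      ∀ g, LinearEquiv.det g = 1 → g ∈ K := by
  have hk : SingK S 2 := fun U hU => trP_symp.exists_sing_of_two_le S U hU
  by_cases h : ∀ g ∈ K, ∀ v, S.Sing v → ∀ x, S.B x v = 0 → S.B (g x) (g v) = 0
  · exact Or.inl fun g hg => sim_of_perp hS hk (by omega) g (h g hg)
  right
  push Not at h
  obtain ⟨g, hg, v, hv, x, hx, hgx⟩ := h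
  obtain ⟨u0, hu0, c, hc0, h3⟩ := exists_axis trP_symp hS hK hg hv
  have hgv : g v ≠ 0 := fun h => hgx (by rw [h]; simp)
  have hm : u0 ∉ F ∙ g v := by
    intro hm
    obtain ⟨a, rfl⟩ := Submodule.mem_span_singleton.1 hm
    have h4 := h3 x
    rw [hx, mul_zero, S.B_smul_right] at h4
    have ha : a = 0 := (mul_eq_zero.1 h4).resolve_right hgx
    apply hgv
    have : v = 0 := hS.right v fun z => by
      have := h3 z
      rw [ha, zero_smul, S.B_zero_right] at this
      exact (mul_eq_zero.1 this.symm).resolve_left hc0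
    rw [this, map_zero]
  refine mem_of_full hS hk hn hK hgv (full_of_axes hS fun u hu => ?_)
  have key : ∀ d, S.B d (g v) = 0 → S.B u0 d ≠ 0 → d ∈ axes S K (g v) := by
    intro d hd hd'
    have := axes_map hK (tau_mem_sisom S (S.symp_sing d) (S.B u0 d)⁻¹ (S.symp_tauOK _ _))
      (S.tau_apply_of_perp _ _ _ (S.B_comm_zero hd)) hu0
    rw [PQ.tau_apply, inv_mul_cancel₀ hd', one_smul] at this
    simpa using sub_mem this hu0
  obtain ⟨d, hd, hd'⟩ := hS.exists_perp_ne hm
  replace hd := S.mem_perp_span_singleton.1 hd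
  by_cases h0 : S.B u0 u = 0
  · simpa using sub_mem (key (u + d) (by simp [hu, hd]) (by simpa [h0] using hd')) (key d hd hd')
  · exact key u hu h0

theorem unit_max4 {σ : F →+* F} {hσ : ∀ a, σ (σ a) = a} (hP : TrP (FP.unit σ hσ)) (hne : ∃ a, σ a ≠ a)
    {S : PQ (FP.unit σ hσ) V} (hS : S.Nondeg) (hn : 4 ≤ finrank F V) (hK : sisom S ≤ K) :
    (∀ g ∈ K, ∃ c : F, c ≠ 0 ∧ ∀ x y, S.B (g x) (g y) = c * S.B x y) ∨
      ∀ g, LinearEquiv.det g = 1 → g ∈ K := by
  have hk : SingK S 2 := fun U hU => hP.exists_sing_of_two_le S U hU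
  have hX : ∀ w : V, 2 * finrank F (F ∙ w) + 2 ≤ finrank F V := fun w => by
    have := finrank_span_singleton_le (F := F) w; omega
  by_cases h : ∀ g ∈ K, ∀ v, S.Sing v → S.Sing (g v)
  · refine Or.inl fun g hg => sim_of_perp hS hk (by omega) g fun v hv x hx => ?_
    let A : AddSubgroup V := (S.lin (g v) ∘ₗ (g : V →ₗ[F] V)).toAddMonoidHom.ker
    have hA : ∀ d ∈ S.perp (F ∙ v), S.Sing d → d ∈ A := by
      intro d hd hds
      replace hd := S.mem_perp_span_singleton.1 hd
      have e : ∀ a : F, σ a * S.B (g d) (g v) + a * σ (S.B (g d) (g v)) = 0 := by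
        intro a
        have := (h g hg _ (hds.add (hv.smul a) (by simp [hd]))).B_self
        rw [map_add, map_smul] at this
        simp only [PQ.B_add_left, PQ.B_add_right, PQ.B_smul_left, PQ.B_smul_right, FP.unit_σ,
          (h g hg _ hds).B_self, (h g hg _ hv).B_self, S.unit_B_swap (g d) (g v)] at this
        linear_combination this
      obtain ⟨a, ha⟩ := hne
      have e1 := e 1
      have e2 := e a
      rw [map_one] at e1
      change S.B (g d) (g v) = 0
      exact (mul_eq_zero.1 (show (σ a - a) * S.B (g d) (g v) = 0 by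
        linear_combination e2 - a * e1)).resolve_left (sub_ne_zero.2 ha)
    have hx' := S.mem_perp_span_singleton.2 hx
    by_cases hm : x ∈ F ∙ v
    · obtain ⟨a, rfl⟩ := Submodule.mem_span_singleton.1 hm
      exact hA _ hx' (hv.smul a)
    · obtain ⟨e, he, hes, hxe⟩ := hP.exists_sing_perp_ne' hS hm (hX v)
      exact mem_of_sing_ne hA hx' he hes (fun h => hxe (S.B_comm_zero h))
  right
  push Not at h
  obtain ⟨g, hg, v, hv, hw⟩ := h
  obtain ⟨u0, hu0, c, hc0, h3⟩ := exists_axis hP hS hK hg hv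
  set w := g v with hwdef
  have hww : S.B w w ≠ 0 := fun h => hw ((S.unit_sing w).2 h)
  have hw0 : w ≠ 0 := fun h => hww (by rw [h]; simp)
  have hnm : ∀ x, x ≠ 0 → S.B x w = 0 → x ∉ F ∙ w := by
    intro x hx0 hx hm
    obtain ⟨a, rfl⟩ := Submodule.mem_span_singleton.1 hm
    rw [S.B_smul_left] at hx
    exact hx0 (by rw [(mul_eq_zero.1 hx).resolve_right hww, zero_smul])
  have hu00 : u0 ≠ 0 := by
    rintro rfl
    apply hw0
    have : v = 0 := hS.right v fun z => by
      have := h3 z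
      rw [S.B_zero_right] at this
      exact (mul_eq_zero.1 this.symm).resolve_left hc0
    rw [hwdef, this, map_zero]
  have key : ∀ u ∈ axes S K w, ∀ d ∈ S.perp (F ∙ w), S.Sing d → S.B d u ≠ 0 → d ∈ axes S K w := by
    intro u hu d hd hds hdu
    have hud : S.B u d ≠ 0 := fun h => hdu (S.B_comm_zero h)
    obtain ⟨y, hy, hy'⟩ := exists_mem_notMem_of_finrank_lt (U := S.perp ((F ∙ w) ⊔ F ∙ d)) (W := F ∙ d) (by
      have h1 := hS.finrank_perp ((F ∙ w) ⊔ F ∙ d)
      have h2 := finrank_sup_span_le (F ∙ w) d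
      have h3 := finrank_span_singleton_le (F := F) w
      have h4 := finrank_span_singleton_le (F := F) d
      omega)
    rw [S.perp_sup] at hy
    have hyd := S.mem_perp_span_singleton.1 hy.2
    have hE : S.EichOK d y (S.Q y) := ⟨hds, hyd, by simp⟩
    have h1 := sub_mem (axes_eich hK w d y _ hE hd hy.1 u hu) hu
    rw [PQ.eich_apply] at h1
    simp only [FP.unit_ε, one_mul] at h1
    have := line_mem hS (axes_eich hK w) h1 hd hds (by simp [hds.B_self, hyd]) (fun hm => by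
      obtain ⟨z, hz, b, e⟩ := mem_sup_span_iff.1 hm
      obtain ⟨a, rfl⟩ := Submodule.mem_span_singleton.1 hz
      have e1 := congrArg (fun x => S.B x w) e
      simp only [PQ.B_add_left, PQ.B_sub_left, PQ.B_smul_left, S.mem_perp_span_singleton.1 hd,
        S.mem_perp_span_singleton.1 hy.1] at e1
      have ha : a = 0 := (mul_eq_zero.1 (show a * S.B w w = 0 by linear_combination -e1)).resolve_right hww
      refine hy' (Submodule.mem_span_singleton.2
        ⟨(S.B u d)⁻¹ * (S.B u y - S.Q y * S.B u d - b), ?_⟩)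
      have e2 : S.B u d • y = (S.B u y - S.Q y * S.B u d - b) • d := by
        rw [ha, zero_smul, zero_add] at e
        linear_combination (norm := module) -e
      rw [mul_smul, ← e2, smul_smul, inv_mul_cancel₀ hud, one_smul]) 1
    simpa using this
  have hA : ∀ e ∈ S.perp (F ∙ w), S.Sing e → e ∈ axes S K w := by
    intro e he hes
    by_cases he0 : e = 0
    · rw [he0]; exact zero_mem _
    obtain ⟨d, hd, hds, h1, h2⟩ := hP.exists_sing_perp_ne_ne hS (hnm u0 hu00 (S.B_comm_zero hu0.1))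
      (hnm e he0 (S.mem_perp_span_singleton.1 he)) (hX w)
    exact key d (key u0 hu0 d hd hds h1) e he hes (fun h => h2 (S.B_comm_zero h))
  refine mem_of_full hS hk hn hK hw0 (full_of_axes hS fun u hu => ?_)
  by_cases hu' : u = 0
  · rw [hu']; exact zero_mem _
  obtain ⟨e, he, hes, hxe⟩ := hP.exists_sing_perp_ne' hS (hnm u hu' hu) (hX w)
  exact mem_of_sing_ne hA (S.mem_perp_span_singleton.2 hu) he hes (fun h => hxe (S.B_comm_zero h))

end abstract

variable {ι : Type} [Fintype ι] [DecidableEq ι] {F : Type*} [Field F]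

theorem max_of_sim {P : FP F} {S : PQ P (ι → F)} (hS : S.Nondeg) (hn : 4 ≤ Fintype.card ι)
    (h : ∀ K, sisom S ≤ K → (∀ g ∈ K, ∃ c : F, c ≠ 0 ∧ ∀ x y, S.B (g x) (g y) = c * S.B x y) ∨
      ∀ g, LinearEquiv.det g = 1 → g ∈ K) :
    Geo.IsMaximalIn (Geo.specialLinear ι F) (Geo.similarityGroup S.B ⊓ Geo.specialLinear ι F) := by
  refine isMaximalIn_of_equiv toLE _ _ (fun g => LinearEquiv.det g = 1)
    (fun g => (∃ c : F, c ≠ 0 ∧ ∀ x y, S.B (g x) (g y) = c * S.B x y) ∧ LinearEquiv.det g = 1)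
    mem_SL_iff (fun g => ?_) (fun g h => h.2) (not_le_inf_of_not_le ?_) (fun M h1 h2 => ?_)
  · rw [Subgroup.mem_inf, mem_SL_iff]
    refine and_congr_left fun _ => ⟨?_, ?_⟩
    · rintro ⟨c, hc⟩; exact ⟨c, c.ne_zero, hc⟩
    · rintro ⟨c, hc, hc'⟩; exact ⟨Units.mk0 c hc, hc'⟩
  · refine SL_not_le_similarityGroup_aux (by omega) S.B_add_left S.B_smul_left (fun v hv => ?_)
    obtain ⟨y, hy⟩ := hS.exists_ne hv
    exact ⟨⟨y, hy⟩, ⟨y, fun h => hy (S.B_comm_zero h)⟩⟩
  · rcases h M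
      (fun g hg => h1 g ⟨⟨1, one_ne_zero, fun x y => by rw [PQ.B_isom hg.1, one_mul]⟩, hg.2⟩) with h | h
    · exact Or.inl fun g hg => ⟨h g hg, h2 g hg⟩
    · exact Or.inr h

theorem symp_max (hn : 4 ≤ Fintype.card ι) {f : (ι → F) → (ι → F) → F} (hf : Geo.IsSymplecticForm f) :
    Geo.IsMaximalIn (Geo.specialLinear ι F) (Geo.similarityGroup f ⊓ Geo.specialLinear ι F) :=
  max_of_sim (sympPQ_nondeg hf) hn fun _ hK => symp_max4 (sympPQ_nondeg hf) (by rwa [finrank_pi']) hK

theorem unit_max [Finite F] (hn : 4 ≤ Fintype.card ι) {σ : F ≃+* F} {f : (ι → F) → (ι → F) → F}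
    (hf : Geo.IsUnitaryForm σ f) :
    Geo.IsMaximalIn (Geo.specialLinear ι F) (Geo.similarityGroup f ⊓ Geo.specialLinear ι F) :=
  max_of_sim (unitPQ_nondeg hf) hn fun _ hK =>
    unit_max4 (trP_of_unitary hf) (unit_ne hf) (unitPQ_nondeg hf) (by rwa [finrank_pi']) hK

end Cfsg.Agent.H7.SL4b
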