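import Cfsg.Agent.H7.SL4b

/-!
The similarity group of a non-degenerate quadratic form in dimension four (odd characteristic) is
maximal in the special linear group.
-/

set_option autoImplicit false
set_option linter.unusedSectionVars false

namespace Cfsg.Agent.H7.SL4c

open Module Cfsg.Agent.Form Cfsg.Agent.H7 Cfsg.Agent.H1.Fill Cfsg.Agent.H7.SL4b
open scoped Matrix MatrixGroups

section abstract
variable {F : Type*} [Field F] {V : Type*} [AddCommGroup V] [Module F V] [FiniteDimensional F V]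
  {S S' : PQ (FP.orth F) V} {K : Subgroup (V ≃ₗ[F] V)}

theorem exists_rr (h2 : (2 : F) ≠ 0) {a b : V} (ha : S.Q a ≠ 0) (hb : S.Q b ≠ 0) :
    ∃ s ∈ sisom S, ∀ x, s x = x - ((S.Q b)⁻¹ * S.B x b) • b -
      ((S.Q a)⁻¹ * (S.B x a - (S.Q b)⁻¹ * S.B x b * S.B b a)) • a := by
  refine ⟨S.tau a _ (S.orth_tauOK ha) * S.tau b _ (S.orth_tauOK hb),
    ⟨mul_mem (S.tau_mem _ _ _) (S.tau_mem _ _ _), ?_⟩, fun x => ?_⟩
  · change LinearEquiv.det _ = 1
    apply Units.ext
    rw [map_mul, Units.val_mul, det_tau, det_tau, S.orth_B_self, S.orth_B_self, Units.val_one]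
    field_simp; ring
  · simp only [LinearEquiv.mul_apply, PQ.tau_apply, S.B_add_left, S.B_smul_left]
    module

/-- a form vanishing on the singular vectors of `S` is a multiple of `S` -/
theorem sim_of_sing (h2 : (2 : F) ≠ 0) (hS : S.Nondeg) (hk : SingK S 3) (hn : 4 ≤ finrank F V)
    (h : ∀ v, S.Q v = 0 → S'.Q v = 0) : ∃ c : F, ∀ x, S'.Q x = c * S.Q x := by
  obtain ⟨e, -, he0, he⟩ := hk ⊤ (by rw [finrank_top]; omega)
  obtain ⟨f, hf, hef⟩ := hS.exists_hyperbolic he he0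
  have hQe := (S.orth_sing e).1 he
  have hQf := (S.orth_sing f).1 hf
  have hfe : S.B f e = 1 := by rw [S.orth_B_swap, hef]
  let P : Submodule F V := LinearMap.ker (S.lin e) ⊓ LinearMap.ker (S.lin f)
  have hP : ∀ z ∈ P, S.B z e = 0 ∧ S.B z f = 0 := fun z hz => hz
  have h1 : ∀ z ∈ P, S'.Q z + S'.B e z - S.Q z * S'.B f z - S'.B e f * S.Q z = 0 := by
    intro z hz
    have := h (e + z - S.Q z • f) (by
      simp only [S.orth_Q_sub, S.orth_Q_add, S.orth_Q_smul, hQe, hQf, S.B_add_left, S.B_smul_right, hef,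
        (hP z hz).2, S.B_comm_zero (hP z hz).1, FP.orth_σ]
      ring)
    simp only [S'.orth_Q_sub, S'.orth_Q_add, S'.orth_Q_smul, h e hQe, h f hQf, S'.B_add_left,
      S'.B_smul_right, FP.orth_σ, S'.orth_B_swap f z] at this
    linear_combination this
  have h3 : ∀ z ∈ P, S'.B e z = S.Q z * S'.B f z := fun z hz => by
    have e1 := h1 z hz
    have e2 := h1 (-z) (neg_mem hz)
    simp only [S.orth_Q_neg, S'.orth_Q_neg, S'.B_neg_right] at e2
    exact mul_left_cancel₀ h2 (by linear_combination e1 - e2)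
  have h4 : ∀ z ∈ P, S'.Q z = S'.B e f * S.Q z := fun z hz => by
    linear_combination h1 z hz - h3 z hz
  have dec : ∀ x, x - S.B x f • e - S.B x e • f ∈ P := fun x =>
    ⟨by simp [he.B_self, hfe], by simp [hf.B_self, hef]⟩
  have h5 : ∀ z ∈ P, S'.B f z = 0 := by
    by_contra hc
    push Not at hc
    obtain ⟨k, ⟨hk1, hk2⟩, hk0⟩ := exists_ne_zero_of_finrank_pos
      (A := P ⊓ LinearMap.ker (S'.lin f)) (by
        have := finrank_le_finrank_ker_inf_ker (S.lin e) (S.lin f)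
        have := finrank_le_finrank_inf_ker P (S'.lin f)
        simp only [P] at *; omega)
    replace hk2 : S'.B f k = 0 := S'.B_comm_zero hk2
    obtain ⟨z, hz, a1, a2⟩ := exists_apply_ne_ne P (S.lin k).toAddMonoidHom (S'.lin f).toAddMonoidHom
      (by
        obtain ⟨x, hx⟩ := hS.exists_ne hk0
        refine ⟨_, dec x, ?_⟩
        simpa [S.B_comm_zero (hP k hk1).1, S.B_comm_zero (hP k hk1).2] using hx)
      (by obtain ⟨z, hz, hz'⟩ := hc; exact ⟨z, hz, fun h => hz' (S'.B_comm_zero h)⟩)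
    replace a1 : S.B z k ≠ 0 := a1
    replace a2 : S'.B f z ≠ 0 := fun h => a2 (S'.B_comm_zero h)
    have e1 := h3 _ (add_mem hk1 hz)
    have e2 := h3 _ (sub_mem hk1 hz)
    have e3 := h3 k hk1
    simp only [S'.B_add_right, S'.B_sub_right, S.orth_Q_add, S.orth_Q_sub, hk2, S.orth_B_swap z k] at e1 e2 e3
    exact mul_ne_zero h2 (mul_ne_zero a1 a2) (by linear_combination -e1 - e2 + 2 * e3)
  refine ⟨S'.B e f, fun x => ?_⟩
  obtain ⟨z, hz, s, t, rfl⟩ : ∃ z ∈ P, ∃ s t : F, x = z + s • e + t • f :=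
    ⟨_, dec x, S.B x f, S.B x e, by abel⟩
  have b1 : S'.B z e = 0 := by rw [S'.orth_B_swap, h3 z hz, h5 z hz, mul_zero]
  have b2 : S'.B z f = 0 := S'.B_comm_zero (h5 z hz)
  simp only [S.orth_Q_add, S'.orth_Q_add, S.orth_Q_smul, S'.orth_Q_smul, hQe, hQf, h e hQe, h f hQf,
    PQ.B_add_left, PQ.B_smul_left, PQ.B_smul_right, FP.orth_σ, b1, b2, (hP z hz).1, (hP z hz).2, hef,
    h4 z hz]
  ring

theorem not_ts (h2 : (2 : F) ≠ 0) (hS : S.Nondeg) (hn : finrank F V = 4) {w : V} (hw : S.Q w ≠ 0)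
    {R : Submodule F V} (hR : 2 ≤ finrank F R) (hRw : ∀ x ∈ R, S.B x w = 0) : ∃ a ∈ R, S.Q a ≠ 0 := by
  by_contra hc
  push Not at hc
  have hww : S.B w w ≠ 0 := by rw [S.orth_B_self]; exact mul_ne_zero h2 hw
  have h1 := Submodule.finrank_sup_span_singleton (show w ∉ R from fun h => hww (hRw w h))
  have h3 : R ⊔ F ∙ w ≤ S.perp R := sup_le ((S.orth_ts R).2 hc).le_perp (by
    rw [Submodule.span_singleton_le_iff_mem]
    exact fun x hx => S.B_comm_zero (hRw x hx))
  have := Submodule.finrank_mono h3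
  have := hS.finrank_perp R
  omega

theorem exists_sing_ne4 (h2 : (2 : F) ≠ 0) (hS : S.Nondeg) (hk : SingK S 3) (hn : finrank F V = 4) {w : V}
    (hw : S.Q w ≠ 0) {u : V} (hu : u ≠ 0) (huw : S.B u w = 0) :
    ∃ e ∈ S.perp (F ∙ w), S.Sing e ∧ S.B u e ≠ 0 := by
  have hww : S.B w w ≠ 0 := by rw [S.orth_B_self]; exact mul_ne_zero h2 hw
  have hnm : ∀ x, x ≠ 0 → S.B x w = 0 → x ∉ F ∙ w := by
    intro x hx0 hx hm
    obtain ⟨a, rfl⟩ := Submodule.mem_span_singleton.1 hm
    rw [S.B_smul_left] at hx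
    exact hx0 (by rw [(mul_eq_zero.1 hx).resolve_right hww, zero_smul])
  obtain ⟨d, hd, hd0, hds⟩ := hk (S.perp (F ∙ w)) (by
    have := hS.finrank_perp (F ∙ w)
    have := finrank_span_singleton_le (F := F) w
    omega)
  by_cases h : S.B u d = 0
  · refine exists_sing_ne hS (hnm u hu huw) (d := d) ?_ (hnm d hd0 (S.mem_perp_span_singleton.1 hd)) hds
    rw [S.perp_sup]
    exact ⟨hd, S.mem_perp_span_singleton.2 (S.B_comm_zero h)⟩
  · exact ⟨d, hd, hds, h⟩

theorem mem_of_sing4 (h2 : (2 : F) ≠ 0) (hS : S.Nondeg) (hk : SingK S 3) (hn : finrank F V = 4) {w : V}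
    (hw : S.Q w ≠ 0) {A : AddSubgroup V} (hA : ∀ d ∈ S.perp (F ∙ w), S.Sing d → d ∈ A) {u : V}
    (huw : S.B u w = 0) : u ∈ A := by
  by_cases hu : u = 0
  · rw [hu]; exact zero_mem _
  obtain ⟨e, he, hes, h⟩ := exists_sing_ne4 h2 hS hk hn hw hu huw
  exact mem_of_sing_ne hA (S.mem_perp_span_singleton.2 huw) he hes h

/-- a transvection with non-singular centre generates everything -/
theorem mem_of_trans (h2 : (2 : F) ≠ 0) (hS : S.Nondeg) (hk : SingK S 3) (hn : finrank F V = 4)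
    (hK : sisom S ≤ K) {w : V} (hw : S.Q w ≠ 0) {φ : Dual F V} (h : Has K φ w) (hφw : φ w = 0)
    (hφ : φ ≠ 0) (g : V ≃ₗ[F] V) (hg : LinearEquiv.det g = 1) : g ∈ K := by
  have hww : S.B w w ≠ 0 := by rw [S.orth_B_self]; exact mul_ne_zero h2 hw
  obtain ⟨u0, rfl⟩ := hS.exists_lin φ
  have hu0 : u0 ∈ axes S K w := ⟨hφw, h⟩
  have hu00 : u0 ≠ 0 := by rintro rfl; exact hφ (by ext; simp)
  have key : ∀ u ∈ axes S K w, ∀ d ∈ S.perp (F ∙ w), S.Sing d → S.B u d ≠ 0 → ∀ c : F,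
      c • d ∈ axes S K w := by
    intro u hu d hd hds hud
    obtain ⟨y, hy, hy'⟩ := exists_mem_notMem_of_finrank_lt (U := S.perp ((F ∙ w) ⊔ F ∙ d)) (W := F ∙ d) (by
      have h1 := hS.finrank_perp ((F ∙ w) ⊔ F ∙ d)
      have h2 := finrank_sup_span_le (F ∙ w) d
      have h3 := finrank_span_singleton_le (F := F) w
      have h4 := finrank_span_singleton_le (F := F) d
      omega)
    rw [S.perp_sup] at hy
    have hyd := S.mem_perp_span_singleton.1 hy.2
    have hE : S.EichOK d y (S.Q y) := ⟨hds, hyd, by simp⟩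
    have h1 := sub_mem (axes_eich hK w d y _ hE hd hy.1 u hu) hu
    rw [PQ.eich_apply] at h1
    simp only [FP.orth_ε, one_mul] at h1
    exact line_mem hS (axes_eich hK w) h1 hd hds (by simp [hds.B_self, hyd]) (fun hm => by
      obtain ⟨z, hz, b, e⟩ := mem_sup_span_iff.1 hm
      obtain ⟨a, rfl⟩ := Submodule.mem_span_singleton.1 hz
      have e1 := congrArg (fun x => S.B x w) e
      simp only [PQ.B_add_left, PQ.B_sub_left, PQ.B_smul_left, S.mem_perp_span_singleton.1 hd,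
        S.mem_perp_span_singleton.1 hy.1] at e1
      have ha : a = 0 := (mul_eq_zero.1 (show a * S.B w w = 0 by linear_combination -e1)).resolve_right hww
      refine hy' (Submodule.mem_span_singleton.2
        ⟨(S.B u d)⁻¹ * (S.B u y - S.Q y * S.B u d - b), ?_⟩)
      have e2 : S.B u d • y = (S.B u y - S.Q y * S.B u d - b) • d := by
        rw [ha, zero_smul, zero_add] at e
        linear_combination (norm := module) -e
      rw [mul_smul, ← e2, smul_smul, inv_mul_cancel₀ hud, one_smul])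
  obtain ⟨d, hd, hds, hud⟩ := exists_sing_ne4 h2 hS hk hn hw hu00 (S.B_comm_zero hφw)
  have hd0 : d ≠ 0 := by rintro rfl; simp at hud
  have hA : ∀ e ∈ S.perp (F ∙ w), S.Sing e → e ∈ axes S K w := by
    intro e he hes
    by_cases hde : S.B d e = 0
    · by_cases hm : e ∈ F ∙ d
      · obtain ⟨c, rfl⟩ := Submodule.mem_span_singleton.1 hm
        exact key u0 hu0 d hd hds hud c
      · exfalso
        obtain ⟨a, ha, hQa⟩ := not_ts h2 hS hn hw (R := (F ∙ d) ⊔ F ∙ e) (by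
          rw [Submodule.finrank_sup_span_singleton hm, finrank_span_singleton hd0]) (by
          intro x hx
          obtain ⟨z, hz, b, rfl⟩ := mem_sup_span_iff.1 hx
          obtain ⟨a, rfl⟩ := Submodule.mem_span_singleton.1 hz
          simp [S.mem_perp_span_singleton.1 hd, S.mem_perp_span_singleton.1 he])
        obtain ⟨z, hz, b, rfl⟩ := mem_sup_span_iff.1 ha
        obtain ⟨a, rfl⟩ := Submodule.mem_span_singleton.1 hz
        exact hQa ((S.orth_sing _).1 ((hds.smul a).add (hes.smul b) (by simp [hde])))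
    · simpa using key d (by simpa using key u0 hu0 d hd hds hud 1) e he hes hde 1
  have hwc : w ∈ fullCenters K := full_of_axes hS fun u hu => mem_of_sing4 h2 hS hk hn hw hA hu
  refine mem_of_fullCenters_eq_top (eq_top_iff.2 fun u _ => ?_) g hg
  have h1 : u - ((S.B w w)⁻¹ * S.B u w) • w ∈ (fullCenters K).toAddSubgroup := by
    refine mem_of_sing4 h2 hS hk hn hw (fun e he hes => ?_) (by
      rw [S.B_sub_left, S.B_smul_left]; field_simp; ring)
    have he' := S.B_comm_zero (S.mem_perp_span_singleton.1 he)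
    have hQ : S.Q (w + e) = S.Q w := by rw [S.orth_Q_add, (S.orth_sing e).1 hes, he']; ring
    obtain ⟨s, hs, es⟩ := exists_rr h2 (a := w + e) (b := w) (by rwa [hQ]) hw
    have h3 := add_mem (fullCenters_apply hwc (hK hs)) (neg_mem hwc)
    have h4 : s w + -w = (2 : F) • e := by
      rw [es, hQ, S.B_add_right, he', S.orth_B_self]
      match_scalars <;> field_simp <;> ring
    rw [h4] at h3
    have := (fullCenters K).smul_mem (2 : F)⁻¹ h3
    rwa [smul_smul, inv_mul_cancel₀ h2, one_smul] at this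
  simpa using add_mem h1 ((fullCenters K).smul_mem ((S.B w w)⁻¹ * S.B u w) hwc)

/-- `K` contains no transvection with centre `w`. -/
def NoT (K : Subgroup (V ≃ₗ[F] V)) (w : V) : Prop := ∀ φ : Dual F V, Has K φ w → φ w = 0 → φ = 0

section two
variable (h2 : (2 : F) ≠ 0) (hK : sisom S ≤ K)
  (hK' : ∀ d y q (h : S'.EichOK d y q), S'.eich d y q h ∈ K) {w : V} (hw : S.Q w ≠ 0) (hw' : S'.Q w = 0)
  (hN : NoT K w)
include h2 hK hK' hw hw' hN

theorem bad {a y : V} (hQa : S.Q a ≠ 0) (ha : S.B a w = 0) (ha' : S'.B a w = 0) (hy : S.B y w = 0)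
    (hy' : S'.B y w = 0) (hya : S.B y a = 0) :
    S'.Q y = 0 ∧ ∃ l : F, ∀ z, S'.B z y = l * S.B z a := by
  have hv : S'.Sing w := (S'.orth_sing w).2 hw'
  have hwa : S.B w a = 0 := S.B_comm_zero ha
  obtain ⟨s, hsK, hs⟩ := exists_rr h2 hw hQa
  simp only [ha, mul_zero, sub_zero] at hs
  have hsw : s w = -w := by
    rw [hs, hwa, S.orth_B_self, ← mul_assoc, mul_comm _ 2, mul_assoc, inv_mul_cancel₀ hw]; module
  have hsβ : ∀ x, S'.B (s x) w = S'.B x w := fun x => by simp [hs, ha', hv.B_self]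
  have hsW : ∀ x, S.B x w = 0 → S.B x a = 0 → s x = x := fun x e1 e2 => by simp [hs, e1, e2]
  have hE : S'.EichOK w y (S'.Q y) := ⟨hv, hy', by simp⟩
  let e : V ≃ₗ[F] V := S'.eich w y _ hE
  have heK : e ∈ K := hK' _ _ _ hE
  let α : Dual F V := S'.lin y - S'.Q y • S'.lin w
  have he : ∀ z, e z = z + α z • w - S'.B z w • y := fun z => by simp [e, α]
  have hαw : α w = 0 := by simp [α, S'.B_comm_zero hy', hv.B_self]
  have hew : e w = w := by rw [he, hαw, hv.B_self]; simp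
  let φ : Dual F V := -((α ∘ₗ (s.symm : V →ₗ[F] V)) + α) ∘ₗ (e.symm : V →ₗ[F] V)
  have hφ : ∀ z, φ (e z) = -(α (s.symm z) + α z) := fun z => by simp [φ]
  have hhas : Has K φ w := by
    refine ⟨s * e * s⁻¹ * e⁻¹, mul_mem (mul_mem (mul_mem (hK hsK) heK) (inv_mem (hK hsK))) (inv_mem heK),
      fun z => ?_⟩
    obtain ⟨z, rfl⟩ := e.surjective z
    obtain ⟨z, rfl⟩ := s.surjective z
    rw [hφ]
    simp only [LinearEquiv.mul_apply, LinearEquiv.coe_inv, LinearEquiv.symm_apply_apply]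
    rw [he z, he (s z), map_sub, map_add, map_smul, map_smul, hsw, hsW _ hy hya, hsβ]
    module
  have hφw : φ w = 0 := by
    have e1 : s.symm w = -w := by rw [LinearEquiv.symm_apply_eq, map_neg, hsw, neg_neg]
    rw [← hew, hφ, e1, map_neg, hαw]; simp
  have h0 := hN φ hhas hφw
  have h1 : ∀ x, S.B x w = 0 → S.B x a = 0 → α x = 0 := by
    intro x e1 e2
    have e3 : s.symm x = x := by rw [LinearEquiv.symm_apply_eq, hsW _ e1 e2]
    have := hφ x
    rw [h0, e3, ← two_mul] at this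
    simpa [h2] using this
  have h3 : S'.Q y = 0 := by
    have := h1 y hy hya
    simpa [α, hy', S'.orth_B_self, h2] using this
  refine ⟨h3, (2 * S.Q a)⁻¹ * S'.B a y, fun z => ?_⟩
  have := h1 (z - ((2 * S.Q a)⁻¹ * S.B z a) • a - ((2 * S.Q w)⁻¹ * S.B z w) • w)
    (by simp only [S.B_sub_left, S.B_smul_left, ha, S.orth_B_self]; field_simp; ring)
    (by simp only [S.B_sub_left, S.B_smul_left, hwa, S.orth_B_self]; field_simp; ring)
  simp only [α, h3, zero_smul, sub_zero, PQ.lin_apply, S'.B_sub_left, S'.B_smul_left,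
    S'.B_comm_zero hy'] at this
  linear_combination this

theorem bad_core {x p r : V} {l m : F} (hm : m ≠ 0) (hQp : S.Q p ≠ 0) (hQr : S.Q r ≠ 0)
    (hQx : S.Q x = S.Q r) (hQp' : S'.Q p = 0) (hQr' : S'.Q r = 0) (hxw : S.B x w = 0) (hpw : S.B p w = 0)
    (hrw : S.B r w = 0) (hpx : S.B p x = 0) (hrx : S.B r x = 0) (hpr : S.B p r = 0)
    (h1 : ∀ z, S'.B z w = S.B z x) (h3 : ∀ z, S'.B z p = l * S.B z r) (h4 : ∀ z, S'.B z r = m * S.B z p) :
    False := by
  have hv : S'.Sing w := (S'.orth_sing w).2 hw'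
  have hwx := S.B_comm_zero hxw
  have hwp := S.B_comm_zero hpw
  have hwr := S.B_comm_zero hrw
  have hxp := S.B_comm_zero hpx
  have hxr := S.B_comm_zero hrx
  have hrp := S.B_comm_zero hpr
  have hxx : S.B x x = 2 * S.Q r := by rw [S.orth_B_self, hQx]
  have hrr : S.B r r = 2 * S.Q r := S.orth_B_self r
  have hpp : S.B p p = 2 * S.Q p := S.orth_B_self p
  have E1 : ∀ t : F, ∃ e ∈ K, ∀ z, e z = z + (t * l * S.B z r) • w - (t * S.B z x) • p := fun t => by
    have hE : S'.EichOK w (t • p) 0 := ⟨hv, by simp [h1, hpx], by simp [S'.orth_Q_smul, hQp']⟩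
    refine ⟨_, hK' _ _ _ hE, fun z => ?_⟩
    simp only [PQ.eich_apply, S'.B_smul_right, h1, h3, FP.orth_σ, FP.orth_ε]
    module
  have E2 : ∀ t : F, ∃ e ∈ K, ∀ z, e z = z + (t * m * S.B z p) • w - (t * S.B z x) • r := fun t => by
    have hE : S'.EichOK w (t • r) 0 := ⟨hv, by simp [h1, hrx], by simp [S'.orth_Q_smul, hQr']⟩
    refine ⟨_, hK' _ _ _ hE, fun z => ?_⟩
    simp only [PQ.eich_apply, S'.B_smul_right, h1, h4, FP.orth_σ, FP.orth_ε]
    module
  have hd : S.Q (x - r) = 2 * S.Q r := by rw [S.orth_Q_sub, hQx, hxr]; ring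
  obtain ⟨s, hsK, hs⟩ := exists_rr h2 (a := x - r) (by rw [hd]; exact mul_ne_zero h2 hQr) hw
  have sw : s w = -w := by
    simp only [hs, hd, S.B_sub_right, hwx, hwr, S.orth_B_self]
    match_scalars <;> field_simp <;> ring
  have sp : s p = p := by simp [hs, hpw, hpx, hpr]
  have sx : s x = r := by
    simp only [hs, hd, S.B_sub_right, hxw, hxx, hxr]
    match_scalars <;> field_simp <;> ring
  have sr : s r = x := by
    simp only [hs, hd, S.B_sub_right, hrw, hrx, hrr]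
    match_scalars <;> field_simp <;> ring
  have sB : ∀ z y, S.B (s.symm z) y = S.B z (s y) := fun z y => by
    rw [← PQ.B_isom hsK.1, LinearEquiv.apply_symm_apply]
  have F1 : ∀ t : F, ∃ e ∈ K, ∀ z, e z = z - (t * l * S.B z x) • w - (t * S.B z r) • p := fun t => by
    obtain ⟨e, he, e'⟩ := E1 t
    refine ⟨s * e * s⁻¹, mul_mem (mul_mem (hK hsK) he) (inv_mem (hK hsK)), fun z => ?_⟩
    simp only [LinearEquiv.mul_apply, LinearEquiv.coe_inv, e', map_add, map_sub, map_smul, sB, sw, sp, sx,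
      sr, LinearEquiv.apply_symm_apply]
    module
  have F2 : ∀ t : F, ∃ e ∈ K, ∀ z, e z = z - (t * m * S.B z p) • w - (t * S.B z r) • x := fun t => by
    obtain ⟨e, he, e'⟩ := E2 t
    refine ⟨s * e * s⁻¹, mul_mem (mul_mem (hK hsK) he) (inv_mem (hK hsK)), fun z => ?_⟩
    simp only [LinearEquiv.mul_apply, LinearEquiv.coe_inv, e', map_add, map_sub, map_smul, sB, sw, sp, sx,
      sr, LinearEquiv.apply_symm_apply]
    module
  obtain ⟨a1, b1, c1⟩ := E1 1
  obtain ⟨a2, b2, c2⟩ := F2 1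
  obtain ⟨a3, b3, c3⟩ := E1 (-1)
  obtain ⟨a4, b4, c4⟩ := F2 (-1)
  obtain ⟨a5, b5, c5⟩ := F1 (2 * S.Q r)
  have h0 := hN (-(m * (2 * S.Q p) + 2 * S.Q r * l) • S.lin x - (2 * S.Q r * m * (2 * S.Q p)) • S.lin r)
    ⟨a1 * a2 * a3 * a4 * a5, mul_mem (mul_mem (mul_mem (mul_mem b1 b2) b3) b4) b5, fun z => by
      simp only [LinearEquiv.mul_apply, c1, c2, c3, c4, c5, S.B_add_left, S.B_sub_left, S.B_smul_left,
        hwx, hwp, hwr, hxp, hxr, hrp, hxx, hpp, hpx, hpr, LinearMap.sub_apply, LinearMap.smul_apply,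
        PQ.lin_apply, smul_eq_mul]
      module⟩ (by simp [hwx, hwr])
  have := LinearMap.congr_fun h0 r
  simp [hrx, hrr, h2, hm, hQp, hQr] at this

theorem not_noT (hS : S.Nondeg) (hS' : S'.Nondeg) (hn : finrank F V = 4) : False := by
  have hv : S'.Sing w := (S'.orth_sing w).2 hw'
  have hw0 : w ≠ 0 := by rintro rfl; exact hw S.orth_Q_zero
  have hb := fun {a y : V} => bad (a := a) (y := y) h2 hK hK' hw hw' hN
  have hd := finrank_le_finrank_ker_inf_ker (S.lin w) (S'.lin w)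
  obtain ⟨a, ⟨ha, ha'⟩, hQa⟩ := not_ts h2 hS hn hw (R := LinearMap.ker (S.lin w) ⊓ LinearMap.ker (S'.lin w))
    (by omega) (fun x hx => hx.1)
  obtain ⟨b, ⟨⟨hb1, hb'⟩, hba⟩, hb0⟩ := exists_ne_zero_of_finrank_pos
    (A := (LinearMap.ker (S.lin w) ⊓ LinearMap.ker (S'.lin w)) ⊓ LinearMap.ker (S.lin a)) (by
      have := finrank_le_finrank_inf_ker (LinearMap.ker (S.lin w) ⊓ LinearMap.ker (S'.lin w)) (S.lin a)
      omega)
  replace ha : S.B a w = 0 := ha
  replace ha' : S'.B a w = 0 := ha'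
  replace hb1 : S.B b w = 0 := hb1
  replace hb' : S'.B b w = 0 := hb'
  replace hba : S.B b a = 0 := hba
  have hab := S.B_comm_zero hba
  have haa : S.B a a ≠ 0 := by rw [S.orth_B_self]; exact mul_ne_zero h2 hQa
  obtain ⟨hQb', l, hl⟩ := hb hQa ha ha' hb1 hb' hba
  have hl0 : l ≠ 0 := by
    rintro rfl
    exact hb0 (hS'.right b fun z => by rw [hl, zero_mul])
  by_cases hQb : S.Q b = 0
  · have hbb : S.B b b = 0 := by rw [S.orth_B_self, hQb, mul_zero]
    obtain ⟨-, l', hl'⟩ := hb (a := a + b) (y := b) (by rw [S.orth_Q_add, hQb, hab]; simpa using hQa)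
      (by simp [ha, hb1]) (by simp [ha', hb']) hb1 hb' (by simp [hba, hbb])
    have e1 := hl' a
    rw [hl, S.B_add_right, hab, add_zero] at e1
    have e2 : l = l' := mul_right_cancel₀ haa e1
    subst e2
    refine hb0 (hS.right b fun z => ?_)
    have e3 := hl' z
    rw [hl, S.B_add_right] at e3
    exact (mul_eq_zero.1 (show l * S.B z b = 0 by linear_combination -e3)).resolve_left hl0
  obtain ⟨hQa', m, hm⟩ := hb hQb hb1 hb' ha ha' hab
  have hm0 : m ≠ 0 := by
    rintro rfl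
    exact hQa (by rw [hS'.right a fun z => by rw [hm, zero_mul], S.orth_Q_zero])
  have h3 : ∀ c : F, c ≠ 0 → S.Q a + c ^ 2 * S.Q b = 0 := by
    intro c hc
    by_contra hne
    obtain ⟨e1, -⟩ := hb (a := a + c • b) (y := (c * S.Q b) • a - S.Q a • b)
      (by rw [S.orth_Q_add, S.orth_Q_smul]; simpa [hab] using hne)
      (by simp [ha, hb1]) (by simp [ha', hb']) (by simp [ha, hb1]) (by simp [ha', hb'])
      (by simp [hab, hba, S.orth_B_self]; ring)
    simp only [S'.orth_Q_sub, S'.orth_Q_smul, hQa', hQb', S'.B_smul_left, S'.B_smul_right, hl,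
      FP.orth_σ] at e1
    simp [hc, hQb, hQa, hl0, haa] at e1
  obtain ⟨x, hx⟩ := hS.exists_lin (S'.lin w)
  have h1 : ∀ z, S'.B z w = S.B z x := fun z => (LinearMap.congr_fun hx z).symm
  have hx0 : x ≠ 0 := by
    rintro rfl
    exact hw0 (hS'.right w fun z => by rw [h1]; simp)
  have hwx : S.B w x = 0 := by rw [← h1, hv.B_self]
  have hax : S.B a x = 0 := by rw [← h1, ha']
  have hbx : S.B b x = 0 := by rw [← h1, hb']
  have hQx : S.Q x ≠ 0 := by
    intro hQx
    have hli : LinearIndependent F ![w, a, b, x] := by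
      rw [Fintype.linearIndependent_iff]
      intro c hc
      rw [Fin.sum_univ_four] at hc
      simp only [Matrix.cons_val_zero, Matrix.cons_val_one, Matrix.cons_val] at hc
      have e0 := congrArg (fun z => S.B z w) hc
      have e1 := congrArg (fun z => S.B z a) hc
      have e2 := congrArg (fun z => S.B z b) hc
      simp [ha, hb1, S.B_comm_zero hwx, S.B_comm_zero ha, S.B_comm_zero hb1, hab, hba, S.B_comm_zero hax,
        S.B_comm_zero hbx, S.orth_B_self, h2, hw, hQa, hQb] at e0 e1 e2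
      rw [e0, e1, e2] at hc
      simp [hx0] at hc
      intro i
      fin_cases i
      exacts [e0, e1, e2, hc]
    have h4 := hli.span_eq_top_of_card_eq_finrank' (by simp [hn])
    refine hx0 (hS.right x fun z => ?_)
    have hz : z ∈ Submodule.span F (Set.range ![w, a, b, x]) := h4 ▸ trivial
    refine (Submodule.span_le (p := LinearMap.ker (S.lin x))).2 ?_ hz
    rintro _ ⟨i, rfl⟩
    fin_cases i
    exacts [hwx, hax, hbx, by simp [S.orth_B_self, hQx]]
  have e1 := h3 1 one_ne_zero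
  have e2 := h3 (S.Q x / S.Q b) (div_ne_zero hQx hQb)
  have e3 : (S.Q x - S.Q b) * (S.Q x - S.Q a) = 0 := by
    field_simp at e2
    linear_combination e2 - (S.Q x) * e1
  rcases mul_eq_zero.1 e3 with e4 | e4
  · exact bad_core h2 hK hK' hw hw' hN hl0 hQa hQb (sub_eq_zero.1 e4) hQa' hQb' (S.B_comm_zero hwx) ha hb1
      hax hbx hab h1 hm hl
  · exact bad_core h2 hK hK' hw hw' hN hm0 hQb hQa (sub_eq_zero.1 e4) hQb' hQa' (S.B_comm_zero hwx) hb1 ha
      hbx hax hba h1 hl hm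

end two

theorem orth_max4 (h2 : (2 : F) ≠ 0) (hS : S.Nondeg) (hk : SingK S 3) (hn : finrank F V = 4)
    (hK : sisom S ≤ K) :
    (∀ g ∈ K, ∃ c : F, c ≠ 0 ∧ ∀ x, S.Q (g x) = c * S.Q x) ∨ ∀ g, LinearEquiv.det g = 1 → g ∈ K := by
  by_cases h : ∀ g ∈ K, ∀ v, S.Q v = 0 → S.Q (g v) = 0
  · left
    intro g hg
    obtain ⟨c, hc⟩ := sim_of_sing (S' := S.comap (g : V →ₗ[F] V)) h2 hS hk hn.ge (h g hg)
    refine ⟨c, ?_, hc⟩
    rintro rfl
    obtain ⟨a, -, ha⟩ := H1.C8.exists_nonsing hS (U := ⊤) (by rw [finrank_top]; omega)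
    exact ha (by simpa using hc (g.symm a))
  right
  push Not at h
  obtain ⟨g, hg, v, hv, hw⟩ := h
  let S' := S.comap (g.symm : V →ₗ[F] V)
  have hS' : S'.Nondeg := fun x hx => by
    have := hS (g.symm x) fun y => by simpa [S'] using hx (g y)
    simpa using this
  have hK' : ∀ d y q (h : S'.EichOK d y q), S'.eich d y q h ∈ K := by
    intro d y q h
    have h' : S.EichOK (g.symm d) (g.symm y) q := ⟨h.1, h.2, h.3⟩
    have : S'.eich d y q h = g * S.eich _ _ q h' * g⁻¹ := by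
      ext z; simp [S']
    rw [this]
    exact mul_mem (mul_mem hg (hK (eich_mem_sisom S _ _ _ h'))) (inv_mem hg)
  by_contra hc
  refine not_noT h2 hK hK' hw (by simpa [S'] using hv) (fun φ h1 h3 => ?_) hS hS' hn
  by_contra h4
  exact hc (mem_of_trans h2 hS hk hn hK hw h1 h3 h4)

end abstract

variable {ι : Type} [Fintype ι] [DecidableEq ι] {F : Type*} [Field F]

theorem quad_max [Fintype F] (hn : Fintype.card ι = 4) (hodd : Odd (Fintype.card F))
    {Q : (ι → F) → F} (hQ : Geo.IsNondegenerateQuadraticForm Q) :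
    Geo.IsMaximalIn (Geo.specialLinear ι F) (Geo.quadSimilarityGroup Q ⊓ Geo.specialLinear ι F) := by
  have hk : SingK (quadPQ hQ) 3 := by
    intro U hU
    obtain ⟨Q', hQ', -⟩ := H8.exists_quadraticForm hQ
    obtain ⟨v, hv, hv0, hv'⟩ := H8.exists_sing_three Q' hU
    exact ⟨v, hv, hv0, ((quadPQ hQ).orth_sing v).2 (by rw [quadPQ_Q, ← hQ']; exact hv')⟩
  refine isMaximalIn_of_equiv toLE _ _ (fun g => LinearEquiv.det g = 1)
    (fun g => (∃ c : F, c ≠ 0 ∧ ∀ x, Q (g x) = c * Q x) ∧ LinearEquiv.det g = 1)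
    mem_SL_iff (fun g => ?_) (fun g h => h.2)
    (not_le_inf_of_not_le (SL_not_le_quadSimilarityGroup (by omega) hQ)) (fun M h1 h2 => ?_)
  · rw [Subgroup.mem_inf, mem_SL_iff]
    refine and_congr_left fun _ => ⟨?_, ?_⟩
    · rintro ⟨c, hc⟩; exact ⟨c, c.ne_zero, hc⟩
    · rintro ⟨c, hc, hc'⟩; exact ⟨Units.mk0 c hc, hc'⟩
  · rcases orth_max4 (two_ne_zero_of_odd_card hodd) (quadPQ_nondeg hQ) hk (K := M) (by rwa [finrank_pi'])
      (fun g hg => h1 g ⟨⟨1, one_ne_zero, fun x => by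
        rw [one_mul]; exact ((quadPQ hQ).orth_mem_isom g).1 hg.1 x⟩, hg.2⟩) with h | h
    · exact Or.inl fun g hg => ⟨h g hg, h2 g hg⟩
    · exact Or.inr h

end Cfsg.Agent.H7.SL4c
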