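import Cfsg.Agent.H7.OmX1
import Cfsg.Agent.H6.SUC1

/-!
Unitary groups: field extension subgroups, lemmas on fields.
-/

set_option autoImplicit false
set_option linter.unusedSectionVars false

namespace Cfsg.Agent.H7

open Module
open scoped Matrix

/-- Chevalley--Warning for the diagonal of a multilinear form. -/
theorem exists_zero_multi {E W ι : Type*} [Field E] [Finite E] [AddCommGroup W] [Module E W] [FiniteDimensional E W]
    [Fintype ι] [Nonempty ι] (μ : MultilinearMap E (fun _ : ι => W) E) (h : Fintype.card ι < finrank E W) :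
    ∃ w, w ≠ 0 ∧ μ (fun _ => w) = 0 := by
  classical
  have := Fintype.ofFinite E
  obtain ⟨p, hp⟩ := CharP.exists E
  have hpp : p.Prime := CharP.char_is_prime E p
  let e := finBasis E W
  let P : MvPolynomial (Fin (finrank E W)) E :=
    ∑ j : ι → Fin (finrank E W), MvPolynomial.C (μ fun a => e (j a)) * ∏ a, MvPolynomial.X (j a)
  have hd : P.totalDegree ≤ Fintype.card ι := by
    refine MvPolynomial.totalDegree_finsetSum_le fun j _ => (MvPolynomial.totalDegree_mul _ _).trans ?_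
    rw [MvPolynomial.totalDegree_C, zero_add]
    refine (MvPolynomial.totalDegree_finsetProd _ _).trans ?_
    simp [MvPolynomial.totalDegree_X]
  have hev : ∀ x : Fin (finrank E W) → E, MvPolynomial.eval x P = μ fun _ => ∑ j, x j • e j := fun x => by
    rw [μ.map_sum fun _ j => x j • e j]
    simp [P, μ.map_smul_univ, mul_comm]
  have hdiv := char_dvd_card_solutions p (f := P) (by simpa using hd.trans_lt h)
  have z0 : MvPolynomial.eval 0 P = 0 := by rw [hev]; simp only [Pi.zero_apply, zero_smul, Finset.sum_const_zero]; exact μ.map_zero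
  replace hdiv : p ∣ Nat.card { x : Fin (finrank E W) → E // MvPolynomial.eval x P = 0 } := by
    rw [Nat.card_eq_fintype_card]; convert hdiv
  have : Nonempty { x : Fin (finrank E W) → E // MvPolynomial.eval x P = 0 } := ⟨⟨0, z0⟩⟩
  have := Finite.one_lt_card_iff_nontrivial.1 (hpp.one_lt.trans_le (Nat.le_of_dvd Nat.card_pos hdiv))
  obtain ⟨⟨x, hx⟩, hx0⟩ := exists_ne (⟨0, z0⟩ : { x // MvPolynomial.eval x P = 0 })
  exact ⟨∑ j, x j • e j, fun e0 => hx0 (Subtype.ext (funext
    (Fintype.linearIndependent_iff.1 e.linearIndependent x e0))), (hev x).symm.trans hx⟩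

variable {F K : Type*} [Field F] [Field K] [Algebra F K] [Finite F] [FiniteDimensional F K]

/-- The fixed field of `σ`. -/
abbrev fixF (σ : F →+* F) : Subfield F := σ.eqLocusField (RingHom.id F)

/-- Compatible involutions. -/
structure FI (σ : F →+* F) (s : K →+* K) : Prop where
  σσ : ∀ a, σ (σ a) = a
  ss : ∀ a, s (s a) = a
  ne : ∃ a, σ a ≠ a
  sF : ∀ c, s (algebraMap F K c) = algebraMap F K (σ c)

variable {σ : F →+* F} {s : K →+* K} {τ : K →ₗ[F] F}

namespace FI

theorem s_smul (h : FI σ s) (c : F) (k : K) : s (c • k) = σ c • s k := by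
  rw [Algebra.smul_def, map_mul, h.sF, Algebra.smul_def]

theorem neK (h : FI σ s) : ∃ a, s a ≠ a := by
  obtain ⟨a, ha⟩ := h.ne
  exact ⟨algebraMap F K a, by rw [h.sF]; exact (algebraMap F K).injective.ne ha⟩

theorem dec (h : FI σ s) {θ : F} (hθ : σ θ ≠ θ) (k : K) : ∃ a b, s a = a ∧ s b = b ∧ k = a + θ • b := by
  have h0 : θ - σ θ ≠ 0 := sub_ne_zero.2 hθ.symm
  have h1 : σ θ - θ ≠ 0 := sub_ne_zero.2 hθ
  refine ⟨k - θ • (θ - σ θ)⁻¹ • (k - s k), (θ - σ θ)⁻¹ • (k - s k), ?_, ?_, by simp⟩ <;>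
  · simp only [map_sub, h.s_smul, map_inv₀, h.σσ, h.ss]
    match_scalars <;> field_simp <;> ring

theorem uq (h : FI σ s) {θ : F} (hθ : σ θ ≠ θ) {a b : K} (ha : s a = a) (hb : s b = b) (e : a + θ • b = 0) :
    a = 0 ∧ b = 0 := by
  have e' := congrArg s e
  rw [map_add, h.s_smul, ha, hb, map_zero] at e'
  have : b = 0 := (smul_eq_zero.1 (show (σ θ - θ) • b = 0 by linear_combination (norm := module) e' - e)).resolve_left
    (sub_ne_zero.2 hθ)
  exact ⟨by simpa [this] using e, this⟩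

/-- The fixed points of `s`. -/
def K0 (h : FI σ s) : Submodule (fixF σ) K where
  carrier := {k | s k = k}
  add_mem' {a b} ha hb := by simp_all
  zero_mem' := map_zero s
  smul_mem' c k hk := (h.s_smul c k).trans (by rw [show σ c = c from c.2, show s k = k from hk]; rfl)

/-- The map `(a, b) ↦ (a + θ b) l`. -/
def cmb (X : Submodule (fixF σ) K) (θ : F) (l : K) : X × X →ₗ[fixF σ] K where
  toFun x := (x.1 + θ • x.2) * l
  map_add' x y := by simp [add_mul]; abel
  map_smul' c x := by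
    simp only [Prod.smul_fst, Prod.smul_snd, Submodule.coe_smul, RingHom.id_apply, smul_comm θ c, ← smul_add,
      smul_mul_assoc]

theorem cmb_inj (h : FI σ s) {X : Submodule (fixF σ) K} (hX : X ≤ h.K0) {θ : F} (hθ : σ θ ≠ θ) {l : K} (hl : l ≠ 0) :
    Function.Injective (cmb X θ l) := (injective_iff_map_eq_zero _).2 fun x e => by
  have := h.uq hθ (hX x.1.2) (hX x.2.2) ((mul_eq_zero.1 e).resolve_right hl)
  exact Prod.ext (Subtype.ext this.1) (Subtype.ext this.2)

theorem two_mul_K0 (h : FI σ s) : 2 * finrank (fixF σ) h.K0 = finrank (fixF σ) K := by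
  obtain ⟨θ, hθ⟩ := h.ne
  have : FiniteDimensional (fixF σ) K := Module.Finite.trans F K
  rw [two_mul, ← finrank_prod]
  refine (LinearEquiv.ofBijective (cmb h.K0 θ 1) ⟨h.cmb_inj le_rfl hθ one_ne_zero, fun k => ?_⟩).finrank_eq
  obtain ⟨a, b, ha, hb, e⟩ := h.dec hθ k
  exact ⟨(⟨a, ha⟩, ⟨b, hb⟩), (mul_one _).trans e.symm⟩

theorem finrank_F (h : FI σ s) : finrank (fixF σ) F = 2 := by
  have h' : FI σ σ := ⟨h.σσ, h.σσ, h.ne, fun _ => rfl⟩
  have : h'.K0 = (fixF σ) ∙ (1 : F) := by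
    ext a
    exact ⟨fun ha => Submodule.mem_span_singleton.2 ⟨⟨a, ha⟩, mul_one a⟩, fun ha => by
      obtain ⟨c, rfl⟩ := Submodule.mem_span_singleton.1 ha
      exact h'.K0.smul_mem c (map_one σ)⟩
  rw [← h'.two_mul_K0, this, finrank_span_singleton one_ne_zero]

theorem finrank_K0 (h : FI σ s) : finrank (fixF σ) h.K0 = finrank F K := by
  have := Module.finrank_mul_finrank (fixF σ) F K
  rw [← h.two_mul_K0, h.finrank_F] at this
  omega

theorem finrank_res (h : FI σ s) (D : Submodule F K) :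
    finrank (fixF σ) (D.restrictScalars (fixF σ)) = 2 * finrank F D := by
  rw [← h.finrank_F]; exact (Module.finrank_mul_finrank (fixF σ) F D).symm

end FI

/-- Compatible involutions with a trace map. -/
structure FT (σ : F →+* F) (s : K →+* K) (τ : K →ₗ[F] F) : Prop extends FI σ s where
  tau : τ ≠ 0
  prime : (finrank F K).Prime
  three : 3 ≤ finrank F K
  τs : ∀ k, τ (s k) = σ (τ k)

namespace FT

theorem exists_ne (h : FT σ s τ) {γ : K} (hγ : γ ≠ 0) : ∃ k, s k = k ∧ τ (k * γ) ≠ 0 := by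
  by_contra hc
  push Not at hc
  obtain ⟨θ, hθ⟩ := h.ne
  refine hγ (eq_zero_of_tau h.tau fun k => ?_)
  obtain ⟨a, b, ha, hb, rfl⟩ := h.dec hθ k
  simp [add_mul, hc a ha, hc b hb]

theorem exists_iso (h : FT σ s τ) (b : K → K → K) (b1 : ∀ x y z, b (x + y) z = b x z + b y z)
    (b2 : ∀ (c : F) x y, b (c • x) y = c • b x y) (b3 : ∀ x y, b y x = s (b x y)) (b4 : ∀ x, τ (b x x) = 0) :
    ∃ a, a ≠ 0 ∧ b a a = 0 := by
  have : FiniteDimensional (fixF σ) K := Module.Finite.trans F K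
  obtain ⟨a, a0, ha⟩ := exists_zero_quad (LinearMap.mk₂ (fixF σ) b b1 (fun c x y => b2 c x y)
    (fun x y z => by rw [b3, b1, map_add, ← b3, ← b3])
    (fun c x y => (b3 _ _).trans ((congrArg s (b2 c y x)).trans ((h.s_smul _ _).trans
      (by rw [show σ c = c from c.2, ← b3 y x]; rfl))))) 0
    (h.K0 ⊓ LinearMap.ker (τ.restrictScalars (fixF σ))) (fun w => by
      simpa using ⟨(b3 w w).symm, b4 w⟩) (by
      obtain ⟨k, k1, k2⟩ := h.exists_ne one_ne_zero
      have := Submodule.finrank_lt_finrank_of_lt (s := h.K0 ⊓ LinearMap.ker (τ.restrictScalars (fixF σ)))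
        (t := h.K0) (SetLike.lt_iff_le_and_exists.2 ⟨inf_le_left, k, k1, fun e => k2 (by simpa using e.2)⟩)
      have := h.two_mul_K0
      omega)
  exact ⟨a, a0, by simpa using ha⟩

theorem exists_degen (h : FT σ s τ) {I : Submodule F K} (hI : I ≠ ⊥) {W : Submodule (fixF σ) K} (hj : ∀ w : W, s w = w)
    (hW : finrank F I < finrank (fixF σ) W) :
    ∃ w ∈ W, w ≠ 0 ∧ ∃ l ∈ I, l ≠ 0 ∧ ∀ l' ∈ I, τ (w * l * s l') = 0 := by
  classical
  have : FiniteDimensional (fixF σ) K := Module.Finite.trans F K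
  let e := finBasis F I
  have : Nonempty (Fin (finrank F I)) := ⟨⟨0, Nat.pos_of_ne_zero fun e => hI (Submodule.finrank_eq_zero.1 e)⟩⟩
  obtain ⟨π, hπ⟩ := (Algebra.linearMap (fixF σ) F).exists_leftInverse_of_injective
    (LinearMap.ker_eq_bot.2 (algebraMap (fixF σ) F).injective)
  let A : W → Matrix (Fin (finrank F I)) (Fin (finrank F I)) F := fun w => Matrix.of fun a b => τ (w * (e a * s (e b)))
  obtain ⟨w, w0, hw⟩ := exists_zero_multi (π.compMultilinearMap
    ((Matrix.detRowAlternating.toMultilinearMap.restrictScalars (fixF σ)).compLinearMap fun a =>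
      LinearMap.pi fun b => τ.restrictScalars (fixF σ) ∘ₗ LinearMap.mulRight (fixF σ) (e a * s (e b)) ∘ₗ W.subtype))
    (by simpa using hW)
  replace hw : π (A w).det = 0 := hw
  have h1 : σ (A w).det = (A w).det := by
    rw [RingHom.map_det, ← Matrix.det_transpose]
    congr 1
    ext a b
    simp only [A, Matrix.transpose_apply, RingHom.mapMatrix_apply, Matrix.map_apply, ← h.τs, map_mul, hj, h.ss,
      Matrix.of_apply, mul_comm (s _)]
  have h2 : (A w).det = 0 := by
    have := LinearMap.congr_fun hπ ⟨_, h1⟩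
    exact congrArg Subtype.val (this.symm.trans hw)
  obtain ⟨v, v0, hv⟩ := Matrix.exists_vecMul_eq_zero_iff.2 h2
  refine ⟨w, w.2, fun e => w0 (Subtype.ext e), (∑ a, v a • e a : I), Submodule.coe_mem _, fun e0 => v0 (funext
    (Fintype.linearIndependent_iff.1 e.linearIndependent v (Subtype.ext e0))), fun l' hl' => ?_⟩
  have h3 : ∀ b, τ (w * (∑ a, v a • e a : I) * s (e b)) = 0 := fun b => by
    simpa [A, Matrix.vecMul, dotProduct, Finset.mul_sum, Finset.sum_mul, mul_assoc] using congrFun hv b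
  have : l' = ∑ b, e.repr ⟨l', hl'⟩ b • (e b : K) := by
    simpa [-Basis.sum_repr] using congrArg Subtype.val (e.sum_repr ⟨l', hl'⟩).symm
  rw [this, map_sum, Finset.mul_sum, map_sum]
  exact Finset.sum_eq_zero fun b _ => by rw [h.s_smul, mul_smul_comm, map_smul, h3, smul_zero]

theorem line (h : FT σ s τ) {I D : Submodule F K} (hI : I ≠ ⊥) (hD : D ≠ ⊥)
    (hdim : finrank F I + finrank F D = finrank F K) (hperp : ∀ k, (∀ l ∈ I, τ (k * s l) = 0) → k ∈ D)
    (hext : ∀ κ, s κ = κ → ∀ l ∈ I, l ≠ 0 → κ * l ∈ D → ∀ l' ∈ I, κ * l' ∈ D) :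
    ∃ l ∈ I, l ≠ 0 ∧ (∀ l' ∈ I, ∃ c : F, l' = c • l) ∧ ∃ κ, κ ≠ 0 ∧ s κ = κ ∧ κ * l ∈ D := by
  have : FiniteDimensional (fixF σ) K := Module.Finite.trans F K
  let E0 : Submodule (fixF σ) K :=
    { carrier := {κ | s κ = κ ∧ ∀ l ∈ I, κ * l ∈ D}
      add_mem' := fun ha hb => ⟨h.K0.add_mem ha.1 hb.1, fun l hl => by
        rw [add_mul]; exact D.add_mem (ha.2 l hl) (hb.2 l hl)⟩
      zero_mem' := ⟨map_zero s, by simp⟩
      smul_mem' := fun c a ha => ⟨h.K0.smul_mem c ha.1, fun l hl => by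
        rw [smul_mul_assoc]; exact D.smul_mem c.1 (ha.2 l hl)⟩ }
  obtain ⟨π, hπ⟩ := E0.subtype.exists_leftInverse_of_injective E0.ker_subtype
  have a1 := LinearMap.finrank_range_add_finrank_ker π
  have a2 := Submodule.finrank_le (LinearMap.range π)
  have a3 := h.finrank_K0
  have a6 := Submodule.finrank_sup_add_finrank_inf_eq h.K0 (LinearMap.ker π)
  have a7 := Submodule.finrank_le (h.K0 ⊔ LinearMap.ker π)
  have a4 : finrank (fixF σ) (h.K0 ⊓ LinearMap.ker π :) ≤ finrank F I := by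
    by_contra hc
    obtain ⟨w, w1, w0, l, l1, l0, hl⟩ := h.exists_degen hI (W := h.K0 ⊓ LinearMap.ker π) (fun w => w.2.1) (not_le.1 hc)
    have := LinearMap.congr_fun hπ ⟨w, w1.1, hext _ w1.1 l l1 l0 (hperp _ hl)⟩
    exact w0 (congrArg Subtype.val (this.symm.trans w1.2))
  have i0 : finrank F I ≠ 0 := fun e => hI (Submodule.finrank_eq_zero.1 e)
  have d0 : finrank F D ≠ 0 := fun e => hD (Submodule.finrank_eq_zero.1 e)
  obtain ⟨θ, hθ⟩ := h.ne
  obtain ⟨l, l1, l0⟩ := Submodule.exists_mem_ne_zero_of_ne_bot hI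
  have a5 : LinearMap.range (FI.cmb E0 θ l) = D.restrictScalars (fixF σ) := by
    refine Submodule.eq_of_le_of_finrank_le ?_ ?_
    · rintro _ ⟨x, rfl⟩
      change (x.1 + θ • x.2) * l ∈ D
      rw [add_mul, smul_mul_assoc]
      exact D.add_mem (x.1.2.2 l l1) (D.smul_mem _ (x.2.2.2 l l1))
    · rw [LinearMap.finrank_range_of_inj (h.cmb_inj (X := E0) (fun _ e => e.1) hθ l0), finrank_prod]
      exact (h.finrank_res D).trans_le (by omega)
  refine ⟨l, l1, l0, fun l' hl' => ?_, ?_⟩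
  · obtain ⟨c, hc⟩ := mem_bot_of_prime h.prime hD (by rintro rfl; rw [finrank_top] at hdim; omega) (c := l' / l)
      fun δ hδ => by
        obtain ⟨x, rfl⟩ : δ ∈ LinearMap.range (FI.cmb E0 θ l) := a5 ▸ hδ
        change (x.1 + θ • x.2) * l * (l' / l) ∈ D
        rw [mul_assoc, mul_div_cancel₀ _ l0, add_mul, smul_mul_assoc]
        exact D.add_mem (x.1.2.2 l' hl') (D.smul_mem _ (x.2.2.2 l' hl'))
    exact ⟨c, by rw [Algebra.smul_def, ← hc, div_mul_cancel₀ _ l0]⟩
  · obtain ⟨κ, k1, k0⟩ := Submodule.exists_mem_ne_zero_of_ne_bot (p := E0) fun e => by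
      have := Submodule.finrank_eq_zero.2 e; omega
    exact ⟨κ, k0, k1.1, k1.2 l l1⟩

end FT

end Cfsg.Agent.H7
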