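import Cfsg.Agent.H7.SUX2

/-!
Unitary groups: field extension subgroups, finding transvections.
-/

set_option autoImplicit false
set_option linter.unusedSectionVars false

namespace Cfsg.Agent.H7

open Module Cfsg.Agent.Form Cfsg.Agent.H6.SU
open scoped Matrix

theorem mul_mem_of_inv {K : Type*} [Field K] [Finite K] (h2 : (2 : K) = 0) (U : AddSubgroup K)
    (hi : ∀ u ∈ U, u⁻¹ ∈ U) (h1 : (1 : K) ∈ U) {b c : K} (hb : b ∈ U) (hc : c ∈ U) : b * c ∈ U := by
  have hua : ∀ a ∈ U, ∀ b ∈ U, a * a * b⁻¹ ∈ U := by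
    intro a ha b hb
    by_cases ha0 : a = 0
    · simp [ha0]
    by_cases hb0 : b = 0
    · simp [hb0]
    by_cases hab : b - a = 0
    · rw [sub_eq_zero.1 hab, mul_assoc, mul_inv_cancel₀ ha0, mul_one]; exact ha
    have := U.sub_mem ha (hi _ (U.add_mem (hi a ha) (hi _ (U.sub_mem hb ha))))
    convert this using 1
    have : a⁻¹ + (b - a)⁻¹ = b / (a * (b - a)) := by field_simp; ring
    rw [this]
    field_simp
    ring
  let f : U → U := fun x => ⟨x * x * 1⁻¹, hua x x.2 1 h1⟩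
  have hf : Function.Injective f := fun x y h => by
    have h : (x : K) * x * 1⁻¹ = y * y * 1⁻¹ := congrArg Subtype.val h
    rw [inv_one] at h
    have : ((x : K) - y) * (x - y) = 0 := by linear_combination h + (y * y - x * y) * h2
    exact Subtype.ext (sub_eq_zero.1 (mul_self_eq_zero.1 this))
  obtain ⟨x, hx⟩ := Finite.surjective_of_injective hf ⟨b, hb⟩
  have hx : (x : K) * x * 1⁻¹ = b := congrArg Subtype.val hx
  simpa [← hx] using hua x x.2 _ (hi c hc)

variable {F K : Type*} [Field F] [Field K] [Algebra F K] {V : Type*} [AddCommGroup V] [Module F V] [Module K V]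
  [IsScalarTower F K V] [FiniteDimensional F K] [FiniteDimensional K V] [FiniteDimensional F V] [Finite F]
variable {σ : F →+* F} {hσ : ∀ a, σ (σ a) = a} {s : K →+* K} {hs : ∀ a, s (s a) = a}
variable {τ : K →ₗ[F] F} {f : PQ (FP.unit s hs) V} {S : PQ (FP.unit σ hσ) V} {M : Subgroup (V ≃ₗ[F] V)}

theorem FI.exists_notMem (h : FI σ s) {W : Submodule F K} (hW : finrank F W < finrank F K) :
    ∃ k, s k = k ∧ k ∉ W := by
  by_contra hc
  push Not at hc
  obtain ⟨θ, hθ⟩ := h.ne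
  obtain ⟨k, -, hk⟩ := exists_mem_notMem_of_finrank_lt (U := ⊤) (W := W) (by rwa [finrank_top])
  obtain ⟨a, b, ha, hb, rfl⟩ := h.dec hθ k
  exact hk (W.add_mem (hc a ha) (W.smul_mem _ (hc b hb)))

/-- `M` contains the map `y ↦ y + p (f (y, u)) u`. -/
def YS (f : PQ (FP.unit s hs) V) (M : Subgroup (V ≃ₗ[F] V)) (u : V) (p : K → K) : Prop :=
  ∃ ρ ∈ M, ∀ y, ρ y = y + p (f.B y u) • u

theorem YS.congr {u : V} {p p' : K → K} (h : YS f M u p) (e : ∀ a, p' a = p a) : YS f M u p' :=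
  funext e ▸ h

theorem YS.add {u : V} (hu : f.B u u = 0) {p p' : K → K} (h : YS f M u p) (h' : YS f M u p') :
    YS f M u fun a => p a + p' a := by
  obtain ⟨g, hg, e⟩ := h
  obtain ⟨g', hg', e'⟩ := h'
  exact ⟨g' * g, M.mul_mem hg' hg, fun y => by
    rw [LinearEquiv.mul_apply, e, e', f.B_add_left, f.B_smul_left, hu, mul_zero, add_zero, add_smul, add_assoc]⟩

theorem YS.neg {u : V} (hu : f.B u u = 0) {p : K → K} (h : YS f M u p) : YS f M u fun a => -p a := by
  obtain ⟨g, hg, e⟩ := h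
  exact ⟨g⁻¹, M.inv_mem hg, fun y => by
    rw [LinearEquiv.coe_inv, LinearEquiv.symm_apply_eq, e]; simp [hu]⟩

namespace ExtH

theorem ys_fam (h : ExtH τ f S) (hM : M ≤ S.isom) {u : V} (hu : f.B u u = 0) (hT : TG f M u) {β δ : K} {c : F}
    (hc : σ c = c) (ht : ∃ t ∈ M, ∀ b : K, t (b • u) = b • u + (c * τ (β * b)) • δ • u) {κ : K} (hκ : κ + s κ = 0) :
    YS f M u fun a => (c * τ (s δ * a)) • (κ * s β) + (c * τ (β * (κ * a))) • δ +
      (c ^ 2 * τ (s δ * a) * τ (β * (κ * s β))) • δ := by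
  obtain ⟨t, ht, e⟩ := ht
  obtain ⟨T, T1, T2⟩ := hT κ hκ
  have e1 : ∀ y, f.B (t.symm y) u = f.B y u + (c * τ (s δ * f.B y u)) • s β := fun y => h.ext' fun k => by
    have := PQ.B_isom (hM ht) (t.symm y) (k • u)
    rw [t.apply_symm_apply, e, S.B_add_right, Bsr, h.B, h.B, h.B, Bsr, Bsr, Bsr, map_mul σ, hc, ← h.τs, map_mul s] at this
    rw [← this, mul_add, map_add, mul_smul_comm, map_smul, mul_comm (s k) (s β), smul_eq_mul]; ring
  refine (YS.add hu (p := fun a => κ * a + _) ⟨_, M.mul_mem (M.mul_mem ht T1) (M.inv_mem ht), fun y => ?_⟩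
    (YS.neg hu ⟨T, T1, T2⟩)).congr fun a => (add_neg_cancel_comm _ _).symm
  simp only [LinearEquiv.mul_apply, LinearEquiv.coe_inv, T2, map_add, t.apply_symm_apply, e, e1, mul_add,
    mul_smul_comm, map_smul, add_smul, smul_assoc]
  module

theorem ht_of_ys (h : ExtH τ f S) {u : V} {δ : K} {e : F} (hy : YS f M u fun a => (e * τ (s δ * a)) • δ) :
    HT S M (δ • u) e := by
  obtain ⟨g, hg, e⟩ := hy
  exact ⟨g, hg, fun y => by rw [e, h.B, Bsr, smul_assoc]⟩

theorem fix_tau (h : ExtH τ f S) {k : K} (hk : s k = k) : σ (τ k) = τ k := by rw [← h.τs, hk]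

theorem ctr_of_fam (h : ExtH τ f S) (hM : M ≤ S.isom) {u : V} (hu0 : u ≠ 0) (hu : f.B u u = 0) (hT : TG f M u)
    (hf : Fam σ τ M u) {c : F} (hc : σ c = c) (c0 : c ≠ 0) (c1 : c ≠ 1) :
    ∃ v, v ≠ 0 ∧ f.B v v = 0 ∧ Ctr S M v := by
  obtain ⟨β, δ, β0, δ0, ht⟩ := hf
  refine ⟨δ • u, smul_ne_zero δ0 hu0, by simp [hu], H6.SU.ctr_iff.2 ⟨by simp [h.B, hu], fun e he => h.ht_of_ys ?_⟩⟩
  obtain ⟨k, k1, k2⟩ := h.exists_ne (γ := β * s β) (by simp [β0])
  have k3 := h.fix_tau (k := k * (β * s β)) (by simp [k1, hs, mul_comm])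
  have c2 : c - 1 ≠ 0 := sub_ne_zero.2 c1
  have k4 : ∀ a, σ a = a → (a * e) • k + s ((a * e) • k) = 0 := fun a ha => by
    rw [h.s_smul, k1, map_mul, ha, ← add_smul, ← mul_add, he, mul_zero, zero_smul]
  refine ((h.ys_fam hM hu hT hc (ht c hc) (k4 (c * (c - 1) * τ (k * (β * s β)))⁻¹ (by simp [hc, k3]))).add hu
    ((h.ys_fam hM hu hT (map_one σ) (ht 1 (map_one σ))
      (k4 ((c - 1) * τ (k * (β * s β)))⁻¹ (by simp [hc, k3]))).neg hu)).congr fun a => ?_
  simp only [smul_mul_assoc, mul_smul_comm, map_smul, smul_eq_mul, mul_left_comm β k]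
  generalize τ (k * (β * s β)) = z at k2
  match_scalars <;> field_simp <;> ring

theorem ctr_of_fam_two [Finite K] (h : ExtH τ f S) (hM : M ≤ S.isom) {u : V} (hu : f.B u u = 0) (hT : TG f M u)
    (hf : Fam σ τ M u) (h2 : ∀ a, σ a = a → a = 0 ∨ a = 1)
    (tor : ∀ l : K, l ≠ 0 → ∃ c : F, c ≠ 0 ∧ ∃ g ∈ f.isom, g.restrictScalars F ∈ M ∧ g u = (c • l) • u) :
    Ctr S M u := by
  obtain ⟨β, δ, β0, δ0, ht⟩ := hf
  have twoF : (2 : F) = 0 := (h2 2 (map_ofNat σ 2)).resolve_right fun e => one_ne_zero (α := F) (by linear_combination e)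
  have twoK : (2 : K) = 0 := by rw [← map_ofNat (algebraMap F K), twoF, map_zero]
  let br : K → K → K → K := fun δ η a => τ (s η * a) • δ - τ (s δ * a) • η
  have cj : ∀ δ η l, l ≠ 0 → YS f M u (br δ η) → YS f M u (br (l * δ) (l * η)) := by
    rintro δ η l l0 ⟨ρ, r1, r2⟩
    obtain ⟨c, c0, g, g1, g2, g3⟩ := tor l l0
    have c1 : c * σ c = 1 := (h2 _ (by rw [map_mul, hσ, mul_comm])).resolve_left (by simp [c0])
    refine ⟨_, M.mul_mem (M.mul_mem g2 r1) (M.inv_mem g2), fun y => ?_⟩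
    change g (ρ (g.symm y)) = _
    rw [r2, map_add, map_smul, ← PQ.B_isom g1, g.apply_symm_apply, g3, Bsr, smul_smul, h.s_smul]
    congr 2
    simp only [br, smul_mul_assoc, mul_smul_comm, map_smul, smul_eq_mul, map_mul s, mul_assoc, mul_left_comm (s l),
      sub_mul, smul_sub, smul_smul, mul_comm δ, mul_comm η, ← mul_assoc c, c1, one_mul]
  let R : AddSubgroup K :=
    { carrier := {η | YS f M u (br 1 η)}
      add_mem' := fun ha hb => (YS.add hu ha hb).congr fun a => by simp only [br, map_add, add_mul]; module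
      zero_mem' := ⟨1, M.one_mem, by simp [br]⟩
      neg_mem' := fun ha => (YS.neg hu ha).congr fun a => by simp only [br, map_neg, neg_mul]; module }
  have R1 : (1 : K) ∈ R := ⟨1, M.one_mem, by simp [br]⟩
  have Ri : ∀ η ∈ R, η⁻¹ ∈ R := fun η hη => by
    by_cases η0 : η = 0
    · simp [η0]
    exact ((cj _ _ _ (inv_ne_zero η0) hη).neg hu).congr fun a => by simp [br, η0]
  have Rm := fun {b c} => mul_mem_of_inv twoK R Ri R1 (b := b) (c := c)
  have Rz : ∀ κ, s κ = κ → ∀ θ : F, θ - σ θ = τ (β * (κ * s β)) → κ * s β / δ + θ • 1 ∈ R := fun κ hκ θ hθ => by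
    have := cj δ (κ * s β + θ • δ) _ (inv_ne_zero δ0) (((h.ys_fam hM hu hT (map_one σ) (ht 1 (map_one σ))
      (κ := κ) (by rw [hκ, ← two_mul, twoK, zero_mul])).neg hu).congr fun a => by
        simp only [br, map_add, map_mul s, hκ, hs, h.s_smul, add_mul, smul_mul_assoc, map_smul, ← hθ, smul_eq_mul,
          mul_assoc κ, mul_left_comm κ β]
        linear_combination (norm := module) (τ (β * (κ * a)) * twoF) • δ)
    rwa [inv_mul_cancel₀ δ0, mul_add, mul_smul_comm, inv_mul_cancel₀ δ0, inv_mul_eq_div] at this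
  obtain ⟨k, k1, k2⟩ := h.exists_ne (γ := β * s β) (by simp [β0])
  have k3 : ∀ k, s k = k → σ (τ (β * (k * s β))) = τ (β * (k * s β)) := fun k k1 =>
    h.fix_tau (by simp only [map_mul, k1, hs]; ring)
  replace k2 : τ (β * (k * s β)) = 1 := (h2 _ (k3 k k1)).resolve_left (by rwa [mul_left_comm])
  have Rk : ∀ k', s k' = k' → s (k' - τ (β * (k' * s β)) • k) = k' - τ (β * (k' * s β)) • k ∧
      (k' - τ (β * (k' * s β)) • k) * s β / δ ∈ R := fun k' e => by
    have : s (k' - τ (β * (k' * s β)) • k) = k' - τ (β * (k' * s β)) • k := by rw [map_sub, h.s_smul, k3 _ e, e, k1]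
    exact ⟨this, by simpa using Rz _ this 0 (by simp [sub_mul, mul_sub, k2])⟩
  have h3 := h.three
  obtain ⟨k₁, a1, a2⟩ := h.exists_notMem (W := F ∙ k) (by have := finrank_span_singleton_le (F := F) k; omega)
  obtain ⟨k₂, a3, a4⟩ := h.exists_notMem (W := Submodule.span F {k, k₁}) (by
    have := finrank_span_pair_le (F := F) k k₁; omega)
  obtain ⟨b1, b2⟩ := Rk k₁ a1
  obtain ⟨b3, b4⟩ := Rk k₂ a3
  have b5 : k₁ - τ (β * (k₁ * s β)) • k ≠ 0 := fun e => a2 (Submodule.mem_span_singleton.2 ⟨_, (sub_eq_zero.1 e).symm⟩)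
  have b6 : ∀ c : F, k₂ - τ (β * (k₂ * s β)) • k ≠ c • (k₁ - τ (β * (k₁ * s β)) • k) := fun c e =>
    a4 (Submodule.mem_span_pair.2 ⟨τ (β * (k₂ * s β)) - c * τ (β * (k₁ * s β)), c, by
      linear_combination (norm := module) -e⟩)
  generalize k₁ - τ (β * (k₁ * s β)) • k = κ₁ at b1 b2 b5 b6
  generalize k₂ - τ (β * (k₂ * s β)) • k = κ₂ at b3 b4 b6
  have sβ : s β ≠ 0 := by simpa using β0
  have b7 : κ₂ / κ₁ ∈ R := by convert Rm b4 (Ri _ b2) using 1; field_simp
  obtain ⟨θ, hθ⟩ := exists_tr_one h.ne hσ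
  have hθ' : σ θ ≠ θ := fun e => one_ne_zero (α := F) (by rw [← hθ, e, ← two_mul, twoF, zero_mul])
  have Rs : ∀ c, σ c = c → ∀ x ∈ R, c • x ∈ R := fun c hc x hx => by
    rcases h2 c hc with rfl | rfl
    · simp
    · simpa using hx
  let D : Submodule F K :=
    { carrier := {z | ∃ x ∈ R, ∃ y ∈ R, s x = x ∧ s y = y ∧ z = x + θ • y}
      add_mem' := by
        rintro _ _ ⟨x, x1, y, y1, x2, y2, rfl⟩ ⟨x', x1', y', y1', x2', y2', rfl⟩
        exact ⟨x + x', R.add_mem x1 x1', y + y', R.add_mem y1 y1', by simp [*], by simp [*], by module⟩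
      zero_mem' := ⟨0, R.zero_mem, 0, R.zero_mem, by simp⟩
      smul_mem' := by
        rintro c _ ⟨x, x1, y, y1, x2, y2, rfl⟩
        obtain ⟨a, b, ha, hb, rfl⟩ := (⟨hσ, hσ, h.ne, fun _ => rfl⟩ : FI σ σ).dec hθ' c
        have hn : σ (θ * σ θ) = θ * σ θ := by rw [map_mul, hσ, mul_comm]
        refine ⟨a • x - (θ * σ θ) • b • y, R.sub_mem (Rs a ha x x1) (Rs _ hn _ (Rs b hb y y1)), b • x + a • y + b • y,
          R.add_mem (R.add_mem (Rs b hb x x1) (Rs a ha y y1)) (Rs b hb y y1), by simp only [map_sub, h.s_smul, *],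
          by simp only [map_add, h.s_smul, *], ?_⟩
        rw [smul_eq_mul]
        linear_combination (norm := module) ((θ * b) * hθ) • y }
  have D1 : D = ⊤ := by
    by_contra hc
    obtain ⟨c, hc⟩ := mem_bot_of_prime h.prime (D := D) (c := κ₂ / κ₁) ((Submodule.ne_bot_iff _).2
      ⟨1, ⟨1, R1, 0, R.zero_mem, by simp⟩, one_ne_zero⟩) hc (by
        rintro _ ⟨x, x1, y, y1, x2, y2, rfl⟩
        exact ⟨_, Rm x1 b7, _, Rm y1 b7, by simp [*], by simp [*], by rw [add_mul, smul_mul_assoc]⟩)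
    exact b6 c (by rw [Algebra.smul_def, ← hc, div_mul_cancel₀ _ b5])
  have D2 : ∀ z, s z = z → z ∈ R := fun z hz => by
    obtain ⟨x, x1, y, y1, x2, y2, e⟩ : z ∈ D := D1 ▸ Submodule.mem_top
    have := (h.uq hθ' (a := x - z) (b := y) (by rw [map_sub, x2, hz]) y2 (by rw [e]; abel)).1
    exact sub_eq_zero.1 this ▸ x1
  have D3 : θ • (1 : K) ∈ R := by
    have := R.sub_mem (Rz k k1 θ (by rw [k2]; linear_combination hθ - σ θ * twoF))
      (Rm (Rm (D2 k k1) (Ri _ (D2 _ b1))) b2)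
    convert this using 1
    field_simp; ring
  refine H6.SU.ctr_iff.2 ⟨by simp [h.B, hu], fun c hc => ?_⟩
  rcases h2 c (by linear_combination hc - c * twoF) with rfl | rfl
  · exact ht_zero _
  · rw [← one_smul K u]
    refine h.ht_of_ys (YS.congr D3 fun a => ?_)
    simp only [br, h.s_smul, map_one, smul_mul_assoc, one_mul, map_smul, smul_eq_mul]
    linear_combination (norm := module) (τ a * (θ * twoF - hθ)) • (1 : K)

end ExtH

end Cfsg.Agent.H7
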