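import Cfsg.Agent.H7.Sp4K

/-!
The four-dimensional symplectic group: the subgroups `GL₂(q).2` and `GU₂(q).2`.
-/

set_option autoImplicit false
set_option linter.unusedSectionVars false

namespace Cfsg.Agent.H7

open Module Cfsg.Agent.Form
open scoped Matrix MatrixGroups

theorem ExtU.ctr4 {F K V U : Type*} [Field F] [Finite F] [Field K] [Algebra F K] [AddCommGroup V] [Module F V]
    [Module K V] [IsScalarTower F K V] [FiniteDimensional F K] [FiniteDimensional K V] [FiniteDimensional F V]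
    [AddCommGroup U] [Module F U] [FiniteDimensional F U] {σ : K →+* K} {hσ : ∀ a, σ (σ a) = a} {τ : K →ₗ[F] F}
    {θ : K} {f : PQ (FP.unit σ hσ) V} {S : PQ (FP.symp F) V} {M : Subgroup (V ≃ₗ[F] V)} (h : ExtU τ θ f S)
    {Q : QuadraticForm F U} {X : U →ₗ[F] V →ₗ[F] V} (hk : KD S Q X) (hq : 4 ≤ Nat.card F) (hM : M ≤ S.isom)
    (hH : ∀ g ∈ S.isom, KSemi K g → g ∈ M) (hg : ∃ g ∈ M, ¬ KSemi K g) (v : V) : Ctr S M v := by
  obtain ⟨δ, hδ⟩ := h.sq
  obtain ⟨g, g1, g2⟩ := hg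
  let J : V →ₗ[F] V := (LinearMap.lsmul K _ θ).restrictScalars F
  have hJ : ∀ v, J v = θ • v := fun _ => rfl
  have δ0 : δ ≠ 0 := by rintro rfl; simp [h.θ0] at hδ
  have key : ∀ g : V ≃ₗ[F] V, (∃ t : F, ∀ v, g (J v) = t • J (g v)) → KSemi K g :=
    fun g ⟨t, ht⟩ => h.semi_of (k := t • θ) fun v => by rw [smul_assoc]; exact ht v
  exact ctr_iff.2 fun c => hk.max_J (J := J) hq δ0 (fun v => by rw [hJ, hJ, smul_smul, hδ, algebraMap_smul])
    (fun x y => by rw [hJ, hJ, h.B_smul, h.σθ, neg_smul, PQ.B_neg_right]) hM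
    (fun g a b => hH g a (key g b)) ⟨g, g1, fun e => g2 (key g e)⟩ (tv_mem v c)

variable {F : Type*} [Field F] [Fintype F]

theorem sp4_max_pair (hodd : Odd (Fintype.card F)) (hq : 5 ≤ Fintype.card F)
    {D : Fin 2 → Submodule F (Fin 2 ⊕ Fin 2 → F)} (hD : Geo.IsMDecomposition 2 D)
    (hts : ∀ i, Geo.IsTotallySingularFor (sympForm 2 F) (D i)) :
    Geo.IsMaximalIn (spGL 2 F) (Geo.decompositionStabilizer D ⊓ spGL 2 F) := by
  obtain ⟨π, hπ⟩ := exists_projs hD.indep hD.iSup_eq_top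
  have h2 := two_ne_zero_of_odd hodd
  have s : ∀ x, π 0 x + π 1 x = x := fun x => by simpa using hπ.sum x
  have p0 : ∀ x ∈ D 0, (π 0 - π 1) x = x := fun x hx => by simp [hπ.self 0 x hx, hπ.ne 1 0 (by decide) x hx]
  have p1 : ∀ x ∈ D 1, (π 0 - π 1) x = -x := fun x hx => by simp [hπ.self 1 x hx, hπ.ne 0 1 (by decide) x hx]
  have q0 : ∀ x, (π 0 - π 1) x = x → x ∈ D 0 := fun x e => by
    have : π 1 x = 0 := smul_right_injective _ h2 (by
      simp only [LinearMap.sub_apply] at e; linear_combination (norm := module) s x - e)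
    exact (by simpa [this] using s x : π 0 x = x) ▸ hπ.mem 0 x
  have q1 : ∀ x, (π 0 - π 1) x = -x → x ∈ D 1 := fun x e => by
    have : π 0 x = 0 := smul_right_injective _ h2 (by
      simp only [LinearMap.sub_apply] at e; linear_combination (norm := module) s x + e)
    exact (by simpa [this] using s x : π 1 x = x) ▸ hπ.mem 1 x
  have J1 : ∀ v, (π 0 - π 1) ((π 0 - π 1) v) = (1 : F) • v := fun v => by
    rw [LinearMap.sub_apply _ _ v, map_sub, p0 _ (hπ.mem 0 v), p1 _ (hπ.mem 1 v), sub_neg_eq_add, s, one_smul]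
  refine sp_max _ (fun g => ∃ t : F, ∀ v, g ((π 0 - π 1) v) = t • (π 0 - π 1) (g v)) (fun g _ => ?_)
    (Sp_not_le_decompositionStabilizer le_rfl hD) fun M h1 h2' h3 v => ctr_iff.2 fun c =>
      (kd h2).max_J (by rw [Nat.card_eq_fintype_card]; omega) one_ne_zero J1 (fun x y => ?_) h1 h2' h3 (tv_mem v c)
  · rw [mem_decompositionStabilizer_iff' hD]
    constructor
    · intro hg
      obtain ⟨i, hi⟩ := hg 0
      obtain ⟨j, hj⟩ := hg 1
      have e : ∀ v, toLE g v = toLE g (π 0 v) + toLE g (π 1 v) := fun v => by rw [← map_add, s]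
      have hij : i ≠ j := by
        rintro rfl
        have : D i = ⊤ := eq_top_iff.2 fun v _ => by
          obtain ⟨v, rfl⟩ := (toLE g).surjective v
          rw [e]; exact add_mem (hi _ (hπ.mem 0 v)) (hj _ (hπ.mem 1 v))
        have h4 := hD.finrank_eq i
        rw [this] at h4
        simp at h4
      fin_cases i <;> fin_cases j
      · exact (hij rfl).elim
      · exact ⟨1, fun v => by rw [e v, map_add, p0 _ (hi _ (hπ.mem 0 v)), p1 _ (hj _ (hπ.mem 1 v))]; simp [sub_eq_add_neg]⟩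
      · exact ⟨-1, fun v => by
          rw [e v, map_add, p1 _ (hi _ (hπ.mem 0 v)), p0 _ (hj _ (hπ.mem 1 v))]; simp [sub_eq_add_neg, add_comm]⟩
      · exact (hij rfl).elim
    · rintro ⟨t, ht⟩
      have : t * t = 1 := (kd h2).sc fun v => by
        obtain ⟨v, rfl⟩ := (toLE g).surjective v
        have := ht ((π 0 - π 1) v)
        rw [ht v, map_smul, J1, J1, one_smul, one_smul, smul_smul] at this
        rw [← this, one_smul]
      rcases mul_self_eq_one_iff.1 this with rfl | rfl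
      · simp only [one_smul] at ht
        exact Fin.forall_fin_two.2 ⟨⟨0, fun x hx => q0 _ (by rw [← ht, p0 x hx])⟩,
          ⟨1, fun x hx => q1 _ (by rw [← ht, p1 x hx, map_neg])⟩⟩
      · simp only [neg_smul, one_smul, ← neg_eq_iff_eq_neg] at ht
        exact Fin.forall_fin_two.2 ⟨⟨1, fun x hx => q1 _ (by rw [← ht, p0 x hx])⟩,
          ⟨0, fun x hx => q0 _ (by rw [← ht, p1 x hx, map_neg, neg_neg])⟩⟩
  · have a := hts 0 _ (hπ.mem 0 x) _ (hπ.mem 0 y)
    have b := hts 1 _ (hπ.mem 1 x) _ (hπ.mem 1 y)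
    change (spS 2 F).B _ _ = 0 at a b
    conv_lhs => rw [← s y, LinearMap.sub_apply]
    conv_rhs => rw [← s x, LinearMap.sub_apply]
    simp only [PQ.B_add_left, PQ.B_add_right, PQ.B_sub_left, PQ.B_sub_right, a, b]; ring

theorem sp4_max_extU (hodd : Odd (Fintype.card F)) (hq : 5 ≤ Fintype.card F)
    {A : Subalgebra F (Matrix (Fin 2 ⊕ Fin 2) (Fin 2 ⊕ Fin 2) F)} (hA : Geo.IsFieldSubalgebra 2 A)
    (hac : Geo.IsAdjointClosedFor (sympForm 2 F) A) (hnsa : ¬ Geo.IsSelfAdjointFor (sympForm 2 F) A) :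
    Geo.IsMaximalIn (spGL 2 F) (Geo.subalgebraNormalizer A ⊓ spGL 2 F) := by
  let _ := Asch.fieldOf A hA.comm hA.inv
  let inst : Module A (Fin 2 ⊕ Fin 2 → F) :=
    Module.compHom _ ((Matrix.toLinAlgEquiv' (R := F)).toRingHom.comp A.val.toRingHom)
  have : @IsScalarTower F A (Fin 2 ⊕ Fin 2 → F) Algebra.toSMul inst.toSMul _ :=
    ⟨fun c k v => Matrix.smul_mulVec c k.1 v⟩
  have : FiniteDimensional A (Fin 2 ⊕ Fin 2 → F) := Module.Finite.right F A _
  have h2 := two_ne_zero_of_odd hodd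
  obtain ⟨σ, hσ, τ, θ, f, h⟩ := exists_extU (K := A) (spS_nondeg (F := F) 2) h2 hA.finrank_eq
    (fun k => by obtain ⟨k', a1, a2⟩ := hac k k.2; exact ⟨⟨k', a1⟩, a2⟩) (fun e => hnsa fun k hk => e ⟨k, hk⟩)
  exact sp_max _ (KSemi A) (fun g _ => mem_subalgebraNormalizer_iff' A g)
    (Sp_not_le_subalgebraNormalizer le_rfl hA one_lt_two) fun M h1 h2' h3 =>
      h.ctr4 (kd h2) (by rw [Nat.card_eq_fintype_card]; omega) h1 h2' h3

end Cfsg.Agent.H7
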