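import Cfsg.Agent.H7.Sp7
import Cfsg.Agent.H8.Perp

/-!
Symplectic groups: maximality of field extension subgroups of unitary type.
-/

set_option autoImplicit false
set_option linter.unusedSectionVars false

namespace Cfsg.Agent.H7

open Module Cfsg.Agent.Form
open scoped Matrix MatrixGroups

variable {F K : Type*} [Field F] [Field K] [Algebra F K] {V : Type*} [AddCommGroup V] [Module F V] [Module K V]
  [IsScalarTower F K V] [FiniteDimensional F K] [FiniteDimensional K V] [FiniteDimensional F V]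

/-- The symplectic space `S` is obtained from the unitary space `f`. -/
structure ExtU {σ : K →+* K} {hσ : ∀ a, σ (σ a) = a} (τ : K →ₗ[F] F) (θ : K) (f : PQ (FP.unit σ hσ) V)
    (S : PQ (FP.symp F) V) : Prop where
  two : (2 : F) ≠ 0
  σθ : σ θ = -θ
  τθ : τ θ = 1
  τ1 : τ 1 = 0
  σF : ∀ c : F, σ (algebraMap F K c) = algebraMap F K c
  dec : ∀ k : K, ∃ a b : F, k = algebraMap F K a + b • θ
  nd : f.Nondeg
  B : ∀ x y, S.B x y = τ (f.B x y)

variable {σ : K →+* K} {hσ : ∀ a, σ (σ a) = a} {τ : K →ₗ[F] F} {θ : K} {f : PQ (FP.unit σ hσ) V}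
  {S : PQ (FP.symp F) V} {M : Subgroup (V ≃ₗ[F] V)}

namespace ExtU

theorem tau (h : ExtU τ θ f S) : τ ≠ 0 := by rintro rfl; simpa using h.τθ

theorem θ0 (h : ExtU τ θ f S) : θ ≠ 0 := by rintro rfl; simpa using h.τθ

theorem twoK (h : ExtU τ θ f S) : (2 : K) ≠ 0 := by
  rw [← map_ofNat (algebraMap F K) 2]; exact (map_ne_zero _).2 h.two

theorem τF (h : ExtU τ θ f S) (c : F) : τ (algebraMap F K c) = 0 := by
  rw [Algebra.algebraMap_eq_smul_one, map_smul, h.τ1, smul_zero]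

theorem σ_smul (h : ExtU τ θ f S) (c : F) (k : K) : σ (c • k) = c • σ k := by
  rw [Algebra.smul_def, map_mul, h.σF, Algebra.smul_def]

theorem τσ (h : ExtU τ θ f S) (k : K) : τ (σ k) = -τ k := by
  obtain ⟨a, b, rfl⟩ := h.dec k
  simp [h.σF, h.σ_smul, h.σθ, h.τF]

theorem eq_of_τ (h : ExtU τ θ f S) {k : K} (e : τ k = 0) : ∃ c : F, k = algebraMap F K c := by
  obtain ⟨a, b, rfl⟩ := h.dec k
  exact ⟨a, by simp_all [h.τF, h.τθ]⟩

theorem τ_of_fix (h : ExtU τ θ f S) {k : K} (e : σ k = k) : τ k = 0 := by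
  have := h.τσ k
  rw [e] at this
  exact (mul_eq_zero.1 (show 2 * τ k = 0 by linear_combination this)).resolve_left h.two

theorem sq (h : ExtU τ θ f S) : ∃ δ : F, θ * θ = algebraMap F K δ :=
  h.eq_of_τ (h.τ_of_fix (by simp [h.σθ]))

theorem τθF (h : ExtU τ θ f S) (c : F) : τ (θ * algebraMap F K c) = c := by
  rw [mul_comm, ← Algebra.smul_def, map_smul, h.τθ, smul_eq_mul, mul_one]

theorem eq_zero (h : ExtU τ θ f S) {k : K} (e : τ k = 0) (e' : τ (θ * k) = 0) : k = 0 := by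
  obtain ⟨c, rfl⟩ := h.eq_of_τ e
  rw [h.τθF] at e'; simp [e']

theorem sub_σ (h : ExtU τ θ f S) (k : K) : k - σ k = 2 * θ * algebraMap F K (τ k) := by
  obtain ⟨a, b, rfl⟩ := h.dec k
  simp only [map_add, h.σF, h.σ_smul, h.σθ, h.τF, map_smul, h.τθ, smul_eq_mul, mul_one, zero_add]
  simp only [Algebra.smul_def]; ring

theorem nondeg (h : ExtU τ θ f S) : S.Nondeg := fun x hx =>
  h.nd x fun y => eq_zero_of_tau h.tau fun k => by simpa [h.B, hσ] using hx (σ k • y)

theorem B_smul (h : ExtU τ θ f S) (k : K) (x y : V) : S.B (k • x) y = S.B x (σ k • y) := by simp [h.B, hσ]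

theorem res_mem (h : ExtU τ θ f S) {g : V ≃ₗ[K] V} (hg : g ∈ f.isom) : g.restrictScalars F ∈ S.isom :=
  (S.symp_mem_isom _).2 fun x y => by
    rw [h.B, h.B]; exact congrArg τ (PQ.B_isom hg x y)

theorem trP [Finite K] (h : ExtU τ θ f S) : TrP (FP.unit σ hσ) :=
  trP_unit σ hσ ⟨θ, fun e => mul_ne_zero h.twoK h.θ0 (by linear_combination h.σθ - e)⟩

theorem semi_of (h : ExtU τ θ f S) {g : V ≃ₗ[F] V} {k : K} (e : ∀ v, g (θ • v) = k • g v) : KSemi K g :=
  fun l => by
    obtain ⟨a, b, rfl⟩ := h.dec l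
    exact ⟨algebraMap F K a + b • k, fun v => by simp [add_smul, e]⟩

theorem lin_of (h : ExtU τ θ f S) {g : V ≃ₗ[F] V} (e : ∀ v, g (θ • v) = θ • g v) : KLin K g :=
  fun l v => by
    obtain ⟨a, b, rfl⟩ := h.dec l
    simp [add_smul, e]

theorem mem_span_of_perp (h : ExtU τ θ f S) {u y : V} (hy : ∀ w, f.B w u = 0 → S.B y w = 0) :
    ∃ k : K, y = k • u := by
  have : y ∈ f.perp (f.perp (K ∙ u)) := fun w hw => eq_zero_of_tau h.tau fun k => by
    simpa [h.B, hσ] using hy (σ k • w) (by simp [f.mem_perp_span_singleton.1 hw])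
  rw [h.nd.perp_perp] at this
  obtain ⟨k, hk⟩ := Submodule.mem_span_singleton.1 this
  exact ⟨k, hk.symm⟩

theorem exists_trans (h : ExtU τ θ f S) {u w : V} (hu : u ≠ 0) (hw : w ≠ 0) (e : f.B w w = f.B u u) :
    ∃ g ∈ f.isom, g u = w := by
  obtain ⟨g, hg, e⟩ := h.nd.witt_step ⊥ (u := u) (v := w) (by simpa using hu) (by simpa using hw) (by simp)
    ((f.unit_Q_sub_mem f _ _).2 e)
  exact ⟨g, f.gen_le_isom _ hg, e⟩

theorem exists_tau (h : ExtU τ θ f S) {u : V} (hu : f.B u u = 0) (c : F) :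
    ∃ g ∈ f.isom, ∀ x, g x = x + (c • θ * f.B x u) • u :=
  ⟨f.tau u (c • θ) ((f.unit_tauOK_iff _ _).2 (by simp [hu, h.σ_smul, h.σθ])), f.tau_mem _ _ _,
    fun x => f.tau_apply _ _ _ _⟩

/-- If `M` contains a non-linear element of the centre of the unipotent radical, it contains transvections. -/
theorem ctr_of_not_lin (h : ExtU τ θ f S) (hM : M ≤ S.isom) (hK : ∀ g ∈ f.isom, g.restrictScalars F ∈ M)
    {u : V} (hu0 : u ≠ 0) (hu : f.B u u = 0) {ρ : V ≃ₗ[F] V} (r1 : ρ ∈ M) (r2 : ∀ w, f.B w u = 0 → ρ w = w)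
    (r3 : ¬ KLin K ρ) : Ctr S M u := by
  obtain ⟨x, hx⟩ := h.nd.exists_eq hu0 1
  have hux : f.B u x = 1 := by rw [f.unit_B_swap, hx, map_one]
  obtain ⟨δ, hδ⟩ := h.sq
  have h2 := h.twoK
  have hθ := h.θ0
  let Y : (K → K) → Prop := fun s => ∃ g ∈ M, ∀ y, g y = y + s (f.B y u) • u
  have Yadd : ∀ s s', Y s → Y s' → Y (fun a => s a + s' a) := by
    rintro s s' ⟨g, hg, e⟩ ⟨g', hg', e'⟩
    exact ⟨g * g', M.mul_mem hg hg', fun y => by simp [LinearEquiv.mul_apply, e, e', hu, add_smul]; abel⟩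
  have YT : ∀ c : F, Y (fun a => c • θ * a) := fun c => by
    obtain ⟨g, hg, e⟩ := h.exists_tau hu c
    exact ⟨_, hK g hg, e⟩
  have key : ∀ y, ∃ k : K, ρ y - y = k • u := fun y => h.mem_span_of_perp fun w e => by
    rw [S.B_sub_left, sub_eq_zero]
    conv_lhs => rw [← r2 w e]
    exact PQ.B_isom (hM r1) y w
  obtain ⟨s₁, e₁⟩ := key x
  obtain ⟨s₂, e₂⟩ := key (θ • x)
  set α := (s₁ + s₂ / θ) / 2 with hα
  set β := (s₁ - s₂ / θ) / 2 with hβ
  have hρ : ∀ y, ρ y = y + (α * f.B y u + β * σ (f.B y u)) • u := fun y => by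
    have := r2 (y - f.B y u • x) (by simp [hx])
    obtain ⟨a, b, e⟩ := h.dec (f.B y u)
    rw [e] at this ⊢
    rw [map_sub, add_smul, map_add, algebraMap_smul, smul_assoc, map_smul, map_smul, sub_eq_iff_eq_add.1 e₁,
      sub_eq_iff_eq_add.1 e₂] at this
    have e' : α * (algebraMap F K a + b • θ) + β * σ (algebraMap F K a + b • θ) = a • s₁ + b • s₂ := by
      simp only [map_add, h.σF, h.σ_smul, h.σθ]
      simp only [hα, hβ, Algebra.smul_def]; field_simp; ring
    rw [e', add_smul (a • s₁), smul_assoc, smul_assoc]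
    linear_combination (norm := module) this
  have hβ0 : β ≠ 0 := fun e => r3 fun k y => by simp [hρ, e, mul_smul, smul_comm α k]
  obtain ⟨c, hc⟩ : ∃ c : F, α = c • θ := by
    have := PQ.B_isom (hM r1) x (θ • x)
    simp only [hρ, h.B, PQ.B_add_left, PQ.B_add_right, PQ.B_smul_left, PQ.B_smul_right, hx, hux, hu, FP.unit_σ,
      map_add, map_mul, h.σθ, map_one, mul_one, mul_zero, add_zero, map_neg] at this
    obtain ⟨a, b, e⟩ := h.dec α
    refine ⟨b, ?_⟩
    have e1 := h.τσ (β * θ)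
    have e2 := h.τσ (α * θ)
    have e3 : τ (α * θ) = a := by
      rw [e, add_mul, map_add, mul_comm, h.τθF, smul_mul_assoc, hδ, map_smul, h.τF]; simp
    simp only [map_mul, h.σθ, mul_neg, map_neg, neg_mul, mul_add, map_add, neg_neg, mul_comm θ] at this e1 e2
    have : 2 * a = 0 := by linear_combination -this - e1 + e2 - 2 * e3
    rw [e, (mul_eq_zero.1 this).resolve_left h.two]; simp
  have Y1 : Y (fun a => β * σ a) := by
    convert Yadd (fun a => α * a + β * σ a) _ ⟨ρ, r1, hρ⟩ (YT (-c)) using 2; simp [hc]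
  have Y2 : ∀ l : K, Y (fun a => β * l ^ 2 * σ a) := fun l => by
    by_cases hl : l = 0
    · exact ⟨1, M.one_mem, by simp [hl]⟩
    obtain ⟨k, hk, ek⟩ := h.exists_trans hu0 (smul_ne_zero hl hu0) (by simp [hu])
    obtain ⟨g, hg, e⟩ := Y1
    refine ⟨_, M.mul_mem (M.mul_mem (hK k hk) hg) (M.inv_mem (hK k hk)), fun y => ?_⟩
    have e1 : f.B (k.symm y) u = σ l * f.B y u := by rw [← PQ.B_isom hk, ek]; simp
    change k (g (k.symm y)) = _
    rw [e, map_add, map_smul, ek, e1, k.apply_symm_apply, smul_smul]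
    simp only [map_mul, hσ]
    congr 2; ring
  have Y3 : ∀ γ : K, Y (fun a => γ * σ a) := fun γ => by
    obtain ⟨g, hg, e⟩ := Y2 ((γ / β - 1) / 2)
    obtain ⟨g', hg', e'⟩ := Y2 ((γ / β + 1) / 2)
    refine ⟨_, M.mul_mem (M.inv_mem hg) hg', fun y => ?_⟩
    have : γ = β * ((γ / β + 1) / 2) ^ 2 - β * ((γ / β - 1) / 2) ^ 2 := by field_simp; ring
    rw [LinearEquiv.mul_apply, LinearEquiv.coe_inv, LinearEquiv.symm_apply_eq, e, e']
    simp only [PQ.B_add_left, PQ.B_smul_left, hu, mul_zero, add_zero]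
    linear_combination (norm := module) (-σ (f.B y u) * this) • u
  rw [ctr_iff]
  intro c
  obtain ⟨g, hg, e⟩ := Yadd _ (fun a => -((c / (2 * δ)) • θ) * σ a) (YT (c / (2 * δ))) (Y3 _)
  suffices H : tv S u c = g from H ▸ hg
  ext y
  have hδ0 : δ ≠ 0 := by rintro rfl; simp [hθ] at hδ
  simp only [e]
  rw [tv_apply, h.B, neg_mul, ← sub_eq_add_neg, ← mul_sub, h.sub_σ, ← algebraMap_smul K]
  congr 2
  simp only [Algebra.smul_def, map_mul, map_div₀, ← hδ, map_ofNat]
  field_simp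

theorem exists_sc (h : ExtU τ θ f S) : ∃ a b : F, b ≠ 0 ∧ ∀ ν : K, σ ν = -ν → ν * ν = θ * θ →
    ∃ s ∈ f.isom, ∀ v, s v = (algebraMap F K a + b • ν) • v := by
  obtain ⟨δ, hδ⟩ := h.sq
  have h1 : 1 - δ ≠ 0 := fun e => by
    rw [← sub_eq_zero.1 e, map_one, mul_self_eq_one_iff] at hδ
    have := h.τθ
    rcases hδ with e | e <;> simp [e, h.τ1] at this
  refine ⟨(1 + δ) / (1 - δ), 2 / (1 - δ), div_ne_zero h.two h1, fun ν a1 a2 => ?_⟩
  generalize hl : algebraMap F K ((1 + δ) / (1 - δ)) + (2 / (1 - δ)) • ν = l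
  have e : l * σ l = 1 := by
    have h2 : 1 - algebraMap F K δ ≠ 0 := by simpa using (map_ne_zero (algebraMap F K)).2 h1
    rw [← hl, map_add, h.σF, h.σ_smul, a1]
    simp only [Algebra.smul_def, map_div₀, map_add, map_sub, map_one, map_ofNat]
    field_simp
    linear_combination -4 * a2 - 4 * hδ
  refine ⟨LinearEquiv.smulOfNeZero K V l (left_ne_zero_of_mul_eq_one e), (f.unit_mem_isom _).2 fun x y => ?_,
    fun v => rfl⟩
  simp only [LinearEquiv.smulOfNeZero_apply, PQ.B_smul_left, PQ.B_smul_right, FP.unit_σ]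
  linear_combination f.B x y * e

/-- An element of `M` normalising the unipotent radical modulo linear maps is semilinear. -/
theorem semi_of_comm (h : ExtU τ θ f S) (h3 : 3 ≤ finrank K V) (hM : M ≤ S.isom)
    (hK : ∀ g ∈ f.isom, g.restrictScalars F ∈ M) {u : V} (hu0 : u ≠ 0) (hu : f.B u u = 0)
    (hY : ∀ ρ ∈ M, (∀ w, f.B w u = 0 → ρ w = w) → KLin K ρ) {g : V ≃ₗ[F] V} (hg : g ∈ M)
    (hE : ∀ w q (e : f.EichOK u w q), KLin K (g⁻¹ * (f.eich u w q e).restrictScalars F * g)) : KSemi K g := by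
  obtain ⟨x, hx⟩ := h.nd.exists_eq hu0 1
  have hux : f.B u x = 1 := by rw [f.unit_B_swap, hx, map_one]
  obtain ⟨δ, hδ⟩ := h.sq
  let J : V →ₗ[F] V := (g : V →ₗ[F] V) ∘ₗ (LinearMap.lsmul K V θ).restrictScalars F ∘ₗ (g.symm : V →ₗ[F] V)
  have hJ : ∀ v, g (θ • g.symm v) = J v := fun v => rfl
  have JJ : ∀ v, J (J v) = (θ * θ) • v := fun v => by
    rw [← hJ, ← hJ, g.symm_apply_apply, smul_smul, hδ, algebraMap_smul, map_smul, g.apply_symm_apply,
      algebraMap_smul]
  have skew : ∀ a b, S.B (J a) b = -S.B a (J b) := fun a b => by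
    rw [← hJ, ← hJ, PQ.B_isom_symm (hM hg), h.B_smul, h.σθ, neg_smul, S.B_neg_right, ← PQ.B_isom (hM hg),
      g.apply_symm_apply]
  set μ := f.B (J x) u with hμ
  have hs : f.Sing u := (f.unit_sing u).2 hu
  have ok : ∀ w, f.B w u = 0 → f.EichOK u w (f.Q w) := fun w e => ⟨hs, e, by simp⟩
  have h1 : ∀ w q, f.EichOK u w q → J (w - (f.B x w - q) • u) = μ • w - (f.B (J x) w - q * μ) • u := fun w q e => by
    have := congrArg g (hE w q e θ (g.symm x))
    simp only [LinearEquiv.mul_apply, LinearEquiv.coe_inv, LinearEquiv.apply_symm_apply,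
      LinearEquiv.restrictScalars_apply, hJ, PQ.eich_apply, hx, FP.unit_ε, ← hμ, mul_one, one_mul, one_smul,
      map_add, map_sub J] at this ⊢
    linear_combination (norm := module) this
  have h2 : ∀ k : K, J (k • u) = (μ * k) • u := fun k => by
    have a1 := h.nd.finrank_perp (K ∙ u)
    rw [finrank_span_singleton hu0] at a1
    obtain ⟨w, hw, hw'⟩ := exists_mem_notMem_of_finrank_lt (U := f.perp (K ∙ u)) (W := K ∙ u)
      (by rw [finrank_span_singleton hu0]; omega)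
    obtain ⟨w', hw', e⟩ := h.nd.exists_perp_eq hw' k
    have o1 := ok w (f.mem_perp_span_singleton.1 hw)
    have o2 := ok w' (f.mem_perp_span_singleton.1 hw')
    have e1 := h1 _ _ o1
    have e2 := h1 _ _ o2
    have e3 := h1 _ _ (o2.add o1)
    simp only [e, PQ.B_add_right, sub_smul, add_smul, map_add, map_sub] at e1 e2 e3
    linear_combination (norm := module) e3 - e1 - e2
  have μμ : μ * μ = θ * θ := by
    have := JJ ((1 : K) • u)
    rw [h2, h2, one_smul, mul_one] at this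
    exact smul_left_injective K hu0 this
  have σμ : σ μ = -μ := by
    rcases mul_self_eq_mul_self_iff.1 μμ with e | e <;> simp [e, h.σθ]
  have h3 : ∀ w, f.B w u = 0 → J w = μ • w - f.B (J x - μ • x) w • u := fun w e => by
    have := h1 _ _ (ok w e)
    rw [map_sub, h2] at this
    simp only [PQ.B_sub_left, PQ.B_smul_left]
    linear_combination (norm := module) this
  have h4 : ∀ w, f.B w u = 0 → f.B (J x - μ • x) w = 0 := fun w e => eq_zero_of_tau h.tau fun k => by
    have e' : f.B (σ k • w) u = 0 := by simp [e]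
    have := skew (σ k • w) x
    have e1 := h.τσ (f.B (J x - μ • x) (σ k • w))
    rw [h3 _ e', S.B_sub_left, h.B_smul, σμ, h.B, h.B, h.B, f.B_smul_left _ u, hux] at this
    rw [← f.unit_B_swap] at e1
    simp only [PQ.B_sub_right, PQ.B_neg_right, neg_smul, map_sub, map_neg, mul_one] at this e1
    have : 2 * τ (f.B (J x - μ • x) (σ k • w)) = 0 := by linear_combination e1 - this
    simpa [h.two, hσ] using this
  have h5 : ∀ w, f.B w u = 0 → J w = μ • w := fun w e => by rw [h3 w e, h4 w e, zero_smul, sub_zero]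
  obtain ⟨a, b, hb, hs⟩ := h.exists_sc
  obtain ⟨s, s1, s2⟩ := hs θ h.σθ rfl
  obtain ⟨s', s1', s2'⟩ := hs μ σμ μμ
  have h6 : ∀ v, (g * s.restrictScalars F * g⁻¹) v = a • v + b • J v := fun v => by
    simp [LinearEquiv.mul_apply, s2, add_smul, hJ]
  have h7 : ∀ (k : K) v, J (k • v) = k • J v := fun k v => by
    have := (kLin_res s').mul (hY _ (M.mul_mem (M.inv_mem (hK _ s1')) (M.mul_mem (M.mul_mem hg (hK _ s1))
      (M.inv_mem hg))) fun w e => by
        rw [LinearEquiv.mul_apply, h6, h5 w e, LinearEquiv.coe_inv, LinearEquiv.symm_apply_eq]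
        simp [s2', add_smul]) k v
    rw [mul_inv_cancel_left, h6, h6, smul_add, smul_comm k a, add_right_inj, smul_comm k b] at this
    exact smul_right_injective V hb this
  obtain ⟨κ, hκ⟩ := h.mem_span_of_perp (u := u) (y := J x - μ • x) fun w e => by rw [h.B, h4 w e, map_zero]
  have h8 : J x = μ • x := by
    have := JJ x
    rw [sub_eq_iff_eq_add.1 hκ, map_add, h2, h7, sub_eq_iff_eq_add.1 hκ, ← μμ] at this
    have e : (2 * μ * κ) • u = 0 := by linear_combination (norm := module) this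
    have μ0 : μ ≠ 0 := fun e => mul_ne_zero h.θ0 h.θ0 (by rw [← μμ, e, mul_zero])
    have : κ = 0 := by simpa [hu0, μ0, h.twoK] using e
    rwa [this, zero_smul, sub_eq_zero] at hκ
  refine h.semi_of (k := μ) fun v => ?_
  have := h5 (g v - f.B (g v) u • x) (by simp [hx])
  rw [map_sub, h7, h8, ← hJ, g.symm_apply_apply] at this
  linear_combination (norm := module) this

theorem semi_of_stab (h : ExtU τ θ f S) (h3 : 3 ≤ finrank K V) (hM : M ≤ S.isom)
    (hK : ∀ g ∈ f.isom, g.restrictScalars F ∈ M) {u : V} (hu0 : u ≠ 0) (hu : f.B u u = 0)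
    (hY : ∀ ρ ∈ M, (∀ w, f.B w u = 0 → ρ w = w) → KLin K ρ) {g : V ≃ₗ[F] V} (hg : g ∈ M)
    (h1 : ∀ k : K, ∃ k' : K, g (k • u) = k' • u) : KSemi K g := by
  have h2 : ∀ k : K, ∃ k' : K, g.symm (k • u) = k' • u := fun k =>
    mem_dz.1 (dz_inv_top (eq_top_iff.2 fun k _ => mem_dz.2 (h1 k)) ▸ Submodule.mem_top : k ∈ dz K u g⁻¹)
  have hgL : ∀ w, f.B w u = 0 → f.B (g w) u = 0 := fun w e => eq_zero_of_tau h.tau fun k => by
    obtain ⟨k', e'⟩ := h2 (σ k)
    have := PQ.B_isom_symm (hM hg) w (σ k • u)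
    simpa [h.B, e', e, hσ] using this
  refine h.semi_of_comm h3 hM hK hu0 hu hY hg fun w q e => ?_
  have hn : g⁻¹ * (f.eich u w q e).restrictScalars F * g ∈ M :=
    M.mul_mem (M.mul_mem (M.inv_mem hg) (hK _ (f.eich_mem _ _ _ _))) hg
  have n1 : ∀ k : K, (g⁻¹ * (f.eich u w q e).restrictScalars F * g) (k • u) = k • u := fun k => by
    obtain ⟨k', e'⟩ := h1 k
    simp [LinearEquiv.mul_apply, e', f.B_comm_zero e.perp, hu, LinearEquiv.symm_apply_eq]
  have n2 : ∀ y, f.B y u = 0 → ∃ k : K, (g⁻¹ * (f.eich u w q e).restrictScalars F * g) y = y + k • u :=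
    fun y e' => by
      obtain ⟨k', e''⟩ := h2 (f.B (g y) w)
      exact ⟨k', by simp [LinearEquiv.mul_apply, hgL y e', e'']⟩
  generalize g⁻¹ * (f.eich u w q e).restrictScalars F * g = n at hn n1 n2
  have n3 : KSemi K n := h.semi_of_comm h3 hM hK hu0 hu hY hn fun w' q' e' => by
    have hE := hK _ (f.eich_mem _ _ _ e')
    have := (kLin_res (f.eich u w' q' e')).mul (hY _ (M.mul_mem (M.inv_mem hE)
      (M.mul_mem (M.mul_mem (M.inv_mem hn) hE) hn)) fun y e'' => by
        obtain ⟨k, e3⟩ := n2 y e''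
        simp only [LinearEquiv.mul_apply, LinearEquiv.coe_inv, LinearEquiv.symm_apply_eq]
        simp only [LinearEquiv.restrictScalars_apply, f.eich_apply_of_perp _ _ _ _ e'', map_add, n1, e3]
        simp [f.B_comm_zero e'.perp, hu]; abel)
    rwa [mul_inv_cancel_left] at this
  intro k v
  obtain ⟨k', e'⟩ := n3 k
  have := e' u
  rw [n1, ← one_smul K u, n1, one_smul] at this
  rw [e', smul_left_injective K hu0 this]

theorem conj_semi (h : ExtU τ θ f S) (h3 : 3 ≤ finrank K V) {u : V} (hu0 : u ≠ 0) {g : V ≃ₗ[F] V} {T : V ≃ₗ[K] V}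
    (hT : ∀ x, T x = x + (θ * f.B x u) • u) (hs : KSemi K (g * T.restrictScalars F * g⁻¹)) :
    ∃ κ : K, g (κ • u) = θ • g u := by
  have ht : ∀ x, (g * T.restrictScalars F * g⁻¹) x = x + g ((θ * f.B (g.symm x) u) • u) :=
    fun x => by simp [LinearEquiv.mul_apply, hT]
  obtain ⟨k', e⟩ := hs θ
  let φ : V →ₗ[F] K := (f.lin u).restrictScalars F ∘ₗ (g.symm : V →ₗ[F] V)
  have h2 : finrank F K ≠ 0 := Module.finrank_pos.ne'
  obtain ⟨v, hv, hv0⟩ := Submodule.exists_mem_ne_zero_of_ne_bot (LinearMap.ker_ne_bot_of_finrank_lt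
    (f := φ.prod (φ ∘ₗ (LinearMap.lsmul K V θ).restrictScalars F)) (by
      rw [finrank_prod, ← Module.finrank_mul_finrank F K V]
      have := Module.finrank_pos (R := F) (M := K)
      nlinarith))
  have v1 : f.B (g.symm v) u = 0 := congrArg Prod.fst hv
  have v2 : f.B (g.symm (θ • v)) u = 0 := congrArg Prod.snd hv
  have := e v
  rw [ht, ht, v1, v2] at this
  simp only [mul_zero, zero_smul, map_zero, add_zero] at this
  obtain rfl := smul_left_injective K hv0 this
  obtain ⟨y, hy⟩ := h.nd.exists_eq hu0 θ⁻¹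
  have := e (g y)
  rw [ht, ht, g.symm_apply_apply, hy, mul_inv_cancel₀ h.θ0, one_smul, smul_add, add_right_inj] at this
  exact ⟨_, this⟩

theorem eq_zero' (h : ExtU τ θ f S) {y u : V} (e : S.B y u = 0) (e' : S.B y (θ • u) = 0) : f.B y u = 0 :=
  h.eq_zero (by rwa [← h.B]) (by simpa [h.B, h.σθ] using e')

theorem two_le (h : ExtU τ θ f S) : 2 ≤ finrank F K := by
  have a1 := LinearMap.finrank_range_add_finrank_ker τ
  have a2 : finrank F (LinearMap.range τ) = 1 := by rw [Module.Dual.range_eq_top_of_ne_zero h.tau]; simp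
  have a3 : finrank F (LinearMap.ker τ) ≠ 0 := fun e => by
    have : (1 : K) ∈ LinearMap.ker τ := h.τ1
    simp [Submodule.finrank_eq_zero.1 e] at this
  omega

theorem semi_of_fix (h : ExtU τ θ f S) (h3 : 3 ≤ finrank K V) (hM : M ≤ S.isom)
    (hK : ∀ g ∈ f.isom, g.restrictScalars F ∈ M) {u : V} (hu0 : u ≠ 0) (hu : f.B u u = 0)
    (hY : ∀ ρ ∈ M, (∀ w, f.B w u = 0 → ρ w = w) → KLin K ρ) {g : V ≃ₗ[F] V} (hg : g ∈ M) (h1 : g u = u) :
    KSemi K g := by
  have top : ∀ g : V ≃ₗ[F] V, g u = u → (∃ κ : K, g (θ • u) = κ • u) → ∀ k : K, ∃ k' : K, g (k • u) = k' • u := by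
    rintro g e ⟨κ, e'⟩ k
    obtain ⟨a, b, rfl⟩ := h.dec k
    exact ⟨algebraMap F K a + b • κ, by simp [add_smul, e, e']⟩
  have Bs : ∀ g ∈ M, ∀ a b, S.B (g.symm a) b = S.B a (g b) := fun g hg a b => by
    rw [← PQ.B_isom (hM hg), g.apply_symm_apply]
  obtain ⟨T, T1, T2⟩ := h.exists_tau hu 1
  simp only [one_smul] at T2
  have A : ∀ g ∈ M, g u = u → f.B (g (θ • u)) u = 0 → ∃ κ : K, g (θ • u) = κ • u := fun g hg e e' => by
    have hL : ∀ k : K, f.B (g.symm (k • u)) u = 0 := fun k =>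
      h.eq_zero' (by simp [Bs g hg, e, h.B, hu]) (by simp [Bs g hg, h.B, f.B_comm_zero e'])
    obtain ⟨κ, hκ⟩ := h.conj_semi h3 hu0 T2 (h.semi_of_stab h3 hM hK hu0 hu hY
      (M.mul_mem (M.mul_mem hg (hK _ T1)) (M.inv_mem hg)) fun k => ⟨k, by simp [LinearEquiv.mul_apply, T2, hL]⟩)
    have e1 : g.symm u = u := g.symm_apply_eq.2 e.symm
    exact mem_dz.1 (dz_inv_top (g := g⁻¹) (eq_top_iff.2 fun k _ => mem_dz.2 (top g⁻¹ e1
      ⟨κ, g.symm_apply_eq.2 (by rw [hκ, e])⟩ k)) ▸ Submodule.mem_top : θ ∈ dz K u g⁻¹⁻¹)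
  refine h.semi_of_stab h3 hM hK hu0 hu hY hg (top g h1 (A g hg h1 ?_))
  by_contra hc
  let φ : V →ₗ[F] K × F := ((f.lin u).restrictScalars F).prod (S.lin (g (θ • u)))
  obtain ⟨w, hw, hw'⟩ := exists_mem_notMem_of_finrank_lt (U := LinearMap.ker φ) (W := (K ∙ u).restrictScalars F) (by
    have a1 := LinearMap.finrank_range_add_finrank_ker φ
    have a2 := (LinearMap.range φ).finrank_le
    have a3 : finrank F ((K ∙ u).restrictScalars F) = finrank F K * finrank K (K ∙ u) :=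
      (Module.finrank_mul_finrank F K (K ∙ u)).symm
    rw [finrank_span_singleton hu0] at a3
    rw [finrank_prod, finrank_self] at a2
    rw [← Module.finrank_mul_finrank F K V] at a1
    have := h.two_le
    nlinarith)
  have w1 : f.B w u = 0 := congrArg Prod.fst hw
  have w2 : S.B w (g (θ • u)) = 0 := congrArg Prod.snd hw
  have w3 : f.B (g.symm w) u = 0 := h.eq_zero' (by simp [Bs g hg, h1, h.B, w1]) (by rw [Bs g hg, w2])
  set x := g.symm (θ • u) with hx
  obtain ⟨c, c1⟩ := h.eq_of_τ (k := f.B x u) (by rw [← h.B, Bs g hg, h1]; simp [h.B, hu])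
  have c0 : c ≠ 0 := by
    rintro rfl
    refine hc (h.eq_zero' (by
      have := PQ.B_isom (hM hg) (θ • u) u
      rw [h1] at this; rw [this]; simp [h.B, hu]) ?_)
    rw [sB_swap, ← Bs g hg]; simp [h.B, ← hx, c1]
  obtain ⟨n, n1⟩ := h.eq_of_τ (k := f.B (x + g.symm w) (x + g.symm w) - f.B x x)
    (h.τ_of_fix (by rw [map_sub, ← f.unit_B_swap, ← f.unit_B_swap]))
  obtain ⟨w', q, e, -, e'⟩ := exists_eich_map f (x := x) (y := x + g.symm w + algebraMap F K (-n / (2 * c)) • u)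
    ((f.unit_sing u).2 hu) (by simp [w3, hu]) (by simp [c1, c0]) ((f.unit_Q_sub_mem f _ _).2 (by
      have a1 : f.B (x + g.symm w) u = algebraMap F K c := by simp [c1, w3]
      have a2 : f.B u (x + g.symm w) = algebraMap F K c := by rw [f.unit_B_swap, a1, h.σF]
      have a3 : algebraMap F K (-n / (2 * c)) * algebraMap F K c * 2 = -algebraMap F K n := by
        rw [← map_mul, ← map_ofNat (algebraMap F K) 2, ← map_mul, ← map_neg]
        have := h.two
        congr 1; field_simp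
      rw [f.B_add_left _ (_ • u), f.B_add_right _ _ (_ • u), f.B_add_right _ _ (_ • u), f.B_smul_left,
        f.B_smul_left, f.B_smul_right, f.B_smul_right, a1, a2, hu, FP.unit_σ, h.σF]
      linear_combination n1 + a3))
  have e1 : g.symm u = u := g.symm_apply_eq.2 h1.symm
  have e2 : (g * (f.eich u w' q e).restrictScalars F * g⁻¹) (θ • u) = θ • u + w + (-n / (2 * c)) • u := by
    change g (f.eich u w' q e x) = _
    rw [e', map_add, map_add, algebraMap_smul, map_smul, h1, hx, g.apply_symm_apply, g.apply_symm_apply]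
  obtain ⟨κ, hκ⟩ := A _ (M.mul_mem (M.mul_mem hg (hK _ (f.eich_mem _ _ _ e))) (M.inv_mem hg))
    (by simp [LinearEquiv.mul_apply, e1, h1, hu, f.B_comm_zero e.perp])
    (by rw [e2, ← algebraMap_smul K (-n / (2 * c))]; simp [w1, hu, -algebraMap_smul])
  rw [e2] at hκ
  exact hw' (Submodule.mem_span_singleton.2 ⟨κ - θ - algebraMap F K (-n / (2 * c)), by
    rw [sub_smul, sub_smul, algebraMap_smul, ← hκ]; abel⟩)

/-- The form `x ↦ f(x,x)` as a quadratic form over the small field. -/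
def nrm (h : ExtU τ θ f S) : QuadraticForm F V :=
  LinearMap.BilinMap.toQuadraticMap (LinearMap.mk₂ F (fun x y => S.B (θ • x) y) (by simp)
    (fun c x y => by rw [smul_comm, S.B_smul_left, smul_eq_mul]) (by simp) (by simp))

theorem ctr [Finite F] (h : ExtU τ θ f S) (h3 : 3 ≤ finrank K V) (hM : M ≤ S.isom)
    (hH : ∀ g ∈ S.isom, KSemi K g → g ∈ M) (hg : ∃ g ∈ M, ¬ KSemi K g) (v : V) : Ctr S M v := by
  have : Finite K := Module.finite_of_finite F
  have hK : ∀ g ∈ f.isom, g.restrictScalars F ∈ M := fun g hg => hH _ (h.res_mem hg) (kLin_res g).semi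
  have hs : ∀ u, f.B u u = 0 → Ctr S M u := by
    by_contra hc
    push Not at hc
    obtain ⟨u, hu, hc⟩ := hc
    have hu0 : u ≠ 0 := by rintro rfl; exact hc ctr_zero
    have hY : ∀ v, v ≠ 0 → f.B v v = 0 → ∀ ρ ∈ M, (∀ w, f.B w v = 0 → ρ w = w) → KLin K ρ := fun v hv0 hv ρ r1 r2 => by
      by_contra r3
      obtain ⟨l, l1, l2⟩ := h.exists_trans hv0 hu0 (hu.trans hv.symm)
      have := (h.ctr_of_not_lin hM hK hv0 hv r1 r2 r3).map (hK l l1) (h.res_mem l1)
      rw [LinearEquiv.restrictScalars_apply, l2] at this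
      exact hc this
    obtain ⟨g, hg, hg'⟩ := hg
    obtain ⟨T, T1, T2⟩ := h.exists_tau hu 1
    simp only [one_smul] at T2
    let φ : V →ₗ[F] K := (f.lin u).restrictScalars F ∘ₗ (g.symm : V →ₗ[F] V)
    obtain ⟨v, hv, hv0, hv'⟩ := H8.exists_sing_three h.nrm (T := LinearMap.ker φ) (by
      have a1 := LinearMap.finrank_range_add_finrank_ker φ
      have a2 := (LinearMap.range φ).finrank_le
      rw [← Module.finrank_mul_finrank F K V] at a1
      have := h.two_le
      nlinarith)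
    have v1 : f.B (g.symm v) u = 0 := hv
    have v2 : f.B v v = 0 := h.eq_zero' (by simp) (by rw [sB_swap]; exact neg_eq_zero.2 hv')
    obtain ⟨κ, hκ⟩ := h.conj_semi h3 hu0 T2 (h.semi_of_fix h3 hM hK hv0 v2 (hY v hv0 v2)
      (M.mul_mem (M.mul_mem hg (hK _ T1)) (M.inv_mem hg)) (by simp [LinearEquiv.mul_apply, T2, v1]))
    obtain ⟨l, l1, l2⟩ := h.exists_trans (u := g u) (by simpa using hu0) hu0 (hu.trans (h.eq_zero' (by simp)
      (by rw [← hκ, PQ.B_isom (hM hg)]; simp [h.B, hu])).symm)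
    have := (kLin_res l).inv.semi.mul (h.semi_of_fix h3 hM hK hu0 hu (hY u hu0 hu) (M.mul_mem (hK l l1) hg) l2)
    rw [inv_mul_cancel_left] at this
    exact hg' this
  by_cases hv : v = 0
  · exact hv ▸ ctr_zero
  obtain ⟨d, -, d1, d2⟩ := h.trP.exists_sing_perp_ne' h.nd (X := ⊥) (v := v) (by simpa using hv) (by simp; omega)
  have d3 := d1.B_self
  have h2 := h.twoK
  set a := (f.B v v / 2 + θ) / f.B d v with ha
  have e1 : f.B (a • d) v = f.B v v / 2 + θ := by rw [f.B_smul_left, ha]; field_simp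
  have e2 : f.B v (a • d) = f.B v v / 2 - θ := by
    rw [f.unit_B_swap, e1, map_add, map_div₀, ← f.unit_B_swap, h.σθ, map_ofNat]; ring
  have := (hs (v - a • d) (by
    rw [f.B_sub_left, f.B_sub_right, f.B_sub_right, e1, e2]; simp [d3]; field_simp; ring)).add'
    (hs (a • d) (by simp [d3])) (by
      rw [S.B_sub_left, sB_self, h.B, e2, map_sub, h.τθ, h.τ_of_fix (by rw [map_div₀, ← f.unit_B_swap, map_ofNat])]
      simp)
  rwa [sub_add_cancel] at this

end ExtU

omit [FiniteDimensional K V] [FiniteDimensional F V] in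
theorem exists_extU [Nontrivial V] (hS : S.Nondeg) (h2 : (2 : F) ≠ 0) (hr : finrank F K = 2)
    (hac : ∀ k : K, ∃ k' : K, ∀ x y, S.B (k • x) y = S.B x (k' • y))
    (hnsa : ¬ ∀ (k : K) x y, S.B (k • x) y = S.B x (k • y)) :
    ∃ (σ : K →+* K) (hσ : ∀ a, σ (σ a) = a) (τ : K →ₗ[F] F) (θ : K) (f : PQ (FP.unit σ hσ) V), ExtU τ θ f S := by
  choose s hs using hac
  have uq : ∀ a b : K, (∀ x y, S.B x (a • y) = S.B x (b • y)) → a = b := fun a b e => by
    obtain ⟨y, hy⟩ := exists_ne (0 : V)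
    exact smul_left_injective K hy (hS.ext_right fun x => e x y)
  let σ : K →+* K :=
    { toFun := s
      map_one' := uq _ _ fun x y => by rw [← hs, one_smul, one_smul]
      map_mul' := fun a b => uq _ _ fun x y => by rw [← hs, mul_smul, hs, hs, smul_smul, mul_comm]
      map_zero' := uq _ _ fun x y => by simp [← hs]
      map_add' := fun a b => uq _ _ fun x y => by simp [← hs, add_smul] }
  replace hs : ∀ (k : K) x y, S.B (k • x) y = S.B x (σ k • y) := hs
  have hσ : ∀ a, σ (σ a) = a := fun a => uq _ _ fun x y => by rw [← hs, sB_swap, ← hs, ← sB_swap]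
  have σF : ∀ c : F, σ (algebraMap F K c) = algebraMap F K c := fun c => uq _ _ fun x y => by
    rw [← hs]; simp
  have twoK : (2 : K) ≠ 0 := by rw [← map_ofNat (algebraMap F K) 2]; exact (map_ne_zero _).2 h2
  obtain ⟨a, ha⟩ : ∃ a, σ a ≠ a := by
    by_contra hc
    push Not at hc
    exact hnsa fun k x y => by rw [hs, hc]
  have σθ : σ (a - σ a) = -(a - σ a) := by rw [map_sub, hσ, neg_sub]
  obtain ⟨τ, τθ, τ1⟩ := exists_dual_one (F := F) (W := F ∙ (1 : K)) (x := a - σ a) fun e => by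
    obtain ⟨c, hc⟩ := Submodule.mem_span_singleton.1 e
    have := σF c
    rw [Algebra.algebraMap_eq_smul_one, hc, σθ] at this
    exact mul_ne_zero twoK (sub_ne_zero.2 ha.symm) (by linear_combination -this)
  replace τ1 : τ 1 = 0 := τ1 1 (Submodule.mem_span_singleton_self _)
  generalize a - σ a = θ at σθ τθ
  have hτ : τ ≠ 0 := by rintro rfl; simp at τθ
  have dec : ∀ k : K, ∃ a b : F, k = algebraMap F K a + b • θ := fun k => by
    obtain ⟨c, hc⟩ := exists_smul_of_finrank_one (A := LinearMap.ker τ) (by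
      have a1 := LinearMap.finrank_range_add_finrank_ker τ
      have a2 : finrank F (LinearMap.range τ) = 1 := by rw [Module.Dual.range_eq_top_of_ne_zero hτ]; simp
      omega) τ1 one_ne_zero (show τ (k - τ k • θ) = 0 by simp [τθ])
    exact ⟨c, τ k, by rw [Algebra.algebraMap_eq_smul_one, ← hc, sub_add_cancel]⟩
  have τσ : ∀ k, τ (σ k) = -τ k := fun k => by
    obtain ⟨a, b, rfl⟩ := dec k
    rw [map_add σ, σF, Algebra.smul_def, map_mul, σF, σθ, mul_neg, ← Algebra.smul_def]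
    simp [Algebra.algebraMap_eq_smul_one, τ1]
  obtain ⟨f, hf⟩ := exists_lift_form hτ S.B S.B_add_left S.B_smul_left
  have ext : ∀ a b : K, (∀ k, τ (k * a) = τ (k * b)) → a = b := fun a b e =>
    sub_eq_zero.1 (eq_zero_of_tau hτ fun k => by rw [mul_sub, map_sub, e, sub_self])
  refine ⟨σ, hσ, τ, θ, PQ.ofHerm σ hσ (1 / 2) (by rw [map_div₀, map_one, map_ofNat]; field_simp; norm_num) f
    (fun x y v => ext _ _ fun k => by simp [hf, mul_add])
    (fun c x v => ext _ _ fun k => by rw [hf, ← mul_assoc, hf, mul_smul])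
    (fun u v => ext _ _ fun k => by
      rw [hf, ← hσ k, ← map_mul, τσ, hf, hσ, hs (σ k), hσ, sB_swap]),
    h2, σθ, τθ, τ1, σF, dec, fun x hx => hS x fun y => ?_, fun x y => ?_⟩
  · have := hf x y 1
    rw [show f x y = 0 from hx y] at this
    simpa using this.symm
  · have := hf x y 1
    rw [one_mul, one_smul] at this
    exact this.symm

theorem sp_max_extU [Fintype F] {m : ℕ} (hm : 3 ≤ m) (hodd : Odd (Fintype.card F))
    {A : Subalgebra F (Matrix (Fin m ⊕ Fin m) (Fin m ⊕ Fin m) F)} (hA : Geo.IsFieldSubalgebra 2 A)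
    (hac : Geo.IsAdjointClosedFor (sympForm m F) A) (hnsa : ¬ Geo.IsSelfAdjointFor (sympForm m F) A) :
    Geo.IsMaximalIn (spGL m F) (Geo.subalgebraNormalizer A ⊓ spGL m F) := by
  have : Nonempty (Fin m ⊕ Fin m) := ⟨.inl ⟨0, by omega⟩⟩
  let _ := Asch.fieldOf A hA.comm hA.inv
  let inst : Module A (Fin m ⊕ Fin m → F) :=
    Module.compHom _ ((Matrix.toLinAlgEquiv' (R := F)).toRingHom.comp A.val.toRingHom)
  have : @IsScalarTower F A (Fin m ⊕ Fin m → F) Algebra.toSMul inst.toSMul _ :=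
    ⟨fun c k v => Matrix.smul_mulVec c k.1 v⟩
  have : FiniteDimensional A (Fin m ⊕ Fin m → F) := Module.Finite.right F A _
  obtain ⟨σ, hσ, τ, θ, f, h⟩ := exists_extU (K := A) (spS_nondeg (F := F) m) (two_ne_zero_of_odd hodd) hA.finrank_eq
    (fun k => by obtain ⟨k', a1, a2⟩ := hac k k.2; exact ⟨⟨k', a1⟩, a2⟩) (fun e => hnsa fun k hk => e ⟨k, hk⟩)
  refine sp_max _ (KSemi A) (fun g _ => mem_subalgebraNormalizer_iff' A g)
    (Sp_not_le_subalgebraNormalizer (by omega) hA one_lt_two) fun M h1 h2 h3 => h.ctr ?_ h1 h2 h3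
  have := Module.finrank_mul_finrank F A (Fin m ⊕ Fin m → F)
  rw [finrank_spS, hA.finrank_eq] at this
  omega

end Cfsg.Agent.H7
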