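import Cfsg.Agent.H7.Nd3
import Cfsg.Agent.H7.Sp8
import Cfsg.Agent.H8.Similarity

/-!
The four-dimensional symplectic group acting on the five-dimensional orthogonal space.
-/

set_option autoImplicit false
set_option linter.unusedSectionVars false

namespace Cfsg.Agent.H7

open Module QuadraticMap Cfsg.Agent.H8 Cfsg.Agent.Form
open scoped Matrix MatrixGroups

variable {F V U : Type*} [Field F] [Finite F] [AddCommGroup V] [Module F V] [FiniteDimensional F V]
  [AddCommGroup U] [Module F U] [FiniteDimensional F U]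

/-- The trace-free self-adjoint maps of a symplectic four-space. -/
structure KD (S : PQ (FP.symp F) V) (Q : QuadraticForm F U) (X : U →ₗ[F] V →ₗ[F] V) : Prop where
  two : (2 : F) ≠ 0
  ndS : S.Nondeg
  nt : Nontrivial V
  nd : ND Q
  five : finrank F U = 5
  inj : ∀ u, X u = 0 → u = 0
  sq : ∀ u v, X u (X u v) = Q u • v
  sa : ∀ u x y, S.B (X u x) y = S.B x (X u y)
  tr : ∀ u, LinearMap.trace F V (X u) = 0
  surj : ∀ Y : V →ₗ[F] V, (∀ x y, S.B (Y x) y = S.B x (Y y)) → LinearMap.trace F V Y = 0 → ∃ u, X u = Y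
  cent : ∀ Y : V →ₗ[F] V, (∀ u v, X u (Y v) = Y (X u v)) → ∃ c : F, ∀ v, Y v = c • v

/-- `p` is the map induced by `g`. -/
def Lift (X : U →ₗ[F] V →ₗ[F] V) (g : V ≃ₗ[F] V) (p : U ≃ₗ[F] U) : Prop := ∀ u v, X (p u) (g v) = g (X u v)

variable {S : PQ (FP.symp F) V} {Q : QuadraticForm F U} {X : U →ₗ[F] V →ₗ[F] V} {M : Subgroup (V ≃ₗ[F] V)}

theorem Lift.mul {g g' : V ≃ₗ[F] V} {p p' : U ≃ₗ[F] U} (h : Lift X g p) (h' : Lift X g' p') :
    Lift X (g * g') (p * p') := fun u v => by simp only [LinearEquiv.mul_apply, h _ _, h' _ _]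

theorem Lift.inv {g : V ≃ₗ[F] V} {p : U ≃ₗ[F] U} (h : Lift X g p) : Lift X g⁻¹ p⁻¹ := fun u v => by
  have := h (p.symm u) (g.symm v)
  rw [p.apply_symm_apply, g.apply_symm_apply] at this
  exact (g.symm_apply_eq.2 this).symm

/-- The induced group. -/
def imG (X : U →ₗ[F] V →ₗ[F] V) (M : Subgroup (V ≃ₗ[F] V)) : Subgroup (U ≃ₗ[F] U) where
  carrier := {p | ∃ g ∈ M, Lift X g p}
  one_mem' := ⟨1, M.one_mem, fun _ _ => rfl⟩
  mul_mem' := fun ⟨_, a, b⟩ ⟨_, c, d⟩ => ⟨_, M.mul_mem a c, b.mul d⟩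
  inv_mem' := fun ⟨_, a, b⟩ => ⟨_, M.inv_mem a, b.inv⟩

namespace KD

theorem ext (h : KD S Q X) {u u' : U} (e : ∀ v, X u v = X u' v) : u = u' :=
  sub_eq_zero.1 (h.inj _ (LinearMap.ext fun v => by simp [e]))

theorem sc (h : KD S Q X) {a b : F} (e : ∀ v : V, a • v = b • v) : a = b := by
  obtain ⟨v, hv⟩ := @exists_ne _ h.nt (0 : V)
  exact smul_left_injective F hv (e v)

theorem anti (h : KD S Q X) (u w : U) (v : V) : X u (X w v) + X w (X u v) = polar Q u w • v := by
  have := h.sq (u + w) v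
  simp only [map_add, LinearMap.add_apply, h.sq, Q_add, add_smul] at this
  linear_combination (norm := module) this

theorem uniq (h : KD S Q X) {g : V ≃ₗ[F] V} {p p' : U ≃ₗ[F] U} (e : Lift X g p) (e' : Lift X g p') : p = p' :=
  LinearEquiv.ext fun u => h.ext fun v => by rw [← g.apply_symm_apply v, e, e']

theorem mem_OG (h : KD S Q X) {g : V ≃ₗ[F] V} {p : U ≃ₗ[F] U} (e : Lift X g p) : p ∈ OG Q := fun u =>
  h.sc fun v => by rw [← g.apply_symm_apply v, ← h.sq, e, e, h.sq, map_smul]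

theorem exists_lift (h : KD S Q X) {g : V ≃ₗ[F] V} (hg : g ∈ S.isom) : ∃ p, Lift X g p := by
  choose p hp using fun u => h.surj (g.conj (X u)) (fun x y => by
    rw [← PQ.B_isom (S.isom.inv_mem hg), ← PQ.B_isom (S.isom.inv_mem hg) x]
    simp [LinearEquiv.conj_apply, h.sa]) (by rw [LinearMap.trace_conj', h.tr])
  have e : ∀ u v, X (p u) (g v) = g (X u v) := fun u v => by simp [hp, LinearEquiv.conj_apply]
  let P : U →ₗ[F] U := ⟨⟨p, fun a b => h.ext fun v => by simp [hp]⟩, fun a b => h.ext fun v => by simp [hp]⟩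
  refine ⟨LinearEquiv.ofInjectiveEndo P ((injective_iff_map_eq_zero P).2 fun u e0 => h.inj u ?_), e⟩
  ext v
  simpa [show p u = 0 from e0] using (e u v).symm

theorem mem_Om (h : KD S Q X) {g : V ≃ₗ[F] V} (hg : g ∈ S.isom) {p : U ≃ₗ[F] U} (e : Lift X g p) : p ∈ Om Q := by
  let N : Subgroup (V ≃ₗ[F] V) :=
    { carrier := {g | ∃ p ∈ Om Q, Lift X g p}
      one_mem' := ⟨1, (Om Q).one_mem, fun _ _ => rfl⟩
      mul_mem' := fun ⟨_, a, b⟩ ⟨_, c, d⟩ => ⟨_, (Om Q).mul_mem a c, b.mul d⟩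
      inv_mem' := fun ⟨_, a, b⟩ => ⟨_, (Om Q).inv_mem a, b.inv⟩ }
  obtain ⟨p', a, b⟩ : g ∈ N := isom_le_of_ctr h.ndS (fun v => ctr_iff.2 fun c => by
    obtain ⟨p, hp⟩ := h.exists_lift (tv_mem (S := S) v (c / 2))
    have h2 := h.two
    exact ⟨_, sq_mem_Om h.nd h.five.ge (h.mem_OG hp), by
      simpa [tv_mul, show c / 2 + c / 2 = c by field_simp; ring] using hp.mul hp⟩) hg
  rwa [h.uniq e b]

theorem Om_le (h : KD S Q X) : Om Q ≤ imG X S.isom := by
  rw [Om_eq_EG h.nd h.five.ge]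
  refine EG_le fun u _ w _ hu huw => ?_
  have a1 : ∀ v, X u (X u v) = 0 := fun v => by rw [h.sq, hu, zero_smul]
  have a2 : ∀ v, X w (X u v) = -X u (X w v) := fun v => by
    have := h.anti u w v
    rw [huw, zero_smul] at this
    exact eq_neg_of_add_eq_zero_right this
  obtain ⟨g, g1, g2⟩ := exists_isom_of_B h.ndS (LinearMap.id - X u ∘ₗ X w) fun x y => by
    simp [h.sa, a1, a2]
  refine ⟨g, g1, fun z v => ?_⟩
  have a3 : ∀ a v, X z (X a v) = polar Q z a • v - X a (X z v) := fun a v => eq_sub_of_add_eq (h.anti z a v)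
  simp only [g2, siegel_apply hu huw, map_add, map_sub, map_smul, LinearMap.add_apply, LinearMap.sub_apply,
    LinearMap.smul_apply, LinearMap.comp_apply, LinearMap.id_apply, a1, a2, a3, h.sq, add_smul, mul_smul]
  module

theorem max_J (h : KD S Q X) (hq : 4 ≤ Nat.card F) {J : V →ₗ[F] V} {δ : F} (hδ : δ ≠ 0) (J1 : ∀ v, J (J v) = δ • v)
    (J2 : ∀ x y, S.B (J x) y = -S.B x (J y)) (hM : M ≤ S.isom)
    (hH : ∀ g ∈ S.isom, (∃ t : F, ∀ v, g (J v) = t • J (g v)) → g ∈ M)
    (hg : ∃ g ∈ M, ¬ ∃ t : F, ∀ v, g (J v) = t • J (g v)) : S.isom ≤ M := by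
  have h2 := h.two
  have J0 : ∀ c : F, (∀ v, c • J v = 0) → c = 0 := fun c e =>
    (mul_eq_zero.1 (h.sc (b := 0) fun v => by simpa [J1, smul_smul] using e (J v))).resolve_right hδ
  obtain ⟨w, w1, w2⟩ : ∃ w, (∀ v, X w (J v) = -J (X w v)) ∧ Q w ≠ 0 := by
    by_contra hc
    push Not at hc
    choose c e using fun u => h.surj (J ∘ₗ X u ∘ₗ J) (fun x y => by simp [J2, h.sa]) (by
      rw [LinearMap.trace_comp_comm', LinearMap.comp_assoc, show J ∘ₗ J = δ • LinearMap.id from LinearMap.ext J1,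
        LinearMap.comp_smul, LinearMap.comp_id, map_smul, h.tr, smul_zero])
    have a1 : ∀ u v, X (δ • u - c u) (J v) = -J (X (δ • u - c u) v) := fun u v => by simp [e, J1]
    have a2 : ∀ u, δ • u - c u = 0 := fun u => h.nd _ fun z => by
      have b1 : polar Q (δ • u - c u) (δ • z - c z) = 0 := by
        have := hc (δ • u - c u + (δ • z - c z)) fun v => by
          rw [map_add, LinearMap.add_apply, LinearMap.add_apply, a1, a1, map_add, neg_add]
        rwa [Q_add, hc _ (a1 u), hc _ (a1 z), zero_add, zero_add] at this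
      have b2 : 2 * polar Q (δ • u - c u) (δ • z + c z) = 0 := J0 _ fun v => by
        have b3 : ∀ v, X (δ • z + c z) (J v) = J (X (δ • z + c z) v) := fun v => by simp [e, J1, add_comm]
        have b4 := h.anti (δ • u - c u) (δ • z + c z) (J v)
        have b5 := congrArg J (h.anti (δ • u - c u) (δ • z + c z) v)
        rw [a1, b3, a1, map_neg, b3] at b4
        rw [map_add, map_smul] at b5
        linear_combination (norm := module) -b4 - b5
      have b3 : (2 * (2 * δ)) * polar Q (δ • u - c u) z = 0 := by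
        simp only [polar_sub_right, polar_add_right, pol_smul_right] at b1 b2
        linear_combination 2 * b1 + b2
      exact (mul_eq_zero.1 b3).resolve_left (mul_ne_zero h2 (mul_ne_zero h2 hδ))
    obtain ⟨c, hc⟩ := h.cent J fun u v => smul_right_injective V hδ (by
      have := LinearMap.congr_fun (e u) v
      rw [← sub_eq_zero.1 (a2 u)] at this
      simpa [J1] using (congrArg J this).symm)
    obtain ⟨x, hx⟩ := @exists_ne _ h.nt (0 : V)
    obtain ⟨y, hy⟩ := h.ndS.exists_ne hx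
    have := J2 y x
    simp only [hc, PQ.B_smul_left, PQ.B_smul_right] at this
    have c0 : c = 0 := (mul_eq_zero.1 ((mul_eq_zero.1 (show 2 * (c * S.B y x) = 0 by
      simp at this; linear_combination this)).resolve_left h2)).resolve_right hy
    exact hδ (h.sc (b := 0) fun v => by rw [← J1, hc, c0, zero_smul, zero_smul])
  obtain ⟨w', e'⟩ := h.surj (J ∘ₗ X w) (fun x y => by simp [J2, h.sa, w1]) (by
    have := LinearMap.trace_comp_comm' (X w) J
    rw [show X w ∘ₗ J = -(J ∘ₗ X w) from LinearMap.ext w1, map_neg] at this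
    exact (mul_eq_zero.1 (show 2 * LinearMap.trace F V (J ∘ₗ X w) = 0 by linear_combination this)).resolve_left h2)
  replace e' : ∀ v, X w' v = J (X w v) := LinearMap.congr_fun e'
  have q1 : Q w' = -δ * Q w := h.sc fun v => by simp [← h.sq, e', w1, J1, mul_smul]
  have q2 : polar Q w w' = 0 := h.sc fun v => by simp [← h.anti, e', w1]
  have W1 : NDOn Q (sp F [w, w']) := fun x hx e => by
    obtain ⟨a, b, rfl⟩ := mem_sp_two.1 hx
    have e1 := e w (mem_sp_of_mem (by simp))
    have e2 := e w' (mem_sp_of_mem (by simp))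
    simp [q1, q2, pol_comm Q w', h2, w2, hδ] at e1 e2
    simp [e1, e2]
  have W2 : finrank F (sp F [w, w']) = 2 := by
    rw [finrank_sp_cons, finrank_sp_one]
    · rintro rfl; simp [w2, hδ] at q1
    · intro e
      obtain ⟨c, rfl⟩ := mem_sp_one.1 e
      simp [Q_smul, h2] at q2 w2
      tauto
  have W3 : ∀ z, z ∈ sp F [w, w'] ↔ ∀ v, X z (J v) = -J (X z v) := fun z => ⟨fun e v => by
    obtain ⟨a, b, rfl⟩ := mem_sp_two.1 e
    simp [e', w1, add_comm], fun e => by
    obtain ⟨x, hx, y, hy, rfl⟩ := W1.decomp z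
    obtain ⟨a, b, rfl⟩ := mem_sp_two.1 hx
    have y1 : ∀ v, X y (J v) = -J (X y v) := fun v => by simpa [e', w1, add_comm] using e v
    have y2 := fun v => h.anti w y v
    have y3 := fun v => h.anti w' y v
    simp only [mem_perp_sp.1 hy w (by simp), mem_perp_sp.1 hy w' (by simp), e', y1, zero_smul] at y2 y3
    have y4 : y = 0 := h.inj _ (LinearMap.ext fun v => (smul_eq_zero.1 (show (2 * (δ * Q w)) • X y v = 0 by
      have b1 := congrArg (fun x => X w (J x)) (y3 v)
      have b2 := congrArg (X w) (y2 v)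
      simp only [map_add, map_neg, J1, map_smul, h.sq, map_zero] at b1 b2
      linear_combination (norm := module) b1 + δ • b2)).resolve_left (mul_ne_zero h2 (mul_ne_zero hδ w2)))
    simpa [y4] using hx⟩
  have key : ∀ g p, Lift X g p → (p ∈ Stab (sp F [w, w']) ↔ ∃ t : F, ∀ v, g (J v) = t • J (g v)) := fun g p l =>
    ⟨fun e => by
      obtain ⟨a, b, e1⟩ := mem_sp_two.1 ((e w).1 (mem_sp_of_mem (by simp)))
      obtain ⟨c, d, e2⟩ := mem_sp_two.1 ((e w').1 (mem_sp_of_mem (by simp)))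
      have b1 := h.mem_OG l w
      have b2 := OG_pol (h.mem_OG l) w w'
      simp only [e1, e2, Q_add, Q_smul, polar_add_left, polar_add_right, pol_smul_left, pol_smul_right, pol_self, q1,
        q2, pol_comm Q w'] at b1 b2
      have b3 : a * a - δ * (b * b) = 1 := mul_right_cancel₀ w2 (by linear_combination b1)
      have b4 : a * c - δ * (b * d) = 0 := mul_right_cancel₀ (mul_ne_zero h2 w2) (by linear_combination b2)
      refine ⟨a * d - b * c, fun v => smul_right_injective V w2 ?_⟩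
      have b5 := l w (X w v)
      have b6 := l w' (X w v)
      simp only [e1, e2, map_add, map_smul, LinearMap.add_apply, LinearMap.smul_apply, e', h.sq] at b5 b6
      have b7 := congrArg J b5
      simp only [map_add, map_smul, J1] at b7
      generalize X w (g (X w v)) = y at b5 b6 b7
      linear_combination (norm := module) -b6 + (a * d - b * c) • b7 - b3 • (c • y + d • J y) +
        b4 • (a • y + b • J y),
    fun ⟨t, e⟩ => mem_Stab_of_maps fun z hz => (W3 _).2 fun v => by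
      have t0 : t ≠ 0 := by
        rintro rfl
        exact one_ne_zero (J0 1 fun v => by simpa using e v)
      obtain ⟨v, rfl⟩ := g.surjective v
      refine smul_right_injective V t0 ?_
      simp only [← map_smul, ← e, l _ _, (W3 z).1 hz, smul_neg, map_neg]⟩
  have W4 : finrank F (perp Q (sp F [w, w'])) = 3 := by
    have := h.nd.finrank_perp (sp F [w, w']); have := h.five; omega
  have hmax := nondeg_max_three h.nd h.five.ge h2 hq (W1.perp h.nd) W4 (by rw [h.nd.perp_perp]; omega) fun g _ e => by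
    have := LinearEquiv.finrank_map_eq g (perp Q (sp F [w, w']))
    rw [e, h.nd.perp_perp] at this
    omega
  rw [Stab_perp_inf h.nd] at hmax
  rcases hmax.2 (imG X M) (fun p hp => by
      obtain ⟨g, g1, g2⟩ := h.Om_le hp.2
      exact ⟨g, hH g g1 ((key g p g2).1 hp.1), g2⟩) (fun p ⟨g, g1, g2⟩ => h.mem_Om (hM g1) g2) with e | e
  · obtain ⟨g, g1, g2⟩ := hg
    obtain ⟨p, hp⟩ := h.exists_lift (hM g1)
    exact (g2 ((key g p hp).1 (e ▸ ⟨g, g1, hp⟩ : p ∈ Stab _ ⊓ Om Q).1)).elim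
  · intro g hg
    obtain ⟨p, hp⟩ := h.exists_lift hg
    obtain ⟨m, m1, m2⟩ : p ∈ imG X M := e ▸ h.mem_Om hg hp
    simpa using M.mul_mem m1 (hH _ (S.isom.mul_mem (S.isom.inv_mem (hM m1)) hg)
      ((key _ _ (m2.inv.mul hp)).1 (by simp)))

end KD

/-- The explicit model. -/
def kX (F : Type*) [Field F] : (Fin 5 → F) →ₗ[F] (Fin 2 ⊕ Fin 2 → F) →ₗ[F] (Fin 2 ⊕ Fin 2 → F) :=
  LinearMap.mk₂ F (fun u v => Sum.elim
    ![u 0 * v (.inl 0) + u 1 * v (.inl 1) + u 3 * v (.inr 1), u 2 * v (.inl 0) - u 0 * v (.inl 1) - u 3 * v (.inr 0)]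
    ![u 4 * v (.inl 1) + u 0 * v (.inr 0) + u 2 * v (.inr 1), -u 4 * v (.inl 0) + u 1 * v (.inr 0) - u 0 * v (.inr 1)])
    (fun _ _ _ => by ext (i | i) <;> fin_cases i <;> simp <;> ring)
    (fun _ _ _ => by ext (i | i) <;> fin_cases i <;> simp <;> ring)
    (fun _ _ _ => by ext (i | i) <;> fin_cases i <;> simp <;> ring)
    (fun _ _ _ => by ext (i | i) <;> fin_cases i <;> simp <;> ring)

/-- The quadratic form of the explicit model. -/
noncomputable def kQ (F : Type*) [Field F] : QuadraticForm F (Fin 5 → F) :=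
  QuadraticMap.proj 0 0 + QuadraticMap.proj 1 2 - QuadraticMap.proj 3 4

theorem spS_two (x y : Fin 2 ⊕ Fin 2 → F) : (spS 2 F).B x y = x (.inr 0) * y (.inl 0) + x (.inr 1) * y (.inl 1) -
    x (.inl 0) * y (.inr 0) - x (.inl 1) * y (.inr 1) := by
  change sympForm 2 F x y = _
  simp [sympForm, Matrix.J, dotProduct, Matrix.mulVec, Fintype.sum_sum_type, Matrix.one_apply]; ring

theorem trace_two (Y : (Fin 2 ⊕ Fin 2 → F) →ₗ[F] (Fin 2 ⊕ Fin 2 → F)) : LinearMap.trace F _ Y =
    Y (Pi.single (.inl 0) 1) (.inl 0) + Y (Pi.single (.inl 1) 1) (.inl 1) + Y (Pi.single (.inr 0) 1) (.inr 0) +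
      Y (Pi.single (.inr 1) 1) (.inr 1) := by
  rw [LinearMap.trace_eq_matrix_trace F (Pi.basisFun F _)]
  simp [Matrix.trace, Fintype.sum_sum_type]; ring

theorem kd (h2 : (2 : F) ≠ 0) : KD (spS 2 F) (kQ F) (kX F) where
  two := h2
  ndS := spS_nondeg 2
  nt := inferInstance
  nd u e := by
    have := fun i => e (Pi.single i 1)
    have a0 := this 0; have a1 := this 1; have a2 := this 2; have a3 := this 3; have a4 := this 4
    simp [kQ, polar] at a0 a1 a2 a3 a4
    ext i; fin_cases i <;> simp <;> grind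
  five := by simp
  inj u e := by
    have a0 := congrFun (LinearMap.congr_fun e (Pi.single (.inl 0) 1))
    have a1 := congrFun (LinearMap.congr_fun e (Pi.single (.inr 0) 1))
    have b0 := a0 (.inl 0); have b1 := a0 (.inl 1); have b2 := a0 (.inr 1); have b3 := a1 (.inl 1)
    have b4 := a1 (.inr 1)
    simp [kX] at b0 b1 b2 b3 b4
    ext i; fin_cases i <;> simp_all
  sq u v := by ext (i | i) <;> fin_cases i <;> simp [kX, kQ] <;> ring
  sa u x y := by simp [spS_two, kX]; ring
  tr u := by simp [trace_two, kX]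
  surj Y h1 h2' := by
    have a := fun i j => h1 (Pi.single i 1) (Pi.single j 1)
    have a0 := a (.inl 0) (.inl 0); have a1 := a (.inl 0) (.inl 1); have a2 := a (.inl 0) (.inr 0)
    have a3 := a (.inl 0) (.inr 1); have a4 := a (.inl 1) (.inl 1); have a5 := a (.inl 1) (.inr 0)
    have a6 := a (.inl 1) (.inr 1); have a7 := a (.inr 0) (.inr 0); have a8 := a (.inr 0) (.inr 1)
    have a9 := a (.inr 1) (.inr 1)
    simp [spS_two] at a0 a1 a2 a3 a4 a5 a6 a7 a8 a9
    rw [trace_two] at h2'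
    refine ⟨![Y (Pi.single (.inl 0) 1) (.inl 0), Y (Pi.single (.inl 1) 1) (.inl 0), Y (Pi.single (.inl 0) 1) (.inl 1),
      Y (Pi.single (.inr 1) 1) (.inl 0), Y (Pi.single (.inl 1) 1) (.inr 0)], (Pi.basisFun F _).ext fun j => ?_⟩
    ext i
    rcases j with j | j <;> fin_cases j <;> rcases i with i | i <;> fin_cases i <;> simp [kX] <;> grind
  cent Y h := by
    obtain ⟨y, hy⟩ : ∃ y : Fin 2 ⊕ Fin 2 → Fin 2 ⊕ Fin 2 → F, ∀ x i, Y x i = x (.inl 0) * y (.inl 0) i +
        x (.inl 1) * y (.inl 1) i + x (.inr 0) * y (.inr 0) i + x (.inr 1) * y (.inr 1) i :=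
      ⟨fun j => Y fun i => if j = i then 1 else 0, fun x i => by
        rw [LinearMap.pi_apply_eq_sum_univ Y x]; simp [Fintype.sum_sum_type]; ring⟩
    have a := fun k i j => congrFun (h (Pi.single k 1) (Pi.single i 1)) j
    simp [Fin.forall_fin_succ, kX, hy] at a
    refine ⟨y (.inl 0) (.inl 0), fun v => ?_⟩
    ext (i | i) <;> fin_cases i <;> simp [hy] <;> grind

end Cfsg.Agent.H7
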