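import Cfsg.Agent.H3.TenSpO2
import Cfsg.Agent.H8.Decomp

/-!
`O₄⁻(3) ⊗ Sp₂(3)` is maximal in `Sp₈(3)`.
-/

set_option autoImplicit false
set_option linter.unusedSectionVars false

namespace Cfsg.Agent.H7.SpT3

open Module Cfsg.Agent.H7 Cfsg.Agent.Form Cfsg.Agent.H3 Cfsg.Agent.H3.TenLin Cfsg.Agent.H3.RootGeo
  Cfsg.Agent.H3.TenForm Cfsg.Agent.H3.TenGeo Cfsg.Agent.H3.TenPar Cfsg.Agent.H3.TenGlue
  Cfsg.Agent.H3.TenSU Cfsg.Agent.H3.OrthLem Cfsg.Agent.H3.TenSpO1 Cfsg.Agent.H3.TenSpO2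

variable {F : Type*} [Field F] {V : Type*} [AddCommGroup V] [Module F V]
  {U : Type*} [AddCommGroup U] [Module F U] {W : Type*} [AddCommGroup W] [Module F W]
  {τ : U →ₗ[F] W →ₗ[F] V} {M : Subgroup (V ≃ₗ[F] V)}
  [FiniteDimensional F U] [FiniteDimensional F W] [FiniteDimensional F V]
  {S₁ : PQ (FP.orth F) U} {S₂ : PQ (FP.symp F) W} {S : PQ (FP.symp F) V}

/-- The first factors of the intersection of `U ⊗ w` with its image. -/
def DD (τ : U →ₗ[F] W →ₗ[F] V) (w : W) (g : V ≃ₗ[F] V) : Submodule F U :=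
  ((Bw τ w).map (g : V →ₗ[F] V)).comap (τ.flip w)

theorem mem_DD {w : W} {g : V ≃ₗ[F] V} {u : U} : u ∈ DD τ w g ↔ ∃ u', g (τ u' w) = τ u w :=
  ⟨fun ⟨_, ⟨u', e⟩, e'⟩ => ⟨u', by rw [← LinearMap.flip_apply, e]; exact e'⟩,
    fun ⟨u', e⟩ => ⟨_, ⟨u', rfl⟩, e⟩⟩

theorem finrank_DD (h : IsTens τ) {w : W} (h0 : w ≠ 0) (g : V ≃ₗ[F] V) :
    finrank F ((Bw τ w).map (g : V →ₗ[F] V) ⊓ Bw τ w : Submodule F V) = finrank F (DD τ w g) := by
  rw [LinearEquiv.finrank_eq (Submodule.equivMapOfInjective _ (h.left_inj h0) (DD τ w g)), DD,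
    Submodule.map_comap_eq, inf_comm]; rfl

theorem comm_eta (h : TF S₁ S₂ S τ) (h2 : (2 : F) ≠ 0) {μ : End F V} {u : U} (hQ : S₁.Q u ≠ 0)
    (hc : ∀ v, h.tens.tcongr (rf S₁ hQ) 1 (μ v) = μ (h.tens.tcongr (rf S₁ hQ) 1 v)) (y : W) :
    ∃ y', μ (τ u y) = τ u y' := by
  refine ⟨(2 * S₁.Q u)⁻¹ • h.flip.cw u (μ (τ u y)), ?_⟩
  have := hc (τ u y)
  rw [rf_tens h, h.tens.tcongr_apply, rf_self] at this
  apply smul_right_injective V h2
  simp [smul_smul, mul_left_comm (2 : F), h2] at this ⊢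
  linear_combination (norm := module) this

structure Core (h : TF S₁ S₂ S τ) (w z : W) (g : V ≃ₗ[F] V) : Prop where
  rank : finrank F (DD τ w g) = 2
  ker : ∀ u, h.cw w (cj g (h.nu w) (τ u w)) = 0 → u ∈ DD τ w g
  nd : S₁.NondegOn (DD τ w g)
  eig : ∀ u ∈ DD τ w g, S₁.Q u ≠ 0 → ∃ l : F, cj g (h.nu w) (τ u z) = l • τ u w
  ani : ∀ l : F, (∀ u ∈ DD τ w g, cj g (h.nu w) (τ u z) = l • τ u w) → ∀ x ∈ DD τ w g, S₁.Q x = 0 → x = 0

theorem core [Finite F] [Nontrivial U] {h : TF S₁ S₂ S τ} (H : Hyp h M (TStab τ))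
    (h2 : (2 : F) ≠ 0) (hU : finrank F U = 4) (hW : finrank F W = 2) (hM : M ≤ S.isom)
    (hT : ∀ g ∈ S.isom, g ∈ TStab τ → g ∈ M) {w z : W} (hz : S₂.B z w = 1) {g : V ≃ₗ[F] V}
    (E : Ext M (TStab τ) (Bw τ w) g) : Core h w z g := by
  have : Nontrivial W := Module.nontrivial_of_finrank_pos (R := F) (by omega)
  have h0 : w ≠ 0 := by rintro rfl; simp at hz
  have h3 : 3 ≤ finrank F U := by omega
  have hw := S₂.symp_sing w
  obtain ⟨k, hkM, hkT, c, hc, -, ek⟩ := H.conj_R_not_mem E.mem E.not_mem hw h0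
  obtain ⟨ρ, hρ, hρ1⟩ := exists_R_ne_one (h := h) H.trP hw h0
  have key' := fun a ha => E.key' (h.R_le H.sndM hw hρ) (H.conj_not_mem E.mem E.not_mem h0 hρ hρ1)
    (fun x _ hx => R_fix hρ (h.cw_Bw (sB_self w) hx)) (a := a) ha
  have hrA : LinearMap.range (cj g (h.nu w)) = (Bw τ w).map (g : V →ₗ[F] V) := by
    rw [range_cj, h.range_nu h0]
  have hle' := fun {k} (hk : k ∈ M) => E.le hk
  have key := fun h1 b hb => E.key hkM hkT h1 (b := b) hb
  have hst : ∀ x ∈ M, (∀ a ∈ (Bw τ w).map (g : V →ₗ[F] V), x a ∈ (Bw τ w).map (g : V →ₗ[F] V)) →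
      g⁻¹ * x * g ∈ TStab τ := fun x hx e => (H.stab w hw h0 _
    (M.mul_mem (M.mul_mem (M.inv_mem E.mem) hx) E.mem) fun u => by
      obtain ⟨b, hb, e⟩ := e (g (τ u w)) ⟨_, ⟨u, rfl⟩, rfl⟩
      simpa [← e] using hb).1
  have hdA : finrank F ((Bw τ w).map (g : V →ₗ[F] V)) = finrank F U := by
    rw [LinearEquiv.finrank_map_eq, finrank_Bw h.tens h0]
  have hcomm := fun u hu hT v => comm_rf h (by omega) (u := u) hu (g := g) hT w v
  have hμ2 := cj_sq g (h.nu_sq hw)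
  have sk : ∀ x y, S.B (cj g (h.nu w) x) y = -1 * S.B x (cj g (h.nu w) y) :=
    B_cj (hM E.mem) (B_nu h w)
  have h4 := finrank_DD h.tens h0 g
  have hDm : ∀ {u}, u ∈ DD τ w g ↔ τ u w ∈ (Bw τ w).map (g : V →ₗ[F] V) := Iff.rfl
  suffices finrank F (DD τ w g) = 2 ∧
      (∀ u, h.cw w (cj g (h.nu w) (τ u w)) = 0 → u ∈ DD τ w g) ∧ S₁.NondegOn (DD τ w g) ∧
      (∀ u ∈ DD τ w g, S₁.Q u ≠ 0 → ∃ l : F, cj g (h.nu w) (τ u z) = l • τ u w) ∧
      ∀ l : F, (∀ u ∈ DD τ w g, cj g (h.nu w) (τ u z) = l • τ u w) →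
        ∀ x ∈ DD τ w g, S₁.Q x = 0 → x = 0 by
    obtain ⟨a1, a2, a3, a4, a5⟩ := this
    exact ⟨a1, a2, a3, a4, a5⟩
  generalize DD τ w g = D at *
  generalize cj g (h.nu w) = μ at *
  generalize (Bw τ w).map (g : V →ₗ[F] V) = A at *
  have hμA : ∀ a ∈ A, μ a = 0 := by rw [← hrA]; rintro _ ⟨v, rfl⟩; exact hμ2 v
  have hAμ : ∀ v, μ v ∈ A := fun v => hrA ▸ ⟨v, rfl⟩
  have hAA : ∀ a ∈ A, ∀ a' ∈ A, S.B a a' = 0 := by
    rw [← hrA]; rintro _ ⟨v, rfl⟩ _ ⟨v', rfl⟩; simp [sk, hμ2]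
  replace key := key fun x hx _ => by rw [ek, hμA x hx]; simp
  replace key' : ∀ a ∈ A, h.nu w a ∈ A → a ∈ Bw τ w := fun a ha h1 => key' a ha (by
    obtain ⟨d, -, e⟩ := hρ
    rw [e]; exact add_mem ha (A.smul_mem d h1))
  have hdec : ∀ y, ∃ s : F, y = s • w + S₂.B y w • z := fun y => by
    obtain ⟨s, hs⟩ := exists_smul_of_perp h.nd₂ hW h0 (sB_self w) (y := y - S₂.B y w • z) (by simp [hz])
    exact ⟨s, eq_add_of_sub_eq hs.symm⟩
  have hd : finrank F U ≤ finrank F D + 2 := by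
    obtain ⟨u, hu, hn⟩ : ∃ u, ∃ hu : S₁.Q u ≠ 0, g⁻¹ * h.tens.tcongr (rf S₁ hu) 1 * g ∉ TStab τ := by
      by_contra hcon
      push Not at hcon
      obtain ⟨β, e⟩ := exists_beta h h2 (S₁.nondegOn_top.2 h.nd₁) (by rwa [finrank_top]) sk
        fun u _ hu => hcomm u hu (hcon u hu)
      exact hkT (mem_TStab_of h.tens 1 fun y => ⟨y + c • β y, fun u => by simp [ek, e]⟩)
    have h1 := hle' (tc_mem h hT (rf_mem hu) (one_mem _)) hn
    have h5 := Submodule.finrank_mono (show A ⊓ LinearMap.ker (h.flip.cw u) ≤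
      A.map (h.tens.tcongr (rf S₁ hu) 1 : V →ₗ[F] V) ⊓ A from fun a ha =>
        ⟨⟨a, ha.1, by simp [rf_tens h, LinearMap.mem_ker.1 ha.2]⟩, ha.1⟩)
    have h6 := Submodule.finrank_sup_add_finrank_inf_eq A (LinearMap.ker (h.flip.cw u))
    have h7 := Submodule.finrank_le (A ⊔ LinearMap.ker (h.flip.cw u))
    have h8 := LinearMap.finrank_range_add_finrank_ker (h.flip.cw u)
    have h9 := Submodule.finrank_le (LinearMap.range (h.flip.cw u))
    omega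
  let s : End F U := h.cw w ∘ₗ μ ∘ₗ τ.flip w
  have hs : ∀ u, s u = h.cw w (μ (τ u w)) := fun _ => rfl
  have hks : LinearMap.ker s = D := by
    ext u
    refine ⟨fun hu => hDm.2 (key _ ⟨u, rfl⟩ ?_), fun hu => by simp [hs, hμA _ (hDm.1 hu)]⟩
    rw [ek]
    exact add_mem ⟨u, rfl⟩ (Submodule.smul_mem _ _ (mem_Bw_two h hW h0 (sB_self w) hu))
  have hrs : LinearMap.range s = S₁.perp D := by
    refine Submodule.eq_of_le_of_finrank_le ?_ ?_
    · rintro _ ⟨u, rfl⟩ x hx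
      rw [hs, ← h.B_tmul, hAA _ (hAμ _) _ (hDm.1 hx)]
    · have := LinearMap.finrank_range_add_finrank_ker s
      have := h.nd₁.finrank_perp D
      rw [hks] at *
      omega
  have hDn : S₁.NondegOn D := fun x hx hx' => by
    obtain ⟨u, rfl⟩ : x ∈ LinearMap.range s := hrs ▸ hx'
    exact h.cw_Bw (sB_self w) (key' _ (hAμ _) (hDm.1 hx))
  have hc' : ∀ u ∈ D, ∀ hQ : S₁.Q u ≠ 0, ∀ v,
      h.tens.tcongr (rf S₁ hQ) 1 (μ v) = μ (h.tens.tcongr (rf S₁ hQ) 1 v) := fun u hu hQ => hcomm u hQ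
    (hst _ (tc_mem h hT (rf_mem hQ) (one_mem _)) fun a ha => by
      obtain ⟨t, ht⟩ := exists_smul_of_perp h.nd₂ hW h0 (sB_self w) (y := h.flip.cw u a) (by
        rw [← h.flip.B_tmul]; exact hAA a ha _ (hDm.1 hu))
      rw [rf_tens h, ← ht, map_smul]
      exact sub_mem ha (A.smul_mem _ (A.smul_mem _ (hDm.1 hu))))
  have heig : ∀ u ∈ D, S₁.Q u ≠ 0 → ∀ y', μ (τ u z) = τ u y' → ∃ l : F, l • w = y' := by
    intro u hu hQ y' e
    refine exists_smul_of_perp h.nd₂ hW h0 (sB_self w) ?_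
    have := hAA _ (hAμ (τ u z)) _ (hDm.1 hu)
    rw [e, h.form] at this
    exact (mul_eq_zero.1 this).resolve_left (B_self_ne h2 hQ)
  have hani : ∀ l : F, (∀ u ∈ D, μ (τ u z) = l • τ u w) → ∀ x ∈ D, S₁.Q x = 0 → x = 0 := by
    intro l e x hx hxs
    by_contra hx0
    have hρ' := rootE_mem (hν := h.nu_sq hw) (Λ := (FP.symp F).Λ) (c := -(c * l)) trivial
    have e1 : ∀ u ∈ D, ∀ y, (k * rootE _ (h.nu_sq hw) (-(c * l))) (τ u y) = τ u y := fun u hu y => by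
      obtain ⟨s, hs⟩ := hdec y
      have : μ (τ u y) = (S₂.B y w * l) • τ u w := by
        conv_lhs => rw [hs]
        simp [hμA _ (hDm.1 hu), e u hu, smul_smul]
      simp [ek, TF.nu_apply, hμA _ (hDm.1 hu), this]
      module
    obtain ⟨x', hx', hxx⟩ : ∃ x' ∈ D, S₁.B x' x = 1 := by
      by_contra hcon
      push Not at hcon
      refine hx0 (hDn x hx fun y hy => by_contra fun hn => hcon ((S₁.B x y)⁻¹ • y) (D.smul_mem _ hy) ?_)
      simp [S₁.orth_B_swap x y, hn]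
    refine hkT (((TStab τ).mul_mem_cancel_right (h.R_le_TStab hw hρ')).1 ?_)
    rw [← TStab_flip]
    exact mem_TStab_of_fix h.flip h3 (fun g hg => isom_le_bis (hM hg)) (le_snd₁ h hT)
      ((S₁.orth_sing x).2 hxs) hxx (fun q hq hQ => inQ_flip h h2 (by omega) hW hM hT
        (fun w h0 x hx e => (H.stab w trivial h0 x hx e).1) ((S₁.orth_sing x).2 hxs) hx0 hq hQ)
      (M.mul_mem hkM (h.R_le H.sndM hw hρ')) (fun y => e1 x hx y) fun y => e1 x' hx' y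
  refine ⟨?_, fun u hu => hks ▸ hu, hDn, fun u hu hQ => ?_, hani⟩
  · by_contra hne
    obtain ⟨β, e⟩ := exists_beta h h2 hDn (by omega) sk hc'
    obtain ⟨u₀, hu₀, hQ⟩ := H9.FClass.exists_Q_ne_zero hDn (by
      intro e; rw [e, finrank_bot] at hd; omega)
    obtain ⟨l, hl⟩ := heig u₀ hu₀ hQ _ (e u₀ hu₀ z)
    obtain ⟨x, hx, hx0, hxs⟩ := exists_sing S₁ (H := D) (by omega)
    exact hx0 (hani l (fun u hu => by rw [e u hu, ← hl, map_smul]) x hx hxs)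
  · obtain ⟨y', e⟩ := comm_eta h h2 hQ (hc' u hu hQ) z
    obtain ⟨l, rfl⟩ := heig u hu hQ _ e
    exact ⟨l, by rw [e, map_smul]⟩

section planes
variable {E : Submodule F U}

theorem coords (hE : finrank F E = 2) {x y : U} (hx : x ∈ E) (hy : y ∈ E) {φ : Dual F U} (h1 : φ x ≠ 0)
    (h2 : φ y = 0) (h0 : y ≠ 0) {v : U} (hv : v ∈ E) : ∃ a b : F, v = a • x + b • y := by
  have hm : x ∉ F ∙ y := fun hm => by
    obtain ⟨a, rfl⟩ := Submodule.mem_span_singleton.1 hm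
    simp [h2] at h1
  have : (F ∙ y) ⊔ F ∙ x = E := Submodule.eq_of_le_of_finrank_le
    (sup_le (by rwa [Submodule.span_singleton_le_iff_mem]) (by rwa [Submodule.span_singleton_le_iff_mem]))
    (by rw [Submodule.finrank_sup_span_singleton hm, finrank_span_singleton h0, hE])
  obtain ⟨z, hz, a, rfl⟩ := mem_sup_span_iff.1 (this ▸ hv)
  obtain ⟨b, rfl⟩ := Submodule.mem_span_singleton.1 hz
  exact ⟨a, b, add_comm _ _⟩

theorem exists_ker (hE : finrank F E = 2) (φ : Dual F U) : ∃ y ∈ E, y ≠ 0 ∧ φ y = 0 := by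
  obtain ⟨y, hy, h0⟩ := exists_ne_zero_of_finrank_pos (A := E ⊓ LinearMap.ker φ) (by
    have := finrank_le_finrank_inf_ker E φ; omega)
  exact ⟨y, hy.1, h0, hy.2⟩

theorem Q_ne_of_perp (h2 : (2 : F) ≠ 0) (hE : finrank F E = 2) (hn : S₁.NondegOn E) {x y : U} (hx : x ∈ E)
    (hy : y ∈ E) (hQ : S₁.Q x ≠ 0) (h0 : y ≠ 0) (hxy : S₁.B y x = 0) : S₁.Q y ≠ 0 := fun hQy => by
  refine h0 (hn y hy fun v hv => ?_)
  obtain ⟨a, b, rfl⟩ := coords hE hx hy (φ := S₁.lin x) (B_self_ne h2 hQ) hxy h0 hv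
  simp [hxy, S₁.orth_B_self, hQy]

theorem eq_or_neg (h3 : ∀ c : F, c = 0 ∨ c = 1 ∨ c = -1) {a b : F} (ha : a ≠ 0) (hb : b ≠ 0) :
    a = b ∨ a = -b := by
  rcases h3 a with h | h | h <;> rcases h3 b with h' | h' | h' <;> simp_all

theorem sq_one (h3 : ∀ c : F, c = 0 ∨ c = 1 ∨ c = -1) {a : F} (ha : a ≠ 0) : a * a = 1 := by
  rcases h3 a with h | h | h <;> simp_all

theorem three_zero (h2 : (2 : F) ≠ 0) (h3 : ∀ c : F, c = 0 ∨ c = 1 ∨ c = -1) : (3 : F) = 0 := by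
  rcases h3 2 with h | h | h
  · exact (h2 h).elim
  · exact (one_ne_zero (α := F) (by linear_combination h)).elim
  · linear_combination h

theorem exists_pair (h2 : (2 : F) ≠ 0) (h3 : ∀ c : F, c = 0 ∨ c = 1 ∨ c = -1) (hE : finrank F E = 2)
    (ha : ∀ x ∈ E, S₁.Q x = 0 → x = 0) {δ : F} (hδ : δ ≠ 0) :
    ∃ x ∈ E, ∃ y ∈ E, S₁.B y x = 0 ∧ S₁.Q x = δ ∧ S₁.Q y = δ := by
  obtain ⟨x, hx, hx0⟩ := exists_ne_zero_of_finrank_pos (A := E) (by omega)
  obtain ⟨y, hy, hy0, hxy⟩ := exists_ker hE (S₁.lin x)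
  replace hxy : S₁.B y x = 0 := hxy
  have hQx : S₁.Q x ≠ 0 := fun h => hx0 (ha x hx h)
  have hQy : S₁.Q y ≠ 0 := fun h => hy0 (ha y hy h)
  have e : S₁.Q y = S₁.Q x := (eq_or_neg h3 hQy hQx).resolve_right fun e => by
    have := ha (y + x) (add_mem hy hx) (by rw [S₁.orth_Q_add, e, hxy]; ring)
    have := congrArg (fun v => S₁.B v x) this
    simp [hxy, B_self_ne h2 hQx] at this
  rcases eq_or_neg h3 hδ hQx with h | h
  · exact ⟨x, hx, y, hy, hxy, h.symm, e.trans h.symm⟩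
  · have := three_zero h2 h3
    refine ⟨x + y, add_mem hx hy, x - y, sub_mem hx hy, ?_, ?_, ?_⟩
    · simp [hxy, S₁.B_comm_zero hxy, S₁.orth_B_self, e]
    · rw [S₁.orth_Q_add, e, S₁.B_comm_zero hxy, h]; linear_combination S₁.Q x * this
    · rw [S₁.orth_Q_sub, e, S₁.B_comm_zero hxy, h]; linear_combination S₁.Q x * this

theorem no_equal (h2 : (2 : F) ≠ 0) (h3 : ∀ c : F, c = 0 ∨ c = 1 ∨ c = -1) (hE : finrank F E = 2)
    (ha : ∀ x ∈ E, S₁.Q x = 0 → x = 0) (hmin : ∀ Y, S₁.TS Y → finrank F Y < 2) {x y : U}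
    (hx : x ∈ S₁.perp E) (hy : y ∈ S₁.perp E) (hxy : S₁.B y x = 0) (hQx : S₁.Q x ≠ 0) (hQy : S₁.Q y ≠ 0) :
    S₁.Q y = -S₁.Q x := by
  refine (eq_or_neg h3 hQy hQx).resolve_left fun e => ?_
  obtain ⟨d, hd, d', hd', h1, h4, h5⟩ := exists_pair h2 h3 hE ha (neg_ne_zero.2 hQx)
  have hm : x + d ∉ F ∙ (y + d') := fun hm => by
    obtain ⟨a, ha⟩ := Submodule.mem_span_singleton.1 hm
    have := congrArg (fun v => S₁.B v x) ha
    simp [hxy, S₁.B_comm_zero (hx d hd), S₁.B_comm_zero (hx d' hd'), (B_self_ne h2 hQx).symm] at this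
  have h0 : y + d' ≠ 0 := fun h0 => by
    have := congrArg (fun v => S₁.B v y) h0
    simp [S₁.B_comm_zero (hy d' hd'), B_self_ne h2 hQy] at this
  have := hmin ((F ∙ (y + d')) ⊔ F ∙ (x + d)) (PQ.TS.sup
    (PQ.Sing.ts_span ((S₁.orth_sing _).2 (by rw [S₁.orth_Q_add, e, h5, hy d' hd']; ring)))
    (PQ.Sing.ts_span ((S₁.orth_sing _).2 (by rw [S₁.orth_Q_add, h4, hx d hd]; ring))) (by
      rw [Submodule.span_singleton_le_iff_mem, S₁.mem_perp_span_singleton]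
      simp [S₁.B_comm_zero hxy, hx d' hd', S₁.B_comm_zero (hy d hd), S₁.B_comm_zero h1]))
  rw [Submodule.finrank_sup_span_singleton hm, finrank_span_singleton h0] at this
  omega

end planes

theorem eq_l (h : TF S₁ S₂ S τ) {w z : W} (hz : S₂.B z w = 1) {μ : End F V}
    (sk : ∀ x y, S.B (μ x) y = -1 * S.B x (μ y)) {u u' : U} {l l' : F} (hb : S₁.B u u' ≠ 0)
    (e : μ (τ u z) = l • τ u w) (e' : μ (τ u' z) = l' • τ u' w) : l = l' := by
  have := sk (τ u z) (τ u' z)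
  rw [e, e', PQ.B_smul_left, PQ.B_smul_right, h.form, h.form, S₂.symp_B_swap z w, hz] at this
  have e0 : (FP.symp F).σ l' = l' := rfl
  rw [e0] at this
  exact mul_left_cancel₀ hb (by linear_combination -this)

theorem mu_D (h : TF S₁ S₂ S τ) {w : W} {g : V ≃ₗ[F] V} {u : U} (hu : u ∈ DD τ w g) :
    cj g (h.nu w) (τ u w) = 0 := by
  obtain ⟨u', e⟩ := mem_DD.1 hu
  simp [← e, TF.nu_apply]

theorem B_l (h : TF S₁ S₂ S τ) {w z : W} (hz : S₂.B z w = 1) {g : V ≃ₗ[F] V} (hg : g ∈ S.isom)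
    {u u' v v' : U} {l : F} (e : g (τ u' w) = τ u w) (e' : g (τ v' w) = τ v w)
    (hl : cj g (h.nu w) (τ u z) = l • τ u w) : l * S₁.B u' v' = S₁.B u v := by
  have h0 : w ≠ 0 := by rintro rfl; simp at hz
  have e1 : h.cw w (g.symm (τ u z)) = l • u' := eq_of_tmul_eq h.tens h0 (g.injective (by
    rw [← h.nu_apply, ← cj_apply, hl]; simp [e]))
  have := PQ.B_isom hg (g.symm (τ u z)) (τ v' w)
  rw [g.apply_symm_apply, e', h.form, hz, h.B_tmul, e1] at this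
  simpa using this.symm

theorem inv_l {h : TF S₁ S₂ S τ} (hW : finrank F W = 2) {w z : W} (hz : S₂.B z w = 1) {g : V ≃ₗ[F] V}
    (C : Core h w z g) {u u' : U} (hu : u ≠ 0) {l l' : F} (e : g (τ u' w) = τ u w)
    (hl : cj g (h.nu w) (τ u z) = l • τ u w) (hl' : cj g⁻¹ (h.nu w) (τ u' z) = l' • τ u' w) :
    l' * l = 1 := by
  have h0 : w ≠ 0 := by rintro rfl; simp at hz
  have e1 : h.cw w (g (τ u' z)) = l' • u := eq_of_tmul_eq h.tens h0 (by
    have := congrArg g hl'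
    have e0 : g⁻¹.symm = g := rfl
    simpa [TF.nu_apply, e, e0] using this)
  obtain ⟨x, hx⟩ := mem_Bw_two h hW h0 (sB_self w) (v := g (τ u' z) - l' • τ u z) (by simp [e1, hz])
  simp only [LinearMap.flip_apply] at hx
  have e2 : cj g (h.nu w) (τ x w) = (1 - l' * l) • τ u w := by
    rw [hx, map_sub, map_smul, hl]
    simp [TF.nu_apply, hz, e, sub_smul, smul_smul]
  have e3 := mu_D h (C.ker x (by simp [e2]))
  rw [e2] at e3
  exact (sub_eq_zero.1 ((smul_eq_zero.1 e3).resolve_right (h.tens.ne_zero hu h0))).symm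

theorem const {h : TF S₁ S₂ S τ} (h2 : (2 : F) ≠ 0) (h3 : ∀ c : F, c = 0 ∨ c = 1 ∨ c = -1)
    (hW : finrank F W = 2) {w z : W} (hz : S₂.B z w = 1) {g : V ≃ₗ[F] V} (hg : g ∈ S.isom)
    (C : Core h w z g) (C' : Core h w z g⁻¹) :
    ∃ l : F, l ≠ 0 ∧ ∀ u ∈ DD τ w g, cj g (h.nu w) (τ u z) = l • τ u w := by
  have sk := B_cj hg (B_nu h w)
  have sk' := B_cj (inv_mem hg) (B_nu h w)
  obtain ⟨u₁, hu₁, hQ₁⟩ := H9.FClass.exists_Q_ne_zero C.nd (by
    intro e; have := C.rank; rw [e, finrank_bot] at this; omega)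
  obtain ⟨u₂, hu₂, h0₂, h12⟩ := exists_ker C.rank (S₁.lin u₁)
  replace h12 : S₁.B u₂ u₁ = 0 := h12
  have hQ₂ := Q_ne_of_perp h2 C.rank C.nd hu₁ hu₂ hQ₁ h0₂ h12
  obtain ⟨l₁, e₁⟩ := C.eig u₁ hu₁ hQ₁
  obtain ⟨l₂, e₂⟩ := C.eig u₂ hu₂ hQ₂
  obtain ⟨v₁, f₁⟩ := mem_DD.1 hu₁
  obtain ⟨v₂, f₂⟩ := mem_DD.1 hu₂
  have b11 := B_l h hz hg f₁ f₁ e₁
  have b22 := B_l h hz hg f₂ f₂ e₂
  have b12 := B_l h hz hg f₂ f₁ e₂
  have hl₁ : l₁ ≠ 0 := by rintro rfl; exact B_self_ne h2 hQ₁ (by simpa using b11.symm)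
  have hl₂ : l₂ ≠ 0 := by rintro rfl; exact B_self_ne h2 hQ₂ (by simpa using b22.symm)
  have hl : l₁ = l₂ := by
    by_contra hne
    have e3 := (eq_or_neg h3 hl₁ hl₂).resolve_left hne
    have e4 : S₁.Q (u₁ + u₂) = 0 := by
      by_contra hQ
      obtain ⟨l, e⟩ := C.eig _ (add_mem hu₁ hu₂) hQ
      exact hne ((eq_l h hz sk (by simpa [S₁.B_comm_zero h12] using B_self_ne h2 hQ₁) e₁ e).trans
        (eq_l h hz sk (by simpa [h12] using B_self_ne h2 hQ₂) e₂ e).symm)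
    rw [S₁.orth_Q_add, S₁.B_comm_zero h12] at e4
    rw [h12] at b12
    replace b12 := (mul_eq_zero.1 b12).resolve_left hl₂
    rw [S₁.orth_B_self, S₁.orth_B_self] at b11 b22
    have hv₁ : S₁.Q v₁ ≠ 0 := fun e => hQ₁ (mul_left_cancel₀ h2 (by rw [← b11, e]; ring))
    have hvv : S₁.Q v₂ = S₁.Q v₁ := mul_left_cancel₀ (mul_ne_zero h2 hl₂) (by
      rw [e3] at b11; linear_combination b22 + b11 + 2 * e4)
    have m₁ : v₁ ∈ DD τ w g⁻¹ := mem_DD.2 ⟨u₁, by simp [← f₁]⟩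
    have m₂ : v₂ ∈ DD τ w g⁻¹ := mem_DD.2 ⟨u₂, by simp [← f₂]⟩
    obtain ⟨k₁, g₁⟩ := C'.eig v₁ m₁ hv₁
    obtain ⟨k₂, g₂⟩ := C'.eig v₂ m₂ (by rwa [hvv])
    obtain ⟨k, g₃⟩ := C'.eig _ (add_mem m₁ m₂) (by
      rw [S₁.orth_Q_add, S₁.B_comm_zero b12, hvv, add_zero, ← two_mul]; exact mul_ne_zero h2 hv₁)
    have e5 := (eq_l h hz sk' (by simpa [S₁.B_comm_zero b12] using B_self_ne h2 hv₁) g₁ g₃).trans
      (eq_l h hz sk' (by simpa [b12] using B_self_ne h2 (hvv ▸ hv₁)) g₂ g₃).symm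
    have i₁ := inv_l hW hz C (by rintro rfl; exact hQ₁ S₁.orth_Q_zero) f₁ e₁ g₁
    have i₂ := inv_l hW hz C h0₂ f₂ e₂ g₂
    subst e5
    exact hne (mul_left_cancel₀ (left_ne_zero_of_mul_eq_one i₁) (i₁.trans i₂.symm))
  refine ⟨l₁, hl₁, fun u hu => ?_⟩
  obtain ⟨a, b, rfl⟩ := coords C.rank hu₁ hu₂ (φ := S₁.lin u₁) (B_self_ne h2 hQ₁) h12 h0₂ hu
  simp only [map_add, map_smul, LinearMap.add_apply, LinearMap.smul_apply, e₁, e₂, hl]
  module

theorem Ext.inv {T : Subgroup (V ≃ₗ[F] V)} {B : Submodule F V} {g : V ≃ₗ[F] V} (E : Ext M T B g) :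
    Ext M T B g⁻¹ := by
  refine ⟨inv_mem E.mem, fun h => E.not_mem (by simpa using inv_mem h), fun k hk hk' => ?_⟩
  refine (E.max k hk hk').trans_eq ?_
  rw [← finrank_map_inf g (B.map ((g⁻¹ : V ≃ₗ[F] V) : V →ₗ[F] V)) B, map_map, mul_inv_cancel, inf_comm,
    show B.map ((1 : V ≃ₗ[F] V) : V →ₗ[F] V) = B from Submodule.map_id B]

section main
variable [Finite F] [Nontrivial U] {h : TF S₁ S₂ S τ} (H : Hyp h M (TStab τ))
  (h2 : (2 : F) ≠ 0) (h3 : ∀ c : F, c = 0 ∨ c = 1 ∨ c = -1) (hU : finrank F U = 4) (hW : finrank F W = 2)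
  (hM : M ≤ S.isom) (hT : ∀ g ∈ S.isom, g ∈ TStab τ → g ∈ M) {w z : W} (hz : S₂.B z w = 1)
  {g : V ≃ₗ[F] V} (E : Ext M (TStab τ) (Bw τ w) g)
include H h2 h3 hU hW hM hT hz E

theorem aniso : ∀ x ∈ DD τ w g, S₁.Q x = 0 → x = 0 := by
  have C := core H h2 hU hW hM hT hz E
  obtain ⟨l, -, hl⟩ := const h2 h3 hW hz (hM E.mem) C (core H h2 hU hW hM hT hz (Ext.inv E))
  exact C.ani l hl

theorem star {p : V} (hp : cj g (h.nu w) p ≠ 0) (hp' : S.B p (cj g (h.nu w) p) = 0) {v : U}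
    (hv : S₁.Q v ≠ 0) (hvp : h.flip.cw v (cj g (h.nu w) p) = 0) :
    v ∈ DD τ w g ∨ v ∈ S₁.perp (DD τ w g) := by
  have h0 : w ≠ 0 := by rintro rfl; simp at hz
  have hr := tc_mem h hT (rf_mem hv) (one_mem S₂.isom)
  by_cases hn : g⁻¹ * h.tens.tcongr (rf S₁ hv) 1 * g ∈ TStab τ
  · have hc := comm_rf h (by omega) hv hn w
    obtain ⟨y', e⟩ := comm_eta h h2 hv hc w
    by_cases hy : S₂.B y' w = 0
    · exact Or.inl ((core H h2 hU hW hM hT hz E).ker v (by simp [e, hy]))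
    · refine Or.inr fun d hd => (mul_eq_zero.1 ?_).resolve_right hy
      rw [← h.form, ← e, B_cj (hM E.mem) (B_nu h w), mu_D h hd]; simp
  exfalso
  have E' : Ext M (TStab τ) (Bw τ w) (g⁻¹ * h.tens.tcongr (rf S₁ hv) 1 * g) := by
    refine ⟨mul_mem (mul_mem (inv_mem E.mem) hr) E.mem, hn, fun k hk hk' => (E.max k hk hk').trans ?_⟩
    rw [finrank_DD h.tens h0, (core H h2 hU hW hM hT hz E).rank, ← finrank_map_inf g, map_map,
      ← mul_assoc, ← mul_assoc, mul_inv_cancel, one_mul, ← map_map]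
    have hdA : finrank F ((Bw τ w).map (g : V →ₗ[F] V)) = finrank F U := by
      rw [LinearEquiv.finrank_map_eq, finrank_Bw h.tens h0]
    generalize (Bw τ w).map (g : V →ₗ[F] V) = A at *
    have h5 := Submodule.finrank_mono (show A ⊓ LinearMap.ker (h.flip.cw v) ≤
      A.map (h.tens.tcongr (rf S₁ hv) 1 : V →ₗ[F] V) ⊓ A from fun a ha =>
        ⟨⟨a, ha.1, by simp [rf_tens h, LinearMap.mem_ker.1 ha.2]⟩, ha.1⟩)
    have h6 := Submodule.finrank_sup_add_finrank_inf_eq A (LinearMap.ker (h.flip.cw v))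
    have h7 := Submodule.finrank_le (A ⊔ LinearMap.ker (h.flip.cw v))
    have h8 := LinearMap.finrank_range_add_finrank_ker (h.flip.cw v)
    have h9 := Submodule.finrank_le (LinearMap.range (h.flip.cw v))
    omega
  have e1 : cj g (h.nu w) p = g (τ (h.cw w (g.symm p)) w) := rfl
  have := aniso H h2 h3 hU hW hM hT hz E' (h.cw w (g.symm p)) (mem_DD.2 ⟨h.cw w (g.symm p), by
    simp only [LinearEquiv.mul_apply, ← e1, rf_tens h, hvp]
    simp [e1]⟩) (mul_left_cancel₀ h2 (by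
      rw [← S₁.orth_B_self, ← h.B_tmul, ← PQ.B_isom (hM E.mem), g.apply_symm_apply, ← e1, hp', mul_zero]))
  exact hp (by rw [e1, this]; simp)

theorem not_ext (hmin : ∀ Y, S₁.TS Y → finrank F Y < 2) : False := by
  have h0 : w ≠ 0 := by rintro rfl; simp at hz
  have hw := S₂.symp_sing w
  have C := core H h2 hU hW hM hT hz E
  obtain ⟨l, hl0, hl⟩ := const h2 h3 hW hz (hM E.mem) C (core H h2 hU hW hM hT hz (Ext.inv E))
  have ha := C.ani l hl
  have hst := fun {p} hp hp' {v} hv => star H h2 h3 hU hW hM hT hz E (p := p) hp hp' (v := v) hv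
  have sk : ∀ x y, S.B (cj g (h.nu w) x) y = -1 * S.B x (cj g (h.nu w) y) := B_cj (hM E.mem) (B_nu h w)
  have hμ2 := cj_sq g (h.nu_sq hw)
  have hμD : ∀ u ∈ DD τ w g, cj g (h.nu w) (τ u w) = 0 := fun u hu => mu_D h hu
  have hk : rootE _ hμ2 1 ∈ M := (H.Gam_le E.mem hw hw (RG_le_Gam' (rootE_mem trivial))).1
  have hρ : rootE _ (h.nu_sq hw) l ∈ M := h.R_le H.sndM hw (rootE_mem trivial)
  obtain ⟨hD2, hker, hDn, -, -⟩ := C
  generalize DD τ w g = D at *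
  generalize cj g (h.nu w) = μ at *
  have hE2 : finrank F (S₁.perp D) = 2 := by have := h.nd₁.finrank_perp D; omega
  have hEn : S₁.NondegOn (S₁.perp D) := hDn.perp h.nd₁
  have h30 := three_zero h2 h3
  have hll := sq_one h3 hl0
  have hwz : S₂.B w z = -1 := by rw [S₂.symp_B_swap, hz]
  let s : End F U := h.cw w ∘ₗ μ ∘ₗ τ.flip w
  have hs : ∀ u, s u = h.cw w (μ (τ u w)) := fun _ => rfl
  have hsE : ∀ u, s u ∈ S₁.perp D := fun u d hd => by rw [hs, ← h.B_tmul, sk, hμD d hd]; simp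
  have hss : ∀ u u', S₁.B (s u) u' = S₁.B u (s u') := fun u u' => by
    rw [S₁.orth_B_swap (s u') u, hs, hs, ← h.B_tmul, ← h.B_tmul, sk, S.symp_B_swap (μ (τ u' w))]; ring
  have hdec : ∀ u, ∃ t ∈ S₁.perp D, μ (τ u w) = τ t w + τ (s u) z := fun u => by
    obtain ⟨t, ht⟩ := mem_Bw_two h hW h0 (sB_self w) (v := μ (τ u w) - τ (s u) z) (by simp [hs, hz])
    simp only [LinearMap.flip_apply] at ht
    refine ⟨t, fun d hd => ?_, by rw [ht]; abel⟩
    have := sk (τ u w) (τ d z)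
    rw [eq_add_of_sub_eq ht.symm, hl d hd] at this
    simpa [h.form, hwz] using this
  have hDE : ∀ x ∈ D, x ∈ S₁.perp D → x = 0 := fun x hx hx' => hDn x hx hx'
  have D1 : ∀ x ∈ S₁.perp D, S₁.B (s x) x ≠ 0 → ∀ y ∈ S₁.perp D, y ≠ 0 → S₁.B y (s x) = 0 →
      2 * l * S₁.Q y = -S₁.B (s x) x := by
    intro x hx hσ y hy hy0 hyx
    obtain ⟨d, hd, d', hd', hdd, hQd, hQd'⟩ := exists_pair h2 h3 hD2 ha
      (δ := S₁.B (s x) x / (2 * l)) (div_ne_zero hσ (mul_ne_zero h2 hl0))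
    have hQ0 : S₁.Q d ≠ 0 := by rw [hQd]; exact div_ne_zero hσ (mul_ne_zero h2 hl0)
    obtain ⟨t, ht, e⟩ := hdec x
    have e1 : μ (τ x w + τ d z) = τ (t + l • d) w + τ (s x) z := by
      rw [map_add, e, hl d hd]; simp; abel
    have k : ∀ v, S₁.B v (t + l • d) = 0 → S₁.B v (s x) = 0 → S₁.Q v ≠ 0 → v ∈ D ∨ v ∈ S₁.perp D := by
      intro v a1 a2 hv
      refine hst (p := τ x w + τ d z) (fun e0 => hσ ?_) ?_ hv ?_
      · have := congrArg (h.cw w) (e1.symm.trans e0)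
        simp [hz] at this
        simp [this]
      · rw [e1]
        simp only [PQ.B_add_left, PQ.B_add_right, h.form, sB_self, hz, hwz, PQ.B_smul_right, FP.orth_σ,
          S₁.B_comm_zero (ht d hd), S₁.orth_B_self, hQd, S₁.orth_B_swap (s x) x]
        field_simp; ring
      · rw [e1, map_add, ← LinearMap.flip_apply, ← LinearMap.flip_apply τ, h.flip.cw_apply,
          h.flip.cw_apply, S₁.B_comm_zero a1, S₁.B_comm_zero a2]
        simp
    set c := S₁.B y t / (2 * l * S₁.Q d) with hc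
    have b1 : S₁.B (y - c • d) (t + l • d) = 0 := by
      simp only [PQ.B_add_right, PQ.B_sub_left, PQ.B_smul_left, PQ.B_smul_right, FP.orth_σ, hy d hd,
        S₁.B_comm_zero (ht d hd), S₁.orth_B_self, hc]
      field_simp; ring
    have b2 : S₁.B (y - c • d) (s x) = 0 := by simp [hyx, S₁.B_comm_zero (hsE x d hd)]
    have b3 : S₁.B (y - c • d) d' = 0 := by simp [hy d' hd', S₁.B_comm_zero hdd]
    have nD : ∀ v, v ∈ D → y + v ∉ D := fun v hv hm => hy0 (hDE y (by simpa using sub_mem hm hv) hy)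
    have b4 : S₁.Q (y - c • d + d') = 0 := by
      by_contra hQ
      rcases k _ (by simp only [S₁.B_add_left (y - c • d), b1]; simp [S₁.B_comm_zero (ht d' hd'), hdd])
        (by simp only [S₁.B_add_left (y - c • d), b2]; simp [S₁.B_comm_zero (hsE x d' hd')]) hQ with hm | hm
      · exact nD (-(c • d) + d') (add_mem (neg_mem (D.smul_mem c hd)) hd') (by
          rwa [← add_assoc, ← sub_eq_add_neg])
      · have := hm d' hd'
        rw [S₁.B_add_left, b3, zero_add] at this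
        exact B_self_ne h2 (hQd' ▸ hQd ▸ hQ0) this
    rw [S₁.orth_Q_add, b3, hQd', ← hQd] at b4
    have b5 : c • d = 0 := by
      rcases k _ b1 b2 (fun e => hQ0 (by linear_combination b4 - e)) with hm | hm
      · exact (nD (-(c • d)) (neg_mem (D.smul_mem c hd)) (by rwa [← sub_eq_add_neg])).elim
      · exact hDE _ (D.smul_mem c hd) (by simpa using sub_mem hy hm)
    rw [b5, sub_zero, hQd] at b4
    field_simp at b4
    linear_combination b4
  obtain ⟨x, hx, hσ⟩ : ∃ x ∈ S₁.perp D, S₁.B (s x) x ≠ 0 := by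
    by_contra hc
    push Not at hc
    obtain ⟨x, hx, hx0⟩ := exists_ne_zero_of_finrank_pos (A := S₁.perp D) (by omega)
    refine hx0 (hDE x (hker x (hEn _ (hsE x) fun y hy => mul_left_cancel₀ h2 ?_)) hx)
    have := hc _ (add_mem hx hy)
    simp only [map_add, PQ.B_add_left, PQ.B_add_right, hc x hx, hc y hy] at this
    rw [hss y x, S₁.orth_B_swap (s x) y] at this
    rw [← hs]
    linear_combination this
  obtain ⟨y, hy, hy0, hyx⟩ := exists_ker hE2 (S₁.lin (s x))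
  replace hyx : S₁.B y (s x) = 0 := hyx
  have hx0 : x ≠ 0 := by rintro rfl; simp at hσ
  have hσx : S₁.lin (s x) x ≠ 0 := fun e => hσ (S₁.B_comm_zero e)
  have hσ' : S₁.B (s y) y ≠ 0 := fun e => by
    refine hy0 (hDE y (hker y (hEn _ (hsE y) fun v hv => ?_)) hy)
    obtain ⟨a, b, rfl⟩ := coords hE2 hx hy hσx hyx hy0 hv
    rw [← hs]; simp [e, hss y x, hyx]
  have q1 := D1 x hx hσ y hy hy0 hyx
  have q2 := D1 y hy hσ' x hx hx0 (by rw [← hss, S₁.B_comm_zero hyx])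
  have hQy : S₁.Q y ≠ 0 := fun e => hσ (by rw [e] at q1; linear_combination q1)
  have hQx : S₁.Q x ≠ 0 := fun e => hσ' (by rw [e] at q2; linear_combination q2)
  have hxy : S₁.B y x = 0 := by
    by_contra hb
    have a1 : S₁.B (y - (S₁.B y x / (2 * S₁.Q x)) • x) x = 0 := by
      rw [PQ.B_sub_left, PQ.B_smul_left, S₁.orth_B_self]; field_simp; ring
    have a2 : y - (S₁.B y x / (2 * S₁.Q x)) • x ≠ 0 := fun e => by
      have := congrArg (fun v => S₁.B v (s x)) e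
      simp [hyx, hb, h2, hQx] at this
      exact hσx this
    have m := sub_mem hy ((S₁.perp D).smul_mem (S₁.B y x / (2 * S₁.Q x)) hx)
    have a3 := no_equal h2 h3 hD2 ha hmin hx m a1 hQx (Q_ne_of_perp h2 hE2 hEn hx m hQx a2 a1)
    rw [S₁.orth_Q_sub, S₁.orth_Q_smul, PQ.B_smul_right, FP.orth_σ] at a3
    field_simp at a3
    have a4 := sq_one h3 hb
    have a5 := sq_one h3 hQx
    refine hQy (mul_left_cancel₀ hQx ?_)
    linear_combination a3 + a4 - 4 * a5 - (S₁.Q x * S₁.Q y + 1) * h30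
  have hQQ := no_equal h2 h3 hD2 ha hmin hx hy hxy hQx hQy
  have hsl : ∀ v ∈ S₁.perp D, s v = l • v := by
    intro v hv
    refine sub_eq_zero.1 (hEn _ (sub_mem (hsE v) ((S₁.perp D).smul_mem l hv)) fun v' hv' => ?_)
    obtain ⟨a, b, rfl⟩ := coords hE2 hx hy hσx hyx hy0 hv
    obtain ⟨a', b', rfl⟩ := coords hE2 hx hy hσx hyx hy0 hv'
    have c1 : S₁.B (s x) y = 0 := S₁.B_comm_zero hyx
    have c2 : S₁.B (s y) x = 0 := by rw [hss, hyx]
    simp only [map_add, map_smul, PQ.B_add_left, PQ.B_add_right, PQ.B_sub_left, PQ.B_smul_left,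
      PQ.B_smul_right, FP.orth_σ, c1, c2, hxy, S₁.B_comm_zero hxy, S₁.orth_B_self]
    rw [hQQ] at q1 ⊢
    linear_combination a * a' * q1 + b * b' * q2
  -- the element `(1 + μ)(1 + l ν)(1 + μ)`
  set γ := rootE _ hμ2 1 * rootE _ (h.nu_sq hw) l * rootE _ hμ2 1 with hγ
  have hγM : γ ∈ M := mul_mem (mul_mem hk hρ) hk
  have eγ : ∀ v, γ v = v + μ v + l • τ (h.cw w v + h.cw w (μ v)) w + μ v +
      l • μ (τ (h.cw w v + h.cw w (μ v)) w) := fun v => by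
    simp [hγ, TF.nu_apply, hμ2]; abel
  have g1 : ∀ u ∈ D, γ (τ u w) = τ u w := fun u hu => by simp [eγ, hμD u hu]
  have g2 : ∀ u ∈ S₁.perp D, γ (τ u w) = -τ u w := fun u hu => by
    rw [eγ, ← hs, hsl u hu]
    simp only [TF.cw_apply, sB_self, zero_smul, zero_add, map_smul, LinearMap.smul_apply, smul_smul, hll]
    linear_combination (norm := module) h30 • μ (τ u w) + h30 • τ u w
  have hγT := (H.stab w hw h0 γ hγM fun u => by
    obtain ⟨d, hd, e, he, rfl⟩ := Submodule.mem_sup.1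
      (hDn.isCompl.sup_eq_top ▸ Submodule.mem_top (x := u))
    refine ⟨d - e, ?_⟩
    simp [g1 d hd, g2 e he, sub_eq_add_neg]).1
  obtain ⟨d, hd, hd0⟩ := exists_ne_zero_of_finrank_pos (A := D) (by omega)
  obtain ⟨a, b, e⟩ := hγT
  have g3 : γ (τ d z) = τ d z := by
    rw [eγ, hl d hd]
    simp only [TF.cw_apply, hz, map_smul, sB_self, zero_smul, smul_zero, add_zero, one_smul, hμD d hd]
    linear_combination (norm := module) (h30 * l) • τ d w
  obtain ⟨β, hβ⟩ := Submodule.mem_span_singleton.1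
    (h.tens.mem_span_of_eq (a := d) (a' := a d) h0 ((g1 d hd).symm.trans (e d w)))
  have hβ0 : β ≠ 0 := by rintro rfl; exact hd0 (by simpa using hβ.symm)
  have k : ∀ y', γ (τ d y') = τ d y' → b y' = β • y' := fun y' e' => by
    apply h.tens.flip.left_inj (b := d) hd0
    simp only [LinearMap.flip_apply, map_smul]
    rw [← e', e]
    conv_lhs => rw [← hβ]
    simp
  have k1 := k w (g1 d hd)
  have k2 := k z g3
  have g4 : ∀ u ∈ S₁.perp D, γ (τ u z) = -τ u z := fun u hu => by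
    have := g2 u hu
    rw [e, k1] at this
    have e2 : β • a u = -u := eq_of_tmul_eq h.tens h0 (by simpa using this)
    rw [e, k2, map_smul, ← LinearMap.smul_apply, ← map_smul, e2]; simp
  obtain ⟨t, ht, et⟩ := hdec x
  have g5 : γ (μ (τ x w)) = -μ (τ x w) := by
    rw [et, map_add, g2 t ht, g4 _ (hsE x)]; abel
  rw [eγ, hμ2, ← hs, hsl x hx] at g5
  simp only [map_zero, add_zero, map_smul, LinearMap.smul_apply, smul_smul, hll, one_smul] at g5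
  exact h.tens.ne_zero hx0 h0 (by linear_combination (norm := module) g5 - h30 • μ (τ x w))

end main

theorem spo_tensor3 [Finite F] (h : TF S₁ S₂ S τ) (h2 : (2 : F) ≠ 0)
    (h3 : ∀ c : F, c = 0 ∨ c = 1 ∨ c = -1) (hU : finrank F U = 4) (hW : finrank F W = 2)
    (hmin : ∀ Y, S₁.TS Y → finrank F Y < 2)
    (hM : M ≤ S.isom) (hT : ∀ g ∈ S.isom, g ∈ TStab τ → g ∈ M) (hn : ∃ g ∈ M, g ∉ TStab τ) (v : V) :
    Ctr S M v := by
  have : Nontrivial U := Module.nontrivial_of_finrank_pos (R := F) (by omega)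
  have : Nontrivial W := Module.nontrivial_of_finrank_pos (R := F) (by omega)
  have hM₂ := le_snd₂ h hT
  obtain ⟨w, h0, q, hq, hQ, hqT⟩ : ∃ w, w ≠ 0 ∧ ∃ q ∈ M, InQ h w q ∧ q ∉ TStab τ := by
    by_contra hc
    push Not at hc
    have stab : ∀ w, S₂.Sing w → w ≠ 0 → ∀ x ∈ M, (∀ u, x (τ u w) ∈ Bw τ w) → x ∈ TStab τ :=
      fun w hw h0 x hx e => par_two h hW hM hT h0 (hc w h0) hx e
    have H := hyp_of (h := h) trP_symp (by omega) (isom_le_sim hM) hM₂ stab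
      fun w hw h0 g hg ρ hρ h1 e => fus h h2 (by omega) hM (le_snd₁ h hT)
        (Or.inr ⟨hW, fun _ => hmin⟩) h0 (stab w hw h0) hg hρ h1 e
    obtain ⟨w, h0⟩ := exists_ne (0 : W)
    obtain ⟨z, hz⟩ := h.nd₂.exists_eq h0 1
    obtain ⟨g, E⟩ := exists_ext (M := M) (T := TStab τ) (fun hle => by
      obtain ⟨g, hg, hgT⟩ := hn; exact hgT (hle hg)) (Bw τ w)
    exact not_ext H h2 h3 hU hW hM hT hz E hmin
  obtain ⟨z, -, hz0, hz⟩ := exists_sing S₁ (H := ⊤) (by rw [finrank_top]; omega)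
  exact TenGen.ctr_all h trP_symp trP_symp (Or.inr fun _ => trivial) (by omega)
    (fun u w hu _ => ctr_of_inQ h h2 (by omega) (Or.inl hU.ge) hM hT h0 hq hQ hqT u w hu)
    ((S₁.orth_sing z).2 hz) hz0 v trivial

/-- `Sp₂ ∘ GO₄⁻` is maximal in `Sp₈`, for every odd `q`. -/
theorem sp8_tensor [Fintype F] (hodd : Odd (Fintype.card F)) (e : (Fin 4 ⊕ Fin 4) ≃ Fin 2 × Fin 4)
    (P : GL (Fin 4 ⊕ Fin 4) F) (f₁ : (Fin 2 → F) → (Fin 2 → F) → F)
    (f₂ : (Fin 4 → F) → (Fin 4 → F) → F) (hf₁ : Geo.IsSymplecticForm f₁)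
    (hf₂ : Geo.IsSymmetricForm f₂) (h4 : ¬ Geo.IsPlusTypeOn (fun v : Fin 4 → F => f₂ v v) ⊤)
    (hT : Geo.IsTensorFormStructure id (sympForm 4 F) f₁ f₂ e P) :
    Geo.IsMaximalIn (spGL 4 F) (Geo.tensorProductSubgroup 2 4 e P ⊓ spGL 4 F) := by
  have h2 := two_ne_zero_of_odd_card hodd
  have hmin : ∀ Y : Submodule F (Fin 4 → F), (∀ y ∈ Y, f₂ y y = 0) → finrank F Y < 2 := by
    intro Y hY
    by_contra hlt
    obtain ⟨Y', h1, h5⟩ := H9.LinBasic.exists_le_finrank_eq Y (k := 2) (by omega)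
    exact h4 ⟨Y', le_top, fun y hy => hY y (h1 hy), by simp [h5]⟩
  by_cases h3 : Fintype.card F = 3
  swap
  · exact isMaximalIn_Sp hodd le_rfl (by omega) (by omega) e P f₁ f₂ hf₁ hf₂ (fun _ _ => ⟨h3, hmin⟩) hT
  obtain ⟨c, hc, H⟩ := tensorForm_apply (sympPQ hf₁) (symmPQ h2 hf₂) (fun _ => rfl) (fun _ => rfl) hT
  have h : TF (symmPQ h2 hf₂) (scale (sympPQ hf₁) c rfl fun _ _ => trivial) (spS 4 F)
      (tensOf e P).flip := TF.flip ⟨isTens_tensOf e P, fun _ => rfl, fun _ => rfl, by simp,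
    fun u w u' w' => by rw [sympPQ_B, H, ← mul_assoc]; rfl,
    scale_nondeg (sympPQ_nondeg hf₁) hc _ _, symmPQ_nondeg h2 hf₂⟩
  refine sp_max _ _ (fun g _ => mem_tensorProductSubgroup_iff' e P g)
    (Sp_not_le_tensorProductSubgroup (by norm_num) le_rfl (by omega) e P) fun M h5 h6 h7 =>
    spo_tensor3 h h2 (H8.eq_of_card_three (by rw [Nat.card_eq_fintype_card, h3])) (by simp) (by simp)
      (fun Y hY => hmin Y fun y hy => hY.2 y hy y hy) h5 (by rwa [TStab_flip]) (by rwa [TStab_flip])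

end Cfsg.Agent.H7.SpT3
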