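import Cfsg.Agent.H3.S7b
import Cfsg.Agent.H8.L5j
import Cfsg.Agent.H6.SUBasic

/-! Unitary groups with an arbitrary index type. -/

set_option autoImplicit false
set_option linter.unusedSectionVars false
set_option linter.unusedSimpArgs false

namespace Cfsg.Agent.H7.U7

open Matrix Subgroup MulAction Cfsg.Agent.H4 Cfsg.Agent.H4.Mob Cfsg.Agent.H4.MobCard Cfsg.Agent.H4.Dick
open Cfsg.Agent.H8.L5 (mku mk_one)

variable {F : Type*} [Field F] [StarRing F] {n : Type} [Fintype n] [DecidableEq n]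

/-- the unitary group of the standard form -/
def UG (n : Type) [Fintype n] [DecidableEq n] (F : Type*) [Field F] [StarRing F] : Subgroup (GL n F) where
  carrier := {g | g.valᴴ * g.val = 1}
  mul_mem' {a b} ha hb := by
    change (a * b).valᴴ * (a * b).val = 1
    rw [Units.val_mul, conjTranspose_mul, mul_assoc, ← mul_assoc _ a.val, ha, one_mul, hb]
  one_mem' := by simp
  inv_mem' {a} ha := by
    have := congrArg ((a⁻¹).valᴴ * · * (a⁻¹).val) ha
    simp only [mul_assoc, Units.mul_inv, mul_one, ← conjTranspose_mul, conjTranspose_one] at this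
    exact this.symm

theorem mem_UG {g : GL n F} : g ∈ UG n F ↔ g.valᴴ * g.val = 1 := Iff.rfl

theorem UG_ct {g : GL n F} (h : g ∈ UG n F) : g.valᴴ = (g⁻¹).val :=
  (Units.inv_eq_of_mul_eq_one_left h).symm

theorem UG_mul {g : GL n F} (h : g ∈ UG n F) : g.val * g.valᴴ = 1 := mul_eq_one_comm.1 h

theorem uni_of {g : GL n F} (h : ∀ i j, star (g.val j i) = (g⁻¹).val i j) : g ∈ UG n F := by
  rw [mem_UG, show g.valᴴ = (g⁻¹).val from ext h, Units.inv_mul]

/-- a unitary transvection -/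
def tv (d : n → F) (c : F) : Matrix n n F := 1 + c • vecMulVec d (star d)

theorem tv_mulVec (d x : n → F) (c : F) : tv d c *ᵥ x = x + (c * (star d ⬝ᵥ x)) • d := by
  rw [tv, add_mulVec, one_mulVec, smul_mulVec, vecMulVec_mulVec]
  ext i; simp; ring

theorem tv_mul {d : n → F} (hd : star d ⬝ᵥ d = 0) (c c' : F) : tv d c * tv d c' = tv d (c + c') := by
  simp only [tv, mul_add, add_mul, one_mul, mul_one, smul_mul_smul_comm, vecMulVec_mul_vecMulVec, hd, add_smul]
  simp [add_assoc, add_comm]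

theorem tv_zero (d : n → F) : tv d 0 = 1 := by simp [tv]

theorem tv_smul (d : n → F) (μ c : F) : tv (μ • d) c = tv d (μ * star μ * c) := by
  ext i j; simp [tv, vecMulVec_apply]; ring

theorem tv_ct (d : n → F) (c : F) : (tv d c)ᴴ = tv d (star c) := by
  ext i j; simp [tv, vecMulVec_apply, one_apply, eq_comm, mul_comm, apply_ite star]

theorem tv_conj {g : GL n F} (hg : g ∈ UG n F) (d : n → F) (c : F) :
    g.val * tv d c * (g⁻¹).val = tv (g.val *ᵥ d) c := by
  rw [← UG_ct hg, tv, tv, mul_add, add_mul, mul_one, UG_mul hg, mul_smul_comm, smul_mul_assoc, mul_vecMulVec,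
    vecMulVec_mul, star_mulVec]

theorem tv_det {d : n → F} (hd : star d ⬝ᵥ d = 0) (c : F) : (tv d c).det = 1 := by
  rw [tv, ← smul_vecMulVec, vecMulVec_eq (Fin 1), det_one_add_replicateCol_mul_replicateRow, dotProduct_smul, hd]
  simp

theorem tv_pow {d : n → F} (hd : star d ⬝ᵥ d = 0) (c : F) (m : ℕ) : tv d c ^ m = tv d (m * c) := by
  induction m with
  | zero => simp [tv_zero]
  | succ m ih => rw [pow_succ, ih, tv_mul hd]; simp [add_mul]

/-- a unitary transvection as a unit -/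
def tu (d : n → F) (hd : star d ⬝ᵥ d = 0) (c : F) : GL n F :=
  mku (tv d c) (tv d (-c)) (by rw [tv_mul hd, add_neg_cancel, tv_zero])

theorem tu_val (d : n → F) (hd : star d ⬝ᵥ d = 0) (c : F) : (tu d hd c).val = tv d c := rfl

theorem tu_uni {d : n → F} (hd : star d ⬝ᵥ d = 0) {c : F} (hc : c + star c = 0) : tu d hd c ∈ UG n F := by
  rw [mem_UG, tu_val, tv_ct, tv_mul hd, add_comm, hc, tv_zero]

theorem UG_dot {g : GL n F} (hg : g ∈ UG n F) (x y : n → F) :
    star (g.val *ᵥ x) ⬝ᵥ g.val *ᵥ y = star x ⬝ᵥ y := by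
  rw [star_mulVec, dotProduct_mulVec, vecMul_vecMul, hg, vecMul_one]

theorem tv_apply (d : n → F) (c : F) (i j : n) :
    tv d c i j = (if i = j then 1 else 0) + c * (d i * star (d j)) := by simp [tv, vecMulVec_apply, one_apply]

theorem conj_of_smul {g h : GL n F} {c : F} (e : g.val = c • h.val) (k : GL n F) : g * k * g⁻¹ = h * k * h⁻¹ := by
  rw [mul_inv_eq_iff_eq_mul]
  exact Units.ext (by simp [e])

theorem nrm_ctr {c₁ c₂ : F} (h₁ : star c₁ = -c₁) (h₂ : star c₂ = -c₂) (h₃ : c₁ ≠ 0) (h₄ : c₂ ≠ 0) (h₅ : c₁ ^ 2 ≠ c₂ ^ 2)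
    {K : Subgroup (GL n F)} {d : n → F} (hd : star d ⬝ᵥ d = 0)
    (hK : ∀ c, c + star c = 0 → ∀ k ∈ K, tu d hd c * k * (tu d hd c)⁻¹ ∈ K) {g : GL n F} (hg : g ∈ K)
    (hu : g ∈ UG n F) (hβ : star d ⬝ᵥ g.val *ᵥ d ≠ 0) {y : F} (hy : y + star y = 0) : tu d hd y ∈ K := by
  have he : star (g.val *ᵥ d) ⬝ᵥ g.val *ᵥ d = 0 := by rw [UG_dot hu, hd]
  have e0 : ∀ x, tu _ he x = g * tu d hd x * g⁻¹ := fun x => Units.ext (tv_conj hu d x).symm
  generalize g.val *ᵥ d = e at *
  have k1 : ∀ x, x + star x = 0 → tu e he x * (tu d hd x)⁻¹ ∈ K := fun x hx => by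
    have := mul_mem hg (hK x hx _ (inv_mem hg))
    rwa [e0, mul_assoc g, mul_assoc g]
  have cT : ∀ a b, tu d hd a * tu d hd b = tu d hd (a + b) := fun a b => Units.ext (tv_mul hd a b)
  have cT' : ∀ a b, Commute (tu d hd a) (tu d hd b) := fun a b => by rw [Commute, SemiconjBy, cT, cT, add_comm]
  obtain ⟨β, hb⟩ : ∃ β, star d ⬝ᵥ e = β := ⟨_, rfl⟩
  have hb' : star e ⬝ᵥ d = star β := by rw [← hb, star_dotProduct]
  rw [hb] at hβ
  have hβ' : star β ≠ 0 := star_ne_zero.2 hβ
  obtain ⟨c, c0, c1, c2⟩ : ∃ c : F, c ≠ 0 ∧ star c = -c ∧ c * β * star (c * β) - 1 ≠ 0 := by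
    by_cases h : c₁ * β * star (c₁ * β) - 1 = 0
    · refine ⟨_, h₄, h₂, fun h' => ?_⟩
      simp [h₁, h₂] at h h'
      grind
    · exact ⟨_, h₃, h₁, h⟩
  have hc : c + star c = 0 := by rw [c1, add_neg_cancel]
  have hc' : (c * β * star β)⁻¹ + star (c * β * star β)⁻¹ = 0 := by simp [c1]; field_simp; ring
  obtain ⟨x, hx, rfl⟩ : ∃ x, x + star x = 0 ∧ y = c * β * star (c * β) * x + -x :=
    ⟨y / (c * β * star (c * β) - 1), by
      rw [star_div₀, star_sub, star_mul' (c * β), star_star, star_one, mul_comm (star _), ← add_div, hy, zero_div], by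
      field_simp; ring⟩
  have E : tu e he (c * β * star β)⁻¹ * tu d hd (c * β * star (c * β) * x) * (tu e he (c * β * star β)⁻¹)⁻¹ =
      tu d hd c * tu e he x * (tu d hd c)⁻¹ := Units.ext (by
    rw [Units.val_mul, Units.val_mul, Units.val_mul, Units.val_mul, tu_val d, tu_val e he x, tv_conj (tu_uni he hc'),
      tv_conj (tu_uni hd hc), ← tv_smul, tu_val, tu_val, tv_mulVec, tv_mulVec, hb, hb', smul_add, smul_smul, add_comm]
    congr 2
    rw [show c * β * ((c * β * star β)⁻¹ * star β) = 1 by field_simp, one_smul])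
  have := mul_mem (mul_mem (inv_mem (k1 _ hc')) (hK c hc _ (k1 x hx))) (hK x hx _ (k1 _ hc'))
  rw [← cT, show tu d hd (-x) = (tu d hd x)⁻¹ from Units.ext rfl]
  convert this using 1
  have a1 := cT' c x
  have a2 := cT' (c * β * star β)⁻¹ (c * β * star (c * β) * x)
  generalize tu d hd (c * β * star (c * β) * x) = Y at *
  generalize tu d hd (c * β * star β)⁻¹ = T' at *
  generalize tu e he (c * β * star β)⁻¹ = S' at *
  generalize tu d hd x = X at *
  generalize tu d hd c = T at *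
  calc Y * X⁻¹ = T' * S'⁻¹ * (S' * Y * S'⁻¹) * S' * T'⁻¹ * X⁻¹ := by
        rw [show T' * S'⁻¹ * (S' * Y * S'⁻¹) * S' = T' * Y by group, a2.eq]; group
    _ = T' * S'⁻¹ * (T * tu e he x * (X⁻¹ * (X * T⁻¹))) * S' * T'⁻¹ * X⁻¹ := by rw [E]; group
    _ = _ := by rw [← a1.inv_left.eq]; group

variable [Fintype F]

theorem pow_sc [Nonempty n] {g : GL n F} {X : Matrix _ _ F} {c : F} (h : g.val = c • X) :
    (g ^ ((Fintype.card F - 1) * (Fintype.card F - 1))).val = X ^ ((Fintype.card F - 1) * (Fintype.card F - 1)) := by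
  have c0 : c ≠ 0 := by rintro rfl; exact g.ne_zero (h.trans (zero_smul _ _))
  rw [Units.val_pow_eq_pow_val, h, _root_.smul_pow, pow_mul c, FiniteField.pow_card_sub_one_eq_one c c0, one_pow, one_smul]

theorem cast_sq : (((Fintype.card F - 1) * (Fintype.card F - 1) : ℕ) : F) = 1 := by
  rw [Nat.cast_mul, Nat.cast_pred Fintype.card_pos, FiniteField.cast_card_eq_zero]; simp

/-- the special unitary group of degree two -/
def SU2 (F : Type*) [Field F] [StarRing F] : Subgroup (GL (Fin 2) F) := UG (Fin 2) F ⊓ Geo.specialLinear (Fin 2) F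

theorem mem_SU2 {g : GL (Fin 2) F} : g ∈ SU2 F ↔ g ∈ UG (Fin 2) F ∧ g.val.det = 1 :=
  mem_inf.trans (and_congr_right' (by rw [Geo.specialLinear, MonoidHom.mem_ker, Units.ext_iff,
    GeneralLinearGroup.val_det_apply, Units.val_one]))

/-- the projective unitary group -/
abbrev PU (F : Type*) [Field F] [StarRing F] : Subgroup (PG F) := (UG (Fin 2) F).map ProjGenLinGroup.mk
/-- the projective special unitary group -/
abbrev PSU (F : Type*) [Field F] [StarRing F] : Subgroup (PG F) := (SU2 F).map ProjGenLinGroup.mk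

theorem mk_eq_mk {g h : GL (Fin 2) F} : ProjGenLinGroup.mk g = ProjGenLinGroup.mk h ↔ ∃ c : F, g.val = c • h.val := by
  rw [← mul_inv_eq_one, ← map_inv, ← map_mul, mk_one]
  refine exists_congr fun c => ⟨fun e => ?_, fun e => by simp [e]⟩
  simpa using congrArg (· * h.val) e

theorem sub_psu {Γ : Subgroup (PG F)} (hU : Γ ≤ PU F) {G : GL (Fin 2) F} {E : Subfield F}
    (h1 : PSsub E ≤ Pair.cj (ProjGenLinGroup.mk G) Γ) (ht : ∀ x, star x = x → x ∈ E) : PSU F ≤ Γ := by
  obtain ⟨J, hJ⟩ : ∃ J, J = (G⁻¹).valᴴ * (G⁻¹).val := ⟨_, rfl⟩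
  have J0 : J.det ≠ 0 := by
    rw [hJ, det_mul, det_conjTranspose]
    exact mul_ne_zero (star_ne_zero.2 (GeneralLinearGroup.det_ne_zero _)) (GeneralLinearGroup.det_ne_zero _)
  have Jh : Jᴴ = J := by rw [hJ, conjTranspose_mul, conjTranspose_conjTranspose]
  have uni : ∀ Y : GL (Fin 2) F, G⁻¹ * Y * G ∈ UG (Fin 2) F ↔ Y.valᴴ * J * Y.val = J := fun Y => by
    rw [mem_UG, hJ]
    refine ⟨fun e => ?_, fun e => ?_⟩
    · have := congrArg ((G⁻¹).valᴴ * · * (G⁻¹).val) e
      simp only [Units.val_mul, conjTranspose_mul, mul_assoc, Units.mul_inv, mul_one, one_mul] at this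
      rw [← mul_assoc _ G.valᴴ, ← conjTranspose_mul, Units.mul_inv, conjTranspose_one, one_mul] at this
      simpa only [mul_assoc] using this
    · have := congrArg (G.valᴴ * · * G.val) e
      simp only [mul_assoc, Units.inv_mul, mul_one] at this
      rw [← conjTranspose_mul, Units.inv_mul, conjTranspose_one] at this
      simpa only [Units.val_mul, conjTranspose_mul, mul_assoc] using this
  have pres : ∀ {a b c d : F} {h}, mob a b c d h ∈ PSsub E → ∃ n : F, n • (!![a, b; c, d]ᴴ * J * !![a, b; c, d]) = J := by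
    intro a b c d h hm
    obtain ⟨k, k1, k2⟩ := hU (Pair.mem_cj.1 (h1 hm))
    rw [mob, ← map_inv, ← map_mul, ← map_mul, mk_eq_mk] at k2
    obtain ⟨l, k2⟩ := k2
    have e : (G * k * G⁻¹).val = l • !![a, b; c, d] := by
      rw [Units.val_mul, Units.val_mul, k2, mul_smul_comm, smul_mul_assoc, ← Units.val_mul, ← Units.val_mul, ← mat_val a b c d h]
      congr 2; group
    have := (uni (G * k * G⁻¹)).1 (by simpa [mul_assoc] using k1)
    rw [e, conjTranspose_smul, smul_mul_assoc, smul_mul_smul_comm] at this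
    exact ⟨_, this⟩
  obtain ⟨j0, j1, j2, j3, rfl⟩ : ∃ j0 j1 j2 j3, J = !![j0, j1; j2, j3] := ⟨_, _, _, _, eta_fin_two J⟩
  have J1 : star j2 = j1 := by simpa using congrFun (congrFun Jh 0) 1
  rw [det_fin_two_of] at J0
  have up : ∀ t ∈ E, j0 * t = 0 ∧ star t * j1 + (star t * j0 + j2) * t = 0 := fun t ht => by
    obtain ⟨n, e⟩ := pres (tr_mem_PSsub ht)
    have := fun i j => congrFun (congrFun e i) j
    simp [Fin.forall_fin_two, mul_apply, conjTranspose_apply] at this
    grind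
  obtain rfl : j0 = 0 := by simpa using (up 1 (one_mem _)).1
  obtain rfl : j3 = 0 := by
    obtain ⟨n, e⟩ := pres (mob_mem_PSsub (E := E) (a := 1) (b := 0) (c := 1) (d := 1) (s := 1) (h := by simp)
      (one_mem _) (zero_mem _) (one_mem _) (one_mem _) (one_mem _) (by simp))
    have := fun i j => congrFun (congrFun e i) j
    simp [Fin.forall_fin_two, mul_apply, conjTranspose_apply] at this
    grind
  obtain rfl : j2 = -j1 := by have := (up 1 (one_mem _)).2; simp at this; grind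
  have fix : ∀ t ∈ E, star t = t := fun t ht => by have := (up t ht).2; grind
  have key : Pair.cj (ProjGenLinGroup.mk G) (PSU F) = PSsub E := by
    ext x
    rw [Pair.mem_cj]
    refine ⟨fun ⟨s, s1, s2⟩ => ?_, fun hx => ?_⟩
    · obtain ⟨s1, s3⟩ := mem_SU2.1 s1
      have e : x = ProjGenLinGroup.mk (G * s * G⁻¹) := by rw [map_mul, map_mul, s2, map_inv]; group
      have e1 := (uni (G * s * G⁻¹)).1 (by simpa [mul_assoc] using s1)
      have e2 : (G * s * G⁻¹).val.det = 1 := by rw [Units.val_mul, Units.val_mul, det_units_conj, s3]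
      rw [e, mk_eq_mob]
      generalize G * s * G⁻¹ = Y at e1 e2
      have := fun i j => congrFun (congrFun e1 i) j
      rw [det_fin_two] at e2
      simp [Fin.forall_fin_two, mul_apply, conjTranspose_apply] at this
      exact mob_mem_PSsub (s := 1) (ht _ (by grind)) (ht _ (by grind)) (ht _ (by grind))
        (ht _ (by grind)) (one_mem _) (by simpa using e2)
    · obtain ⟨a, b, c, d, h, ha, hb, hc, hd, rfl⟩ := exists_of_mem_PSsub hx
      refine ⟨G⁻¹ * mat a b c d (h ▸ one_ne_zero) * G, mem_SU2.2 ⟨(uni _).2 ?_, ?_⟩, by simp [mob]⟩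
      · ext i j
        fin_cases i <;> fin_cases j <;> simp [mul_apply, conjTranspose_apply, fix _ ha, fix _ hb, fix _ hc, fix _ hd] <;>
          grind
      · rw [Units.val_mul, Units.val_mul, det_units_conj']; simpa [det_fin_two] using h
  exact Pair.cj_le_cj.1 (key ▸ h1)

end Cfsg.Agent.H7.U7
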