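import Cfsg.Agent.H7.U7a

/-! Unitary overgroups of the normaliser of the extraspecial group of order `343`: basic tools. -/

set_option autoImplicit false
set_option linter.unusedSectionVars false
set_option linter.unusedSimpArgs false

namespace Cfsg.Agent.H7.U7

open Matrix Subgroup Finset MulAction Cfsg.Agent.H4 Cfsg.Agent.H4.Mob Cfsg.Agent.H4.MobCard Cfsg.Agent.H4.Dick H8.L5g
open Cfsg.Agent.H3.S7 hiding Hyp Big
open Cfsg.Agent.H8.L5 (mku mk_one)
open scoped Cfsg.Agent.H4.Bar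

variable {F : Type*} [Field F] [StarRing F] [Fintype F]

/-- the standing hypothesis -/
structure Hyp (o : Om7 F) (M : Subgroup (G7 F)) : Prop where
  two : (2 : F) ≠ 0
  st : star o.ω = o.ω ^ 6
  top : ∀ (E : Subfield F) (k : I), k ≠ 0 → o.e k + o.e (-k) ∈ E → ∀ x, star x = x → x ∈ E
  det : ∀ g ∈ M, g.val.det = 1
  uni : M ≤ UG I F
  a : o.a ∈ M
  b : b F ∈ M
  u : o.u ∈ M
  f : o.f ∈ M
  af : ∀ k t hk, af F k t hk ∈ M

/-- the group contains a full root subgroup -/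
def Big (M : Subgroup (G7 F)) : Prop :=
  ∃ d : I → F, d ≠ 0 ∧ star d ⬝ᵥ d = 0 ∧ ∀ c, c + star c = 0 → ∃ g ∈ M, g.val = tv d c

variable {o : Om7 F} {M : Subgroup (G7 F)}

theorem st_e (h : star o.ω = o.ω ^ 6) (x : I) : star (o.e x) = o.e (-x) := by
  rw [Om7.e, star_pow, h, ← pow_mul, ← o.e_nat, o.e_inj]; simp; linear_combination x * z7

/-- the corner entry -/
def r0 (o : Om7 F) (M : Subgroup (G7 F)) : Cu o M →* F where
  toFun g := g.1.val 0 0
  map_one' := by simp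
  map_mul' g k := mul_apply.trans
    (sum_eq_single (0 : I) (fun l _ hl => by rw [(mem_Cu.1 g.2).2 0 l hl (by simpa), zero_mul]) (by simp))

/-- the embedding given by an orthonormal pair -/
def emb {P : Matrix I (Fin 2) F} (h : Pᴴ * P = 1) : Matrix (Fin 2) (Fin 2) F →* M7 F where
  toFun X := 1 + P * (X - 1) * Pᴴ
  map_one' := by simp
  map_mul' X Y := by
    simp only [Matrix.mul_sub, Matrix.sub_mul, mul_add, add_mul, mul_sub, sub_mul, Matrix.mul_assoc, Matrix.one_mul,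
      Matrix.mul_one, ← Matrix.mul_assoc Pᴴ P, h]
    abel

theorem emb_tv {P : Matrix I (Fin 2) F} (h : Pᴴ * P = 1) (v : Fin 2 → F) (c : F) : emb h (tv v c) = tv (P *ᵥ v) c := by
  change 1 + P * (tv v c - 1) * Pᴴ = _
  rw [tv, tv, add_sub_cancel_left, Matrix.mul_smul, Matrix.smul_mul, mul_vecMulVec, vecMulVec_mul, star_mulVec]

/-- elements of a Heisenberg group -/
def ei (v d : I → F) (a b c : F) : M7 F :=
  1 + a • vecMulVec v (star d) + b • vecMulVec d (star v) + c • vecMulVec d (star d)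

theorem ei_mul {v d : I → F} (h1 : star v ⬝ᵥ v = 1) (h2 : star v ⬝ᵥ d = 0) (h3 : star d ⬝ᵥ v = 0) (h4 : star d ⬝ᵥ d = 0)
    (a b c a' b' c' : F) : ei v d a b c * ei v d a' b' c' = ei v d (a + a') (b + b') (c + c' + b * a') := by
  simp only [ei, mul_add, add_mul, one_mul, mul_one, smul_mul_assoc, mul_smul_comm, vecMulVec_mul_vecMulVec, h1, h2, h3, h4,
    zero_smul, one_smul, vecMulVec_zero, smul_zero, add_zero]
  module

namespace Hyp
variable (H : Hyp o M)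
include H

theorem z : z F ∈ M := o.ff ▸ mul_mem H.f H.f

theorem exists_norm {c : F} (hc : star c = c) : ∃ x, x * star x = c :=
  H6.SU.exists_norm (σ := starRingEnd F) ⟨o.e 1, by
    rw [starRingEnd_apply, st_e H.st]; exact o.e_inj.not.2 (by decide)⟩ (fun a => star_star a) hc

theorem top' (S : Subring F) {k : I} (hk : k ≠ 0) (h : o.e k + o.e (-k) ∈ S) {x : F} (hx : star x = x) : x ∈ S := by
  let E : Subfield F := { S with
    inv_mem' := fun x hx => by
      by_cases x0 : x = 0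
      · simpa [x0] using S.zero_mem
      · rw [show x⁻¹ = x ^ (Fintype.card F - 2) from inv_eq_of_mul_eq_one_left (by
          rw [← pow_succ, ← FiniteField.pow_card_sub_one_eq_one x x0]
          congr 1; have := Fintype.one_lt_card (α := F); omega)]
        exact S.pow_mem hx _ }
  exact H.top E k hk h x hx

theorem shift (k t : I) (hk : k ≠ 0) {g : G7 F} (hg : g ∈ M) :
    ∃ g' ∈ M, ∀ i j, g'.val i j = g.val (k * i + t) (k * j + t) :=
  ⟨_, mul_mem (mul_mem (inv_mem (H.af k t hk)) hg) (H.af k t hk), fun i j => by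
    rw [← conj_af k t hk]; simp [mul_assoc, -Units.val_mul]⟩

theorem d7 {N : Subgroup (PG F)} (hU : N ≤ PU F) {r s : F} {h} (h1 : mob r 0 0 s h ∈ N) (h7 : r ^ 7 = s ^ 7) (hr : r ≠ s)
    {a b c d : F} {h'} (h2 : mob a b c d h' ∈ N) (hb : b ≠ 0) (hc : c ≠ 0) (ha : a ≠ 0 ∨ d ≠ 0) : PSU F ≤ N := by
  have x1 : mob r 0 0 s h ≠ 1 := fun e => hr (mob_eq_one.1 e).2.2
  have x7 : mob r 0 0 s h ^ 7 = 1 := by
    simp only [pow_succ, pow_zero, one_mul, mob_mul, mob_eq_one]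
    exact ⟨by ring, by ring, by linear_combination h7⟩
  have key : ∀ n : ℕ, n.Coprime 7 → mob r 0 0 s h ^ n ≠ 1 := fun n hn e => x1 (by
    have := pow_gcd_eq_one.2 ⟨e, x7⟩
    rwa [hn, pow_one] at this)
  have key' : ∀ n : ℕ, n.Coprime 7 → (⟨_, h1⟩ : N) ^ n ≠ 1 := fun n hn e => key n hn (congrArg Subtype.val e)
  rcases dickson N with ⟨y, hy⟩ | ⟨y, y', hyy, hy⟩ | ⟨-, -, ⟨⟨e⟩⟩ | ⟨⟨e⟩⟩⟩ | ⟨-, -, -, ⟨e⟩⟩ | ⟨g, E, -, h3, h4⟩
  · rcases P1_cases y with rfl | ⟨t, rfl⟩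
    · exact (hc (mob_smul_inf_eq_inf.1 (hy h2))).elim
    · have e1 := mob_smul_pt_eq_pt.1 (hy h1)
      obtain rfl : t = 0 := by
        by_contra t0
        exact hr (mul_right_cancel₀ t0 (by linear_combination e1))
      exact (hb (by simpa using mob_smul_pt_eq_pt.1 (hy h2))).elim
  · have e1 := Bar.mul_self_mem_Tor (hy h1)
    have e2 : mob r 0 0 s h * mob r 0 0 s h ≠ 1 := sq (mob r 0 0 s h) ▸ key 2 (by norm_num)
    have e3 : ∀ w : P1 (Bar.Kb F), (mob r 0 0 s h * mob r 0 0 s h) • w = w → w = Mob.inf ∨ w = pt 0 := fun w hw =>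
      Bar.fix_eq' e2 (by simp [eq_comm]) (by rw [mob_mul, Bar.inf_inf]; simp) (by rw [mob_mul, Bar.pt_pt]; simp) hw
    have f1 : mob a b c d h' • (Mob.inf : P1 (Bar.Kb F)) ≠ Mob.inf := fun e => hc (Bar.inf_inf.1 e)
    have f2 : mob a b c d h' • (pt 0 : P1 (Bar.Kb F)) ≠ pt 0 := fun e => hb (by simpa using Bar.pt_pt.1 e)
    have f3 : mob a b c d h' • (Mob.inf : P1 (Bar.Kb F)) = pt 0 → mob a b c d h' • (pt 0 : P1 (Bar.Kb F)) ≠ Mob.inf :=
      fun e e' => ha.elim (fun k => k (by simpa using Bar.inf_pt.1 e)) fun k => k (by simpa using Bar.pt_inf.1 e')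
    exfalso
    rcases e3 y e1.1 with rfl | rfl <;> rcases e3 y' e1.2 with rfl | rfl
    exacts [hyy.ne rfl, (hy h2).elim (fun e => f1 e.1) fun e => f3 e.1 e.2,
      (hy h2).elim (fun e => f2 e.1) fun e => f3 e.2 e.1, hyy.ne rfl]
  · rcases Small.A4_pow (e ⟨_, h1⟩) with k | k <;> rw [← map_pow, map_eq_one_iff _ e.injective] at k <;>
      exact (key' _ (by norm_num) k).elim
  · rcases Small.S4_pow (e ⟨_, h1⟩) with k | k <;> rw [← map_pow, map_eq_one_iff _ e.injective] at k <;>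
      exact (key' _ (by norm_num) k).elim
  · exact (key' 30 (by norm_num) (a5_thirty e _)).elim
  obtain ⟨G, rfl⟩ := ProjGenLinGroup.mk_surjective g
  have r0 : r ≠ 0 := by rintro rfl; simp at h
  have s0 : s ≠ 0 := by rintro rfl; simp at h
  obtain ⟨k, hk⟩ := o.exists_e (c := r / s) (by rw [div_pow, h7, div_self (pow_ne_zero _ s0)])
  refine sub_psu hU h3 (H.top E k (by rintro rfl; exact hr ((div_eq_one_iff_eq s0).1 (hk.trans o.e_zero))) ?_)
  obtain ⟨a, b, c, d, h, ha, hb, hc, hd, e⟩ := exists_of_mem_PGsub (h4 (Pair.conj_mem_cj.2 h1))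
  rw [mob, ← map_inv, ← map_mul, ← map_mul, mob, mk_eq_mk] at e
  obtain ⟨l, e⟩ := e
  have e1 := congrArg trace e
  have e2 := congrArg Matrix.det e
  rw [Units.val_mul, Units.val_mul, trace_units_conj] at e1
  rw [Units.val_mul, Units.val_mul, det_units_conj] at e2
  simp [trace_fin_two, det_fin_two] at e1 e2
  rw [o.e_neg, ← hk, show r / s + (r / s)⁻¹ = (a + d) ^ 2 / (a * d - b * c) - (1 + 1) by field_simp; grind]
  exact sub_mem (div_mem (pow_mem (add_mem ha hd) 2) (sub_mem (mul_mem ha hd) (mul_mem hb hc)))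
    (add_mem (one_mem _) (one_mem _))

theorem aC : o.a ∈ Cu o M := mem_Cu.2 ⟨H.a, fun i j h _ => by simp [o.a_val, h.symm]⟩
theorem zC : H3.S7.z F ∈ Cu o M := ⟨H.z, mem_centralizer_singleton_iff.2 o.zu⟩

theorem rb_uni {x : I} (hx : x ≠ 0) (g : Cu o M) : rb o M hx g ∈ UG (Fin 2) F := uni_of fun i j => by
  have e := fun i j => congrFun (congrFun (UG_ct (H.uni g.2.1)) i) j
  rw [← map_inv, rb_val, rb_val]
  fin_cases i <;> fin_cases j <;> exact e _ _

theorem pb_le {x : I} (hx : x ≠ 0) : (pb o M hx).range ≤ PU F := by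
  rintro _ ⟨g, rfl⟩; exact ⟨_, H.rb_uni hx g, rfl⟩

theorem blk {x : I} (hx : x ≠ 0) {g : G7 F} (hg : g ∈ Cu o M) (h1 : g.val x (-x) ≠ 0) (h2 : g.val (-x) x ≠ 0)
    (h3 : g.val x x ≠ 0 ∨ g.val (-x) (-x) ≠ 0) {y : I} (hy : y ≠ 0) : PSU F ≤ (pb o M hy).range := by
  have n := div_ne_zero hx hy
  obtain ⟨k, k1, k2⟩ := H.shift _ 0 n hg.1
  have k3 : k ∈ Cu o M := mem_Cu.2 ⟨k1, fun i j a b => by
    rw [k2, (mem_Cu.1 hg).2] <;> simp only [add_zero, ← mul_neg, ne_eq, mul_right_inj' n, a, b, not_false_eq_true]⟩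
  have e : x / y * y = x := div_mul_cancel₀ x hy
  refine H.d7 (H.pb_le hy) (r := o.e y) (s := o.e (-y)) (h := by simp [o.e_ne]) ⟨⟨_, H.aC⟩, (mk_eq_mob _).trans (mob_congr ?_ ?_ ?_ ?_)⟩
    (by rw [o.e7, o.e7]) (o.e_inj.not.2 (ne_neg hy)) ⟨⟨k, k3⟩, mk_eq_mob _⟩ ?_ ?_ ?_
  all_goals simp [rb_val, o.a_val, ne_neg hy, (ne_neg hy).symm, k2, e, h1, h2, h3]

theorem RF {x : I} (hx : x ≠ 0) (h : PSU F ≤ (pb o M hx).range) {d : I → F} (hd : Dg M d)
    (h1 : ∀ y, y ≠ x → y ≠ -x → d y = d (-y)) (h2 : d x ≠ d (-x)) : Big M := by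
  obtain ⟨l, hl⟩ := H.exists_norm (c := -1) (by simp)
  have d0 : star ![1, l] ⬝ᵥ ![1, l] = 0 := by simp [dotProduct, -dotProduct_cons, mul_comm, hl]
  have n1 := ne_neg hx
  obtain ⟨r, r1, r2⟩ := hd
  let r' : Cu o M := ⟨r, mem_Cu.2 ⟨r1, fun i j h _ => by simp [r2, h.symm]⟩⟩
  let N : Subgroup (Cu o M) := ⨅ (y : I) (hy : y ≠ 0) (_ : y ≠ x ∧ y ≠ -x), (pb o M hy).ker
  refine ⟨Pi.single x 1 + Pi.single (-x) l, fun e => by simpa [n1] using congrFun e x, by
    simp [n1, n1.symm, dotProduct_add, mul_comm, hl], fun c hc => ?_⟩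
  obtain ⟨g, g1, g2⟩ := nrm_ctr (K := N.map (rb o M hx)) (c₁ := o.e 1 - o.e (-1)) (c₂ := o.e 2 - o.e (-2))
    (by simp [st_e H.st]) (by simp [st_e H.st]) (sub_ne_zero.2 (o.e_inj.not.2 (by decide)))
    (sub_ne_zero.2 (o.e_inj.not.2 (by decide))) (fun e => by
      have := o.phi
      have := o.h7
      change (o.ω ^ 1 - o.ω ^ 6) ^ 2 = (o.ω ^ 2 - o.ω ^ 5) ^ 2 at e
      grind) d0 (by
      rintro c hc _ ⟨k, hk, rfl⟩
      obtain ⟨t, ht⟩ := h ⟨tu _ d0 c, mem_SU2.2 ⟨tu_uni d0 hc, tv_det d0 c⟩, rfl⟩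
      obtain ⟨μ, ht⟩ := mk_eq_mk.1 ht
      refine ⟨t * k * t⁻¹, ?_, by rw [map_mul, map_mul, map_inv, conj_of_smul ht]⟩
      simp only [N, SetLike.mem_coe, Subgroup.mem_iInf] at hk ⊢
      exact fun y hy e => (MonoidHom.normal_ker _).conj_mem _ (hk y hy e) t) (g := rb o M hx r') ⟨r', by
      simp only [N, SetLike.mem_coe, Subgroup.mem_iInf]
      exact fun y hy e => mk_one.2 ⟨d y, by simp [rb_val, r', r2, ne_neg hy, (ne_neg hy).symm, ← h1 y e.1 e.2, one_fin_two]⟩,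
      rfl⟩ (H.rb_uni hx r') (by
      simp [rb_val, r', r2, n1, n1.symm, dotProduct]; grind) hc
  simp only [N, SetLike.mem_coe, Subgroup.mem_iInf] at g1
  have y0 : r0 o M (g ^ ((Fintype.card F - 1) * (Fintype.card F - 1))) = 1 := by
    rw [map_pow, pow_mul, FiniteField.pow_card_sub_one_eq_one _ (left_ne_zero_of_mul_eq_one
      ((map_mul _ g g⁻¹).symm.trans (by simp))), one_pow]
  have y1 := pow_sc ((congrArg Units.val g2).trans (one_smul F _).symm)
  rw [tu_val, tv_pow d0, cast_sq, one_mul, ← map_pow] at y1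
  have y2 : ∀ y (hy : y ≠ 0), y ≠ x → y ≠ -x → (rb o M hy (g ^ ((Fintype.card F - 1) * (Fintype.card F - 1)))).val = 1 :=
    fun y hy a b => by
    obtain ⟨ν, e⟩ := mk_one.1 (g1 y hy ⟨a, b⟩)
    rw [map_pow, pow_sc e, one_pow]
  generalize g ^ ((Fintype.card F - 1) * (Fintype.card F - 1)) = t at y0 y1 y2
  refine ⟨_, t.2.1, ?_⟩
  have y3 := fun i j => congrFun (congrFun y1 i) j
  simp [rb_val, tv_apply, Fin.forall_fin_two] at y3
  ext i j
  rw [tv_apply]
  by_cases a : j = i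
  · subst a
    by_cases i0 : j = 0
    · simpa [i0, hx, hx.symm, r0] using y0
    by_cases i1 : j = x
    · simp [i1, y3, n1]
    by_cases i2 : j = -x
    · simp [i2, y3, n1.symm]
    simpa [rb_val, i1, i2] using congrFun (congrFun (y2 j i0 i1 i2) 0) 0
  by_cases b : j = -i
  · subst b
    have i0 : i ≠ 0 := by rintro rfl; exact a rfl
    by_cases i1 : i = x
    · simp [i1, y3, n1, n1.symm]
    by_cases i2 : i = -x
    · simp [i2, y3, n1, n1.symm]
    simpa [rb_val, i1, i2, Ne.symm a] using congrFun (congrFun (y2 i i0 i1 i2) 0) 1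
  rw [(mem_Cu.1 t.2).2 i j a b, if_neg (Ne.symm a)]
  by_cases i1 : i = x
  · simp [← i1, a, b]
  by_cases i2 : i = -x
  · simp [i2, show j ≠ x by rintro rfl; simp [i2] at b, show j ≠ -x from i2 ▸ a]
  simp [i1, i2]

theorem dshift {d : I → F} (hd : Dg M d) (k t : I) (hk : k ≠ 0) : Dg M fun x => d (k * x + t) := by
  obtain ⟨g, g1, g2⟩ := hd
  obtain ⟨k, k1, k2⟩ := H.shift k t hk g1
  exact ⟨k, k1, by ext i j; simp [k2, g2, diagonal_apply, hk]⟩

theorem dprod {d : I → F} (hd : Dg M d) : ∏ x, d x = 1 := by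
  obtain ⟨g, g1, g2⟩ := hd
  rw [← det_diagonal, ← g2, H.det g g1]

theorem avg {d : I → F} (hd : Dg M d) (x : I) : Dg M fun y => if y = 0 then d x ^ 6 else (d x)⁻¹ := by
  have := prod_induction (s := univ.erase (0 : I)) (fun k y => d (k * y + x)) (Dg M) (fun _ _ => Dg.mul)
    ⟨1, one_mem _, by simp [Pi.one_def]⟩ fun k hk => H.dshift hd k x (ne_of_mem_erase hk)
  convert this with y
  rw [Finset.prod_apply]
  split_ifs with h
  · simp [h]
  refine inv_eq_of_mul_eq_one_right ?_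
  rw [← H.dprod hd, ← (Equiv.prod_comp ((Equiv.mulRight₀ y h).trans (Equiv.addRight x)) d), ← mul_prod_erase _ _ (mem_univ 0)]
  simp

theorem two1 {v d : I → F} (h1 : star v ⬝ᵥ v = 1) (h2 : star v ⬝ᵥ d = 0) (h4 : star d ⬝ᵥ d = 0) (d0 : d ≠ 0) {c : F}
    {k : I} (hk : k ≠ 0) {g g' : G7 F} (g1 : g ∈ M) (g2 : g.val = c • tv v (o.e k - 1)) (g3 : g' ∈ M)
    (g4 : g'.val = c • tv (v + d) (o.e k - 1)) : Big M := by
  have h3 : star d ⬝ᵥ v = 0 := by rw [star_dotProduct, h2, star_zero]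
  have c0 : c ≠ 0 := by rintro rfl; exact g.ne_zero (g2.trans (zero_smul _ _))
  have r0 := o.e_ne k
  have e1 : ∀ a b c', g.val * ei v d a b c' = ei v d (o.e k * a) ((o.e k)⁻¹ * b) c' * g.val := fun a b c' => by
    simp only [g2, tv, ei, mul_add, add_mul, one_mul, mul_one, smul_mul_assoc, mul_smul_comm, vecMulVec_mul_vecMulVec,
      h1, h2, h3, h4, zero_smul, one_smul, vecMulVec_zero, smul_zero, add_zero]
    match_scalars <;> field_simp <;> ring
  have e2 : g'.val = ei v d (o.e k - 1) (1 - (o.e k)⁻¹) (o.e k - 1) * g.val := by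
    simp only [g2, g4, tv, ei, mul_add, add_mul, one_mul, mul_one, smul_mul_assoc, mul_smul_comm, vecMulVec_mul_vecMulVec,
      h1, h2, h3, h4, zero_smul, one_smul, vecMulVec_zero, smul_zero, add_zero, star_add, add_vecMulVec, vecMulVec_add]
    match_scalars <;> field_simp <;> ring
  have e3 : ∀ j : ℕ, ∃ t ∈ M, t.val = ei v d (o.e (j * k) * (o.e k - 1)) (o.e (-(j * k)) * (1 - (o.e k)⁻¹)) (o.e k - 1) :=
    fun j => by
    induction j with
    | zero => exact ⟨_, mul_mem g3 (inv_mem g1), by simp [e2, o.e_zero]⟩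
    | succ j ih =>
      obtain ⟨t, t1, t2⟩ := ih
      exact ⟨_, mul_mem (mul_mem g1 t1) (inv_mem g1), by
        rw [Units.val_mul, Units.val_mul, t2, e1, Units.mul_inv_cancel_right]
        simp only [Nat.cast_succ, add_mul, one_mul, neg_add, o.e_add, o.e_neg k]
        congr 1 <;> ring⟩
  let T : AddSubgroup F :=
    { carrier := {c | ∃ g ∈ M, g.val = tv d c}
      add_mem' := fun ⟨g, a, b⟩ ⟨g', a', b'⟩ => ⟨_, mul_mem a a', by rw [Units.val_mul, b, b', tv_mul h4]⟩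
      zero_mem' := ⟨1, one_mem _, (tv_zero d).symm⟩
      neg_mem' := fun ⟨g, a, b⟩ => ⟨_, inv_mem a, Units.inv_eq_of_mul_eq_one_right (by
        rw [b, tv_mul h4, add_neg_cancel, tv_zero])⟩ }
  let s : I → F := fun t => (o.e k - 1) * (1 - (o.e k)⁻¹) * (o.e t - o.e (-t))
  have e4 : AddSubgroup.closure (Set.range s) ≤ T := (AddSubgroup.closure_le _).2 (by
    rintro _ ⟨t, rfl⟩
    obtain ⟨x, x1, x2⟩ := e3 0
    obtain ⟨y, y1, y2⟩ := e3 (t / k).val
    rw [ZMod.natCast_zmod_val, div_mul_cancel₀ _ hk] at y2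
    refine ⟨_, mul_mem (inv_mem (mul_mem y1 x1)) (mul_mem x1 y1), ?_⟩
    rw [Units.val_mul, Units.inv_mul_eq_iff_eq_mul, Units.val_mul, Units.val_mul, x2, y2,
      show tv d (s t) = ei v d 0 0 (s t) by simp [tv, ei], ei_mul h1 h2 h3 h4, ei_mul h1 h2 h3 h4, ei_mul h1 h2 h3 h4]
    congr 1 <;> simp [s, o.e_zero] <;> ring)
  let S : Subring F :=
    { carrier := {x | ∀ c ∈ AddSubgroup.closure (Set.range s), x * c ∈ AddSubgroup.closure (Set.range s)}
      mul_mem' := fun h h' c hc => mul_assoc _ _ c ▸ h _ (h' c hc)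
      one_mem' := fun c hc => by simpa
      add_mem' := fun h h' c hc => add_mul _ _ c ▸ add_mem (h c hc) (h' c hc)
      zero_mem' := fun c _ => by simp
      neg_mem' := fun h c hc => neg_mul _ c ▸ neg_mem (h c hc) }
  have s0 : s 1 ≠ 0 := by
    have := o.e_zero ▸ o.e_inj.not.2 hk
    exact mul_ne_zero (mul_ne_zero (sub_ne_zero.2 this) (sub_ne_zero.2 (inv_ne_one.2 this).symm))
      (sub_ne_zero.2 (o.e_inj.not.2 (by decide)))
  refine ⟨d, d0, h4, fun c hc => ?_⟩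
  have := e4 (H.top' S (k := 1) one_ne_zero (fun c hc => ?_) (x := c / s 1) ?_ _ (AddSubgroup.subset_closure ⟨1, rfl⟩))
  · rwa [div_mul_cancel₀ _ s0] at this
  · refine (AddSubgroup.closure_le ((AddSubgroup.closure (Set.range s)).comap (AddMonoidHom.mulLeft _))).2 ?_ hc
    rintro _ ⟨t, rfl⟩
    change (o.e 1 + o.e (-1)) * s t ∈ AddSubgroup.closure (Set.range s)
    rw [show (o.e 1 + o.e (-1)) * s t = s (t + 1) + s (t + -1) by simp only [s, neg_add, o.e_add, neg_neg]; ring]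
    exact add_mem (AddSubgroup.subset_closure ⟨_, rfl⟩) (AddSubgroup.subset_closure ⟨_, rfl⟩)
  · rw [star_div₀, show star c = -c by linear_combination hc, show star (s 1) = -s 1 by
      simp [s, st_e H.st, o.e_neg k]; ring, neg_div_neg_eq]

theorem two2 {P : Matrix I (Fin 2) F} (hP : Pᴴ * P = 1) {c β γ : F} (hβ : β ≠ 0) (hγ : γ ≠ 0)
    (h1 : β * star β + γ * star γ = 1) {k : I} (hk : k ≠ 0) {g g' : G7 F} (g1 : g ∈ M)
    (g2 : g.val = c • tv (P *ᵥ ![1, 0]) (o.e k - 1)) (g3 : g' ∈ M) (g4 : g'.val = c • tv (P *ᵥ ![β, γ]) (o.e k - 1)) :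
    Big M := by
  let Γ : Subgroup (GL (Fin 2) F) :=
    { carrier := {X | ∃ l : F, ∃ g ∈ M, g.val = l • emb hP X.val}
      mul_mem' := fun ⟨l, g, a, b⟩ ⟨l', g', a', b'⟩ => ⟨l * l', _, mul_mem a a', by simp [b, b', smul_smul, mul_comm]⟩
      one_mem' := ⟨1, 1, one_mem _, by simp⟩
      inv_mem' := fun {X} ⟨l, g, a, b⟩ => ⟨l⁻¹, _, inv_mem a, Units.inv_eq_of_mul_eq_one_right (by
        have : l ≠ 0 := by rintro rfl; exact g.ne_zero (b.trans (zero_smul _ _))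
        simp [b, smul_smul, ← map_mul, this])⟩ }
  have r0 := o.e_ne k
  have r1 := o.e_zero ▸ o.e_inj.not.2 hk
  have m : ∀ v : Fin 2 → F, star v ⬝ᵥ v = 1 → ∃ X ∈ UG (Fin 2) F, X.val = tv v (o.e k - 1) := fun v hv => by
    have : tv v (o.e (-k) - 1) * tv v (o.e k - 1) = 1 := by
      simp only [tv, mul_add, add_mul, one_mul, mul_one, smul_mul_assoc, mul_smul_comm, vecMulVec_mul_vecMulVec, hv,
        one_smul, o.e_neg]
      match_scalars <;> field_simp; ring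
    exact ⟨mku _ _ (mul_eq_one_comm.1 this), by simpa [mem_UG, mku, tv_ct, st_e H.st] using this, rfl⟩
  obtain ⟨X, X1, X2⟩ := m ![1, 0] (by simp [dotProduct])
  obtain ⟨Y, Y1, Y2⟩ := m ![β, γ] (by simp [dotProduct, -dotProduct_cons, mul_comm, h1])
  have key := H.d7 (N := (Γ ⊓ UG (Fin 2) F).map ProjGenLinGroup.mk) (map_mono inf_le_right) (r := o.e k) (s := 1)
    (h := by simpa) ⟨X, ⟨⟨c, g, g1, by rw [X2, emb_tv, g2]⟩, X1⟩, (mk_eq_mob _).trans
      (mob_congr (by simp [X2, tv_apply]) (by simp [X2, tv_apply]) (by simp [X2, tv_apply]) (by simp [X2, tv_apply]))⟩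
    (by rw [o.e7, one_pow]) r1 ⟨Y, ⟨⟨c, g', g3, by rw [Y2, emb_tv, g4]⟩, Y1⟩, mk_eq_mob _⟩
    (by simp [Y2, tv_apply, sub_eq_zero, *]) (by simp [Y2, tv_apply, sub_eq_zero, *]) (by
      by_contra! h
      simp [Y2, tv_apply] at h
      have := o.e7 k
      have := H.two
      grind)
  obtain ⟨l, hl⟩ := H.exists_norm (c := -1) (by simp)
  have d0 : star ![1, l] ⬝ᵥ ![1, l] = 0 := by simp [dotProduct, -dotProduct_cons, mul_comm, hl]
  refine ⟨P *ᵥ ![1, l], fun e => by simpa [hP] using congrFun (congrArg (Pᴴ *ᵥ ·) e) 0, by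
    rw [star_mulVec, dotProduct_mulVec, vecMul_vecMul, hP, vecMul_one, d0], fun c hc => ?_⟩
  obtain ⟨Z, ⟨⟨μ, t, t1, t2⟩, -⟩, e⟩ := key ⟨tu _ d0 c, mem_SU2.2 ⟨tu_uni d0 hc, tv_det d0 c⟩, rfl⟩
  obtain ⟨ν, e⟩ := mk_eq_mk.1 e
  exact ⟨_, pow_mem t1 _, by
    rw [pow_sc t2, ← map_pow, ← Units.val_pow_eq_pow_val, pow_sc e, tu_val, tv_pow d0, cast_sq, one_mul, emb_tv]⟩

theorem plane {c ρ : F} (hd : Dg M fun y => if y = 0 then c * ρ else c) (h7 : ρ ^ 7 = 1) (h1 : ρ ≠ 1) : Big M := by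
  obtain ⟨k, rfl⟩ := o.exists_e h7
  have hk : k ≠ 0 := by rintro rfl; exact h1 o.e_zero
  obtain ⟨g, g1, g2⟩ := hd
  have e0 : g.val = c • tv (Pi.single 0 1) (o.e k - 1) := by
    ext i j
    by_cases h : i = j
    · by_cases h' : i = 0 <;> simp [g2, ← h, h', tv_apply]
    · by_cases h' : i = 0 <;> simp [g2, h, tv_apply, Pi.single_apply] <;> grind
  have e1 : (o.f * g * o.f⁻¹).val = c • tv (o.f.val *ᵥ Pi.single 0 1) (o.e k - 1) := by
    rw [Units.val_mul, Units.val_mul, e0, mul_smul_comm, smul_mul_assoc, tv_conj (H.uni H.f)]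
  have e2 := (UG_dot (H.uni H.f) (Pi.single 0 1) (Pi.single 0 1)).trans (show _ = (1 : F) by simp)
  have e3 : ∀ i, (o.f.val *ᵥ Pi.single 0 1) i ≠ 0 := fun i => by simpa using o.f_ne i 0
  have m := mul_mem (mul_mem H.f g1) (inv_mem H.f)
  generalize o.f.val *ᵥ Pi.single 0 1 = w at *
  have e4 : star (w - Pi.single 0 (w 0)) ⬝ᵥ (w - Pi.single 0 (w 0)) = 1 - w 0 * star (w 0) := by
    simp [sub_dotProduct, dotProduct_sub, e2, mul_comm]
  by_cases h : w 0 * star (w 0) = 1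
  · refine H.two1 (v := Pi.single 0 (w 0)) (d := w - Pi.single 0 (w 0)) (by simp [mul_comm, h]) (by simp) (by rw [e4, h, sub_self])
      (fun e => e3 1 (by simpa using congrFun e 1)) hk g1 ?_ m (by simpa using e1)
    rw [e0, show Pi.single (0 : I) (w 0) = w 0 • Pi.single (0 : I) (1 : F) by simp [← Pi.single_smul], tv_smul, h, one_mul]
  obtain ⟨γ, hγ⟩ := H.exists_norm (c := 1 - w 0 * star (w 0)) (by simp [mul_comm])
  have γ0 : γ ≠ 0 := by rintro rfl; exact h (by linear_combination hγ)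
  refine H.two2 (c := c) (P := of fun i => ![(Pi.single 0 1 : I → F) i, γ⁻¹ * (w - Pi.single 0 (w 0) : I → F) i]) ?_ (e3 0) γ0
    (by linear_combination hγ) hk g1 (e0.trans ?_) m (e1.trans ?_)
  · ext i j
    rw [← hγ] at e4
    fin_cases i <;> fin_cases j <;> simp [mul_apply, Pi.single_apply, apply_ite star, -Pi.sub_apply]
    · simp
    · simp
    · simp only [dotProduct, Pi.star_apply] at e4
      simp only [mul_mul_mul_comm _ (star _), ← mul_sum, e4]
      have := star_ne_zero.2 γ0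
      field_simp
  · congr 2; ext i; simp [mulVec, dotProduct]
  · congr 2; ext i; simp [mulVec, dotProduct, γ0, mul_right_comm _ _ γ, Pi.single_apply]

end Hyp

end Cfsg.Agent.H7.U7
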