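import Cfsg.Agent.H7.UXe

/-!
Unitary overgroups of the normaliser of the extraspecial group of order `125`: odd characteristic, second part.
-/

set_option autoImplicit false
set_option linter.unusedSectionVars false
set_option linter.unusedSimpArgs false

namespace Cfsg.Agent.H7.UX

open Matrix Subgroup Om Cfsg.Agent.H4 Cfsg.Agent.H4.Mob Cfsg.Agent.H4.MobCard Cfsg.Agent.Asch Cfsg.Agent.H5
open Cfsg.Agent.H8.L5 hiding res res_val Hyp Big Cu mem_Cu r0 r1 r2 r0_val r1_val r2_val blk blk' rm rp pm rm_val rp_val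
  PQp PQm QPp QPm cp cm recon inj
open Cfsg.Agent.H8.L5.Om5 (b z b_val z_val zz zb)
open scoped commutatorElement

universe v
variable {F : Type v} [Field F] [StarRing F] [Fintype F] [NeZero (2 : F)] {o : Om F} {M : Subgroup (G5 F)}

theorem form_cj {n : ℕ} (Q : GL (Fin n) F) {g D : Matrix (Fin n) (Fin n) F} (h : gᴴ * D * g = D) :
    (cj Q⁻¹ g)ᴴ * (Q.valᴴ * D * Q.val) * cj Q⁻¹ g = Q.valᴴ * D * Q.val := by
  change ((Q⁻¹).val * g * (Q⁻¹⁻¹).val)ᴴ * _ * ((Q⁻¹).val * g * (Q⁻¹⁻¹).val) = _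
  have e : Q.val * ((Q⁻¹).val * g * Q.val) = g * Q.val := by simp [mul_assoc]
  rw [inv_inv, mul_assoc _ D, mul_assoc _ (_ * _), mul_assoc Q.valᴴ, mul_assoc D, e, ← mul_assoc _ Q.valᴴ,
    ← conjTranspose_mul, e, conjTranspose_mul]
  conv_rhs => rw [← h]
  simp only [mul_assoc]

theorem gram_det (Q : GL (Fin 3) F) : (Q.valᴴ * !![1, 0, 0; 0, 2, 0; 0, 0, 2] * Q.val).det ≠ 0 := by
  rw [det_mul, det_mul, det_conjTranspose]
  exact mul_ne_zero (mul_ne_zero (star_ne_zero.2 (GeneralLinearGroup.det_ne_zero Q)) (by simpa [det_fin_three] using two_ne_zero))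
    (GeneralLinearGroup.det_ne_zero Q)

theorem PQm : Pm F * Qm F = (2⁻¹ : F) • (1 - (z F).val) := by have := two_ne_zero (α := F); rw [Pm, Qm, z_val]; mx5

namespace Hyp
variable (H : Hyp o M)
include H

theorem key' (g : Cz M) {x y w y' w' : F} (h1 : (rp M g).val = !![x, 0, 0; 0, y, 0; 0, 0, w])
    (h2 : (rm M g).val = !![y', 0; 0, w']) (h : y ^ 2 ≠ y' ^ 2) : Big M := by
  have := two_ne_zero (α := F)
  refine H.key this g.2.1 (x := x) (α := 2⁻¹ * (y + y')) (β := 2⁻¹ * (y - y')) (α' := 2⁻¹ * (w + w'))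
    (β' := 2⁻¹ * (w - w')) ?_ (by grind) (by grind)
  rw [recon, h1, h2, Pp, Qp, Pm, Qm]; mx5

theorem up : (rp M H.uC).val = !![1, 0, 0; 0, o.ω, 0; 0, 0, o.ω ^ 4] := by
  have := two_ne_zero (α := F); rw [rp_val, uC, u_val, Pp, Qp]; mx5
theorem zp : rp M H.zZ = 1 := Units.ext (by have := two_ne_zero (α := F); rw [rp_val, zZ, z_val, Pp, Qp]; mx5)
theorem fp : (rp M H.fC).val = o.s • !![1, 2, 2; 1, o.ω + o.ω ^ 4, o.ω ^ 2 + o.ω ^ 3;
    1, o.ω ^ 2 + o.ω ^ 3, o.ω + o.ω ^ 4] := by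
  have := two_ne_zero (α := F); rw [rp_val, fC, f_val, Matrix.mul_smul, Matrix.smul_mul, Φ, Pp, Qp]; congr 1; mx5
theorem up5 : rp M H.uC ^ 5 = 1 := Units.ext (by
  have := o.w5
  simp only [pow_succ, pow_zero, one_mul, Units.val_mul, H.up]; mx5)
theorem fp2 : rp M H.fC ^ 2 = 1 := by rw [sq, ← map_mul, ffC, zp]
theorem fu3 : (rp M H.fC * rp M H.uC ^ 2) ^ 3 = 1 := Units.ext (by
  have := o.h
  have e : (rp M H.fC * rp M H.uC ^ 2).val = o.s • !![1, 2 * o.ω ^ 2, 2 * o.ω ^ 3; 1, o.ω + o.ω ^ 3, 1 + o.ω;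
      1, 1 + o.ω ^ 4, o.ω ^ 2 + o.ω ^ 4] := by
    rw [sq, Units.val_mul, Units.val_mul, fp, up, smul_mul_assoc]; congr 1; mx5
  have e2 : !![1, 2 * o.ω ^ 2, 2 * o.ω ^ 3; 1, o.ω + o.ω ^ 3, 1 + o.ω; 1, 1 + o.ω ^ 4, o.ω ^ 2 + o.ω ^ 4] ^ 3 =
      (5 * (5 * o.s)) • 1 := by
    rw [o.hs, pow_three]; mx5
  rw [Units.val_pow_eq_pow_val, e, _root_.smul_pow, e2, smul_smul, show o.s ^ 3 * (5 * (5 * o.s)) = 1 by
    have := o.s2; grind, one_smul, Units.val_one])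

/-- the alternating group of degree five on the fixed space -/
def S : Subgroup (GL (Fin 3) F) := closure {rp M H.uC, rp M H.fC}

theorem uS : rp M H.uC ∈ H.S := subset_closure (by simp)
theorem fS : rp M H.fC ∈ H.S := subset_closure (by simp)
theorem S_le : H.S ≤ (rp M).range := (closure_le _).2 (by rintro _ (rfl | rfl) <;> exact ⟨_, rfl⟩)

theorem S_perfect : ⁅H.S, H.S⁆ = H.S := by
  let φ := Abelianization.of (G := H.S)
  have e1 : φ ⟨_, H.uS⟩ ^ 5 = 1 := by rw [← map_pow, show (⟨_, H.uS⟩ : H.S) ^ 5 = 1 from Subtype.ext H.up5, map_one]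
  have e2 : φ ⟨_, H.fS⟩ ^ 2 = 1 := by rw [← map_pow, show (⟨_, H.fS⟩ : H.S) ^ 2 = 1 from Subtype.ext H.fp2, map_one]
  have e3 : (φ ⟨_, H.fS⟩ * φ ⟨_, H.uS⟩ ^ 2) ^ 3 = 1 := by
    rw [← map_pow, ← map_mul, ← map_pow, show ((⟨_, H.fS⟩ : H.S) * ⟨_, H.uS⟩ ^ 2) ^ 3 = 1 from Subtype.ext H.fu3, map_one]
  rw [mul_pow, pow_succ _ 2, e2, one_mul, ← pow_mul, pow_succ _ 5, e1, one_mul] at e3
  have e4 : φ ⟨_, H.uS⟩ = 1 := by
    rw [eq_inv_of_mul_eq_one_left e3, inv_pow, inv_eq_one] at e2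
    simpa using pow_gcd_eq_one.2 ⟨(pow_mul _ 1 2).trans (by simpa using e2), e1⟩
  rw [e4, mul_one] at e3
  have key : ∀ x : H.S, φ x = 1 → x.1 ∈ ⁅H.S, H.S⁆ := fun x hx => by
    rw [← map_subtype_commutator]
    exact ⟨x, Abelianization.ker_of H.S ▸ hx, rfl⟩
  refine le_antisymm (commutator_le.2 fun a ha b hb => ?_) ((closure_le _).2 ?_)
  · exact mul_mem (mul_mem (mul_mem ha hb) (inv_mem ha)) (inv_mem hb)
  · rintro _ (rfl | rfl)
    exacts [key _ e4, key _ e3]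

theorem S_full : Full (Geo.matrixSet H.S) := by
  rw [← alg_eq_top_iff, eq_top_iff]
  have m : ∀ c : F, (rp M H.uC).val - c • 1 ∈ alg F H.S := fun c =>
    sub_mem (mem_alg H.uS) (Subalgebra.smul_mem _ (one_mem _) c)
  have sm : ∀ {X} {c : F}, c ≠ 0 → c • X ∈ alg F H.S → X ∈ alg F H.S := fun {X c} hc h => by
    simpa [hc] using Subalgebra.smul_mem _ h c⁻¹
  have n1 := sub_ne_zero.2 o.w1
  have n2 := sub_ne_zero.2 (o.wne (k := 4) (l := 0) (by norm_num))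
  have n3 := sub_ne_zero.2 (o.wne (k := 4) (l := 1) (by norm_num))
  have h1 : ∀ i : Fin 3, single i i 1 ∈ alg F H.S := fun i => by
    fin_cases i
    · refine sm (mul_ne_zero n1 n2) ?_
      convert mul_mem (m o.ω) (m (o.ω ^ 4)); rw [up]; mx5
    · refine sm (mul_ne_zero n1 (neg_ne_zero.2 n3)) ?_
      convert mul_mem (m 1) (m (o.ω ^ 4)); rw [up]; mx5
    · refine sm (mul_ne_zero n2 n3) ?_
      convert mul_mem (m 1) (m o.ω); rw [up]; mx5
  have h2 : ∀ i j, (rp M H.fC).val i j ≠ 0 := fun i j => by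
    have := o.h
    have := o.s0
    have := two_ne_zero (α := F)
    rw [fp]; fin_cases i <;> fin_cases j <;> simp <;> grind
  intro X _
  rw [matrix_eq_sum_single X]
  refine sum_mem fun i _ => sum_mem fun j _ => ?_
  have := mul_mem (mul_mem (h1 i) (mem_alg H.fS)) (h1 j)
  rw [single_mul_mul_single] at this
  simpa [h2 i j] using Subalgebra.smul_mem _ this (X i j * ((rp M H.fC).val i j)⁻¹)

theorem noSL {E : Subfield F} {Q : GL (Fin 3) F} (h : ∀ g : GL (Fin 3) F, g.val.det = 1 → Over E (cj Q⁻¹ g.val) →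
    g ∈ (rp M).range) : False := by
  obtain ⟨G, hG⟩ : ∃ G, G = Q.valᴴ * !![1, 0, 0; 0, 2, 0; 0, 0, 2] * Q.val := ⟨_, rfl⟩
  have key : ∀ X : GL (Fin 3) F, X.val.det = 1 → Over E X.val → X.valᴴ * G * X.val = G := fun X a b => by
    have e : cj Q⁻¹ (Q * X * Q⁻¹).val = X.val := cj_inv_cj Q X.val
    obtain ⟨t, ht⟩ := h (Q * X * Q⁻¹) (by rw [Units.val_mul, Units.val_mul, det_units_conj, a]) (e ▸ b)
    have := form_cj Q (rp_form t (H.uni t.2.1))
    rwa [ht, e, ← hG] at this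
  have e1 := key (mku !![1, 1, 0; 0, 1, 0; 0, 0, 1] !![1, -1, 0; 0, 1, 0; 0, 0, 1] (by mx5)) (by simp [mku, det_fin_three])
    fun i j => by fin_cases i <;> fin_cases j <;> simp [mku]
  have e2 := key (mku !![1, 0, 1; 0, 1, 0; 0, 0, 1] !![1, 0, -1; 0, 1, 0; 0, 0, 1] (by mx5)) (by simp [mku, det_fin_three])
    fun i j => by fin_cases i <;> fin_cases j <;> simp [mku]
  have a0 := congrFun (congrFun e1 0) 1
  have a2 := congrFun (congrFun e1 2) 1
  have a1 := congrFun (congrFun e2 1) 2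
  simp [mku, mul_apply, Fin.sum_univ_succ, conjTranspose_apply] at a0 a1 a2
  exact gram_det Q (by rw [← hG]; simp [det_fin_three, a0, a1, a2])

theorem su3 {E : Subfield F} {q : ℕ} {Q : GL (Fin 3) F} (hE : Nat.card E = q ^ 2)
    (h1 : ∀ s ∈ H.S, Over E (cj Q⁻¹ s.val) ∧ (cj Q⁻¹ s.val)ᵀ * (cj Q⁻¹ s.val).map (· ^ q) = 1)
    (h2 : ∀ g : GL (Fin 3) F, g.val.det = 1 → Over E (cj Q⁻¹ g.val) →
      (cj Q⁻¹ g.val)ᵀ * (cj Q⁻¹ g.val).map (· ^ q) = 1 → g ∈ (rp M).range)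
    {y : Cz M} (hy : y ∈ (rm M).ker) (hn : ¬ IsSc (rp M y).val) : Big M := by
  have tr : ∀ X : Matrix (Fin 3) (Fin 3) F, (cj Q⁻¹ X).trace = X.trace := fun X => trace_units_conj Q⁻¹ X
  have t1 : (cj Q⁻¹ (rp M H.uC).val).trace = 1 + (o.ω + o.ω ^ 4) := by rw [tr, up]; simp [add_assoc]
  have hF := su3_field H.top hE (fun τ hτ => by
    have e := (h1 _ H.uS).2
    have e1 : (cj Q⁻¹ (rp M H.uC)⁻¹.val)ᵀ * (cj Q⁻¹ (rp M H.uC).val)ᵀ = 1 := by
      rw [← transpose_mul, ← map_mul, Units.mul_inv, map_one, transpose_one]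
    have e2 : (cj Q⁻¹ (rp M H.uC).val).map τ = (cj Q⁻¹ (rp M H.uC)⁻¹.val)ᵀ := by
      rw [show ⇑τ = (· ^ q) from funext hτ, ← mul_one (_ᵀ), ← e, ← mul_assoc, e1, one_mul]
    have e3 := congrArg trace e2
    rw [← AddMonoidHom.map_trace, trace_transpose, t1, tr, Units.inv_eq_of_mul_eq_one_right (a := !![1, 0, 0; 0, o.ω ^ 4, 0;
      0, 0, o.ω]) (by have := o.w5; rw [up]; mx5)] at e3
    simp at e3 ⊢
    linear_combination e3) (by
      have := sub_mem (sum_mem (t := Finset.univ) fun i _ => (h1 _ H.uS).1 i i) (one_mem E)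
      change trace _ - _ ∈ _ at this
      simpa [t1] using this)
  have eqv : ∀ X : Matrix (Fin 3) (Fin 3) F, Xᵀ * X.map (· ^ q) = 1 ↔ Xᴴ * X = 1 := fun X => by
    rw [show (· ^ q) = (star : F → F) from funext fun x => (hF x).2, ← transpose_inj, transpose_mul, transpose_transpose,
      transpose_one]; rfl
  obtain ⟨κ, hκ⟩ : IsSc (Q.val * Q.valᴴ * !![1, 0, 0; 0, 2, 0; 0, 0, 2]) := H.S_full.isSc (by
    rintro _ ⟨s, hs, rfl⟩
    have e := mul_eq_one_comm.1 ((eqv _).1 (h1 s hs).2)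
    obtain ⟨t, rfl⟩ := H.S_le hs
    have e1 := congrArg (Q.val * · * Q.valᴴ * !![1, 0, 0; 0, 2, 0; 0, 0, 2] * (rp M t).val) e
    change Q.val * ((Q⁻¹).val * _ * (Q⁻¹⁻¹).val * ((Q⁻¹).val * _ * (Q⁻¹⁻¹).val)ᴴ) * _ * _ * _ = _ at e1
    rw [inv_inv, mul_assoc Q.val, mul_assoc _ _ Q.valᴴ, ← conjTranspose_mul] at e1
    simp only [mul_assoc, Units.mul_inv_cancel_left, conjTranspose_mul, mul_one] at e1
    rw [← mul_assoc (rp M t).valᴴ, rp_form t (H.uni t.2.1)] at e1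
    simpa only [mul_assoc] using e1.symm)
  have e0 : Q.valᴴ * !![1, 0, 0; 0, 2, 0; 0, 0, 2] * Q.val = κ • 1 := by
    simpa [mul_assoc] using congrArg ((Q⁻¹).val * · * Q.val) hκ
  have κ0 : κ ≠ 0 := by
    rintro rfl
    exact gram_det Q (by simp [e0])
  obtain ⟨x, x1, x2⟩ : ∃ x, star (Pp F *ᵥ x) ⬝ᵥ Pp F *ᵥ x = 0 ∧ star (Pp F *ᵥ x) ⬝ᵥ y.1.val *ᵥ Pp F *ᵥ x ≠ 0 := by
    by_contra! hc
    exact hn (iso3 o fun x hx => by rw [rp_P, ← mulVec_mulVec]; exact hc x hx)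
  refine ⟨_, fun e => x2 (by simp [e]), x1, fun c hc => ⟨tu _ x1 c, (map_subtype_le (rm M).ker (nrm_ctr o x1 ?_
    (mem_map_of_mem (Cz M).subtype hy) (H.uni y.2.1) x2 hc)).1, rfl⟩⟩
  rintro c hc _ ⟨k, hk, rfl⟩
  let τ : Cz (⊤ : Subgroup (G5 F)) := ⟨tu _ x1 c, mem_Cz.2 ⟨trivial, (mul_inv_eq_iff_eq_mul.1 (Units.ext (by
    rw [Units.val_mul, Units.val_mul, tu_val, tv_conj z_uni, mulVec_mulVec, zPp]))).symm⟩⟩
  have τm : rm ⊤ τ = 1 := Units.ext (by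
    rw [rm_val, Matrix.mul_assoc, show τ.1.val = tv _ c from rfl, tv, Matrix.add_mul, Matrix.smul_mul, vecMulVec_mul,
      star_mulVec, vecMul_vecMul, PPpm, vecMul_zero, show vecMulVec (Pp F *ᵥ x) (0 : Fin 2 → F) = 0 from
        ext fun i j => mul_zero _, smul_zero, add_zero, Matrix.one_mul, Q1P,
      Units.val_one])
  obtain ⟨t, ht⟩ := h2 (rp ⊤ τ) (by simpa [τm] using (det_split τ).symm.trans (tv_det x1 c)) (fun i j => (hF _).1)
    ((eqv _).2 (by simpa [e0, κ0] using form_cj Q (rp_form τ (tu_uni x1 hc))))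
  let ι : Cz M →* Cz (⊤ : Subgroup (G5 F)) := inclusion (inf_le_inf_right _ le_top)
  have ιp : ∀ g, rp ⊤ (ι g) = rp M g := fun g => Units.ext rfl
  have ιm : ∀ g, rm ⊤ (ι g) = rm M g := fun g => Units.ext rfl
  have hk' : rm M k = 1 := hk
  exact ⟨t * k * t⁻¹, (MonoidHom.normal_ker _).conj_mem k hk t, congrArg Subtype.val (inj (g := ι (t * k * t⁻¹))
    (k := τ * ι k * τ⁻¹) (by simp [ιp, ht]) (by simp [ιm, hk']))⟩

theorem twoA (hB : ¬ Big M) (k : Cz M) (hk : IsSc (rm M k).val) : IsSc (rp M k).val := by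
  by_contra hn
  let L := H.S ⊔ H.S.map (MulAut.conj (rp M k)).toMonoidHom
  have hL : L ≤ (rp M).range := sup_le H.S_le (by
    rintro _ ⟨s, hs, rfl⟩
    exact mul_mem (mul_mem ⟨k, rfl⟩ (H.S_le hs)) (inv_mem ⟨k, rfl⟩))
  have hp : ⁅L, L⁆ = L := le_antisymm (commutator_le.2 fun a ha b hb =>
    mul_mem (mul_mem (mul_mem ha hb) (inv_mem ha)) (inv_mem hb)) (sup_le
      (H.S_perfect.ge.trans (commutator_mono le_sup_left le_sup_left)) (by
        rw [← H.S_perfect, map_commutator]; exact commutator_mono le_sup_right le_sup_right))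
  have hd : ∀ g ∈ L, g.val.det = 1 := fun g hg => det_comm (hp.ge hg)
  have l1 : ∀ s ∈ H.S, s ∈ L := fun s hs => mem_sup_left hs
  have l2 : ∀ s ∈ H.S, rp M k * s * (rp M k)⁻¹ ∈ L := fun s hs => mem_sup_right ⟨s, hs, rfl⟩
  let K := (rm M).ker.map (rp M) ⊓ L
  have hK : ∀ s ∈ L, ∀ x ∈ K, s * x * s⁻¹ ∈ K := fun s hs x ⟨⟨y, hy, e⟩, hx⟩ => by
    obtain ⟨t, rfl⟩ := hL hs
    exact ⟨⟨t * y * t⁻¹, (MonoidHom.normal_ker _).conj_mem y hy t, by simp [e]⟩, L.mul_mem (L.mul_mem hs hx) (L.inv_mem hs)⟩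
  obtain ⟨g, hg, g1⟩ : ∃ g ∈ K, MH.pr g ≠ 1 := by
    by_contra! hc
    have key : ∀ s ∈ H.S, ∀ n : ℕ, n.Coprime 3 → s ^ n = 1 → s ∈ centralizer {rp M k} := fun s hs n h3 hn => by
      obtain ⟨t, rfl⟩ := H.S_le hs
      have := hc (rp M k * rp M t * (rp M k)⁻¹ * (rp M t)⁻¹) ⟨⟨k * t * k⁻¹ * t⁻¹, by
        simp [MonoidHom.mem_ker, sc_comm hk], by simp⟩, L.mul_mem (l2 _ hs) (L.inv_mem (l1 _ hs))⟩
      rw [map_mul, map_inv, mul_inv_eq_one] at this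
      have := MH.eq_of_pr_eq (hd _ (l2 _ hs)) (hd _ (l1 _ hs)) h3 (by rw [conj_pow, hn]; simp) hn this
      exact mem_centralizer_singleton_iff.2 (mul_inv_eq_iff_eq_mul.1 this).symm
    have : H.S ≤ centralizer {rp M k} := (closure_le _).2 (by
      rintro _ (rfl | rfl)
      exacts [key _ H.uS 5 (by norm_num) H.up5, key _ H.fS 2 (by norm_num) H.fp2])
    refine hn (H.S_full.isSc ?_)
    rintro _ ⟨s, hs, rfl⟩
    exact (congrArg Units.val (mem_centralizer_singleton_iff.1 (this hs))).symm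
  have u1 : MH.pr (rp M H.uC) ≠ 1 := fun e => by
    obtain ⟨c, e⟩ := MH.pr_eq_one'.1 e
    have e1 := congrFun (congrFun e 0) 0
    have e2 := congrFun (congrFun e 1) 1
    simp [up] at e1 e2
    exact o.w1 (e2.trans e1.symm)
  have u5 : (⟨_, MH.mem_bar (l1 _ H.uS)⟩ : MH.bar L) ^ 5 = 1 := Subtype.ext (by simp [← map_pow, H.up5])
  have simple : ¬ IsSimpleGroup (MH.bar L) := fun hs => by
    have : ((MH.bar K).subgroupOf (MH.bar L)).Normal := ⟨by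
      rintro ⟨_, x', hx', rfl⟩ ⟨x, hx, e⟩ ⟨_, s, hs, rfl⟩
      exact ⟨_, hK s hs x hx, by simp [e]⟩⟩
    rcases this.eq_bot_or_eq_top with h | h
    · exact g1 (congrArg Subtype.val ((eq_bot_iff_forall _).1 h ⟨_, MH.mem_bar hg.2⟩ (MH.mem_bar hg)))
    obtain ⟨_, ⟨⟨y, hy, rfl⟩, y2⟩, e⟩ : _ ∈ MH.bar K := h.ge (mem_top ⟨_, MH.mem_bar (l1 _ H.uS)⟩)
    obtain ⟨c, e⟩ := MH.pr_eq_iff.1 e
    have c3 := MH.cube_of_smul (hd _ y2) (hd _ (l1 _ H.uS)) e
    refine hB (H.key' y (x := c) (y := c * o.ω) (w := c * o.ω ^ 4) (y' := 1) (w' := 1) (by rw [e, up]; mx5)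
      (by rw [show rm M y = 1 from hy]; mx5) fun e => o.w1 ?_)
    have := o.w5
    grind
  rcases MH.mainF Cfsg.Agent.MH.main hp (H.S_full.mono (Set.image_mono l1)) with ⟨E, Q, -, h⟩ |
    ⟨E, q, Q, h3, hE, h⟩ | ⟨-, B, h1, h2, h⟩ | h | ⟨⟨e⟩⟩ | ⟨h5, -⟩
  · exact H.noSL (fun g a b => hL ((h g).2 ⟨a, b⟩))
  · obtain ⟨⟨y, hy, rfl⟩, -⟩ := hg
    exact hB (H.su3 hE (fun s hs => ((h s).1 (l1 s hs)).2) (fun g a b c => hL ((h g).2 ⟨a, b, c⟩)) hy
      fun e => g1 (MH.pr_eq_one'.2 e))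
  · obtain ⟨M', ⟨e⟩⟩ := MH.exists_pgl two_ne_zero h1 h2 L fun m hm => ⟨1, by rw [h m hm, one_smul]⟩
    have := MH.perfect_bar hp
    have := simple_of_perfect (e ⟨_, MH.mem_bar (l1 _ H.uS)⟩).2 (by
        rw [← coe_pow, ← map_pow, u5]; simp) (fun h => u1 (congrArg Subtype.val (e.injective
          ((Subtype.ext h).trans (map_one e).symm)))) (isPerfect_iff.1 (Group.IsPerfect.ofSurjective (f := e.toMonoidHom) e.surjective))
    exact simple e.isSimpleGroup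
  · have h1 := pow_card_eq_one' (x := (⟨_, MH.mem_bar (l1 _ H.uS)⟩ : MH.bar L))
    rw [MH.card_bar, h] at h1
    exact u1 (by simpa using pow_gcd_eq_one.2 ⟨h1, u5⟩)
  · have := alternatingGroup.isSimpleGroup (α := Fin 6) (by simp)
    exact simple ((MH.pqEquiv L).symm.trans e).isSimpleGroup
  · exact o.h5 h5

theorem ksc (hB : ¬ Big M) (x : Cz M) {b : F} (h : (rm M x).val = b • 1) :
    ∃ a, (rp M x).val = a • 1 ∧ a ^ 2 = b ^ 2 ∧ a ^ 5 = 1 := by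
  obtain ⟨a, h1⟩ := H.twoA hB x ⟨b, h⟩
  have e1 : a ^ 2 = b ^ 2 := by_contra fun hn =>
    hB (H.key' x (x := a) (w := a) (w' := b) (by rw [h1]; mx5) (by rw [h]; mx5) hn)
  have e2 := det_split x
  rw [H.det _ x.2.1, h1, h] at e2
  simp at e2
  exact ⟨a, h1, e1, by grind⟩

theorem kone (hB : ¬ Big M) {x : Cz M} (h : rm M x = 1) : x = 1 := by
  obtain ⟨a, h1, h2, h3⟩ := H.ksc hB x (b := 1) (by simp [h])
  exact inj (Units.ext (by rw [h1, show a = 1 by grind]; simp)) (by rw [h, map_one])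

omit H in
theorem bisc (g : Cz M) {a b : F} (h1 : (rp M g).val = a • 1) (h2 : (rm M g).val = b • 1) :
    g.1.val = (2⁻¹ * (a + b)) • 1 + (2⁻¹ * (a - b)) • (Om5.z F).val := by
  rw [recon, h1, h2]
  simp only [Matrix.mul_smul, Matrix.smul_mul, Matrix.mul_one, PQp, PQm]
  module

omit H in
theorem tval {X : M5 F} (e : Q1 F * X * Pm F = !![1, 0; 0, -1]) (c3 : (UX.w F).val * X = X * (Om5.z F).val * (UX.w F).val)
    (c4 : X * X = 1) (c5 : X.trace = 1) (c6 : X = !![X 0 0, 0, 0, 0, 0; 0, X 1 1, 0, 0, X 1 4;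
      0, 0, X 2 2, X 2 3, 0; 0, 0, X 3 2, X 3 3, 0; 0, X 4 1, 0, 0, X 4 4]) :
    X = !![-1, 0, 0, 0, 0; 0, 1, 0, 0, 0; 0, 0, 0, 1, 0; 0, 0, 1, 0, 0; 0, 0, 0, 0, 1] := by
  have h2 := two_ne_zero (α := F)
  have h8 : (8 : F) ≠ 0 := by rw [show (8 : F) = 2 ^ 3 by norm_num]; exact pow_ne_zero _ h2
  generalize X 0 0 = x0, X 1 1 = x1, X 1 4 = x2, X 2 2 = x3, X 2 3 = x4, X 3 2 = x5, X 3 3 = x6, X 4 1 = x7,
    X 4 4 = x8 at c6
  subst c6
  have a1 := fun i j => congrFun (congrFun c3 i) j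
  have a2 := fun i j => congrFun (congrFun c4 i) j
  have a3 := congrFun (congrFun e 0) 0
  simp [Fin.forall_fin_succ, w_val, z_val, trace, Fin.sum_univ_succ, Q1, Pm, one_apply] at a1 a2 a3 c5
  clear c3 c4 e
  have b1 : x2 = 0 := by grind
  ext i j; fin_cases i <;> fin_cases j <;> simp <;> grind

omit H in
theorem tdiag (o : Om F) {X : M5 F} (c7 : X = !![-1, 0, 0, 0, 0; 0, 1, 0, 0, 0; 0, 0, 0, 1, 0; 0, 0, 1, 0, 0; 0, 0, 0, 0, 1]) :
    ((UX.w F)⁻¹).val * (X * o.a.val * X * (o.a⁻¹).val) * (UX.w F).val = diagonal ![1, o.ω, 1, 1, o.ω ^ 4] ∧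
    diagonal ![1, o.ω, 1, 1, o.ω ^ 4] * X = X * diagonal ![1, o.ω, 1, 1, o.ω ^ 4] ∧
    diagonal ![1, o.ω, 1, 1, o.ω ^ 4] * (1 - X) = 1 - X := by
  subst c7
  refine ⟨?_, by mx5, by mx5⟩
  have := o.w5
  rw [w_inv, w_val, a_val, show (o.a⁻¹).val = diagonal fun i => o.ω ^ (4 * i.val) from rfl]
  mx5

theorem fin_t (hB : ¬ Big M) {g : G5 F} (hg : g ∈ M) (t : Cz M) (ht : g * Om5.z F * g⁻¹ = t)
    (e : (rm M t).val = !![1, 0; 0, -1]) : False := by
  have h2 := two_ne_zero (α := F)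
  have c1 : t * H.uC * (H.uC * t)⁻¹ = 1 := H.kone hB (by
    rw [map_mul, map_inv, mul_inv_eq_one, map_mul, map_mul, um]
    exact Units.ext (by rw [Units.val_mul, Units.val_mul, e, u2_val]; mx5))
  have c2 : H.wC * t * (t * H.zZ * H.wC)⁻¹ = 1 := H.kone hB (by
    rw [map_mul, map_inv, mul_inv_eq_one, map_mul, map_mul, map_mul]
    exact Units.ext (by rw [Units.val_mul, Units.val_mul, Units.val_mul, e, zm, wm]; mx5))
  have c3 : (UX.w F).val * t.1.val = t.1.val * (Om5.z F).val * (UX.w F).val := congrArg (·.1.val) (mul_inv_eq_one.1 c2)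
  have c4 : t.1.val * t.1.val = 1 := by rw [← ht, ← Units.val_mul, conj_mul, zz]; simp
  have c5 : t.1.val.trace = 1 := by
    rw [← ht, Units.val_mul, Units.val_mul, trace_units_conj, z_val]; simp [trace, Fin.sum_univ_succ]
  have c6 := blk (g := t.1) (congrArg Subtype.val (mul_inv_eq_one.1 c1))
  have c7 := tval (rm_val t ▸ e) c3 c4 c5 c6
  obtain ⟨d, d1, d2⟩ : ∃ d ∈ M, d.val = diagonal ![1, o.ω, 1, 1, o.ω ^ 4] := ⟨_, mul_mem (mul_mem (inv_mem H.w)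
    (mul_mem (mul_mem (mul_mem t.2.1 H.a) t.2.1) (inv_mem H.a))) H.w, (tdiag o c7).1⟩
  have d3 : d * t = t * d := Units.ext (by rw [Units.val_mul, Units.val_mul, d2, (tdiag o c7).2.1])
  have d4 : d.val * (1 - t.1.val) = 1 - t.1.val := by rw [d2, (tdiag o c7).2.2]
  let x : Cz M := ⟨g⁻¹ * d * g, mem_Cz.2 ⟨mul_mem (mul_mem (inv_mem hg) d1) hg, by
    rw [← ht] at d3
    simpa [mul_assoc] using congrArg (g⁻¹ * · * g) d3⟩⟩
  have x1 : x.1.val * (Pm F * (Pm F)ᴴ) = Pm F * (Pm F)ᴴ := by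
    rw [← ht] at d4
    have := congrArg ((g⁻¹).val * · * g.val) d4
    simpa [PP, x, mul_sub, sub_mul, mul_assoc] using this
  have x2 : x = 1 := H.kone hB (Units.ext (by
    have := congrArg (· * (Q1 F)ᴴ) x1
    simp only [Matrix.mul_assoc, PQ1, Matrix.mul_one] at this
    rw [rm_val, Matrix.mul_assoc, this, Q1P, Units.val_one]))
  have x3 : d = 1 := by simpa [x, mul_assoc] using congrArg (fun y : Cz M => g * y.1 * g⁻¹) x2
  rw [x3] at d2
  exact o.w1 (by simpa using (congrFun (congrFun d2 1) 1).symm)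

omit H in
theorem diag2 (o : Om F) {X : GL (Fin 2) F} (hX : X ∈ UG 2 F) (h : X.val * X.val = 1) (hs : ¬ IsSc X.val) :
    ∃ c ∈ SU2 F, X.val * c.val = c.val * !![1, 0; 0, -1] := by
  have h2 := two_ne_zero (α := F)
  have e : X.valᴴ = X.val := by rw [UG_ct hX]; exact Units.inv_eq_of_mul_eq_one_left h
  obtain ⟨α, β, γ, δ, e1⟩ : ∃ α β γ δ, X.val = !![α, β; γ, δ] := ⟨_, _, _, _, eta_fin_two _⟩
  have a1 := fun i j => congrFun (congrFun e i) j
  have a2 := fun i j => congrFun (congrFun h i) j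
  simp [e1, Fin.forall_fin_two, conjTranspose_apply] at a1 a2
  obtain rfl : δ = -α := by
    by_contra hn
    exact hs ⟨α, by rw [e1]; mx5⟩
  have key : ∀ v w : F, v * star v + w * star w = 1 → α * v + β * w = v → γ * v - α * w = w →
      -α * star w + β * star v = star w → -γ * star w - α * star v = -star v →
      ∃ c ∈ SU2 F, X.val * c.val = c.val * !![1, 0; 0, -1] := fun v w b1 b2 b3 b4 b5 =>
    ⟨mku !![v, -star w; w, star v] !![star v, star w; -w, v] (by mx5), mem_SU2.2 ⟨uni_of fun i j => by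
      change star (!![v, -star w; w, star v] j i) = !![star v, star w; -w, v] i j
      fin_cases i <;> fin_cases j <;> simp, by simp [mku, det_fin_two]; grind⟩, by rw [e1, mku]; mx5⟩
  by_cases hα : 1 + α = 0
  · have : β = 0 := by
      by_contra hn
      exact mul_ne_zero hn (star_ne_zero.2 hn) (by grind)
    have : γ = 0 := by rw [← a1.2.1, this, star_zero]
    refine key 0 1 ?_ ?_ ?_ ?_ ?_ <;> simp <;> grind
  · obtain ⟨l, hl⟩ := o.exists_norm (c := (2 * (1 + α))⁻¹) (by simp [a1.1.1])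
    refine key (l * (1 + α)) (l * γ) ?_ ?_ ?_ ?_ ?_ <;>
      (try simp only [star_mul', star_add, star_one, a1.1.1, a1.1.2]) <;> grind

omit H in
theorem z_not : ¬ IsSc (Om5.z F).val := fun ⟨c, h⟩ => by simpa [z_val] using congrFun (congrFun h 1) 4

theorem twoC (hB : ¬ Big M) {g : G5 F} (hg : g ∈ M) (h : g * Om5.z F * g⁻¹ * Om5.z F = Om5.z F * (g * Om5.z F * g⁻¹)) :
    g * Om5.z F * g⁻¹ = Om5.z F := by
  have h2 := two_ne_zero (α := F)
  let t : Cz M := ⟨_, mem_Cz.2 ⟨mul_mem (mul_mem hg H.z) (inv_mem hg), h⟩⟩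
  have t2 : t * t = 1 := Subtype.ext (by simp [t, zz])
  have sq : ∀ {n : ℕ} (r : Cz M →* GL (Fin n) F), (r t).val * (r t).val = 1 := fun r => by
    rw [← Units.val_mul, ← map_mul, t2, map_one, Units.val_one]
  by_cases hs : IsSc (rm M t).val
  · obtain ⟨b, h2⟩ := hs
    obtain ⟨a, h1, -, a5⟩ := H.ksc hB t h2
    have e := bisc t h1 h2
    have a2 : a * a = 1 := by simpa [h1] using congrFun (congrFun (sq (rp M)) 0) 0
    have b2 : b * b = 1 := by simpa [h2] using congrFun (congrFun (sq (rm M)) 0) 0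
    by_cases hab : a = b
    · refine (z_not (F := F) ⟨a, ?_⟩).elim
      have e1 : (g * Om5.z F * g⁻¹).val = a • 1 := e.trans (by rw [← hab]; match_scalars <;> grind)
      have := congrArg ((g⁻¹).val * · * g.val) e1
      simpa [mul_assoc] using this
    exact Units.ext (e.trans (by match_scalars <;> grind))
  exfalso
  rcases H.dich with ⟨⟨e⟩⟩ | ⟨h1, -⟩
  swap
  · obtain ⟨c, c1, c2⟩ := diag2 o (rm_uni t (H.uni t.2.1)) (sq _) hs
    obtain ⟨k, hk⟩ := h1 ⟨c, c1, rfl⟩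
    obtain ⟨μ, hk⟩ := mk_eq_mk.1 hk
    refine H.fin_t hB (mul_mem (inv_mem k.2.1) hg) (k⁻¹ * t * k) (by simp [t, mul_assoc]) ?_
    rw [map_mul, map_mul, map_inv, mul_assoc, Units.val_mul, Units.inv_mul_eq_iff_eq_mul, Units.val_mul, hk,
      mul_smul_comm, c2, smul_mul_assoc]
  have hp : ⁅(pm M).range, (pm M).range⁆ = (pm M).range := by
    have : Group.IsPerfect (alternatingGroup (Fin 5)) := ⟨commutator_alternatingGroup_eq_top (by simp)⟩
    exact isPerfect_iff.1 (Group.IsPerfect.ofSurjective (f := e.symm.toMonoidHom) e.symm.surjective)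
  obtain ⟨s, s1, s2⟩ : pm M t ∈ Subgroup.map (pm M) ⁅(⊤ : Subgroup (Cz M)), ⊤⁆ := by
    rw [map_commutator, ← MonoidHom.range_eq_map, hp]; exact ⟨t, rfl⟩
  obtain ⟨b, hb⟩ : IsSc (rm M (s⁻¹ * t)).val := mk_one.1 (by
    change pm M _ = 1
    rw [map_mul, map_inv, s2, inv_mul_cancel])
  have e1 : (rm M (s⁻¹ * t)).val.det = (rm M t).val.det := by
    have := det_comm (L := (⊤ : Subgroup (Cz M)).map (rm M)) (g := rm M s⁻¹)
      (map_commutator ⊤ ⊤ (rm M) ▸ ⟨_, inv_mem s1, rfl⟩)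
    rw [map_mul, Units.val_mul, det_mul, this, one_mul]
  obtain ⟨a, -, a2, a5⟩ := H.ksc hB _ hb
  have e2 := fun i j => congrFun (congrFun (sq (rm M)) i) j
  rw [hb, det_smul, det_fin_two (rm M t).val] at e1
  rw [← mk_one, mk_eq_mob, mob_eq_one] at hs
  simp [Fin.forall_fin_two, mul_apply] at e1 e2
  have b2 : b ^ 2 = -1 := by clear a2 a5; grind
  grind

theorem odd_core : Big M ∨ M ≤ Geo.subgroupNormalizer o.R := by
  refine or_iff_not_imp_left.2 fun hB => H.core (fun g => H.twoC hB) fun x ⟨b, h2⟩ n ⟨m, hn⟩ hx => ?_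
  obtain ⟨a, h1, e1, -⟩ := H.ksc hB x h2
  have a1 := congrArg (fun y => (rp M y).val 0 0) hx
  have b1 := congrArg (fun y => (rm M y).val 0 0) hx
  simp [h1, h2, _root_.smul_pow] at a1 b1
  rw [hn, pow_succ, pow_mul] at a1 b1
  obtain rfl : a = b := mul_left_cancel₀ (left_ne_zero_of_mul_eq_one b1) (by rw [b1, ← e1, a1])
  exact ⟨2⁻¹ * (a + a), by simpa using bisc x h1 h2⟩

end Hyp

end Cfsg.Agent.H7.UX
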