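import Cfsg.Agent.H7.UXi
import Cfsg.Agent.H7.UXf
import Cfsg.Agent.H2.U5G1

/-!
Class six in `SU₅(q)`.
-/

set_option autoImplicit false
set_option linter.unusedSectionVars false
set_option linter.unusedSimpArgs false

namespace Cfsg.Agent.H7.UX

open Matrix Subgroup Om Cfsg.Agent.Form Cfsg.Agent.H6.SU Cfsg.Agent.H8.U5 Cfsg.Agent.H2.U5G
open Cfsg.Agent.H8.L5 (G5)

universe u
variable {F : Type u} [Field F] [Fintype F] {q : ℕ}

section
variable [StarRing F]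

theorem top_of (o : Om F) {p : ℕ} (hp : p.Prime) [CharP F p] (hs : ∀ x : F, star x = x ^ q)
    (hq : (q = p ∧ p % 5 = 4) ∨ (q = p ^ 2 ∧ (p % 5 = 2 ∨ p % 5 = 3))) : o.Top := fun E hE x hx => by
  have := Fact.mk hp
  have b : ∀ y : F, frobenius F p y = y → y ∈ E := fun y h => bot_le (a := E) ((Subfield.mem_bot_iff_pow_eq_self F p).2 h)
  rw [hs] at hx
  rcases hq with ⟨rfl, -⟩ | ⟨rfl, h⟩
  · exact b x hx
  have e1 : frobenius F p (o.ω + o.ω ^ 4) = o.ω ^ 2 + o.ω ^ 3 := by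
    have := o.w5
    rw [map_add, map_pow, frobenius_def, pow_eq_pow_mod _ o.w5]
    rcases h with h | h <;> rw [h] <;> grind
  have e2 : frobenius F p (o.ω ^ 2 + o.ω ^ 3) = o.ω + o.ω ^ 4 := by
    have := o.w5
    rw [map_add, map_pow, map_pow, frobenius_def, pow_eq_pow_mod _ o.w5]
    rcases h with h | h <;> rw [h] <;> grind
  have e3 : frobenius F p (frobenius F p x) = x := by rwa [frobenius_def, frobenius_def, ← pow_mul, ← sq]
  have e4 : o.ω + o.ω ^ 4 - (o.ω ^ 2 + o.ω ^ 3) ≠ 0 := fun e =>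
    mul_ne_zero o.h5 o.s0 (by linear_combination o.hs - e)
  generalize o.ω + o.ω ^ 4 = θ, o.ω ^ 2 + o.ω ^ 3 = θ' at *
  have e5 : frobenius F p ((x - frobenius F p x) / (θ - θ')) = (x - frobenius F p x) / (θ - θ') := by
    rw [map_div₀, map_sub, map_sub, e1, e2, e3, ← neg_div_neg_eq, neg_sub, neg_sub]
  have := add_mem (b (x - (x - frobenius F p x) / (θ - θ') * θ) (by rw [map_sub, map_mul, e5, e1]; field_simp; ring))
    (mul_mem (b _ e5) hE)
  rwa [sub_add_cancel] at this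

variable (hs : ∀ x : F, star x = x ^ q)
include hs

theorem herm (u v : Fin 5 → F) : hermForm 5 F q u v = star v ⬝ᵥ u := by simp [hermForm, dotProduct, hs, mul_comm]

theorem sim {g : G5 F} {c : F} (h : ∀ u v, hermForm 5 F q (g.val *ᵥ u) (g.val *ᵥ v) = c * hermForm 5 F q u v) :
    g.valᴴ * g.val = c • 1 := by
  ext i j
  have := h (Pi.single j 1) (Pi.single i 1)
  rw [herm hs, herm hs, star_mulVec, dotProduct_mulVec, vecMul_vecMul] at this
  simpa [one_apply, Pi.single_apply, eq_comm] using this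

theorem mem_GU {g : G5 F} : g ∈ GU 5 F q ↔ g ∈ UG 5 F :=
  ⟨fun h => (sim hs (c := 1) fun u v => (h u v).trans (one_mul _).symm).trans (one_smul _ _),
    fun h u v => by rw [herm hs, herm hs]; exact UG_dot h v u⟩

theorem mem_SU {g : G5 F} : g ∈ GU 5 F q ⊓ Geo.specialLinear (Fin 5) F ↔ g ∈ UG 5 F ∧ g.val.det = 1 := by
  rw [mem_inf, mem_GU hs, Geo.specialLinear, MonoidHom.mem_ker, Units.ext_iff, GeneralLinearGroup.val_det_apply,
    Units.val_one]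

theorem Hyp.final {o : Om F} {M : Subgroup (G5 F)} (H : Hyp o M) (hF : Fintype.card F = q ^ 2) (hq : 3 ≤ q)
    (h2 : (2 : F) ≠ 0 ∨ q = 4) (hP : IsPGroup 5 o.R) (h5 : ∀ g ∈ o.R, g ^ 5 = 1)
    (hi : ∀ Y : Submodule F (Fin 5 → F), (∀ g ∈ o.R, ∀ y ∈ Y, g.val *ᵥ y ∈ Y) → Y = ⊥ ∨ Y = ⊤) :
    GU 5 F q ⊓ Geo.specialLinear (Fin 5) F ≤ M ∨ M ≤ Geo.subgroupNormalizer o.R := by
  have un : Un (std hF 5) q :=
    ⟨by rw [Nat.card_eq_fintype_card, hF], fun _ => rfl, std_ne hF, std_nondeg hF 5, Module.finrank_fin_fun F⟩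
  have m1 : M.map toLE.toMonoidHom ≤ sisom (std hF 5) := by
    rintro _ ⟨g, hg, rfl⟩
    exact (mem_SU_iff hF 5 g).1 ((mem_SU hs).2 ⟨H.uni hg, H.det g hg⟩)
  have m2 : Irr2 (M.map toLE.toMonoidHom) := fun Y h0 h => (hi Y fun g hg y hy => by
    have := h _ ⟨_, H.R_le (pow_mem hg 3), rfl⟩ y hy
    rwa [← LinearEquiv.mul_apply, ← map_mul, ← pow_add, show 3 + 3 = 5 + 1 from rfl, pow_succ, h5 g hg,
      one_mul] at this).resolve_left h0
  have m3 : ∀ d c, (∃ g ∈ M, g.val = tv d c) → HT (std hF 5) (M.map toLE.toMonoidHom) d c := fun d c ⟨g, g1, g2⟩ =>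
    ⟨_, ⟨g, g1, rfl⟩, fun x => by rw [unitPQ_B, herm hs, ← tv_mulVec, ← g2]; rfl⟩
  have m4 : ∀ x : F, (frobQ hF : F →+* F) x = star x := fun x => (hs x).symm
  refine (?_ : Big M ∨ _).imp_left fun ⟨d, d0, d1, d2⟩ g hg => (mem_map_iff_mem toLE.injective).1
    (GC un hq m1 m2 d0 (H6.SU.ctr_iff.2 ⟨by rwa [unitPQ_B, herm hs], fun c hc => m3 d c (d2 c (by rwa [← m4]))⟩)
      ((mem_SU_iff hF 5 g).1 hg))
  rcases h2 with h2 | rfl
  · have := NeZero.mk h2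
    exact H.odd_core
  have h4 : S4 F := ⟨hs⟩
  refine or_iff_not_imp_right.2 fun hn => ?_
  obtain ⟨d, hd, e, he, y, hy, -, h⟩ := GT un (m1.trans inf_le_left) m2 {d | HTc M d 1}
    (by by_contra! k; exact hn (H.even_core h4 k)) (fun d hd => by rw [unitPQ_B, herm hs]; exact hd.1)
    (fun d hd => ⟨1, one_ne_zero, by rw [map_one, one_add_one_eq_two, two_of h4], m3 d 1 hd.2⟩)
    (by rintro _ ⟨g, hg, rfl⟩ d hd; exact hd.conj hg (H.uni hg))
  simp only [unitPQ_B, herm hs, m4] at h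
  exact H.big_of_tri h4 hP hd he hy h

theorem es5 (hF : Fintype.card F = q ^ 2) (p : ℕ) (R : Subgroup (G5 F))
    (hp : p.Prime) (hc : CharP F p) (hq : (q = p ∧ p % 5 = 4) ∨ (q = p ^ 2 ∧ (p % 5 = 2 ∨ p % 5 = 3)))
    (h1 : Geo.IsSymplecticTypeGroup 5 R) (h2 : Geo.ActsAbsolutelyIrreducibly (Geo.matrixSet R))
    (h3 : R ≤ Geo.similarityGroup (hermForm 5 F q)) (h5 : Nat.card (center R) = 5) :
    Geo.IsMaximalIn (GU 5 F q ⊓ Geo.specialLinear (Fin 5) F)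
      (Geo.subgroupNormalizer R ⊓ (GU 5 F q ⊓ Geo.specialLinear (Fin 5) F)) := by
  have q4 : q % 5 = 4 := by
    rcases hq with ⟨rfl, h⟩ | ⟨rfl, h | h⟩ <;> simp [Nat.pow_mod, h]
  have hn : ∀ n : ℕ, n.Prime → (n : F) = 0 → p = n := fun n h e =>
    (Nat.prime_dvd_prime_iff_eq hp h).1 ((CharP.cast_eq_zero_iff F p n).1 e)
  obtain ⟨o, Q, h⟩ := exists_NF (fun x hx => by rw [hs, pow_eq_pow_mod _ hx, q4])
    (fun e => by have := hn 5 Nat.prime_five e; omega) h1 h2 h5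
  have hR : ∀ g, g ∈ o.R ↔ Q * g * Q⁻¹ ∈ R := fun g => by rw [← h]; rfl
  obtain ⟨κ, k0, k1⟩ := o.gram (Q := Q) fun g hg => let ⟨_, hc⟩ := h3 ((hR g).1 hg); ⟨_, sim hs hc⟩
  have hS : ∀ g : G5 F, Q * g * Q⁻¹ ∈ GU 5 F q ⊓ Geo.specialLinear (Fin 5) F ↔ g ∈ UG 5 F ∧ g.val.det = 1 := fun g => by
    have e : Q.valᴴ = κ • (Q⁻¹).val := by rw [← one_mul (Q⁻¹).val, ← smul_mul_assoc, ← k1, Units.mul_inv_cancel_right]
    have e' : (Q⁻¹).valᴴ = κ⁻¹ • Q.val := by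
      rw [eq_inv_smul_iff₀ k0, ← Units.mul_left_inj Q⁻¹, smul_mul_assoc, ← mul_smul_comm, ← e, ← conjTranspose_mul,
        Units.mul_inv, conjTranspose_one]
    rw [mem_SU hs, Units.val_mul, Units.val_mul, det_units_conj, mem_UG, mem_UG, Units.val_mul, Units.val_mul,
      conjTranspose_mul, conjTranspose_mul, e, e']
    simp only [smul_mul_assoc, mul_smul_comm, mul_assoc, Units.inv_mul_cancel_left, smul_smul, mul_inv_cancel₀ k0,
      inv_mul_cancel₀ k0, one_smul]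
    rw [← mul_assoc g.valᴴ, Units.mul_eq_one_iff_inv_eq, eq_comm, Units.mul_inv_eq_iff_eq_mul, Units.inv_mul]
  have hN : ∀ g, Q * g * Q⁻¹ ∈ Geo.subgroupNormalizer R ↔ g ∈ Geo.subgroupNormalizer o.R := fun g => by
    rw [← h, Geo.subgroupNormalizer, Geo.subgroupNormalizer,
      ← comap_normalizer_eq_of_surjective _ (MulAut.conj Q).surjective]; rfl
  refine ⟨lt_of_le_of_ne inf_le_right fun e => SU_not_le_subgroupNormalizer hF (by omega) (by omega) Nat.prime_five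
    h1.pGroup h2 (e.ge.trans inf_le_left), fun M m1 m2 => ?_⟩
  have m : ∀ g ∈ Geo.subgroupNormalizer o.R, g ∈ UG 5 F → g.val.det = 1 → g ∈ M.comap (MulAut.conj Q).toMonoidHom :=
    fun g a b c => m1 ⟨(hN g).2 a, (hS g).2 ⟨b, c⟩⟩
  have cj : ∀ g : G5 F, g = Q * (Q⁻¹ * g * Q) * Q⁻¹ := fun g => by group
  refine (Hyp.final hs ⟨top_of o hp hs hq, fun g hg => ((hS g).1 (m2 hg)).2, fun g hg => ((hS g).1 (m2 hg)).1,
    m _ (le_normalizer o.a_mem) o.a_uni o.det_a, m _ (le_normalizer o.b_mem) b_uni o.det_b, m _ o.u_nrm o.u_uni o.det_u,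
    m _ o.f_nrm o.f_uni o.det_f, m _ o.w_nrm w_uni det_w⟩ hF (by omega) (or_iff_not_imp_left.2 fun e => ?_)
    (h ▸ h1.pGroup.comap_of_injective _ (MulAut.conj Q).injective) (fun g hg => ?_) fun Y hY => ?_).symm.imp
    (fun k => le_antisymm (fun g hg => ⟨?_, m2 hg⟩) m1) fun k => le_antisymm m2 fun g hg => ?_
  · obtain rfl := hn 2 Nat.prime_two (not_not.1 e)
    omega
  · have := congrArg Subtype.val (Monoid.pow_exponent_eq_one (⟨_, (hR g).1 hg⟩ : R))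
    simpa [h1.exponent_eq, conj_pow] using this
  · refine (h2.1 (Y.map (toLE Q).toLinearMap) ?_).imp Submodule.map_eq_bot_iff.1 Submodule.map_eq_top_iff.1
    rintro _ ⟨g, hg, rfl⟩ _ ⟨_, ⟨y, hy, rfl⟩, rfl⟩
    exact ⟨_, hY (Q⁻¹ * g * Q) ((hR _).2 (cj g ▸ hg)) y hy, by simp [toLE_apply, mul_assoc]⟩
  · rw [cj g] at hg ⊢
    exact k (x := Q⁻¹ * g * Q) ((mem_SU hs).2 ((hS _).1 hg))
  · rw [cj g] at hg ⊢
    exact (hN _).2 (k (x := Q⁻¹ * g * Q) hg)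

end

/-- the involution `x ↦ x ^ q` -/
@[reducible] def starQ (hF : Fintype.card F = q ^ 2) : StarRing F where
  star x := x ^ q
  star_involutive := pow_q_pow_q hF
  star_mul x y := by rw [mul_pow, mul_comm]
  star_add := map_add (frobQ hF)

/-- class six in `SU₅(q)` -/
theorem geo_es5 (hF : Fintype.card F = q ^ 2) (p : ℕ) (R : Subgroup (Matrix.GeneralLinearGroup (Fin 5) F))
    (hp : p.Prime) (hc : CharP F p) (hq : (q = p ∧ p % 5 = 4) ∨ (q = p ^ 2 ∧ (p % 5 = 2 ∨ p % 5 = 3)))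
    (h1 : Geo.IsSymplecticTypeGroup 5 R) (h2 : Geo.ActsAbsolutelyIrreducibly (Geo.matrixSet R))
    (h3 : R ≤ Geo.similarityGroup (hermForm 5 F q)) (_h4 : Nat.card R = 125)
    (h5 : Nat.card (Subgroup.center R) = 5) :
    Geo.IsMaximalIn (GU 5 F q ⊓ Geo.specialLinear (Fin 5) F)
      (Geo.subgroupNormalizer R ⊓ (GU 5 F q ⊓ Geo.specialLinear (Fin 5) F)) :=
  letI := starQ hF
  es5 (fun _ => rfl) hF p R hp hc hq h1 h2 h3 h5

end Cfsg.Agent.H7.UX
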