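import Cfsg.Agent.H7.U7c
import Cfsg.Agent.H7.UXj
import Cfsg.Agent.H2.U7G
import Cfsg.Agent.H2.NFr
import Cfsg.Agent.Asch.FF

/-!
Class six in `SU₇(q)`.
-/

set_option autoImplicit false
set_option linter.unusedSectionVars false
set_option linter.unusedSimpArgs false

namespace Cfsg.Agent.H7.U7

open Matrix Subgroup Cfsg.Agent.Form Cfsg.Agent.H6.SU Cfsg.Agent.H9.U7 Cfsg.Agent.H2.U7G H3
open Cfsg.Agent.H3.S7 hiding Hyp Big
open Cfsg.Agent.H8.L5 (mku)

universe u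
variable {F : Type u} [Field F] [Fintype F] {q : ℕ}

/-- the form -/
def HF (F : Type u) [Field F] (q : ℕ) : (I → F) → (I → F) → F := hermForm 7 F q
/-- the special unitary group -/
def SU7 (F : Type u) [Field F] (q : ℕ) : Subgroup (G7 F) := GU 7 F q ⊓ Geo.specialLinear (Fin 7) F
/-- the unitary space -/
noncomputable def S7 (hF : Fintype.card F = q ^ 2) := unitPQ (ι := I) (f := HF F q) (isUnitaryForm_hermForm hF 7)

variable [StarRing F]

theorem mo_uni {σ : Equiv.Perm I} {d : I → F} {hd : ∀ x, d x ≠ 0} (h : ∀ x, star (d x) = (d x)⁻¹) :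
    mo σ d hd ∈ UG I F := uni_of fun i j => by
  change star (if _ then _ else _) = if _ then _ else _
  split_ifs <;> simp [h]

theorem f_uni {o : Om7 F} (h : star o.ω = o.ω ^ 6) : o.f ∈ UG I F := uni_of fun i j => by
  have e : star o.G = -o.G := by
    have := o.phi
    simp [o.G_eq, h]; grind
  rw [o.f_inv, Units.val_mul, S7.z, mul_mo, o.f_apply, o.f_apply, star_mul', st_e h, star_div₀, e]
  simp [mul_comm j, neg_div]

theorem gram {o : Om7 F} (hs : star o.ω = o.ω ^ 6) {Q : G7 F}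
    (h : ∀ g ∈ o.R, ∃ c : F, (Q * g * Q⁻¹).valᴴ * (Q * g * Q⁻¹).val = c • 1) :
    ∃ κ : F, κ ≠ 0 ∧ Q.valᴴ * Q.val = κ • 1 := by
  let G : G7 F := mku (Q.valᴴ * Q.val) ((Q⁻¹).val * (Q⁻¹).valᴴ) (by
    rw [mul_assoc, ← mul_assoc Q.val, Units.mul_inv, one_mul, ← conjTranspose_mul, Units.inv_mul, conjTranspose_one])
  have key : ∀ g ∈ o.R, g ∈ UG I F → Cm G g 1 := fun g hg hu => by
    obtain ⟨c, hc⟩ := h g hg
    have e1 : g.valᴴ * G.val * g.val = c • G.val := by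
      have := congrArg (Q.valᴴ * · * Q.val) hc
      simp only [Units.val_mul, conjTranspose_mul, mul_assoc, Units.inv_mul, mul_one, mul_smul_comm, smul_mul_assoc,
        one_mul] at this
      rw [← mul_assoc Q.valᴴ, ← conjTranspose_mul, Units.inv_mul, conjTranspose_one, one_mul] at this
      simpa [G, mku, mul_assoc] using this
    have e2 : Cm G g c := by
      rw [Cm, ← mul_smul_comm, ← e1, ← mul_assoc, ← mul_assoc, UG_mul hu, one_mul]
    have e3 : star c • G.val = c • G.val := by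
      rw [← e1]
      have := congrArg conjTranspose e1
      simpa [G, mku, mul_assoc] using this.symm
    have e4 : star c = c := smul_left_injective F G.ne_zero e3
    obtain ⟨k, rfl⟩ := o.exists_e e2.seven
    rw [st_e hs, o.e_inj] at e4
    rwa [show k = 0 from by_contra fun h => ne_neg h e4.symm, o.e_zero] at e2
  have e := o.sc_of (key _ o.a_mem (mo_uni fun x => (st_e hs x).trans (o.e_neg x))) (key _ o.b_mem (mo_uni (by simp)))
  exact ⟨_, fun e' => G.ne_zero (by rw [e, e', zero_smul]), e⟩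

variable (hs : ∀ x : F, star x = x ^ q)
include hs

theorem top_of (o : Om7 F) {p : ℕ} (hp : p.Prime) [CharP F p]
    (hq : (q = p ∧ p % 7 = 6) ∨ (q = p ^ 3 ∧ (p % 7 = 3 ∨ p % 7 = 5))) (E : Subfield F) (k : I) (hk : k ≠ 0)
    (hE : o.e k + o.e (-k) ∈ E) (x : F) (hx : star x = x) : x ∈ E := by
  have := Fact.mk hp
  rw [hs] at hx
  rcases hq with ⟨rfl, -⟩ | ⟨rfl, h⟩
  · exact bot_le (a := E) ((Subfield.mem_bot_iff_pow_eq_self F q).2 hx)
  have := Fintype.ofFinite E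
  obtain ⟨n, -, hn⟩ := FiniteField.card E p
  rw [Asch.mem_subfield_iff, Nat.card_eq_fintype_card, hn] at hE ⊢
  rw [add_pow_char_pow, o.e_pow, o.e_pow, mul_neg, o.e_neg, o.e_neg] at hE
  have e1 : ((p : I) ^ 2) ^ (n : ℕ) = 1 := by
    have a := o.e_ne k
    have b := o.e_ne ((p ^ (n : ℕ) : ℕ) * k)
    have : o.e ((p ^ (n : ℕ) : ℕ) * k) = o.e k ∨ o.e ((p ^ (n : ℕ) : ℕ) * k) = o.e (-k) := by rw [o.e_neg]; grind
    simp only [o.e_inj, Nat.cast_pow] at this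
    rw [pow_right_comm]
    generalize (p : I) ^ (n : ℕ) = t at this
    clear * - this hk; revert t k; decide
  have := Fact.mk Nat.prime_three
  obtain ⟨m, hm⟩ : 3 ∣ (n : ℕ) := by
    rw [← ZMod.natCast_mod] at e1
    rcases h with h | h <;> rw [h] at e1 <;>
      exact (dvd_of_eq (orderOf_eq_prime (by decide) (by decide)).symm).trans (orderOf_dvd_of_pow_eq_one e1)
  rw [hm, pow_mul]
  clear hm
  induction m with
  | zero => simp
  | succ m ih => rw [pow_succ, pow_mul, ih, hx]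

theorem herm (u v : I → F) : HF F q u v = star v ⬝ᵥ u := by
  change ∑ i : I, u i * v i ^ q = _
  simp [dotProduct, hs, mul_comm]

theorem sim {g : G7 F} {c : F} (h : ∀ u v, HF F q (g.val *ᵥ u) (g.val *ᵥ v) = c * HF F q u v) :
    g.valᴴ * g.val = c • 1 := by
  ext i j
  have := h (Pi.single j 1) (Pi.single i 1)
  rw [herm hs, herm hs, star_mulVec, dotProduct_mulVec, vecMul_vecMul] at this
  simpa [one_apply, Pi.single_apply, eq_comm] using this

theorem mem_SU {g : G7 F} : g ∈ SU7 F q ↔ g ∈ UG I F ∧ g.val.det = 1 := by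
  change (∀ u v, HF F q (g.val *ᵥ u) (g.val *ᵥ v) = HF F q u v) ∧ g ∈ Geo.specialLinear I F ↔ _
  rw [Geo.specialLinear, MonoidHom.mem_ker, Units.ext_iff, GeneralLinearGroup.val_det_apply, Units.val_one]
  exact and_congr_left' ⟨fun h => (sim hs (c := 1) fun u v => (h u v).trans (one_mul _).symm).trans (one_smul _ _),
    fun h u v => by rw [herm hs, herm hs, UG_dot h]⟩

theorem Hyp.final {o : Om7 F} {M : Subgroup (G7 F)} (H : Hyp o M) (hF : Fintype.card F = q ^ 2) (hq : 3 ≤ q)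
    (hi : ∀ Y : Submodule F (I → F), (∀ g ∈ o.R, ∀ y ∈ Y, g.val *ᵥ y ∈ Y) → Y = ⊥ ∨ Y = ⊤) :
    SU7 F q ≤ M ∨ M ≤ Geo.subgroupNormalizer o.R := by
  have un : Un7 (S7 hF) q :=
    ⟨by rw [Nat.card_eq_fintype_card, hF], fun _ => rfl, std_ne hF, std_nondeg hF 7, Module.finrank_fin_fun F⟩
  have m0 : ∀ g : G7 F, g ∈ SU7 F q ↔ toLE g ∈ sisom (S7 hF) := mem_SU_iff hF 7
  have hR : o.R ≤ M := (closure_le _).2 (by rintro _ (rfl | rfl); exacts [H.a, H.b])
  refine H.odd.imp_left fun ⟨d, d0, d1, d2⟩ g hg => (mem_map_iff_mem toLE.injective).1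
    (GC (M := M.map toLE.toMonoidHom) un hq ?_ (fun Y h0 h => (hi Y fun g hg => h _ ⟨_, hR hg, rfl⟩).resolve_left h0) d0
      (H6.SU.ctr_iff.2 ⟨(herm hs _ _).trans d1, fun c hc => ?_⟩) ((m0 g).1 hg))
  · rintro _ ⟨g, hg, rfl⟩
    exact ((m0 g).1 ((mem_SU hs).2 ⟨H.uni hg, H.det g hg⟩)).1
  · obtain ⟨g, g1, g2⟩ := d2 c (by rw [hs]; exact hc)
    exact ⟨_, ⟨g, g1, rfl⟩, fun x => by rw [show (S7 hF).B x d = _ from herm hs _ _, ← tv_mulVec, ← g2]; rfl⟩

theorem es7 (hF : Fintype.card F = q ^ 2) (p : ℕ) (R : Subgroup (G7 F))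
    (hp : p.Prime) (hc : CharP F p) (hq : (q = p ∧ p % 7 = 6) ∨ (q = p ^ 3 ∧ (p % 7 = 3 ∨ p % 7 = 5)))
    (h1 : Geo.IsSymplecticTypeGroup 7 R) (h2 : Geo.ActsAbsolutelyIrreducibly (Geo.matrixSet R))
    (h3 : R ≤ Geo.similarityGroup (HF F q)) (h5 : Nat.card (center R) = 7) :
    Geo.IsMaximalIn (SU7 F q) (Geo.subgroupNormalizer R ⊓ SU7 F q) := by
  have q6 : q % 7 = 6 := by
    rcases hq with ⟨rfl, h⟩ | ⟨rfl, h | h⟩ <;> simp [Nat.pow_mod, h]
  obtain ⟨ω, hω, Q, h⟩ := H2.NF.exists_NF (by decide) h1 h2 h5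
  let o : Om7 F := ⟨ω, hω⟩
  replace h : R.comap (MulAut.conj Q).toMonoidHom = o.R := h o.a (b F) o.a_val rfl
  have st : star o.ω = o.ω ^ 6 := by rw [hs, pow_eq_pow_mod _ o.w7, q6]
  have hR : ∀ g, g ∈ o.R ↔ Q * g * Q⁻¹ ∈ R := fun g => by rw [← h]; rfl
  obtain ⟨κ, k0, k1⟩ := gram st (Q := Q) fun g hg => let ⟨_, hc⟩ := h3 ((hR g).1 hg); ⟨_, sim hs hc⟩
  have hS : ∀ g : G7 F, Q * g * Q⁻¹ ∈ SU7 F q ↔ g ∈ UG I F ∧ g.val.det = 1 := fun g => by
    have e : Q.valᴴ = κ • (Q⁻¹).val := by rw [← one_mul (Q⁻¹).val, ← smul_mul_assoc, ← k1, Units.mul_inv_cancel_right]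
    have e' : (Q⁻¹).valᴴ = κ⁻¹ • Q.val := by
      rw [eq_inv_smul_iff₀ k0, ← Units.mul_left_inj Q⁻¹, smul_mul_assoc, ← mul_smul_comm, ← e, ← conjTranspose_mul,
        Units.mul_inv, conjTranspose_one]
    rw [mem_SU hs, Units.val_mul, Units.val_mul, det_units_conj, mem_UG, mem_UG, Units.val_mul, Units.val_mul,
      conjTranspose_mul, conjTranspose_mul, e, e']
    simp only [smul_mul_assoc, mul_smul_comm, mul_assoc, Units.inv_mul_cancel_left, smul_smul, mul_inv_cancel₀ k0,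
      inv_mul_cancel₀ k0, one_smul]
    rw [← mul_assoc g.valᴴ, Units.mul_eq_one_iff_inv_eq, eq_comm, Units.mul_inv_eq_iff_eq_mul, Units.inv_mul]
  have hN : ∀ g, Q * g * Q⁻¹ ∈ Geo.subgroupNormalizer R ↔ g ∈ Geo.subgroupNormalizer o.R := fun g => by
    rw [← h, Geo.subgroupNormalizer, Geo.subgroupNormalizer,
      ← comap_normalizer_eq_of_surjective _ (MulAut.conj Q).surjective]; rfl
  refine ⟨lt_of_le_of_ne inf_le_right fun e => SU_not_le_subgroupNormalizer (n := 7) hF (by omega) (by omega)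
    factSeven.out h1.pGroup h2 (e.ge.trans inf_le_left), fun M m1 m2 => ?_⟩
  have m : ∀ g ∈ Geo.subgroupNormalizer o.R, g ∈ UG I F → g.val.det = 1 → g ∈ M.comap (MulAut.conj Q).toMonoidHom :=
    fun g a b c => m1 ⟨(hN g).2 a, (hS g).2 ⟨b, c⟩⟩
  have cj : ∀ g : G7 F, g = Q * (Q⁻¹ * g * Q) * Q⁻¹ := fun g => by group
  refine (Hyp.final hs ⟨fun e => ?_, st, top_of hs o hp hq, fun g hg => ((hS g).1 (m2 hg)).2,
    fun g hg => ((hS g).1 (m2 hg)).1,
    m _ (le_normalizer o.a_mem) (mo_uni fun x => (st_e st x).trans (o.e_neg x)) o.det_a,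
    m _ (le_normalizer o.b_mem) (mo_uni (by simp)) det_b,
    m _ o.u_nrm (mo_uni fun x => (st_e st _).trans (o.e_neg _)) o.det_u, m _ o.f_nrm (f_uni st) o.det_f,
    fun k t hk => m _ (o.af_nrm k t hk) (mo_uni fun x => ?_) (det_af k t hk)⟩ hF (by omega) fun Y hY => ?_).symm.imp
    (fun k => le_antisymm (fun g hg => ⟨?_, m2 hg⟩) m1) fun k => le_antisymm m2 fun g hg => ?_
  · obtain rfl := (Nat.prime_dvd_prime_iff_eq hp Nat.prime_two).1 ((CharP.cast_eq_zero_iff F p 2).1 e)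
    omega
  · rcases Int.units_eq_one_or (Equiv.Perm.sign (aff k t hk)) with h | h <;> simp [h]
  · refine (h2.1 (Y.map (toLE Q).toLinearMap) ?_).imp Submodule.map_eq_bot_iff.1 Submodule.map_eq_top_iff.1
    rintro _ ⟨g, hg, rfl⟩ _ ⟨_, ⟨y, hy, rfl⟩, rfl⟩
    exact ⟨_, hY (Q⁻¹ * g * Q) ((hR _).2 (cj g ▸ hg)) y hy, by simp [toLE_apply, mul_assoc]⟩
  · rw [cj g] at hg ⊢
    exact k (x := Q⁻¹ * g * Q) ((mem_SU hs).2 ((hS _).1 hg))
  · rw [cj g] at hg ⊢
    exact (hN _).2 (k (x := Q⁻¹ * g * Q) hg)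

omit hs [StarRing F] in
/-- class six in `SU₇(q)` -/
theorem geo_es7 (hF : Fintype.card F = q ^ 2) (p : ℕ) (R : Subgroup (Matrix.GeneralLinearGroup (Fin 7) F))
    (hp : p.Prime) (hc : CharP F p) (hq : (q = p ∧ p % 7 = 6) ∨ (q = p ^ 3 ∧ (p % 7 = 3 ∨ p % 7 = 5)))
    (h1 : Geo.IsSymplecticTypeGroup 7 R) (h2 : Geo.ActsAbsolutelyIrreducibly (Geo.matrixSet R))
    (h3 : R ≤ Geo.similarityGroup (hermForm 7 F q)) (_h4 : Nat.card R = 343)
    (h5 : Nat.card (Subgroup.center R) = 7) :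
    Geo.IsMaximalIn (GU 7 F q ⊓ Geo.specialLinear (Fin 7) F)
      (Geo.subgroupNormalizer R ⊓ (GU 7 F q ⊓ Geo.specialLinear (Fin 7) F)) :=
  letI := UX.starQ hF
  es7 (fun _ => rfl) hF p R hp hc hq h1 h2 h3 h5

end Cfsg.Agent.H7.U7
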