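import Cfsg.Agent.H7.UXa

/-!
Dickson's theorem for subgroups of the two-dimensional unitary group.
-/

set_option autoImplicit false
set_option linter.unusedSectionVars false
set_option linter.unusedSimpArgs false

namespace Cfsg.Agent.H7.UX

open Subgroup MulAction Cfsg.Agent.H4 Cfsg.Agent.H4.Mob Cfsg.Agent.H4.Dick Cfsg.Agent.H4.MobCard Module
open Cfsg.Agent.H8.L5g (stab_meta meta_of)
open Cfsg.Agent.H8.L5 (mku mk_one)
open scoped commutatorElement Cfsg.Agent.H4.Bar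

section dick
variable {F : Type*} [Field F] [Finite F]

/-- a subfield subgroup -/
def Sub (M : Subgroup (PG F)) : Prop :=
  ∃ (g : PG F) (E : Subfield F), 3 ≤ Nat.card E ∧ PSsub E ≤ Pair.cj g M ∧ Pair.cj g M ≤ PGsub E

theorem dk {M : Subgroup (PG F)} {x : PG F} (hx : x ∈ M) (x5 : x ^ 5 = 1)
    (x1 : x ≠ 1) (hs : ∀ x : P1 F, ¬ M ≤ stabilizer (PG F) x) (hn : ∀ x y, x ≠ y → ¬ M ≤ Bar.Nor x y) :
    Nonempty (M ≃* alternatingGroup (Fin 5)) ∨ Sub M := by
  have key : ∀ n : ℕ, n.Coprime 5 → (⟨x, hx⟩ : M) ^ n ≠ 1 := fun n hn e => x1 (by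
    have := pow_gcd_eq_one.2 ⟨congrArg Subtype.val e, x5⟩
    rwa [hn, pow_one] at this)
  rcases dickson M with ⟨x, hx⟩ | ⟨x, y, hxy, hx⟩ | ⟨-, -, ⟨⟨e⟩⟩ | ⟨⟨e⟩⟩⟩ | ⟨-, -, -, e⟩ | h3
  · exact (hs x hx).elim
  · exact (hn x y hxy.ne hx).elim
  · rcases Small.A4_pow (e ⟨x, hx⟩) with k | k <;> rw [← map_pow, map_eq_one_iff _ e.injective] at k <;>
      exact (key _ (by norm_num) k).elim
  · rcases Small.S4_pow (e ⟨x, hx⟩) with k | k <;> rw [← map_pow, map_eq_one_iff _ e.injective] at k <;>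
      exact (key _ (by norm_num) k).elim
  · exact .inl e
  · exact .inr h3

theorem d5 {M : Subgroup (PG F)} {x : PG F} (hx : x ∈ M) (x5 : x ^ 5 = 1)
    (x1 : x ≠ 1) {r s : F} {h} (h1 : mob r 0 0 s h ∈ M) (hr : r ^ 2 ≠ s ^ 2) {a b c d : F} {h'}
    (h2 : mob a b c d h' ∈ M) (hb : b ≠ 0) (hc : c ≠ 0) (ha : a ≠ 0 ∨ d ≠ 0) :
    Nonempty (M ≃* alternatingGroup (Fin 5)) ∨ Sub M := by
  have hr' : r ≠ s := fun e => hr (by rw [e])
  refine dk hx x5 x1 (fun y hy => ?_) fun y y' hyy hy => ?_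
  · rcases P1_cases y with rfl | ⟨t, rfl⟩
    · exact hc (mob_smul_inf_eq_inf.1 (hy h2))
    · have e1 := mob_smul_pt_eq_pt.1 (hy h1)
      obtain rfl : t = 0 := by
        by_contra t0
        exact hr' (mul_right_cancel₀ t0 (by linear_combination e1))
      exact hb (by simpa using mob_smul_pt_eq_pt.1 (hy h2))
  have e1 := Bar.mul_self_mem_Tor (hy h1)
  have e2 : mob r 0 0 s h * mob r 0 0 s h ≠ 1 := by
    rw [mob_mul, Ne, mob_eq_one]
    exact fun e => hr (by linear_combination e.2.2)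
  have e3 : ∀ w : P1 (Bar.Kb F), (mob r 0 0 s h * mob r 0 0 s h) • w = w → w = inf ∨ w = pt 0 := fun w hw =>
    Bar.fix_eq' e2 (by simp [eq_comm]) (by rw [mob_mul, Bar.inf_inf]; simp) (by rw [mob_mul, Bar.pt_pt]; simp) hw
  have f1 : mob a b c d h' • (inf : P1 (Bar.Kb F)) ≠ inf := fun e => hc (Bar.inf_inf.1 e)
  have f2 : mob a b c d h' • (pt 0 : P1 (Bar.Kb F)) ≠ pt 0 := fun e => hb (by simpa using Bar.pt_pt.1 e)
  have f3 : mob a b c d h' • (inf : P1 (Bar.Kb F)) = pt 0 → mob a b c d h' • (pt 0 : P1 (Bar.Kb F)) ≠ inf :=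
    fun e e' => ha.elim (fun k => k (by simpa using Bar.inf_pt.1 e)) fun k => k (by simpa using Bar.pt_inf.1 e')
  rcases e3 y e1.1 with rfl | rfl <;> rcases e3 y' e1.2 with rfl | rfl
  exacts [hyy rfl, (hy h2).elim (fun e => f1 e.1) fun e => f3 e.1 e.2,
    (hy h2).elim (fun e => f2 e.1) fun e => f3 e.2 e.1, hyy rfl]

theorem simple_of_perfect {M : Subgroup (PG F)} {x : PG F}
    (hx : x ∈ M) (x5 : x ^ 5 = 1) (x1 : x ≠ 1) (hp : ⁅M, M⁆ = M) : IsSimpleGroup M := by
  have hm : ¬ ⁅⁅M, M⁆, ⁅M, M⁆⁆ ≤ ⊥ := fun h => x1 (h (by rwa [hp, hp]))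
  refine (dk hx x5 x1 (fun y hy => hm (stab_meta hy)) fun y y' hyy hy => ?_).elim (fun ⟨e⟩ => ?_) fun h => ?_
  rotate_left
  · have := alternatingGroup.isSimpleGroup (α := Fin 5) (by simp)
    exact e.isSimpleGroup
  · obtain ⟨g, E, h3, h1, h2⟩ := h
    have h4 : 4 ≤ Nat.card E := by
      by_contra hc
      have e1 := pow_card_eq_one' (x := (⟨_, h2 (Pair.conj_mem_cj.2 hx)⟩ : PGsub E))
      rw [← Nat.card_congr (pgSubEquiv E).toEquiv, card_PG, show Nat.card E = 3 by omega] at e1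
      have e2 : x ^ 24 = 1 := by simpa [conj_pow] using congrArg Subtype.val e1
      exact x1 (by simpa using pow_gcd_eq_one.2 ⟨e2, x5⟩)
    have := Matrix.ProjectiveSpecialLinearGroup.rank_two_simple h4
    have h5 : Pair.cj g M ≤ PSsub E := by
      rw [← hp, Pair.cj, map_commutator]
      refine (commutator_mono h2 h2).trans (commutator_le.2 ?_)
      rintro _ ⟨a, rfl⟩ _ ⟨b, rfl⟩
      refine ⟨⁅a, b⁆, ?_, map_commutatorElement ..⟩
      rw [← ker_detSq, SetLike.mem_coe, MonoidHom.mem_ker, map_commutatorElement, commutatorElement_eq_one_iff_mul_comm]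
      exact mul_comm (detSq E a) _
    have := (psSubEquiv E).symm.isSimpleGroup
    exact ((Pair.cjEquiv g M).trans (MulEquiv.subgroupCongr (le_antisymm h5 h1))).isSimpleGroup
  · refine hm (meta_of (fun a ha b hb => Bar.Tor_comm hyy ha hb) fun a ha b hb => ?_)
    replace ha := hy ha
    replace hb := hy hb
    by_cases h1 : a ∈ Bar.Tor y y'
    · have := mul_mem h1 (Bar.conj_mem_Tor hb (inv_mem h1))
      simpa [commutatorElement_def, mul_assoc] using this
    by_cases h3 : b ∈ Bar.Tor y y'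
    · exact mul_mem (Bar.conj_mem_Tor ha h3) (inv_mem h3)
    have := mul_mem (Bar.mul_mem_Tor ha hb h1 h3) (Bar.mul_mem_Tor (inv_mem ha) (inv_mem hb) (by simpa using h1)
      (by simpa using h3))
    simpa [commutatorElement_def, mul_assoc] using this

end dick

open Matrix

variable {F : Type*} [Field F] [StarRing F] [Fintype F]

/-- the special unitary group of degree two -/
def SU2 (F : Type*) [Field F] [StarRing F] : Subgroup (GL (Fin 2) F) := UG 2 F ⊓ Geo.specialLinear (Fin 2) F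

theorem mem_SU2 {g : GL (Fin 2) F} : g ∈ SU2 F ↔ g ∈ UG 2 F ∧ g.val.det = 1 :=
  mem_inf.trans (and_congr_right' (by rw [Geo.specialLinear, MonoidHom.mem_ker, Units.ext_iff,
    GeneralLinearGroup.val_det_apply, Units.val_one]))

/-- the projective unitary group -/
abbrev PU (F : Type*) [Field F] [StarRing F] : Subgroup (PG F) := (UG 2 F).map ProjGenLinGroup.mk
/-- the projective special unitary group -/
abbrev PSU (F : Type*) [Field F] [StarRing F] : Subgroup (PG F) := (SU2 F).map ProjGenLinGroup.mk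

theorem mk_eq_mk {g h : GL (Fin 2) F} : ProjGenLinGroup.mk g = ProjGenLinGroup.mk h ↔ ∃ c : F, g.val = c • h.val := by
  rw [← mul_inv_eq_one, ← map_inv, ← map_mul, mk_one]
  refine exists_congr fun c => ⟨fun e => ?_, fun e => by simp [e]⟩
  simpa using congrArg (· * h.val) e

namespace Om
variable (o : Om F)

/-- the golden ratio -/
theorem gold : (o.ω + o.ω ^ 4) ^ 2 = 1 - (o.ω + o.ω ^ 4) := by have := o.h; grind

/-- the subfields containing the golden ratio contain the fixed field -/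
def Top : Prop := ∀ E : Subfield F, o.ω + o.ω ^ 4 ∈ E → ∀ x, star x = x → x ∈ E

/-- diagonal element of order five -/
def u2 : GL (Fin 2) F := mku !![o.ω, 0; 0, o.ω ^ 4] !![o.ω ^ 4, 0; 0, o.ω] (by
  have := o.w5; ext i j; fin_cases i <;> fin_cases j <;> simp <;> grind)
/-- the Fourier matrix on the negated space -/
def f2 : GL (Fin 2) F := mku (o.s • !![o.ω - o.ω ^ 4, o.ω ^ 2 - o.ω ^ 3; o.ω ^ 2 - o.ω ^ 3, o.ω ^ 4 - o.ω])
  (-o.s • !![o.ω - o.ω ^ 4, o.ω ^ 2 - o.ω ^ 3; o.ω ^ 2 - o.ω ^ 3, o.ω ^ 4 - o.ω]) (by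
  have := o.h; have := o.s2; ext i j; fin_cases i <;> fin_cases j <;> simp <;> grind)

theorem u2_val : o.u2.val = !![o.ω, 0; 0, o.ω ^ 4] := rfl
theorem f2_val : o.f2.val = o.s • !![o.ω - o.ω ^ 4, o.ω ^ 2 - o.ω ^ 3; o.ω ^ 2 - o.ω ^ 3, o.ω ^ 4 - o.ω] := rfl

theorem u2_mem : o.u2 ∈ SU2 F := mem_SU2.2 ⟨uni_of fun i j => by
  have := o.w5
  change star (o.u2.val j i) = o.u2.inv i j
  rw [u2_val, u2, mku]; fin_cases i <;> fin_cases j <;> simp [o.st]; grind, by
  have := o.w5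
  simp [u2_val, det_fin_two]; grind⟩

theorem f2_mem : o.f2 ∈ SU2 F := mem_SU2.2 ⟨uni_of fun i j => by
  have := o.w5
  change star (o.f2.val j i) = o.f2.inv i j
  rw [f2_val, f2, mku]; fin_cases i <;> fin_cases j <;> simp [o.st, o.st_s] <;> grind, by
  have := o.h; have := o.s2
  simp [f2_val, det_fin_two]; grind⟩

theorem n23 : o.ω ^ 2 - o.ω ^ 3 ≠ 0 := sub_ne_zero.2 (o.wne (k := 2) (l := 3) (by norm_num))
theorem n41 : o.ω ^ 4 - o.ω ≠ 0 := by simpa using sub_ne_zero.2 (o.wne (k := 4) (l := 1) (by norm_num))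

theorem u2_mob : ProjGenLinGroup.mk o.u2 = mob o.ω 0 0 (o.ω ^ 4) (by simp [o.w0]) := mk_eq_mob _

theorem u2_five : ProjGenLinGroup.mk o.u2 ^ 5 = 1 ∧ ProjGenLinGroup.mk o.u2 ≠ 1 := by
  rw [u2_mob]
  refine ⟨?_, fun e => o.n41 (by rw [← (mob_eq_one.1 e).2.2, sub_self])⟩
  have := o.w5
  simp only [pow_succ, pow_zero, one_mul, mob_mul, mob_eq_one]
  exact ⟨by ring, by ring, by grind⟩

theorem f2_two : ProjGenLinGroup.mk o.f2 ^ 2 = 1 ∧ ProjGenLinGroup.mk o.f2 ≠ 1 := by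
  refine ⟨?_, fun e => ?_⟩
  · rw [← map_pow, mk_one]
    have := o.h
    have := o.s2
    exact ⟨-1, by rw [sq, Units.val_mul, f2_val]; ext i j; fin_cases i <;> fin_cases j <;> simp <;> grind⟩
  · obtain ⟨c, e⟩ := mk_one.1 e
    simpa [f2_val, o.s0, o.n23] using congrFun (congrFun e 0) 1

theorem sub_psu (ht : o.Top) {Γ : Subgroup (PG F)} (hU : Γ ≤ PU F) (hx : ProjGenLinGroup.mk o.u2 ∈ Γ) (h : Sub Γ) :
    PSU F ≤ Γ ∧ IsSimpleGroup (PSU F) := by
  obtain ⟨g, E, -, h1, h2⟩ := h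
  obtain ⟨G, rfl⟩ := ProjGenLinGroup.mk_surjective g
  have hθ : o.ω + o.ω ^ 4 ∈ E := by
    obtain ⟨a, b, c, d, h, ha, hb, hc, hd, e⟩ := exists_of_mem_PGsub (h2 (Pair.conj_mem_cj.2 hx))
    rw [← map_inv, ← map_mul, ← map_mul, mob, mk_eq_mk] at e
    obtain ⟨l, e⟩ := e
    have e1 := congrArg trace e
    have e2 := congrArg det e
    rw [Units.val_mul, Units.val_mul, trace_units_conj, u2_val] at e1
    rw [Units.val_mul, Units.val_mul, det_units_conj, (mem_SU2.1 o.u2_mem).2] at e2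
    simp [trace_fin_two, det_fin_two] at e1 e2
    have e3 : o.ω + o.ω ^ 4 = 1 - (a + d) ^ 2 / (a * d - b * c) := by
      have := o.gold
      field_simp
      grind
    rw [e3]
    exact sub_mem (one_mem _) (div_mem (pow_mem (add_mem ha hd) 2) (sub_mem (mul_mem ha hd) (mul_mem hb hc)))
  obtain ⟨J, hJ⟩ : ∃ J, J = (G⁻¹).valᴴ * (G⁻¹).val := ⟨_, rfl⟩
  have J0 : J.det ≠ 0 := by
    rw [hJ, det_mul, det_conjTranspose]
    exact mul_ne_zero (star_ne_zero.2 (GeneralLinearGroup.det_ne_zero _)) (GeneralLinearGroup.det_ne_zero _)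
  have Jh : Jᴴ = J := by rw [hJ, conjTranspose_mul, conjTranspose_conjTranspose]
  have uni : ∀ Y : GL (Fin 2) F, G⁻¹ * Y * G ∈ UG 2 F ↔ Y.valᴴ * J * Y.val = J := fun Y => by
    rw [mem_UG, hJ]
    refine ⟨fun e => ?_, fun e => ?_⟩
    · have := congrArg ((G⁻¹).valᴴ * · * (G⁻¹).val) e
      simp only [Units.val_mul, conjTranspose_mul, mul_assoc, Units.mul_inv, mul_one, one_mul] at this
      rw [← mul_assoc _ G.valᴴ, ← conjTranspose_mul, Units.mul_inv, conjTranspose_one, one_mul] at this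
      simpa only [mul_assoc] using this
    · have := congrArg (G.valᴴ * · * G.val) e
      simp only [mul_assoc, Units.inv_mul, mul_one] at this
      rw [← conjTranspose_mul, Units.inv_mul, conjTranspose_one] at this
      simpa only [Units.val_mul, conjTranspose_mul, mul_assoc] using this
  have pres : ∀ {a b c d : F} {h}, mob a b c d h ∈ PSsub E → ∃ n : F, n • (!![a, b; c, d]ᴴ * J * !![a, b; c, d]) = J := by
    intro a b c d h hm
    obtain ⟨k, k1, k2⟩ := hU (Pair.mem_cj.1 (h1 hm))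
    rw [mob, ← map_inv, ← map_mul, ← map_mul, mk_eq_mk] at k2
    obtain ⟨l, k2⟩ := k2
    have e : (G * k * G⁻¹).val = l • !![a, b; c, d] := by
      rw [Units.val_mul, Units.val_mul, k2, mul_smul_comm, smul_mul_assoc, ← Units.val_mul, ← Units.val_mul, ← mat_val a b c d h]
      congr 2; group
    have := (uni (G * k * G⁻¹)).1 (by simpa [mul_assoc] using k1)
    rw [e, conjTranspose_smul, smul_mul_assoc, smul_mul_smul_comm] at this
    exact ⟨_, this⟩
  obtain ⟨j0, j1, j2, j3, rfl⟩ : ∃ j0 j1 j2 j3, J = !![j0, j1; j2, j3] := ⟨_, _, _, _, eta_fin_two J⟩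
  have J1 : star j2 = j1 := by simpa using congrFun (congrFun Jh 0) 1
  rw [det_fin_two_of] at J0
  have up : ∀ t ∈ E, j0 * t = 0 ∧ star t * j1 + (star t * j0 + j2) * t = 0 := fun t ht => by
    obtain ⟨n, e⟩ := pres (tr_mem_PSsub ht)
    have := fun i j => congrFun (congrFun e i) j
    simp [Fin.forall_fin_two, mul_apply, conjTranspose_apply] at this
    grind
  obtain rfl : j0 = 0 := by simpa using (up 1 (one_mem _)).1
  obtain rfl : j3 = 0 := by
    obtain ⟨n, e⟩ := pres (mob_mem_PSsub (E := E) (a := 1) (b := 0) (c := 1) (d := 1) (s := 1) (h := by simp)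
      (one_mem _) (zero_mem _) (one_mem _) (one_mem _) (one_mem _) (by simp))
    have := fun i j => congrFun (congrFun e i) j
    simp [Fin.forall_fin_two, mul_apply, conjTranspose_apply] at this
    grind
  obtain rfl : j2 = -j1 := by have := (up 1 (one_mem _)).2; simp at this; grind
  have fix : ∀ t ∈ E, star t = t := fun t ht => by have := (up t ht).2; grind
  have key : Pair.cj (ProjGenLinGroup.mk G) (PSU F) = PSsub E := by
    ext x
    rw [Pair.mem_cj]
    refine ⟨fun ⟨s, s1, s2⟩ => ?_, fun hx => ?_⟩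
    · obtain ⟨s1, s3⟩ := mem_SU2.1 s1
      have e : x = ProjGenLinGroup.mk (G * s * G⁻¹) := by rw [map_mul, map_mul, s2, map_inv]; group
      have e1 := (uni (G * s * G⁻¹)).1 (by simpa [mul_assoc] using s1)
      have e2 : (G * s * G⁻¹).val.det = 1 := by rw [Units.val_mul, Units.val_mul, det_units_conj, s3]
      rw [e, mk_eq_mob]
      generalize G * s * G⁻¹ = Y at e1 e2
      have := fun i j => congrFun (congrFun e1 i) j
      rw [det_fin_two] at e2
      simp [Fin.forall_fin_two, mul_apply, conjTranspose_apply] at this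
      exact mob_mem_PSsub (s := 1) (ht E hθ _ (by grind)) (ht E hθ _ (by grind)) (ht E hθ _ (by grind))
        (ht E hθ _ (by grind)) (one_mem _) (by simpa using e2)
    · obtain ⟨a, b, c, d, h, ha, hb, hc, hd, rfl⟩ := exists_of_mem_PSsub hx
      refine ⟨G⁻¹ * mat a b c d (h ▸ one_ne_zero) * G, mem_SU2.2 ⟨(uni _).2 ?_, ?_⟩, by simp [mob]⟩
      · ext i j
        fin_cases i <;> fin_cases j <;> simp [mul_apply, conjTranspose_apply, fix _ ha, fix _ hb, fix _ hc, fix _ hd] <;>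
          grind
      · rw [Units.val_mul, Units.val_mul, det_units_conj']; simpa [det_fin_two] using h
  refine ⟨Pair.cj_le_cj.1 (key ▸ h1), ?_⟩
  have h4 : 4 ≤ Nat.card E := by
    classical
    have := o.gold
    have hc : ({0, 1, ⟨_, hθ⟩, 1 - ⟨_, hθ⟩} : Finset E).card = 4 := by
      generalize o.ω + o.ω ^ 4 = θ at *
      rw [Finset.card_eq_four]
      refine ⟨_, _, _, _, ?_, ?_, ?_, ?_, ?_, ?_, rfl⟩ <;> intro e <;> have := congrArg Subtype.val e <;> simp at this <;>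
        have := o.h5 <;> grind
    rw [← hc, Nat.card_eq_fintype_card]
    exact Finset.card_le_univ _
  have := Matrix.ProjectiveSpecialLinearGroup.rank_two_simple h4
  have := (psSubEquiv E).symm.isSimpleGroup
  exact ((Pair.cjEquiv _ _).trans (MulEquiv.subgroupCongr key)).isSimpleGroup

theorem udick (ht : o.Top) {Γ : Subgroup (PG F)} (hU : Γ ≤ PU F) (hx : ProjGenLinGroup.mk o.u2 ∈ Γ) {a b c d : F} {h}
    (h2 : mob a b c d h ∈ Γ) (hb : b ≠ 0) (hc : c ≠ 0) (ha : a ≠ 0 ∨ d ≠ 0) :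
    Nonempty (Γ ≃* alternatingGroup (Fin 5)) ∨ PSU F ≤ Γ ∧ IsSimpleGroup (PSU F) :=
  (d5 hx o.u2_five.1 o.u2_five.2 (o.u2_mob ▸ hx) (by rw [← pow_mul]; exact o.wne (by norm_num)) h2 hb hc ha).imp_right
    (o.sub_psu ht hU hx)

include o in
theorem nrm_psu (hs : IsSimpleGroup (PSU F)) {N : Subgroup (PG F)} (hN : N ≤ PU F)
    (hn : ∀ s ∈ PSU F, ∀ x ∈ N, s * x * s⁻¹ ∈ N) : N = ⊥ ∨ PSU F ≤ N := by
  have : (N.subgroupOf (PSU F)).Normal := ⟨fun x hx s => hn s s.2 x hx⟩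
  refine this.eq_bot_or_eq_top.imp (fun h => (eq_bot_iff_forall _).2 fun x hx => ?_) subgroupOf_eq_top.1
  obtain ⟨k, k1, rfl⟩ := hN hx
  have key : ∀ s ∈ SU2 F, ∃ c : F, k.val * s.val = c • (s.val * k.val) := fun s hs => by
    have m : k * s * k⁻¹ * s⁻¹ ∈ SU2 F := mul_mem (mem_SU2.2 ⟨mul_mem (mul_mem k1 hs.1) (inv_mem k1), by
      rw [Units.val_mul, Units.val_mul, det_units_conj, (mem_SU2.1 hs).2]⟩) (inv_mem hs)
    have := congrArg Subtype.val ((eq_bot_iff_forall _).1 h ⟨_, _, m, rfl⟩ (by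
      have := mul_mem hx (hn _ ⟨s, hs, rfl⟩ _ (inv_mem hx))
      simpa [mem_subgroupOf, mul_assoc] using this))
    change ProjGenLinGroup.mk (k * s * k⁻¹ * s⁻¹) = 1 at this
    rw [mul_assoc, ← _root_.mul_inv_rev, map_mul, map_inv, mul_inv_eq_one, mk_eq_mk] at this
    exact this
  obtain ⟨c, e1⟩ := key _ o.u2_mem
  obtain ⟨c', e2⟩ := key _ o.f2_mem
  have a0 := gl_det_ne k
  have a1 := fun i j => congrFun (congrFun e1 i) j
  have a2 := fun i j => congrFun (congrFun e2 i) j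
  have a3 := congrArg det e1
  have := o.w0
  have := o.w5
  have := o.n23
  have := o.n41
  have := o.s0
  have := o.w1
  simp [Fin.forall_fin_two, mul_apply, u2_val, f2_val, vecMul, dotProduct] at a1 a2
  rw [det_smul, det_mul, det_mul, mul_comm o.u2.val.det, eq_comm, mul_eq_right₀ (mul_ne_zero
    (GeneralLinearGroup.det_ne_zero _) (GeneralLinearGroup.det_ne_zero _)), Fintype.card_fin] at a3
  have b1 : k.val 0 1 = 0 := by clear * - a1 a3 this o; have := o.w5; have := o.w0; grind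
  have b2 : k.val 1 0 = 0 := by clear * - a1 a3 this o; have := o.w5; have := o.w0; grind
  rw [mk_eq_mob, mob_eq_one]
  simp only [b1, b2] at a0 a2
  have b3 : k.val 1 1 ≠ 0 := fun e => a0 (by simp [e])
  obtain rfl : 1 = c' := mul_right_cancel₀ (mul_ne_zero (mul_ne_zero o.s0 o.n41) b3) (by linear_combination a2.2.2)
  exact ⟨b1, b2, mul_right_cancel₀ (mul_ne_zero o.s0 o.n23) (by linear_combination a2.1.2)⟩

end Om

end Cfsg.Agent.H7.UX
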