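import Cfsg.Agent.H7.UXb

/-!
Unitary overgroups of the normaliser of the extraspecial group of order `125`: the centraliser of an element of
order five.
-/

set_option autoImplicit false
set_option linter.unusedSectionVars false
set_option linter.unusedSimpArgs false

namespace Cfsg.Agent.H7.UX

open Matrix Subgroup Om Cfsg.Agent.H4 Cfsg.Agent.H4.Mob Cfsg.Agent.H4.MobCard Cfsg.Agent.Asch
open Cfsg.Agent.H8.L5 hiding res res_val Hyp Big Cu mem_Cu r0 r1 r2 r0_val r1_val r2_val blk blk'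
open Cfsg.Agent.H8.L5.Om5 (b z b_val z_val zz zb)
open Cfsg.Agent.H8.L5g (a5_cent)
open scoped commutatorElement

variable {F : Type*} [Field F] [StarRing F] [Fintype F]

/-- the standing hypotheses -/
structure Hyp (o : Om F) (M : Subgroup (G5 F)) : Prop where
  top : o.Top
  det : ∀ g ∈ M, g.val.det = 1
  uni : M ≤ UG 5 F
  a : o.a ∈ M
  b : b F ∈ M
  u : o.u ∈ M
  f : o.f ∈ M
  w : w F ∈ M

/-- the group contains a full root subgroup -/
def Big (M : Subgroup (G5 F)) : Prop :=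
  ∃ d : Fin 5 → F, d ≠ 0 ∧ star d ⬝ᵥ d = 0 ∧ ∀ c, c + star c = 0 → ∃ g ∈ M, g.val = tv d c

variable {o : Om F} {M : Subgroup (G5 F)}

theorem blk {g : G5 F} (h : g * o.u = o.u * g) : g.val = !![g.val 0 0, 0, 0, 0, 0; 0, g.val 1 1, 0, 0, g.val 1 4;
    0, 0, g.val 2 2, g.val 2 3, 0; 0, 0, g.val 3 2, g.val 3 3, 0; 0, g.val 4 1, 0, 0, g.val 4 4] := by
  have e : ∀ i j, (g.val * o.u.val) i j = (o.u.val * g.val) i j := fun i j =>
    by rw [← Units.val_mul, h, Units.val_mul]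
  simp only [u_val, mul_diagonal, diagonal_mul] at e
  have h1 := o.w1
  have h2 := o.wne (k := 4) (l := 0) (by norm_num)
  have h3 := o.wne (k := 4) (l := 1) (by norm_num)
  ext i j
  have h4 := e i j
  clear e
  fin_cases i <;> fin_cases j <;> simp at h4 ⊢ <;> grind

/-- the centraliser of `u` -/
def Cu (o : Om F) (M : Subgroup (G5 F)) : Subgroup (G5 F) := M ⊓ centralizer {o.u}

theorem mem_Cu {g : G5 F} : g ∈ Cu o M ↔ g ∈ M ∧ g * o.u = o.u * g := and_congr_right' mem_centralizer_singleton_iff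

/-- first block -/
def r0 (o : Om F) (M : Subgroup (G5 F)) : Cu o M →* GL (Fin 1) F := res (P := !![1; 0; 0; 0; 0])
  (Q := !![1, 0, 0, 0, 0]) (by mx5) _ fun g hg => by rw [blk (mem_Cu.1 hg).2]; mx5
/-- second block -/
def r1 (o : Om F) (M : Subgroup (G5 F)) : Cu o M →* GL (Fin 2) F := res (P := !![0, 0; 1, 0; 0, 0; 0, 0; 0, 1])
  (Q := !![0, 1, 0, 0, 0; 0, 0, 0, 0, 1]) (by mx5) _ fun g hg => by rw [blk (mem_Cu.1 hg).2]; mx5
/-- third block -/
def r2 (o : Om F) (M : Subgroup (G5 F)) : Cu o M →* GL (Fin 2) F := res (P := !![0, 0; 0, 0; 1, 0; 0, 1; 0, 0])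
  (Q := !![0, 0, 1, 0, 0; 0, 0, 0, 1, 0]) (by mx5) _ fun g hg => by rw [blk (mem_Cu.1 hg).2]; mx5

theorem r0_val (g : Cu o M) : (r0 o M g).val = !![g.1.val 0 0] := by rw [r0, res_val]; mx5
theorem r1_val (g : Cu o M) : (r1 o M g).val = !![g.1.val 1 1, g.1.val 1 4; g.1.val 4 1, g.1.val 4 4] := by
  rw [r1, res_val]; mx5
theorem r2_val (g : Cu o M) : (r2 o M g).val = !![g.1.val 2 2, g.1.val 2 3; g.1.val 3 2, g.1.val 3 3] := by
  rw [r2, res_val]; mx5

theorem blk' (g : Cu o M) {x a b c d a' b' c' d' : F} (h0 : (r0 o M g).val = !![x]) (h1 : (r1 o M g).val = !![a, b; c, d])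
    (h2 : (r2 o M g).val = !![a', b'; c', d']) :
    g.1.val = !![x, 0, 0, 0, 0; 0, a, 0, 0, b; 0, 0, a', b', 0; 0, 0, c', d', 0; 0, c, 0, 0, d] := by
  have e0 := congrFun (congrFun h0 0) 0
  have e1 := fun i j => congrFun (congrFun h1 i) j
  have e2 := fun i j => congrFun (congrFun h2 i) j
  simp only [r0_val, r1_val, r2_val, Fin.forall_fin_two] at e0 e1 e2
  simp at e0 e1 e2
  rw [blk (mem_Cu.1 g.2).2]
  simp [*]

theorem pow_sc {n : ℕ} {g : GL (Fin (n + 1)) F} {X : Matrix _ _ F} {c : F} (h : g.val = c • X) :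
    (g ^ ((Fintype.card F - 1) * (Fintype.card F - 1))).val = X ^ ((Fintype.card F - 1) * (Fintype.card F - 1)) := by
  have c0 : c ≠ 0 := by rintro rfl; exact g.ne_zero (h.trans (zero_smul _ _))
  rw [Units.val_pow_eq_pow_val, h, _root_.smul_pow, pow_mul c, FiniteField.pow_card_sub_one_eq_one c c0, one_pow, one_smul]

theorem cast_sq : (((Fintype.card F - 1) * (Fintype.card F - 1) : ℕ) : F) = 1 := by
  rw [Nat.cast_mul, Nat.cast_pred Fintype.card_pos, FiniteField.cast_card_eq_zero]; simp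

/-- the swap -/
def sw (F : Type*) [Field F] : GL (Fin 2) F := mku !![0, 1; 1, 0] !![0, 1; 1, 0] (by mx5)
theorem sw_val : (sw F).val = !![0, 1; 1, 0] := rfl
theorem sw_inv : (sw F)⁻¹ = sw F := rfl

theorem tv_apply {n : ℕ} (d : Fin n → F) (c : F) (i j : Fin n) :
    tv d c i j = (if i = j then 1 else 0) + c * (d i * star (d j)) := by simp [tv, vecMulVec_apply, one_apply]

/-- symmetric circulant matrices -/
def cc (x y : F) : Matrix (Fin 2) (Fin 2) F := (2⁻¹ : F) • !![x + y, x - y; x - y, x + y]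

theorem cc_mul (h2 : (2 : F) ≠ 0) (x y x' y' : F) : cc x y * cc x' y' = cc (x * x') (y * y') := by
  rw [cc, cc, cc]; mx5

theorem cc_of (h2 : (2 : F) ≠ 0) {X : Matrix (Fin 2) (Fin 2) F} {l x y : F}
    (e1 : X * (sw F).val = l • ((sw F).val * X)) (e2 : X.trace = x + y) (e3 : X.det = x * y) (h : x + y ≠ 0) :
    X = cc x y ∨ X = cc y x := by
  obtain ⟨x1, x2, x3, x4, rfl⟩ : ∃ x1 x2 x3 x4, X = !![x1, x2; x3, x4] := ⟨_, _, _, _, eta_fin_two _⟩
  have e5 := fun i j => congrFun (congrFun e1 i) j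
  simp [sw_val, Fin.forall_fin_two, trace_fin_two, det_fin_two] at e5 e2 e3
  have l1 : l = 1 := by grind
  have e6 : 2 * x2 = x - y ∨ 2 * x2 = -(x - y) := sq_eq_sq_iff_eq_or_eq_neg.1 (by grind)
  refine e6.imp (fun e => ?_) fun e => ?_ <;> rw [cc] <;> mx5

theorem cc_conj (h2 : (2 : F) ≠ 0) {α : F} (hα : α * star α = 2⁻¹) (x y : F) :
    !![α, -star α; α, star α] * !![x, 0; 0, y] * !![star α, star α; -α, α] = cc x y := by rw [cc]; mx5

theorem cc_sw (x y : F) : cc x y * (sw F).val = (sw F).val * cc x y := by rw [sw_val, cc]; mx5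

namespace Hyp
variable (H : Hyp o M)
include H

theorem z : z F ∈ M := o.ff ▸ mul_mem H.f H.f

theorem r1_uni (g : Cu o M) : r1 o M g ∈ UG 2 F := by
  have := res_form (by mx5) _ (fun g hg => by rw [blk (mem_Cu.1 hg).2]; mx5) g (H.uni g.2.1) (P := !![0, 0; 1, 0; 0, 0; 0, 0; 0, 1])
    (Q := !![0, 1, 0, 0, 0; 0, 0, 0, 0, 1])
  rwa [show (!![0, 0; 1, 0; 0, 0; 0, 0; 0, 1] : Matrix _ _ F)ᴴ * (!![0, 0; 1, 0; 0, 0; 0, 0; 0, 1] : Matrix _ _ F) = 1 by
    ext i j; rw [mul_apply]; simp only [conjTranspose_apply]; fin_cases i <;> fin_cases j <;> simp [Fin.sum_univ_succ],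
    mul_one] at this

theorem aC : o.a ∈ Cu o M := mem_Cu.2 ⟨H.a, o.ua.symm⟩
theorem zC : Om5.z F ∈ Cu o M := mem_Cu.2 ⟨H.z, o.zu⟩

/-- conjugation by the monomial element -/
def wc (g : Cu o M) : Cu o M := ⟨UX.w F * g * (UX.w F)⁻¹, mem_Cu.2 ⟨mul_mem (mul_mem H.w g.2.1) (inv_mem H.w), by
  have e1 : o.u = UX.w F * o.u⁻¹ * (UX.w F)⁻¹ := by rw [eq_mul_inv_iff_mul_eq, eq_mul_inv_iff_mul_eq, o.wu]
  rw [e1, conj_mul, conj_mul, (Commute.inv_right (mem_Cu.1 g.2).2).eq]⟩⟩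

theorem wc_val (g : Cu o M) : (H.wc g).1.val = (UX.w F).val * g.1.val * ((UX.w F)⁻¹).val := rfl

theorem wc2 (g : Cu o M) : r2 o M (H.wc g) = r1 o M g := Units.ext (by
  rw [r2_val, r1_val, wc_val, w_val, w_inv]; mx5)
theorem wc1 (g : Cu o M) : r1 o M (H.wc g) = sw F * r2 o M g * sw F := Units.ext (by
  rw [Units.val_mul, Units.val_mul, r2_val, r1_val, wc_val, w_val, w_inv, sw_val]; mx5)
theorem z1 : r1 o M ⟨_, H.zC⟩ = sw F := Units.ext (by rw [r1_val, z_val, sw_val]; mx5)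
theorem z2 : r2 o M ⟨_, H.zC⟩ = sw F := Units.ext (by rw [r2_val, z_val, sw_val]; mx5)
theorem a1 : r1 o M ⟨_, H.aC⟩ = o.u2 := Units.ext (by rw [r1_val, a_val, u2_val]; mx5)
theorem a2 : (r2 o M ⟨_, H.aC⟩).val = !![o.ω ^ 2, 0; 0, o.ω ^ 3] := by rw [r2_val, a_val]; mx5

omit H in
theorem cu0 (hN : PSU F ≤ (ProjGenLinGroup.mk.comp (r2 o M)).ker.map (ProjGenLinGroup.mk.comp (r1 o M))) :
    Big M := by
  obtain ⟨l, hl⟩ := o.exists_norm (c := -1) (by simp)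
  have d0 : star ![1, l] ⬝ᵥ ![1, l] = 0 := by simp [dotProduct, -dotProduct_cons, mul_comm, hl]
  refine ⟨![0, 1, 0, 0, l], by simp, by simp [dotProduct, Fin.sum_univ_succ, mul_comm, hl], fun c hc => ?_⟩
  obtain ⟨x, x2, x1⟩ := hN ⟨tu _ d0 c, mem_SU2.2 ⟨tu_uni d0 hc, tv_det d0 c⟩, rfl⟩
  obtain ⟨μ, x1⟩ := mk_eq_mk.1 x1
  obtain ⟨ν, x2⟩ := mk_one.1 x2
  have x0 : (r0 o M x).val = x.1.val 0 0 • 1 := by rw [r0_val]; mx5
  have y0 := pow_sc x0
  have y1 := pow_sc x1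
  have y2 := pow_sc x2
  rw [tu_val, tv_pow d0, cast_sq, one_mul] at y1
  rw [← map_pow, one_pow] at y0 y2
  rw [← map_pow] at y1
  refine ⟨_, (x ^ _).2.1, (blk' _ (x := 1) (y0.trans (by mx5)) (y1.trans (eta_fin_two _)) (y2.trans one_fin_two)).trans ?_⟩
  ext i j; simp only [tv_apply]; fin_cases i <;> fin_cases j <;> simp

theorem cu (h2 : (2 : F) ≠ 0) (hs : IsSimpleGroup (PSU F)) (h : PSU F ≤ (ProjGenLinGroup.mk.comp (r1 o M)).range) :
    Big M := by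
  rcases o.nrm_psu hs (N := (ProjGenLinGroup.mk.comp (r2 o M)).ker.map (ProjGenLinGroup.mk.comp (r1 o M)))
    (by rintro _ ⟨x, -, rfl⟩; exact ⟨_, H.r1_uni x, rfl⟩) (by
      rintro s hs _ ⟨x, hx, rfl⟩
      obtain ⟨y, rfl⟩ := h hs
      exact ⟨y * x * y⁻¹, (MonoidHom.normal_ker _).conj_mem x hx y, by simp⟩) with hN | hN
  swap
  · exact cu0 hN
  exfalso
  have hB : ∀ x, IsSc (r1 o M x).val → IsSc (r2 o M x).val := fun x hx => by
    obtain ⟨c, e⟩ := mk_one.1 ((eq_bot_iff_forall _).1 hN _ ⟨H.wc x, mk_one.2 (by rwa [H.wc2]), rfl⟩)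
    refine ⟨c, ?_⟩
    have := congrArg ((sw F).val * · * (sw F).val) e
    simp only [H.wc1, Units.val_mul, mul_assoc, mul_smul_comm, smul_mul_assoc, one_mul] at this
    rwa [← mul_assoc, show (sw F).val * (sw F).val = 1 from (sw F).val_inv, one_mul, mul_one] at this
  obtain ⟨α, hα⟩ := o.exists_norm (c := 2⁻¹) (by simp)
  let g : GL (Fin 2) F := mku !![α, -star α; α, star α] !![star α, star α; -α, α] (by mx5)
  obtain ⟨y, hy⟩ := h ⟨g, mem_SU2.2 ⟨uni_of fun i j => by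
    change star (!![α, -star α; α, star α] j i) = !![star α, star α; -α, α] i j
    fin_cases i <;> fin_cases j <;> simp, by simp [g, mku, det_fin_two]; grind⟩, rfl⟩
  obtain ⟨t, ht⟩ : ∃ t, t = y * ⟨_, H.aC⟩ * y⁻¹ := ⟨_, rfl⟩
  have t1 : (r1 o M t).val = cc o.ω (o.ω ^ 4) := by
    obtain ⟨μ, e⟩ := mk_eq_mk.1 hy
    have e1 : r1 o M t * g = g * o.u2 := by
      have e2 : IsSc (r1 o M y * g⁻¹).val := ⟨μ, by rw [Units.val_mul, e, smul_mul_assoc, Units.mul_inv]⟩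
      have e3 := sc_comm e2 (g * o.u2 * g⁻¹)
      rw [ht, map_mul, map_mul, map_inv, H.a1]
      calc _ = r1 o M y * g⁻¹ * (g * o.u2 * g⁻¹) * (g * (r1 o M y)⁻¹) * g := by group
        _ = _ := by rw [e3]; group
    rw [eq_mul_inv_of_mul_eq e1, Units.val_mul, Units.val_mul, u2_val]
    exact cc_conj h2 hα _ _
  have t5 : r1 o M t ^ 5 = 1 := by
    rw [← map_pow, ht, conj_pow, show (⟨_, H.aC⟩ : Cu o M) ^ 5 = 1 from Subtype.ext o.a5]; simp
  have c1 : r1 o M t * sw F = sw F * r1 o M t := Units.ext (by rw [Units.val_mul, Units.val_mul, t1, cc_sw])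
  obtain ⟨l, e⟩ := hB (t * ⟨_, H.zC⟩ * (⟨_, H.zC⟩ * t)⁻¹) ⟨1, by rw [map_mul, map_inv, map_mul, map_mul, H.z1, c1]; simp⟩
  have e1 : (r2 o M t).val * (sw F).val = l • ((sw F).val * (r2 o M t).val) := by
    have := congrArg (· * (r2 o M (⟨_, H.zC⟩ * t)).val) e
    simp only [← Units.val_mul, ← map_mul, inv_mul_cancel_right] at this
    simpa [H.z2] using this
  have e2 : (r2 o M t).val.trace = o.ω ^ 2 + o.ω ^ 3 := by
    rw [ht, map_mul, map_mul, map_inv, Units.val_mul, Units.val_mul, trace_units_conj, H.a2]; simp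
  have e3 : (r2 o M t).val.det = 1 := by
    rw [ht, map_mul, map_mul, map_inv, Units.val_mul, Units.val_mul, det_units_conj, H.a2]; simp [← pow_add, o.w5]
  obtain ⟨j, hj, e4⟩ : ∃ j, (j = 2 ∨ j = 3) ∧ r2 o M t = r1 o M t ^ j := by
    have := o.h
    rcases cc_of h2 e1 e2 (e3.trans (by grind)) (by grind) with e4 | e4
    · exact ⟨2, .inl rfl, Units.ext (by rw [sq, Units.val_mul, t1, e4, cc_mul h2]; congr 1 <;> grind)⟩
    · exact ⟨3, .inr rfl, Units.ext (by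
        rw [pow_three, Units.val_mul, Units.val_mul, t1, e4, cc_mul h2, cc_mul h2]; congr 1 <;> grind)⟩
  obtain ⟨l, e5⟩ := hB (H.wc t * (t ^ j)⁻¹) ⟨1, by
    rw [map_mul, map_inv, map_pow, H.wc1, e4, ← (Commute.pow_left c1 j).eq, mul_assoc _ (sw F) (sw F),
      show sw F * sw F = 1 from mul_inv_cancel (sw F)]; simp⟩
  have e6 : r2 o M (H.wc t * (t ^ j)⁻¹) = r1 o M t * r1 o M t := by
    rw [map_mul, map_inv, map_pow, H.wc2, e4, ← pow_mul, mul_right_inj, inv_eq_iff_mul_eq_one, ← pow_succ]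
    rcases hj with rfl | rfl
    exacts [t5, by rw [show 3 * 3 + 1 = 5 * 2 by rfl, pow_mul, t5, one_pow]]
  have := congrFun (congrFun e5 0) 1
  rw [e6, Units.val_mul, t1, cc_mul h2, cc] at this
  simp [h2] at this
  have := o.w5
  exact o.n23 (by grind)

theorem key (h2 : (2 : F) ≠ 0) {k : G5 F} (hk : k ∈ M) {x α β α' β' : F} (e : k.val = !![x, 0, 0, 0, 0; 0, α, 0, 0, β;
    0, 0, α', β', 0; 0, 0, β', α', 0; 0, β, 0, 0, α]) (hα : α ≠ 0) (hβ : β ≠ 0) : Big M := by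
  have m0 : k ∈ Cu o M := mem_Cu.2 ⟨hk, Units.ext (by rw [Units.val_mul, Units.val_mul, e, u_val]; mx5)⟩
  have mB : ∀ x {a b c d h}, (r1 o M x).val = !![a, b; c, d] →
      mob a b c d h ∈ (ProjGenLinGroup.mk.comp (r1 o M)).range := fun x a b c d h e =>
    ⟨x, (mk_eq_mob _).trans (mob_congr (by simp [e]) (by simp [e]) (by simp [e]) (by simp [e]))⟩
  have e1 : (r1 o M ⟨k, m0⟩).val = !![α, β; β, α] := by rw [r1_val, e]; mx5
  have m2 := mB _ (h := by simpa [e1] using gl_det_ne (r1 o M ⟨k, m0⟩)) e1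
  have m3 := mB ⟨_, H.zC⟩ (a := 0) (b := 1) (c := 1) (d := 0) (h := by simp) (by rw [H.z1, sw_val])
  refine (o.udick H.top (Γ := (ProjGenLinGroup.mk.comp (r1 o M)).range) (by rintro _ ⟨x, rfl⟩; exact ⟨_, H.r1_uni x, rfl⟩) ⟨⟨_, H.aC⟩, congrArg _ H.a1⟩ m2 hβ hβ
    (.inl hα)).elim (fun ⟨e⟩ => ?_) fun h => H.cu h2 h.2 h.1
  have := congrArg Subtype.val (a5_cent e (x := ⟨_, m3⟩) (y := ⟨_, m2⟩)
    (Subtype.ext (by simp [sq, mob_mul, mob_eq_one])) (fun e => by simpa [mob_eq_one] using congrArg Subtype.val e)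
    (Subtype.ext (by simp [mob_mul])))
  simp only [sq, coe_mul, mob_mul, coe_one, mob_eq_one] at this
  exact (mul_ne_zero h2 (mul_ne_zero hα hβ) (by linear_combination this.1)).elim

end Hyp

end Cfsg.Agent.H7.UX
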