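import Cfsg.Agent.H7.UXc

/-!
Unitary overgroups of the normaliser of the extraspecial group of order `125`: the centraliser of the involution.
-/

set_option autoImplicit false
set_option linter.unusedSectionVars false
set_option linter.unusedSimpArgs false

namespace Cfsg.Agent.H7.UX

open Matrix Subgroup Om Cfsg.Agent.H4 Cfsg.Agent.H4.Mob Cfsg.Agent.H4.MobCard Cfsg.Agent.Asch Cfsg.Agent.H5
open Cfsg.Agent.H8.L5 hiding res res_val Hyp Big Cu mem_Cu r0 r1 r2 r0_val r1_val r2_val blk blk' rm rp pm rm_val rp_val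
open Cfsg.Agent.H8.L5.Om5 (b z b_val z_val zz zb)
open Cfsg.Agent.H8.L5g (odd_of_isol comm_mod)
open scoped commutatorElement

universe v
variable {F : Type v} [Field F] [StarRing F] [Fintype F]

/-- coordinates on the commutator space -/
def Q1 (F : Type v) [Field F] : Matrix (Fin 2) (Fin 5) F := !![0, 1, 0, 0, 0; 0, 0, 1, 0, 0]

theorem Q1P : Q1 F * Pm F = 1 := by rw [Q1, Pm]; mx5
theorem Pm_ct : (Pm F)ᴴ = (Pm F)ᵀ := by
  ext i j; rw [conjTranspose_apply, transpose_apply, Pm]; fin_cases i <;> fin_cases j <;> simp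
theorem Q1_ct : (Q1 F)ᴴ = (Q1 F)ᵀ := by
  ext i j; rw [conjTranspose_apply, transpose_apply, Q1]; fin_cases i <;> fin_cases j <;> simp
theorem Pm_tr : (Pm F)ᵀ = !![0, 1, 0, 0, -1; 0, 0, 1, -1, 0] := by
  ext i j; rw [transpose_apply, Pm]; fin_cases i <;> fin_cases j <;> simp
theorem PP : Pm F * (Pm F)ᴴ = 1 - (z F).val := by rw [Pm_ct, Pm_tr, Pm, z_val]; mx5
theorem PQ1 : (Pm F)ᴴ * (Q1 F)ᴴ = 1 := by rw [← conjTranspose_mul, Q1P, conjTranspose_one]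

theorem cPP {M : Subgroup (G5 F)} {g : G5 F} (hg : g ∈ Cz M) : g.val * (Pm F * (Pm F)ᴴ) = Pm F * (Pm F)ᴴ * g.val := by
  have : g.val * (z F).val = (z F).val * g.val := congrArg Units.val (mem_Cz.1 hg).2
  rw [PP, mul_sub, sub_mul, this, mul_one, one_mul]

theorem cP {M : Subgroup (G5 F)} (g : G5 F) (hg : g ∈ Cz M) : Pm F * (Q1 F * g.val * Pm F) = g.val * Pm F := by
  have e : g.val * Pm F = Pm F * ((Pm F)ᴴ * g.val * (Q1 F)ᴴ) := by
    simpa only [Matrix.mul_assoc, PQ1, Matrix.mul_one] using congrArg (· * (Q1 F)ᴴ) (cPP hg)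
  rw [Matrix.mul_assoc, e, ← Matrix.mul_assoc (Q1 F), Q1P, Matrix.one_mul]

/-- action on the commutator space -/
def rm (M : Subgroup (G5 F)) : Cz M →* GL (Fin 2) F := res Q1P _ cP
/-- projective action on the commutator space -/
abbrev pm (M : Subgroup (G5 F)) : Cz M →* PG F := ProjGenLinGroup.mk.comp (rm M)

variable {o : Om F} {M : Subgroup (G5 F)}

theorem rm_val (g : Cz M) : (rm M g).val = Q1 F * g.1.val * Pm F := rfl
theorem rm_P (g : Cz M) : Pm F * (rm M g).val = g.1.val * Pm F := cP _ g.2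

theorem rm_uni (g : Cz M) (hg : g.1 ∈ UG 5 F) : rm M g ∈ UG 2 F := by
  have e := congrArg (fun X => Q1 F * (X * g.1.valᴴ) * (Q1 F)ᴴ) (cPP g.2)
  rw [mul_assoc _ g.1.val, UG_mul hg, mul_one, ← Matrix.mul_assoc g.1.val, Matrix.mul_assoc (g.1.val * _),
    ← conjTranspose_mul, ← rm_P, conjTranspose_mul] at e
  simp only [Matrix.mul_assoc, PQ1, Matrix.mul_one, ← Matrix.mul_assoc (Q1 F), Q1P, Matrix.one_mul] at e
  exact mul_eq_one_comm.1 e

namespace Hyp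
variable (H : Hyp o M)
include H

/-- `u` in the centraliser -/
def uC : Cz M := ⟨_, mem_Cz.2 ⟨H.u, o.zu.symm⟩⟩
/-- `f` in the centraliser -/
def fC : Cz M := ⟨_, mem_Cz.2 ⟨H.f, by rw [← o.ff, mul_assoc]⟩⟩
/-- `z` in the centraliser -/
def zZ : Cz M := ⟨_, mem_Cz.2 ⟨H.z, rfl⟩⟩
/-- `w` in the centraliser -/
def wC : Cz M := ⟨_, mem_Cz.2 ⟨H.w, wz⟩⟩

theorem um : rm M H.uC = o.u2 := Units.ext (by rw [rm_val, uC, u_val, Pm, Q1, u2_val]; mx5)
theorem zm : (rm M H.zZ).val = (-1 : F) • 1 := by rw [rm_val, zZ, z_val, Pm, Q1]; mx5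
theorem wm : (rm M H.wC).val = !![0, 1; -1, 0] := by rw [rm_val, wC, w_val, Pm, Q1]; mx5
theorem fm : rm M H.fC = o.f2 := Units.ext (by
  rw [rm_val, fC, f_val, Matrix.mul_smul, Matrix.smul_mul, Φ, Pm, Q1, f2_val]; congr 1; mx5)
theorem ffC : H.fC * H.fC = H.zZ := Subtype.ext o.ff

theorem pm_le : (pm M).range ≤ PU F := by
  rintro _ ⟨x, rfl⟩; exact ⟨_, rm_uni x (H.uni x.2.1), rfl⟩

theorem dich : Nonempty ((pm M).range ≃* alternatingGroup (Fin 5)) ∨ PSU F ≤ (pm M).range ∧ IsSimpleGroup (PSU F) :=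
  o.udick H.top H.pm_le ⟨H.uC, congrArg _ H.um⟩ ⟨H.fC, (congrArg _ H.fm).trans (mk_eq_mob _)⟩
    (by simp [f2_val, o.s0, o.n23]) (by simp [f2_val, o.s0, o.n23]) (.inr (by simp [f2_val, o.s0, o.n41]))

theorem odd_nrm (N : Subgroup (Cz M)) [hN : N.Normal] {n : ℕ} (hn : Odd n) (h : ∀ x ∈ N, x ^ n = 1) {x : Cz M}
    (hx : x ∈ N) : IsSc (rm M x).val := by
  have key : N.map (pm M) = ⊥ ∨ ProjGenLinGroup.mk o.f2 ∈ N.map (pm M) := by
    rcases H.dich with ⟨⟨e⟩⟩ | ⟨h1, h2⟩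
    · have := alternatingGroup.isSimpleGroup (α := Fin 5) (by simp)
      have := e.isSimpleGroup
      refine (hN.map _ (pm M).rangeRestrict_surjective).eq_bot_or_eq_top.imp (fun k => (eq_bot_iff_forall _).2 ?_)
        fun k => ?_
      · rintro _ ⟨y, hy, rfl⟩
        exact congrArg Subtype.val ((eq_bot_iff_forall _).1 k _ ⟨y, hy, rfl⟩)
      · obtain ⟨y, y1, y2⟩ := k.ge (mem_top ⟨_, H.fC, rfl⟩)
        exact ⟨y, y1, (congrArg Subtype.val y2).trans (congrArg _ H.fm)⟩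
    · refine (o.nrm_psu h2 ((map_le_range _ _).trans H.pm_le) ?_).imp_right fun k => k ⟨_, o.f2_mem, rfl⟩
      rintro s hs _ ⟨y, hy, rfl⟩
      obtain ⟨t, rfl⟩ := h1 hs
      exact ⟨_, hN.conj_mem y hy t, by simp⟩
  rcases key with k | ⟨y, y1, y2⟩
  · exact mk_one.1 ((eq_bot_iff_forall _).1 k _ ⟨x, hx, rfl⟩)
  have := pow_gcd_eq_one.2 ⟨show ProjGenLinGroup.mk o.f2 ^ n = 1 by rw [← y2, ← map_pow, h y y1, map_one], o.f2_two.1⟩
  rw [hn.coprime_two_right, pow_one] at this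
  exact (o.f2_two.2 this).elim

theorem core (h1 : ∀ g ∈ M, g * Om5.z F * g⁻¹ * Om5.z F = Om5.z F * (g * Om5.z F * g⁻¹) → g * Om5.z F * g⁻¹ = Om5.z F)
    (h2 : ∀ x : Cz M, IsSc (rm M x).val → ∀ n, Odd n → x ^ n = 1 → IsSc x.1.val) :
    M ≤ Geo.subgroupNormalizer o.R := by
  intro m hm
  let z' : M := ⟨_, H.z⟩
  have z2 : z' * z' = 1 := Subtype.ext zz
  obtain ⟨O, hO, ho, h⟩ := ZStar.zstar' z2 (odd_of_isol z2 fun t ht hc => by
    obtain ⟨g, rfl⟩ := isConj_iff.1 ht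
    exact Subtype.ext (h1 _ g.2 (congrArg Subtype.val hc)))
  have h5 : ∀ x : M, x ^ 5 = 1 → x * z' * x = z' → x ∈ O := fun x x5 e => by
    have := pow_mem (h _ _ (isConj_iff.2 ⟨x, rfl⟩) (IsConj.refl z')) 3
    rwa [show x * z' * x⁻¹ * z' = x ^ 2 by
      rw [mul_assoc, ← eq_inv_mul_iff_mul_eq.2 (mul_assoc x z' x ▸ e), mul_assoc, ← mul_assoc z', z2, one_mul, sq], ← pow_mul,
      pow_succ _ 5, x5, one_mul] at this
  have ha := h5 ⟨_, H.a⟩ (Subtype.ext o.a5) (Subtype.ext o.za)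
  have hb := h5 ⟨_, H.b⟩ (Subtype.ext o.b5) (Subtype.ext zb)
  have odd : ∀ x ∈ O.comap (inclusion (inf_le_left : Cz M ≤ M)), x ^ Nat.card O = 1 := fun x hx =>
    Subtype.ext (congrArg (·.1.1) (pow_card_eq_one' (x := (⟨_, hx⟩ : O))))
  have key := fun x hx y hy => comm_mod (Z := (Geo.scalars (Fin 5) F).subgroupOf M) ho (fun x hx =>
    mem_center_iff.2 fun y => Subtype.ext (sc_comm ((mem_scalars_iff _).1 hx) _).symm) z2
    (fun x hx => hO.conj_mem x hx _) (fun x hx hc => by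
      let x' : Cz M := ⟨x, mem_Cz.2 ⟨x.2, (congrArg Subtype.val (mul_inv_eq_iff_eq_mul.1 hc)).symm⟩⟩
      exact (mem_scalars_iff _).2 (h2 x' (H.odd_nrm _ (hN := hO.comap _) ho odd hx) _ ho (odd x' hx))) (o := x) (o' := y) hx hy
  have fin : ∀ x ∈ O, x.1 ∈ o.R := fun x hx => by
    obtain ⟨c, c1, c2⟩ := key x hx _ ha
    obtain ⟨d, d1, d2⟩ := key x hx _ hb
    obtain ⟨c', c1⟩ := (mem_scalars_iff _).1 c1
    obtain ⟨d', d1⟩ := (mem_scalars_iff _).1 d1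
    exact o.mem_R (c := c') (d := d') (by simpa [Cm, show c.1.val = _ from c1] using congrArg (·.1.val) c2)
      (by simpa [Cm, show d.1.val = _ from d1] using congrArg (·.1.val) d2) (H.det _ x.2)
  exact o.nrm (fin _ (hO.conj_mem _ ha ⟨m, hm⟩)) (fin _ (hO.conj_mem _ hb ⟨m, hm⟩))

end Hyp

end Cfsg.Agent.H7.UX
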