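import Cfsg.Agent.H7.UXd

/-!
Unitary overgroups of the normaliser of the extraspecial group of order `125`: odd characteristic, first part.
-/

set_option autoImplicit false
set_option linter.unusedSectionVars false
set_option linter.unusedSimpArgs false

namespace Cfsg.Agent.H7.UX

open Matrix Subgroup Om Cfsg.Agent.H4 Cfsg.Agent.H4.Mob Cfsg.Agent.H4.MobCard Cfsg.Agent.Asch Cfsg.Agent.H5
open Cfsg.Agent.H8.L5 hiding res res_val Hyp Big Cu mem_Cu r0 r1 r2 r0_val r1_val r2_val blk blk' rm rp pm rm_val rp_val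
  PQp PQm QPp QPm cp cm recon inj
open Cfsg.Agent.H8.L5.Om5 (b z b_val z_val zz zb)
open scoped commutatorElement

universe v
variable {F : Type v} [Field F] [StarRing F] [Fintype F]

theorem nrm_ctr (o : Om F) {n : ℕ} {K : Subgroup (GL (Fin n) F)} {d : Fin n → F} (hd : star d ⬝ᵥ d = 0)
    (hK : ∀ c, c + star c = 0 → ∀ k ∈ K, tu d hd c * k * (tu d hd c)⁻¹ ∈ K) {g : GL (Fin n) F} (hg : g ∈ K)
    (hu : g ∈ UG n F) (hβ : star d ⬝ᵥ g.val *ᵥ d ≠ 0) {y : F} (hy : y + star y = 0) : tu d hd y ∈ K := by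
  have he : star (g.val *ᵥ d) ⬝ᵥ g.val *ᵥ d = 0 := by rw [UG_dot hu, hd]
  have e0 : ∀ x, tu _ he x = g * tu d hd x * g⁻¹ := fun x => Units.ext (tv_conj hu d x).symm
  generalize g.val *ᵥ d = e at *
  have k1 : ∀ x, x + star x = 0 → tu e he x * (tu d hd x)⁻¹ ∈ K := fun x hx => by
    have := mul_mem hg (hK x hx _ (inv_mem hg))
    rwa [e0, mul_assoc g, mul_assoc g]
  have cT : ∀ a b, tu d hd a * tu d hd b = tu d hd (a + b) := fun a b => Units.ext (tv_mul hd a b)
  have cT' : ∀ a b, Commute (tu d hd a) (tu d hd b) := fun a b => by rw [Commute, SemiconjBy, cT, cT, add_comm]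
  obtain ⟨β, hb⟩ : ∃ β, star d ⬝ᵥ e = β := ⟨_, rfl⟩
  have hb' : star e ⬝ᵥ d = star β := by rw [← hb, star_dotProduct]
  rw [hb] at hβ
  have hβ' : star β ≠ 0 := star_ne_zero.2 hβ
  obtain ⟨c, c0, c1, c2⟩ : ∃ c : F, c ≠ 0 ∧ star c = -c ∧ c * β * star (c * β) - 1 ≠ 0 := by
    have := o.h
    have := o.w5
    by_cases h : (o.ω ^ 4 - o.ω) * β * star ((o.ω ^ 4 - o.ω) * β) - 1 = 0
    · refine ⟨_, o.n23, by simp [o.st]; grind, fun h' => ?_⟩
      simp [o.st] at h h'
      have := o.h5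
      grind
    · exact ⟨_, o.n41, by simp [o.st]; grind, h⟩
  have hc : c + star c = 0 := by rw [c1, add_neg_cancel]
  have hc' : (c * β * star β)⁻¹ + star (c * β * star β)⁻¹ = 0 := by simp [c1]; field_simp; ring
  obtain ⟨x, hx, rfl⟩ : ∃ x, x + star x = 0 ∧ y = c * β * star (c * β) * x + -x :=
    ⟨y / (c * β * star (c * β) - 1), by
      rw [star_div₀, star_sub, star_mul' (c * β), star_star, star_one, mul_comm (star _), ← add_div, hy, zero_div], by
      field_simp; ring⟩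
  have E : tu e he (c * β * star β)⁻¹ * tu d hd (c * β * star (c * β) * x) * (tu e he (c * β * star β)⁻¹)⁻¹ =
      tu d hd c * tu e he x * (tu d hd c)⁻¹ := Units.ext (by
    rw [Units.val_mul, Units.val_mul, Units.val_mul, Units.val_mul, tu_val d, tu_val e he x, tv_conj (tu_uni he hc'),
      tv_conj (tu_uni hd hc), ← tv_smul, tu_val, tu_val, tv_mulVec, tv_mulVec, hb, hb', smul_add, smul_smul, add_comm]
    congr 2
    rw [show c * β * ((c * β * star β)⁻¹ * star β) = 1 by field_simp, one_smul])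
  have := mul_mem (mul_mem (inv_mem (k1 _ hc')) (hK c hc _ (k1 x hx))) (hK x hx _ (k1 _ hc'))
  rw [← cT, show tu d hd (-x) = (tu d hd x)⁻¹ from Units.ext rfl]
  convert this using 1
  have a1 := cT' c x
  have a2 := cT' (c * β * star β)⁻¹ (c * β * star (c * β) * x)
  generalize tu d hd (c * β * star (c * β) * x) = Y at *
  generalize tu d hd (c * β * star β)⁻¹ = T' at *
  generalize tu e he (c * β * star β)⁻¹ = S' at *
  generalize tu d hd x = X at *
  generalize tu d hd c = T at *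
  calc Y * X⁻¹ = T' * S'⁻¹ * (S' * Y * S'⁻¹) * S' * T'⁻¹ * X⁻¹ := by
        rw [show T' * S'⁻¹ * (S' * Y * S'⁻¹) * S' = T' * Y by group, a2.eq]; group
    _ = T' * S'⁻¹ * (T * tu e he x * (X⁻¹ * (X * T⁻¹))) * S' * T'⁻¹ * X⁻¹ := by rw [E]; group
    _ = _ := by rw [← a1.inv_left.eq]; group

theorem su3_field {o : Om F} (ht : o.Top) {E : Subfield F} {q : ℕ} (hE : Nat.card E = q ^ 2)
    (h : ∀ τ : F →+* F, (∀ x, τ x = x ^ q) → τ (o.ω + o.ω ^ 4) = o.ω + o.ω ^ 4) (hθ : o.ω + o.ω ^ 4 ∈ E) (x : F) :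
    x ∈ E ∧ x ^ q = star x := by
  have := Fintype.ofFinite E
  rw [Nat.card_eq_fintype_card] at hE
  obtain ⟨e, he⟩ := Form.exists_pow_q_ne hE
  obtain ⟨p, k, hp, hc, -, rfl⟩ := Form.exists_prime_pow_of_card_sq hE
  have := Fact.mk hp
  have := charP_of_injective_ringHom E.subtype.injective p
  have h1 : ∀ x, star x = x → iterateFrobenius F p k x = x :=
    ht ((iterateFrobenius F p k).eqLocusField (RingHom.id F)) (h _ fun _ => rfl)
  have h2 : iterateFrobenius F p k e ≠ e := fun h => he (Subtype.ext h)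
  have h3 : (e : F) - star (e : F) ≠ 0 := fun h => h2 (h1 _ (sub_eq_zero.1 h).symm)
  have h4 : iterateFrobenius F p k e = star (e : F) := by
    have a1 := h1 (e + star (e : F)) (by simp [add_comm])
    have a2 := h1 (e * star (e : F)) (by simp [mul_comm])
    rw [map_add] at a1
    rw [map_mul] at a2
    grind
  have h5 : star ((x - star x) / (e - star (e : F))) = (x - star x) / (e - star (e : F)) := by
    rw [star_div₀, star_sub, star_sub, star_star, star_star, ← neg_div_neg_eq, neg_sub, neg_sub]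
  have h6 : (x - star x) / (e - star (e : F)) * (e - star (e : F)) = x - star x := div_mul_cancel₀ _ h3
  generalize (x - star x) / (e - star (e : F)) = β at h5 h6
  have h7 : star (x - β * e) = x - β * e := by rw [star_sub, star_mul', h5]; linear_combination h6
  refine ⟨by simpa using add_mem (ht E hθ _ h7) (mul_mem (ht E hθ _ h5) e.2), ?_⟩
  have h8 := h1 _ h7
  rw [map_sub, map_mul, h1 _ h5, h4] at h8
  change iterateFrobenius F p k x = _
  linear_combination h8 - h6

variable [NeZero (2 : F)]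

theorem PQp : Pp F * Qp F = (2⁻¹ : F) • (1 + (z F).val) := by have := two_ne_zero (α := F); rw [Pp, Qp, z_val]; mx5
theorem QPp : Qp F * Pp F = 1 := by have := two_ne_zero (α := F); rw [Pp, Qp]; mx5
theorem PQ : Pp F * Qp F + Pm F * Qm F = 1 := by have := two_ne_zero (α := F); rw [Pp, Qp, Pm, Qm]; mx5
theorem QPm : Qm F * Pm F = 1 := by have := two_ne_zero (α := F); rw [Pm, Qm]; mx5
theorem QPpm : Qp F * Pm F = 0 := by have := two_ne_zero (α := F); rw [Pm, Qp]; mx5
theorem QPmp : Qm F * Pp F = 0 := by have := two_ne_zero (α := F); rw [Pp, Qm]; mx5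
theorem Pp_ct : (Pp F)ᴴ = !![1, 0, 0, 0, 0; 0, 1, 0, 0, 1; 0, 0, 1, 1, 0] := by
  ext i j; rw [conjTranspose_apply, Pp]; fin_cases i <;> fin_cases j <;> simp
theorem PPp : (Pp F)ᴴ * Pp F = !![1, 0, 0; 0, 2, 0; 0, 0, 2] := by rw [Pp_ct, Pp]; mx5
theorem PPpm : (Pp F)ᴴ * Pm F = 0 := by rw [Pp_ct, Pm]; mx5
theorem zPp : (z F).val * Pp F = Pp F := by rw [z_val, Pp]; mx5

theorem cp {M : Subgroup (G5 F)} (g : G5 F) (hg : g ∈ Cz M) : Pp F * (Qp F * g.val * Pp F) = g.val * Pp F := by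
  have : (z F).val * g.val = g.val * (z F).val := congrArg Units.val (mem_Cz.1 hg).2.symm
  rw [← Matrix.mul_assoc, ← Matrix.mul_assoc, PQp, smul_mul_assoc, add_mul, this, one_mul, Matrix.smul_mul,
    Matrix.add_mul, Matrix.mul_assoc, zPp, ← two_smul F, smul_smul, inv_mul_cancel₀ two_ne_zero, one_smul]

/-- action on the fixed space -/
def rp (M : Subgroup (G5 F)) : Cz M →* GL (Fin 3) F := res QPp _ cp

variable {o : Om F} {M : Subgroup (G5 F)}

theorem rp_val (g : Cz M) : (rp M g).val = Qp F * g.1.val * Pp F := rfl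
theorem rp_P (g : Cz M) : Pp F * (rp M g).val = g.1.val * Pp F := cp _ g.2

theorem recon (g : Cz M) : g.1.val = Pp F * (rp M g).val * Qp F + Pm F * (rm M g).val * Qm F := by
  rw [rp_P, rm_P, Matrix.mul_assoc, Matrix.mul_assoc, ← mul_add, PQ, mul_one]

theorem inj {g k : Cz M} (h1 : rp M g = rp M k) (h2 : rm M g = rm M k) : g = k :=
  Subtype.ext (Units.ext (by rw [recon g, recon k, h1, h2]))

theorem det_split (g : Cz M) : g.1.val.det = (rp M g).val.det * (rm M g).val.det := by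
  rw [← det_fromBlocks_zero₂₁ _ 0, ← det_conj_of_mul_eq_one (M := fromCols (Pp F) (Pm F)) (M' := fromRows (Qp F) (Qm F))
    (by rw [fromCols_mul_fromRows, PQ]) (by rw [fromRows_mul_fromCols, QPp, QPm, QPpm, QPmp, fromBlocks_one]),
    fromCols_mul_fromBlocks, fromCols_mul_fromRows, recon g]
  simp

theorem rp_form (g : Cz M) (hg : g.1 ∈ UG 5 F) :
    (rp M g).valᴴ * !![1, 0, 0; 0, 2, 0; 0, 0, 2] * (rp M g).val = !![1, 0, 0; 0, 2, 0; 0, 0, 2] :=
  PPp (F := F) ▸ res_form QPp _ cp g hg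

theorem iso3 (o : Om F) {Y : Matrix (Fin 3) (Fin 3) F} (h : ∀ x, star (Pp F *ᵥ x) ⬝ᵥ Pp F *ᵥ x = 0 →
    star (Pp F *ᵥ x) ⬝ᵥ (Pp F * Y) *ᵥ x = 0) : IsSc Y := by
  simp only [star_mulVec, ← dotProduct_mulVec, mulVec_mulVec, ← Matrix.mul_assoc, PPp] at h
  obtain ⟨l, hl⟩ := o.exists_norm (c := -2) (by simp)
  obtain ⟨m, hm⟩ := o.exists_norm (c := -1) (by simp)
  have h2 := two_ne_zero (α := F)
  have w5 := o.w5
  have l0 : l ≠ 0 := by rintro rfl; simp [h2] at hl
  have m0 : m ≠ 0 := by rintro rfl; simp at hm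
  have l1 := star_ne_zero.2 l0
  have m1 := star_ne_zero.2 m0
  have n := o.n41
  have k1 : ∀ l : F, l * star l = -2 → star l * (Y 0 0 * l + Y 0 1) + 2 * (Y 1 0 * l + Y 1 1) = 0 := fun l hl => by
    have := h ![l, 1, 0] (by simp [dotProduct, mulVec, Fin.sum_univ_succ]; grind)
    simp [dotProduct, mulVec, Fin.sum_univ_succ, vecMul] at this; grind
  have k2 : ∀ l : F, l * star l = -2 → star l * (Y 0 0 * l + Y 0 2) + 2 * (Y 2 0 * l + Y 2 2) = 0 := fun l hl => by
    have := h ![l, 0, 1] (by simp [dotProduct, mulVec, Fin.sum_univ_succ]; grind)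
    simp [dotProduct, mulVec, Fin.sum_univ_succ, vecMul] at this; grind
  have k3 : ∀ l : F, l * star l = -1 → star l * (Y 1 1 * l + Y 1 2) + (Y 2 1 * l + Y 2 2) = 0 := fun l hl => by
    have := h ![0, l, 1] (by simp [dotProduct, mulVec, Fin.sum_univ_succ]; grind)
    simp [dotProduct, mulVec, Fin.sum_univ_succ, vecMul] at this; grind
  have gen : ∀ {l a b c d n : F}, l * star l = n → l ≠ 0 → (∀ l : F, l * star l = n → star l * (a * l + b) + (c * l + d) = 0) →
      b = 0 ∧ c = 0 ∧ a * n + d = 0 := fun {l a b c d n} hl l0 k => by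
    have a1 := k l hl
    have a2 := k (-l) (by simpa using hl)
    have a3 := k (o.ω * l) (by rw [star_mul', o.st]; grind)
    rw [star_neg] at a2
    rw [star_mul', o.st] at a3
    have l1 := star_ne_zero.2 l0
    have b1 : a * n + d = 0 := by grind
    have b2 : star l * b + c * l = 0 := by grind
    have b3 : b = 0 := by grind
    exact ⟨b3, by grind, b1⟩
  have g1 := gen hl l0 (a := Y 0 0) (b := Y 0 1) (c := 2 * Y 1 0) (d := 2 * Y 1 1) fun l hl => by
    linear_combination k1 l hl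
  have g2 := gen hl l0 (a := Y 0 0) (b := Y 0 2) (c := 2 * Y 2 0) (d := 2 * Y 2 2) fun l hl => by
    linear_combination k2 l hl
  have g3 := gen hm m0 k3
  refine ⟨Y 0 0, ?_⟩
  ext i j; fin_cases i <;> fin_cases j <;> simp <;> grind

end Cfsg.Agent.H7.UX
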