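import Cfsg.Agent.H7.UXd

/-!
Unitary overgroups of the normaliser of the extraspecial group of order `125` over the field with sixteen elements:
groups without transvections.
-/

set_option autoImplicit false
set_option linter.unusedSectionVars false
set_option linter.unusedSimpArgs false

namespace Cfsg.Agent.H7.UX

open Matrix Subgroup Om Cfsg.Agent.Asch
open Cfsg.Agent.H8.L5 hiding res res_val Hyp Big Cu mem_Cu r0 r1 r2 r0_val r1_val r2_val blk blk' rm rp pm rm_val rp_val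
  PQp PQm QPp QPm cp cm recon inj
open Cfsg.Agent.H8.L5.Om5 (b z b_val z_val zz zb)

universe v
variable {F : Type v} [Field F] [StarRing F] [Fintype F] {o : Om F} {M : Subgroup (G5 F)}

/-- the group contains the transvection with centre `d` and parameter `c` -/
def HTc (M : Subgroup (G5 F)) (d : Fin 5 → F) (c : F) : Prop := star d ⬝ᵥ d = 0 ∧ ∃ g ∈ M, g.val = tv d c

/-- elements of the centre of the unipotent radical -/
def ua (A : Matrix (Fin 2) (Fin 2) F) : M5 F := 1 + Pm F * A * (Pm F)ᴴ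

/-- the involution is the fourth power map -/
structure S4 (F : Type v) [Field F] [StarRing F] : Prop where
  eq : ∀ x : F, star x = x ^ 4

theorem two_of (h4 : S4 F) : (2 : F) = 0 := by
  have := h4.eq (-1)
  simp at this
  linear_combination -this

theorem sq2 (h2 : (2 : F) = 0) {x y : F} (h : x * x = y * y) : x = y :=
  sub_eq_zero.1 (mul_self_eq_zero.1 (by linear_combination h + (y * y - x * y) * h2))

theorem ct2 (a b c d : F) : !![a, b; c, d]ᴴ = !![star a, star c; star b, star d] := by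
  ext i j; rw [conjTranspose_apply]; fin_cases i <;> fin_cases j <;> rfl

theorem Pm_ct' : (Pm F)ᴴ = !![0, 1, 0, 0, -1; 0, 0, 1, -1, 0] := Pm_ct.trans Pm_tr

theorem ua_mul (h2 : (2 : F) = 0) (A B : Matrix (Fin 2) (Fin 2) F) : ua A * ua B = ua (A + B) := by
  have e : (Pm F)ᴴ * Pm F = 0 := by rw [Pm_ct', Pm]; mx5
  simp only [ua, mul_add, add_mul, one_mul, mul_one, Matrix.mul_add, Matrix.add_mul, Matrix.mul_assoc,
    ← Matrix.mul_assoc (Pm F)ᴴ (Pm F), e, Matrix.zero_mul, Matrix.mul_zero]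
  abel

theorem ua_conj (s : Cz M) (hs : s.1 ∈ UG 5 F) (A : Matrix (Fin 2) (Fin 2) F) :
    s.1.val * ua A * (s.1⁻¹).val = ua ((rm M s).val * A * (rm M s).valᴴ) := by
  rw [← UG_ct hs, ua, ua, mul_add, add_mul, mul_one, UG_mul hs]
  simp only [← Matrix.mul_assoc]
  rw [Matrix.mul_assoc _ _ s.1.valᴴ, Matrix.mul_assoc _ (rm M s).valᴴ, ← conjTranspose_mul, ← conjTranspose_mul, rm_P]

theorem ua_smul (c : F) : ua (c • 1) = 1 + c • (1 - (z F).val) := by
  rw [ua, Matrix.mul_smul, Matrix.smul_mul, Matrix.mul_one, PP]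

theorem ua_vec (v : Fin 2 → F) : ua (vecMulVec v (star v)) = tv (Pm F *ᵥ v) 1 := by
  rw [ua, tv, one_smul, mul_vecMulVec, vecMulVec_mul, star_mulVec]

theorem shape (h2 : (2 : F) = 0) {Y : M5 F} (e1 : Y * Pm F = Pm F) (e2 : (Pm F)ᴴ * Y = (Pm F)ᴴ) (hd : Y.det = 1) :
    ∃ r1 r2 c1 c2 α β γ δ, Y = !![1, r1, r2, r2, r1; c1, 1 + α, β, β, α; c2, γ, 1 + δ, δ, γ; c2, γ, δ, 1 + δ, γ;
      c1, α, β, β, 1 + α] := by
  have a1 := fun i j => congrFun (congrFun e1 i) j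
  have a2 := fun i j => congrFun (congrFun e2 i) j
  simp [Pm_ct', Pm, Fin.forall_fin_succ, mul_apply, Fin.sum_univ_succ, vecMul, dotProduct] at a1 a2
  have e : Y = 1 + Pp F * (!![Y 0 0 - 1, Y 0 1, Y 0 2; Y 1 0, Y 1 4, Y 1 2; Y 2 0, Y 2 1, Y 2 3] *
      (!![1, 0, 0, 0, 0; 0, 1, 0, 0, 1; 0, 0, 1, 1, 0] : Matrix _ _ F)) := by rw [Pp]; mx5
  rw [e, det_one_add_mul_comm, Matrix.mul_assoc, show (!![1, 0, 0, 0, 0; 0, 1, 0, 0, 1; 0, 0, 1, 1, 0] : Matrix _ _ F) * Pp F =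
    !![1, 0, 0; 0, 0, 0; 0, 0, 0] by rw [Pp]; mx5] at hd
  simp [det_fin_three] at hd
  exact ⟨Y 0 1, Y 0 2, Y 1 0, Y 2 0, Y 1 4, Y 1 2, Y 2 1, Y 2 3, by mx5⟩

theorem ua_val (α β γ δ : F) : ua !![α, β; γ, δ] = !![1, 0, 0, 0, 0; 0, 1 + α, β, -β, -α; 0, γ, 1 + δ, -δ, -γ;
    0, -γ, -δ, 1 + δ, γ; 0, -α, -β, β, 1 + α] := by rw [ua, Pm_ct', Pm]; mx5

theorem shape1 (h2 : (2 : F) = 0) {r1 r2 c1 c2 α β γ δ : F} (h1 : r1 = star c1) (h3 : r2 = star c2) :
    !![1, r1, r2, r2, r1; c1, 1 + α, β, β, α; c2, γ, 1 + δ, δ, γ; c2, γ, δ, 1 + δ, γ; c1, α, β, β, 1 + α] *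
    !![1, r1, r2, r2, r1; c1, 1 + α, β, β, α; c2, γ, 1 + δ, δ, γ; c2, γ, δ, 1 + δ, γ; c1, α, β, β, 1 + α] =
    tv ![0, c1, c2, c2, c1] 1 := by
  ext i j; rw [tv_apply]; fin_cases i <;> fin_cases j <;> simp [mul_apply, Fin.sum_univ_succ] <;> grind

theorem shape2 (h2 : (2 : F) = 0) {Y : M5 F} {r1 r2 c1 c2 α β γ δ : F} (e : Y = !![1, r1, r2, r2, r1;
    c1, 1 + α, β, β, α; c2, γ, 1 + δ, δ, γ; c2, γ, δ, 1 + δ, γ; c1, α, β, β, 1 + α]) (hu : Yᴴ * Y = 1) :
    Y * Y = tv ![0, c1, c2, c2, c1] 1 ∧ (c1 = 0 → c2 = 0 → Y = ua !![α, β; star β, δ] ∧ star α = α ∧ star δ = δ) := by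
  have a1 := congrFun (congrFun hu 0) 1
  have a2 := congrFun (congrFun hu 0) 2
  have a3 := congrFun (congrFun hu 1) 2
  have a4 := congrFun (congrFun hu 1) 1
  have a5 := congrFun (congrFun hu 2) 2
  simp only [mul_apply, conjTranspose_apply, Fin.sum_univ_five] at a1 a2 a3 a4 a5
  subst e
  simp at a1 a2 a3 a4 a5
  clear hu
  refine ⟨shape1 h2 (by grind) (by grind), ?_⟩
  rintro rfl rfl
  simp at a1 a2
  subst a1 a2
  simp at a3 a4 a5
  have : γ = star β := by rw [show β = star γ by grind, star_star]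
  exact ⟨by rw [ua_val]; mx5, by grind, by grind⟩

namespace Hyp
variable (H : Hyp o M) (h4 : S4 F) (hT : ∀ d, HTc M d 1 → d = 0)
include H h4 hT

theorem off {α β δ : F} (h : ∃ g ∈ M, g.val = ua !![α, β; star β, δ]) : β = 0 := by
  have h2 := two_of h4
  have hw := o.h
  have step : ∀ {α β δ : F}, (∃ g ∈ M, g.val = ua !![α, β; star β, δ]) →
      ∃ g ∈ M, g.val = ua !![0, (1 + o.ω ^ 2) * β; star ((1 + o.ω ^ 2) * β), 0] := fun {α β δ} ⟨g, g1, g2⟩ =>
    ⟨_, mul_mem g1 (mul_mem (mul_mem H.u g1) (inv_mem H.u)), by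
      rw [Units.val_mul, Units.val_mul, Units.val_mul, g2, show o.u.val * ua _ * (o.u⁻¹).val = _ from ua_conj H.uC o.u_uni _, ua_mul h2, um,
        u2_val, ct2]
      congr 1; ext i j
      fin_cases i <;> fin_cases j <;> simp [o.st] <;> grind⟩
  have fin : ∀ {β : F}, (∃ g ∈ M, g.val = ua !![0, β; star β, 0]) → β * star β ≠ 1 := fun {β} ⟨g, g1, g2⟩ e => by
    have := hT (Pm F *ᵥ ![1, star β]) ⟨by simp [Pm, dotProduct, Fin.sum_univ_succ]; grind, _, mul_mem g1 H.z, by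
      rw [Units.val_mul, g2, ← ua_vec, show (Om5.z F).val = ua ((1 : F) • 1) by rw [ua_smul, z_val]; mx5, ua_mul h2]
      congr 1; ext i j
      fin_cases i <;> fin_cases j <;> simp [vecMulVec_apply]; grind⟩
    simpa [Pm] using congrFun this 1
  have a1 := fin (step h)
  have a2 := fin (step (step h))
  have a3 := fin (step (step (step h)))
  have a4 : star (β * star β) = β * star β := by simp [mul_comm]
  have e : (1 + o.ω ^ 2) * star (1 + o.ω ^ 2) = o.ω ^ 2 + o.ω ^ 3 := by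
    simp only [star_add, star_one, star_pow, o.st]
    linear_combination (o.ω ^ 3 + o.ω ^ 5 + 1) * o.w5 + h2
  rw [h4.eq] at a4
  by_contra b0
  have a5 := mul_ne_zero b0 (star_ne_zero.2 b0)
  simp only [star_mul'] at a1 a2 a3
  have e2 : (o.ω ^ 2 + o.ω ^ 3) ^ 2 + (o.ω ^ 2 + o.ω ^ 3) + 1 = 0 := by grind
  generalize o.ω ^ 2 + o.ω ^ 3 = θ at e e2
  generalize star (1 + o.ω ^ 2) = t', star β = β' at *
  generalize 1 + o.ω ^ 2 = t at *
  have b1 : θ * (β * β') - 1 ≠ 0 := fun k => a1 (by grind)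
  have b2 : θ ^ 2 * (β * β') - 1 ≠ 0 := fun k => a2 (by grind)
  have b3 : θ ^ 3 * (β * β') - 1 ≠ 0 := fun k => a3 (by grind)
  generalize β * β' = n at *
  exact mul_ne_zero a5 (mul_ne_zero b1 (mul_ne_zero b2 b3)) (by grind)

theorem k1 {y : Cz M} (hy : rm M y = 1) : ∃ c : F, y.1.val = 1 + c • (1 - (Om5.z F).val) := by
  have h2 := two_of h4
  have e1 : y.1.val * Pm F = Pm F := by rw [← rm_P, hy]; simp
  have e2 : (Pm F)ᴴ * y.1.val = (Pm F)ᴴ := by
    conv_lhs => rw [← e1, conjTranspose_mul, Matrix.mul_assoc, H.uni y.2.1, Matrix.mul_one]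
  obtain ⟨r1, r2, c1, c2, α, β, γ, δ, e⟩ := shape h2 e1 e2 (H.det _ y.2.1)
  obtain ⟨e3, e4⟩ := shape2 h2 e (H.uni y.2.1)
  have e5 := hT _ ⟨by simp [dotProduct, Fin.sum_univ_succ]; grind, _, mul_mem y.2.1 y.2.1, e3⟩
  obtain ⟨e6, a3, a4⟩ := e4 (congrFun e5 1) (congrFun e5 2)
  obtain rfl := H.off h4 hT ⟨_, y.2.1, e6⟩
  have e7 := H.off h4 hT (α := o.s ^ 2 * ((o.ω + o.ω ^ 4) ^ 2 * α + (o.ω ^ 2 + o.ω ^ 3) ^ 2 * δ))
    (δ := o.s ^ 2 * ((o.ω + o.ω ^ 4) ^ 2 * δ + (o.ω ^ 2 + o.ω ^ 3) ^ 2 * α))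
    (β := o.s ^ 2 * (o.ω ^ 4 - o.ω) * (o.ω ^ 2 - o.ω ^ 3) * (α + δ)) ⟨_, mul_mem (mul_mem H.f y.2.1) (inv_mem H.f), by
      rw [Units.val_mul, Units.val_mul, e6, show o.f.val * ua _ * (o.f⁻¹).val = _ from ua_conj H.fC o.f_uni _, fm, f2_val]
      have := o.w5
      congr 1; ext i j
      fin_cases i <;> fin_cases j <;> simp [mul_apply, conjTranspose_apply, o.st, o.st_s, a3, a4] <;> grind⟩
  obtain rfl : α = δ := by
    have := (mul_eq_zero.1 e7).resolve_left (mul_ne_zero (mul_ne_zero (pow_ne_zero 2 o.s0) o.n41) o.n23)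
    grind
  exact ⟨α, by rw [e6, ← ua_smul]; congr 1; mx5⟩

theorem k1_comm {y : Cz M} (hy : rm M y = 1) (g : Cz M) : y * g = g * y := by
  obtain ⟨c, e⟩ := H.k1 h4 hT hy
  have : g.1.val * (Om5.z F).val = (Om5.z F).val * g.1.val := congrArg Units.val (mem_Cz.1 g.2).2
  exact Subtype.ext (Units.ext (by simp [e, mul_add, add_mul, mul_sub, sub_mul, this]))

theorem k1_sq {y : Cz M} (hy : rm M y = 1) : y * y = 1 := by
  obtain ⟨c, e⟩ := H.k1 h4 hT hy
  have h2 := two_of h4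
  refine Subtype.ext (Units.ext ?_)
  rw [coe_mul, Units.val_mul, e, ← ua_smul, ua_mul h2, ← add_smul, ← two_mul, h2, ua_smul]
  simp

theorem k2 {y : Cz M} (hy : rm M y * rm M y = 1) (h1 : rm M y ≠ 1) : y * y = H.zZ := by
  have h2 := two_of h4
  have hw := o.h
  have base : ∀ s : Cz M, s * s = H.zZ → ∀ y, rm M y = rm M s → y * y = H.zZ := fun s hs y e => by
    have e1 : rm M (y * s⁻¹) = 1 := by simp [e]
    have e2 := H.k1_comm h4 hT e1 s
    have e3 := H.k1_sq h4 hT e1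
    calc y * y = y * s⁻¹ * (s * (y * s⁻¹)) * s := by group
      _ = _ := by rw [← e2, ← mul_assoc, e3, one_mul, hs]
  have step : ∀ (α β : F) (i : ℕ), (∀ y, (rm M y).val = !![α, β; star β, α] → y * y = H.zZ) →
      ∀ y, (rm M y).val = !![α, (o.ω ^ 3) ^ i * β; star ((o.ω ^ 3) ^ i * β), α] → y * y = H.zZ := fun α β i h => by
    induction i with
    | zero => simpa using h
    | succ i ih =>
      intro y e
      have := ih (H.uC * y * H.uC⁻¹) (by
        rw [map_mul, map_mul, map_inv, um, Units.val_mul, Units.val_mul, e, u2_val, pow_succ _ i,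
          show (o.u2⁻¹).val = !![o.ω ^ 4, 0; 0, o.ω] from rfl]
        simp only [star_mul', star_pow (o.ω), o.st]
        generalize star ((o.ω ^ 3) ^ i) = t', (o.ω ^ 3) ^ i = t
        mx5)
      rw [conj_mul, mul_inv_eq_iff_eq_mul, show H.zZ * H.uC = H.uC * H.zZ from Subtype.ext o.zu] at this
      exact mul_left_cancel this
  have e : (rm M y).valᴴ = (rm M y).val := by
    rw [UG_ct (rm_uni y (H.uni y.2.1)), inv_eq_of_mul_eq_one_left hy]
  obtain ⟨α, β, γ, δ, e1⟩ : ∃ α β γ δ, (rm M y).val = !![α, β; γ, δ] := ⟨_, _, _, _, eta_fin_two _⟩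
  have a1 := fun i j => congrFun (congrFun e i) j
  have hy' : (rm M y).val * (rm M y).val = 1 := congrArg Units.val hy
  have a2 := fun i j => congrFun (congrFun hy' i) j
  simp [e1, Fin.forall_fin_two, conjTranspose_apply] at a1 a2
  obtain rfl : γ = star β := a1.2.1.symm
  obtain rfl : δ = α := sq2 h2 (by grind)
  have b0 : β ≠ 0 := by
    rintro rfl
    have : δ = 1 := sq2 h2 (by simpa using a2.1.1)
    exact h1 (Units.ext (by simp [e1, this, one_fin_two]))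
  have key : ∀ (s : Cz M) (α' β' : F), s * s = H.zZ → (rm M s).val = !![α', β'; star β', α'] →
      α' * α' + β' * star β' = 1 → β * star β = β' * star β' → y * y = H.zZ := fun s α' β' hs e k1 k2 => by
    have b1 : β' ≠ 0 := by rintro rfl; simp [b0] at k2
    have b2 : (β / β') ^ 5 = 1 := by
      rw [h4.eq, h4.eq] at k2
      rw [div_pow, div_eq_one_iff_eq (pow_ne_zero _ b1)]; linear_combination k2
    obtain ⟨i, -, hi⟩ := (o.prim.pow_of_coprime 3 (by norm_num)).eq_pow_of_pow_eq_one b2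
    obtain rfl : δ = α' := sq2 h2 (by grind)
    exact step δ β' i (fun y k => base s hs y (Units.ext (k.trans e.symm))) y (by rw [hi, div_mul_cancel₀ _ b1, e1])
  have s1 : o.s = 1 := sq2 h2 (by have := o.s2; grind)
  have n1 : star (o.ω + o.ω ^ 4) = o.ω + o.ω ^ 4 := by simp [o.st]; grind
  have n2 : star (o.ω ^ 2 + o.ω ^ 3) = o.ω ^ 2 + o.ω ^ 3 := by simp [o.st]; grind
  have a4 : star (β * star β) = β * star β := by simp [mul_comm]
  rw [h4.eq] at a4
  have a5 := mul_ne_zero b0 (star_ne_zero.2 b0)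
  have a6 : (β * star β - 1) * ((β * star β - (o.ω + o.ω ^ 4)) * (β * star β - (o.ω ^ 2 + o.ω ^ 3))) = 0 :=
    mul_left_cancel₀ a5 (by generalize β * star β = n at *; grind)
  rcases mul_eq_zero.1 a6 with k | k
  · exact key H.wC 0 1 (Subtype.ext ww) (by rw [wm]; mx5) (by simp) (by simp; grind)
  rcases mul_eq_zero.1 k with k | k
  · exact key H.fC (o.ω + o.ω ^ 4) (o.ω ^ 2 + o.ω ^ 3) H.ffC (by rw [fm, f2_val, n2, s1]; mx5) (by rw [n2]; grind)
      (by rw [n2]; grind)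
  · refine key (H.fC * H.wC) (o.ω ^ 2 + o.ω ^ 3) (o.ω + o.ω ^ 4) (Subtype.ext ?_) (by
      rw [map_mul, Units.val_mul, fm, wm, f2_val, n1, s1]; mx5) (by rw [n1]; grind) (by rw [n1]; grind)
    change o.f * UX.w F * (o.f * UX.w F) = Om5.z F
    rw [← mul_assoc, o.wf, mul_assoc _ o.f o.f, o.ff, mul_assoc _ (Om5.z F) (Om5.z F), zz, mul_one, ww]

theorem even_core : M ≤ Geo.subgroupNormalizer o.R := by
  have z1 : Om5.z F ≠ 1 := fun e => by simpa [z_val] using congrArg (·.val 1 4) e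
  refine H.core (fun g hg h => ?_) fun x ⟨μ, e⟩ n hn hx => ?_
  · let t : Cz M := ⟨_, mem_Cz.2 ⟨mul_mem (mul_mem hg H.z) (inv_mem hg), h⟩⟩
    have t2 : t * t = 1 := Subtype.ext (by simp [t, zz])
    have t1 : t ≠ 1 := fun e => z1 (by simpa [t] using congrArg Subtype.val e)
    have t3 : rm M t = 1 := by_contra fun k =>
      z1 (congrArg Subtype.val ((H.k2 h4 hT (by rw [← map_mul, t2, map_one]) k).symm.trans t2))
    obtain ⟨c, e⟩ := H.k1 h4 hT t3
    have c0 : c ≠ 0 := by rintro rfl; exact t1 (Subtype.ext (Units.ext (by simpa using e)))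
    have e1 : g * o.f * g⁻¹ * (g * o.f * g⁻¹) = t := by rw [conj_mul, o.ff]
    let y : Cz M := ⟨g * o.f * g⁻¹, mem_Cz.2 ⟨mul_mem (mul_mem hg H.f) (inv_mem hg), Units.ext (by
      have : (g * o.f * g⁻¹).val * t.1.val = t.1.val * (g * o.f * g⁻¹).val := by
        rw [← e1, Units.val_mul (g * o.f * g⁻¹) (g * o.f * g⁻¹)]; exact (mul_assoc _ _ _).symm
      rw [e] at this
      simpa [mul_add, add_mul, mul_sub, sub_mul, c0, -Units.val_mul] using this)⟩⟩
    have e2 : y * y = t := Subtype.ext e1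
    by_cases k : rm M y = 1
    · exact (t1 (e2.symm.trans (H.k1_sq h4 hT k))).elim
    · exact congrArg Subtype.val (e2.symm.trans (H.k2 h4 hT (by rw [← map_mul, e2, t3]) k))
  have m5 : μ ^ 5 = 1 := by
    have := congrFun (congrFun (rm_uni x (H.uni x.2.1)) 0) 0
    simp [e, h4.eq] at this
    linear_combination this
  let s : G5 F := mku (μ • 1) (μ ^ 4 • 1) (by simp [smul_smul, ← pow_succ, m5])
  have hR : o.R ≤ M := (closure_le _).2 (by rintro _ (rfl | rfl); exacts [H.a, H.b])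
  let s' : Cz M := ⟨s, mem_Cz.2 ⟨hR (o.sc_mem rfl m5), sc_comm ⟨μ, rfl⟩ _⟩⟩
  have e1 : rm M s' = rm M x := Units.ext (by rw [e, rm_val]; simp [s', s, mku, Q1P])
  have e2 := H.k1_sq h4 hT (y := x * s'⁻¹) (by simp [e1])
  have e3 : Commute x s'⁻¹ := Commute.inv_right (Subtype.ext (sc_comm ⟨μ, rfl⟩ _).symm)
  have e4 : (x * s'⁻¹) ^ (n * 5) = 1 := by
    rw [e3.mul_pow, pow_mul, hx, mul_comm, pow_mul, inv_pow, show s' ^ 5 = 1 from Subtype.ext (Units.ext (by
      simp [s', s, mku, _root_.smul_pow, m5]))]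
    simp
  have := pow_gcd_eq_one.2 ⟨e4, (sq _).trans e2⟩
  rw [(hn.mul (by decide)).coprime_two_right, pow_one, mul_inv_eq_one] at this
  exact ⟨μ, by rw [this]; rfl⟩

end Hyp

end Cfsg.Agent.H7.UX
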