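import Cfsg.Agent.H7.UXg

/-!
Unitary overgroups of the normaliser of the extraspecial group of order `125` over the field with sixteen elements:
groups containing the diagonal subgroup.
-/

set_option autoImplicit false
set_option linter.unusedSectionVars false
set_option linter.unusedSimpArgs false

namespace Cfsg.Agent.H7.UX

open Matrix Subgroup Om Cfsg.Agent.Asch
open Cfsg.Agent.H8.L5 hiding res res_val Hyp Big Cu mem_Cu r0 r1 r2 r0_val r1_val r2_val blk blk' rm rp pm rm_val rp_val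
  PQp PQm QPp QPm cp cm recon inj
open Cfsg.Agent.H8.L5.Om5 (b z b_val z_val zz zb)

universe v
variable {F : Type v} [Field F] [StarRing F] [Fintype F] {o : Om F} {M : Subgroup (G5 F)}

/-- an explicit matrix -/
def A1 (ω : F) : M5 F := !![1, 1, 1, 1, 1;
      1, ω, ω ^ 2, ω ^ 3, 1 + ω + ω ^ 2 + ω ^ 3;
      ω ^ 2, 1 + ω + ω ^ 2 + ω ^ 3, ω, ω ^ 3, 1;
      1, ω ^ 3, ω, 1 + ω + ω ^ 2 + ω ^ 3, ω ^ 2;
      ω ^ 3, ω ^ 2, ω, 1, 1 + ω + ω ^ 2 + ω ^ 3]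
/-- an explicit matrix -/
def A2 (ω : F) : M5 F := !![1, 1, 1, 1, 1;
      ω, ω ^ 2, ω ^ 3, 1 + ω + ω ^ 2 + ω ^ 3, 1;
      1, ω ^ 2, 1 + ω + ω ^ 2 + ω ^ 3, ω, ω ^ 3;
      1 + ω + ω ^ 2 + ω ^ 3, ω ^ 2, 1, ω ^ 3, ω;
      1, 1 + ω + ω ^ 2 + ω ^ 3, ω ^ 3, ω ^ 2, ω]
/-- an explicit matrix -/
def A3 (ω : F) : M5 F := !![1, 1, 1, 1, 1;
      ω, ω ^ 2, ω ^ 3, 1 + ω + ω ^ 2 + ω ^ 3, 1;
      ω, ω ^ 3, 1, ω ^ 2, 1 + ω + ω ^ 2 + ω ^ 3;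
      ω, 1 + ω + ω ^ 2 + ω ^ 3, ω ^ 2, 1, ω ^ 3;
      ω ^ 2, ω, 1, 1 + ω + ω ^ 2 + ω ^ 3, ω ^ 3]
/-- an explicit matrix -/
def X2 (ω : F) : M5 F := !![ω ^ 2 + ω ^ 3, ω + ω ^ 3, 1 + ω + ω ^ 2 + ω ^ 3, 0, ω ^ 3;
      ω + ω ^ 3, 1 + ω + ω ^ 2 + ω ^ 3, 0, ω ^ 3, ω ^ 2 + ω ^ 3;
      ω, 0, 1, ω + ω ^ 2 + ω ^ 3, 1 + ω ^ 3;
      0, ω ^ 3, ω ^ 2 + ω ^ 3, ω + ω ^ 3, 1 + ω + ω ^ 2 + ω ^ 3;
      ω, 1 + ω, 1 + ω ^ 2 + ω ^ 3, ω ^ 2, 0]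
/-- an explicit matrix -/
def X3 (ω : F) : M5 F := !![1 + ω + ω ^ 2, ω + ω ^ 2 + ω ^ 3, ω + ω ^ 2, 1 + ω + ω ^ 2 + ω ^ 3, ω ^ 2 + ω ^ 3;
      ω + ω ^ 3, 1 + ω + ω ^ 3, 1 + ω, ω ^ 2 + ω ^ 3, ω ^ 2;
      ω + ω ^ 2, 0, ω ^ 2 + ω ^ 3, 1 + ω, 1 + ω + ω ^ 3;
      1, ω + ω ^ 2, ω ^ 3, ω ^ 3, 1 + ω + ω ^ 2;
      1 + ω ^ 3, 1 + ω + ω ^ 2, 1 + ω + ω ^ 2, ω, 1 + ω ^ 3]
/-- an explicit matrix -/
def X4 (ω : F) : M5 F := !![ω + ω ^ 2 + ω ^ 3, ω ^ 2 + ω ^ 3, ω ^ 3, 1 + ω + ω ^ 2 + ω ^ 3, ω ^ 2;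
      1 + ω + ω ^ 2, ω, 1 + ω + ω ^ 3, 1 + ω, 1 + ω + ω ^ 3;
      1 + ω ^ 3, 0, ω + ω ^ 2 + ω ^ 3, ω + ω ^ 2, ω + ω ^ 2;
      ω, ω + ω ^ 2 + ω ^ 3, 1 + ω + ω ^ 2, 1 + ω ^ 2 + ω ^ 3, 1 + ω ^ 3;
      1 + ω ^ 2, 0, ω + ω ^ 3, 1 + ω ^ 2, ω + ω ^ 2 + ω ^ 3]
/-- an explicit matrix -/
def X5 (ω : F) : M5 F := !![ω ^ 2 + ω ^ 3, ω + ω ^ 3, 1 + ω ^ 2 + ω ^ 3, 0, 1 + ω ^ 2 + ω ^ 3;
      1 + ω + ω ^ 3, ω ^ 2 + ω ^ 3, 1 + ω + ω ^ 3, 0, 1 + ω + ω ^ 3;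
      1 + ω ^ 2 + ω ^ 3, ω + ω ^ 3, ω ^ 2 + ω ^ 3, 0, 1 + ω ^ 2 + ω ^ 3;
      0, 0, 0, 1, 0;
      1 + ω ^ 2 + ω ^ 3, ω + ω ^ 3, 1 + ω ^ 2 + ω ^ 3, 0, ω ^ 2 + ω ^ 3]

section
variable (o) (h2 : (2 : F) = 0)
include h2

theorem f_two : o.f.val = o.Φ := by rw [f_val, show o.s = 1 from sq2 h2 (by have := o.s2; grind), one_smul]
theorem eA1 : (diagonal fun i => o.ω ^ ![0, 0, 2, 0, 3] i) * o.Φ = A1 o.ω := by have := o.h; rw [Φ, A1]; mx5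
theorem eA2 : (diagonal fun i => o.ω ^ ![0, 1, 0, 4, 0] i) * o.Φ = A2 o.ω := by have := o.h; rw [Φ, A2]; mx5
theorem eA3 : (diagonal fun i => o.ω ^ ![0, 1, 1, 1, 2] i) * o.Φ = A3 o.ω := by have := o.h; rw [Φ, A3]; mx5
theorem eX2 : A1 o.ω * A2 o.ω = X2 o.ω := by have := o.h; rw [A1, A2, X2]; mx5
theorem eX3 : X2 o.ω * A3 o.ω = X3 o.ω := by have := o.h; rw [X2, A3, X3]; mx5
theorem eX4 : X3 o.ω * X3 o.ω = X4 o.ω := by have := o.h; rw [X3, X4]; mx5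
theorem eX5 : X4 o.ω * X4 o.ω = X5 o.ω := by have := o.h; rw [X4, X5]; mx5
theorem eX6 : X5 o.ω = tv ![1 + o.ω, 1 + o.ω + o.ω ^ 2, 1 + o.ω, 0, 1 + o.ω] 1 := by
  have := o.h
  ext i j; rw [tv_apply, X5]; fin_cases i <;> fin_cases j <;> simp [o.st] <;> grind
theorem eV : ((diagonal fun i => o.ω ^ ![0, 0, 0, 1, 4] i) * o.Φ * (diagonal fun i => o.ω ^ ![0, 4, 2, 3, 1] i)) *ᵥ
    ![1 + o.ω, 1 + o.ω + o.ω ^ 2, 1 + o.ω, 0, 1 + o.ω] = (1 + o.ω) • ![1 + o.ω, 1 + o.ω + o.ω ^ 2, 1 + o.ω, 0, 1 + o.ω] := by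
  have := o.h
  rw [← mulVec_mulVec, ← mulVec_mulVec, Φ]
  ext i; fin_cases i <;> simp [mulVec_diagonal, mulVec, dotProduct, Fin.sum_univ_succ] <;> grind

end

/-- diagonal matrices in the group -/
def Dm (o : Om F) (M : Subgroup (G5 F)) (e : Fin 5 → ℕ) : Prop := ∃ g ∈ M, g.val = diagonal fun i => o.ω ^ e i

theorem Dm.add {e e' : Fin 5 → ℕ} (h : Dm o M e) (h' : Dm o M e') : Dm o M (e + e') := by
  obtain ⟨g, g1, g2⟩ := h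
  obtain ⟨k, k1, k2⟩ := h'
  exact ⟨_, mul_mem g1 k1, by simp [g2, k2, pow_add]⟩

theorem Dm.smul {e : Fin 5 → ℕ} (h : Dm o M e) (n : ℕ) : Dm o M (n • e) := by
  induction n with
  | zero => exact ⟨1, one_mem _, by simp⟩
  | succ n ih => rw [succ_nsmul]; exact ih.add h

theorem Dm.congr {e e' : Fin 5 → ℕ} (h : Dm o M e) (h' : ∀ i, e i % 5 = e' i % 5) : Dm o M e' := by
  obtain ⟨g, g1, g2⟩ := h
  exact ⟨g, g1, g2.trans (congrArg _ (funext fun i => by rw [pow_eq_pow_mod _ o.w5, h', ← pow_eq_pow_mod _ o.w5]))⟩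

theorem HTc.conj {d : Fin 5 → F} {c : F} (h : HTc M d c) {g : G5 F} (hg : g ∈ M) (hu : g ∈ UG 5 F) :
    HTc M (g.val *ᵥ d) c := by
  obtain ⟨h1, k, k1, k2⟩ := h
  exact ⟨by rw [UG_dot hu, h1], _, mul_mem (mul_mem hg k1) (inv_mem hg), by
    rw [Units.val_mul, Units.val_mul, k2, tv_conj hu]⟩

theorem gauss (h2 : (2 : F) = 0) {A B : F} (hA : A ^ 5 = 1) (hB : B ^ 5 = 1) :
    (1 + A * B + A ^ 2 * B ^ 4 + A ^ 3 * B ^ 4 + A ^ 4 * B) ^ 6 = 1 + A * B + A ^ 2 * B ^ 4 + A ^ 3 * B ^ 4 + A ^ 4 * B := by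
  grind

theorem gauss2 (h2 : (2 : F) = 0) {C U : F} (hC : C ^ 5 = 1) (hU : U ^ 6 = U) (h : (C * U) ^ 2 + C * U + 1 = 0) : False := by
  grind

namespace Hyp
variable (H : Hyp o M)
include H

theorem R_le : o.R ≤ M := (closure_le _).2 (by rintro _ (rfl | rfl); exacts [H.a, H.b])

theorem D0 : Dm o M ![1, 1, 1, 1, 1] := by
  let s : G5 F := mku (o.ω • 1) (o.ω ^ 4 • 1) (by simp [smul_smul, ← pow_succ, o.w5])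
  exact ⟨s, H.R_le (o.sc_mem rfl o.w5), by change o.ω • 1 = _; mx5⟩
theorem D1 : Dm o M ![0, 1, 2, 3, 4] := ⟨_, H.a, by rw [a_val]; mx5⟩
theorem D2 : Dm o M ![0, 1, 4, 4, 1] := ⟨_, H.u, by rw [u_val]; mx5⟩

theorem Dall (h : Dm o M ![0, 1, 3, 2, 4]) (e : Fin 5 → ℕ) (he : (e 0 + e 1 + e 2 + e 3 + e 4) % 5 = 0) : Dm o M e :=
  ((((H.D0.smul (e 0)).add (H.D1.smul (4 * e 0 + 3 * e 1 + e 2 + 2 * e 3))).add (H.D2.smul (e 0 + 2 * e 2 + 2 * e 3))).add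
    (h.smul (4 * e 0 + 3 * e 1 + 2 * e 2 + e 3))).congr fun i => by fin_cases i <;> simp <;> omega

theorem big_of_D (h4 : S4 F) (h : Dm o M ![0, 1, 3, 2, 4]) : Big M := by
  have h2 := two_of h4
  have hw := o.h
  obtain ⟨d1, a1, b1⟩ := H.Dall h ![0, 0, 2, 0, 3] (by simp)
  obtain ⟨d2, a2, b2⟩ := H.Dall h ![0, 1, 0, 4, 0] (by simp)
  obtain ⟨d3, a3, b3⟩ := H.Dall h ![0, 1, 1, 1, 2] (by simp)
  obtain ⟨d4, a4, b4⟩ := H.Dall h ![0, 0, 0, 1, 4] (by simp)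
  obtain ⟨d5, a5, b5⟩ := H.Dall h ![0, 4, 2, 3, 1] (by simp)
  have m := mul_mem (mul_mem (mul_mem a1 H.f) (mul_mem a2 H.f)) (mul_mem a3 H.f)
  have hv : star ![1 + o.ω, 1 + o.ω + o.ω ^ 2, 1 + o.ω, 0, 1 + o.ω] ⬝ᵥ ![1 + o.ω, 1 + o.ω + o.ω ^ 2, 1 + o.ω, 0, 1 + o.ω] = 0 := by
    simp [dotProduct, Fin.sum_univ_succ, o.st]; grind
  have t1 : HTc M _ 1 := ⟨hv, _, mul_mem (mul_mem m m) (mul_mem m m), by
    simp only [Units.val_mul, b1, b2, b3, f_two o h2, eA1 o h2, eA2 o h2, eA3 o h2, eX2 o h2, eX3 o h2, eX4 o h2, eX5 o h2,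
      eX6 o h2]⟩
  have m' := mul_mem (mul_mem a4 H.f) a5
  have t2 := t1.conj m' (H.uni m')
  simp only [Units.val_mul, b4, b5, f_two o h2, eV o h2] at t2
  have v0 : (1 + o.ω) ≠ 0 := fun e => o.w1 (by linear_combination e - h2)
  refine ⟨_, fun e => v0 (congrFun e 0), hv, fun c hc => ?_⟩
  generalize ![1 + o.ω, 1 + o.ω + o.ω ^ 2, 1 + o.ω, 0, 1 + o.ω] = v at *
  obtain ⟨-, g, g1, g2⟩ := t1
  obtain ⟨-, k, k1, k2⟩ := t2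
  rw [tv_smul, star_add, star_one, o.st, show (1 + o.ω) * (1 + o.ω ^ 4) * 1 = o.ω + o.ω ^ 4 by grind] at k2
  rw [h4.eq] at hc
  have : c * ((c - 1) * ((c - (o.ω + o.ω ^ 4)) * (c - (1 + (o.ω + o.ω ^ 4))))) = 0 := by clear * - hc hw h2; grind
  simp only [mul_eq_zero, sub_eq_zero] at this
  rcases this with rfl | rfl | rfl | rfl
  exacts [⟨1, one_mem _, (tv_zero v).symm⟩, ⟨g, g1, g2⟩, ⟨k, k1, k2⟩, ⟨_, mul_mem g1 k1, by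
    rw [Units.val_mul, g2, k2, tv_mul hv]⟩]

theorem big_of_diag (h4 : S4 F) {g : G5 F} (hg : g ∈ M) (h1 : Cm g o.a 1) (h5 : g ^ 5 = 1)
    (ht : g.val.trace ^ 2 + g.val.trace + 1 = 0) : Big M := by
  have h2 := two_of h4
  have e1 : g.val = diagonal fun i => g.val i i := by
    ext i j
    by_cases hij : i = j
    · simp [hij]
    have := congrFun (congrFun h1 i) j
    rw [one_smul, a_val, mul_diagonal, diagonal_mul, mul_comm] at this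
    rw [diagonal_apply_ne _ hij]
    by_contra hn
    exact hij (Fin.ext (o.prim.pow_inj i.2 j.2 (mul_right_cancel₀ hn this).symm))
  have e2 : ∀ i, ∃ e, o.ω ^ e = g.val i i := fun i => by
    have := congrArg (·.val i i) h5
    simp only [Units.val_pow_eq_pow_val] at this
    rw [e1, diagonal_pow] at this
    exact (o.prim.eq_pow_of_pow_eq_one (by simpa using this)).imp fun _ h => h.2
  choose e he using e2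
  have hD : Dm o M e := ⟨g, hg, by rw [e1]; simp [he]⟩
  have hs : (e 0 + e 1 + e 2 + e 3 + e 4) % 5 = 0 := by
    by_contra hn
    refine o.wne (l := 0) hn ?_
    have := H.det g hg
    rw [e1, det_diagonal, Fin.prod_univ_five] at this
    simpa [pow_add, he] using this
  by_cases h3 : (4 * e 0 + 3 * e 1 + 2 * e 2 + e 3) % 5 = 0
  · exfalso
    have k : ∀ i (l : ℕ), e i % 5 = l % 5 → g.val i i = o.ω ^ l := fun i l h => by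
      rw [← he, pow_eq_pow_mod _ o.w5, h, ← pow_eq_pow_mod _ o.w5]
    have p5 : ∀ n, (o.ω ^ n) ^ 5 = 1 := fun n => by rw [← pow_mul, mul_comm, pow_mul, o.w5, one_pow]
    have := gauss h2 (p5 (4 * e 0 + 3 * e 1 + e 2 + 2 * e 3)) (p5 (e 0 + 2 * e 2 + 2 * e 3))
    have e3 : g.val.trace = o.ω ^ e 0 * (1 + o.ω ^ (4 * e 0 + 3 * e 1 + e 2 + 2 * e 3) * o.ω ^ (e 0 + 2 * e 2 + 2 * e 3) +
        (o.ω ^ (4 * e 0 + 3 * e 1 + e 2 + 2 * e 3)) ^ 2 * (o.ω ^ (e 0 + 2 * e 2 + 2 * e 3)) ^ 4 +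
        (o.ω ^ (4 * e 0 + 3 * e 1 + e 2 + 2 * e 3)) ^ 3 * (o.ω ^ (e 0 + 2 * e 2 + 2 * e 3)) ^ 4 +
        (o.ω ^ (4 * e 0 + 3 * e 1 + e 2 + 2 * e 3)) ^ 4 * o.ω ^ (e 0 + 2 * e 2 + 2 * e 3)) := by
      simp only [mul_add, mul_one, ← pow_mul, ← pow_add, trace, diag, Fin.sum_univ_five]
      rw [k 0 (e 0) rfl, k 1 _ _, k 2 _ _, k 3 _ _, k 4 _ _] <;> omega
    exact gauss2 h2 (p5 (e 0)) this (e3 ▸ ht)
  have k := (hD.add (H.D0.smul (4 * e 0))).add ((H.D1.smul (4 * (4 * e 0 + 3 * e 1 + e 2 + 2 * e 3))).add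
    (H.D2.smul (4 * (e 0 + 2 * e 2 + 2 * e 3))))
  obtain ⟨m, hm⟩ : ∃ m, (m = 1 ∨ m = 2 ∨ m = 3 ∨ m = 4) ∧ m * (4 * e 0 + 3 * e 1 + 2 * e 2 + e 3) % 5 = 1 := by
    have : ∀ n, n % 5 ≠ 0 → ∃ m, (m = 1 ∨ m = 2 ∨ m = 3 ∨ m = 4) ∧ m * n % 5 = 1 := fun n hn => by
      have : n % 5 = 1 ∨ n % 5 = 2 ∨ n % 5 = 3 ∨ n % 5 = 4 := by omega
      rcases this with h | h | h | h
      exacts [⟨1, by omega⟩, ⟨3, by omega⟩, ⟨2, by omega⟩, ⟨4, by omega⟩]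
    exact this _ h3
  refine H.big_of_D h4 ((k.smul m).congr fun i => ?_)
  obtain ⟨rfl | rfl | rfl | rfl, hm⟩ := hm <;> fin_cases i <;> simp [vecHead, vecTail] <;> omega

end Hyp

end Cfsg.Agent.H7.UX
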