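import Cfsg.Agent.H7.UXh

/-!
Unitary overgroups of the normaliser of the extraspecial group of order `125` over the field with sixteen elements:
groups with transvections.
-/

set_option autoImplicit false
set_option linter.unusedSectionVars false
set_option linter.unusedSimpArgs false

namespace Cfsg.Agent.H7.UX

open Matrix Subgroup Om Cfsg.Agent.Asch
open Cfsg.Agent.H8.L5 hiding res res_val Hyp Big Cu mem_Cu r0 r1 r2 r0_val r1_val r2_val blk blk' rm rp pm rm_val rp_val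
  PQp PQm QPp QPm cp cm recon inj
open Cfsg.Agent.H8.L5.Om5 (b z b_val z_val zz zb)
open scoped Pointwise

universe v
variable {F : Type v} [Field F]

section alg
variable {A : Type*} [Ring A] [Algebra F A] {X Y : A} {n : F}

/-- the elements of the algebra generated by two square zero elements -/
def el (X Y : A) (a b c d : F) : A := 1 + a • X + b • Y + c • (X * Y) + d • (Y * X)

theorem el_mul (hX : X * X = 0) (hY : Y * Y = 0) (h1 : X * (Y * X) = n • X) (h2 : Y * (X * Y) = n • Y)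
    (a b c d a' b' c' d' : F) : el X Y a b c d * el X Y a' b' c' d' = el X Y (a + a' + n * (a * d' + c * a'))
      (b + b' + n * (b * c' + d * b')) (c + c' + a * b' + n * c * c') (d + d' + b * a' + n * d * d') := by
  have e1 : ∀ Z, X * (X * Z) = 0 := fun Z => by rw [← mul_assoc, hX, zero_mul]
  have e2 : ∀ Z, Y * (Y * Z) = 0 := fun Z => by rw [← mul_assoc, hY, zero_mul]
  simp only [el, mul_add, add_mul, one_mul, mul_one, smul_mul_assoc, mul_smul_comm, mul_assoc, e1, e2, h1, h2, hX, hY,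
    mul_zero, smul_zero]
  module

theorem el_five (hX : X * X = 0) (hY : Y * Y = 0) (h1 : X * (Y * X) = n • X) (h2 : Y * (X * Y) = n • Y)
    (h : (2 : F) = 0) (hn : n ^ 2 + n + 1 = 0) : ((1 + X) * (1 + Y)) ^ 5 = 1 := by
  have e : (1 + X) * (1 + Y) = el X Y (1 : F) 1 1 0 := by simp [el, mul_add, add_mul]; abel
  have e2 : ∀ a b c d : F, a = 0 → b = 0 → c = 0 → d = 0 → el X Y a b c d = 1 := by
    rintro _ _ _ _ rfl rfl rfl rfl; simp [el]
  simp only [e, pow_succ, pow_zero, one_mul, el_mul hX hY h1 h2]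
  apply e2 <;> grind

end alg

theorem mem_of_pow {G : Type*} [Group G] {K : Subgroup G} {x : G} {n : ℕ} (h5 : x ^ 5 = 1) (hn : ¬ 5 ∣ n)
    (h : x ^ n ∈ K) : x ∈ K := by
  obtain ⟨m, hm⟩ := exists_pow_eq_self_of_coprime (x := x) (n := n)
    (Nat.Coprime.coprime_dvd_right (orderOf_dvd_of_pow_eq_one h5) (Nat.prime_five.coprime_iff_not_dvd.2 hn).symm)
  exact hm ▸ pow_mem h m

/-- the elements commuting with `y` up to a scalar -/
def CmS (y : G5 F) : Subgroup (G5 F) where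
  carrier := {x | ∃ c, Cm x y c}
  mul_mem' := fun ⟨_, h⟩ ⟨_, h'⟩ => ⟨_, h.mul h'⟩
  one_mem' := ⟨1, by simp [Cm]⟩
  inv_mem' := fun {x} ⟨c, h⟩ => ⟨c ^ 4, by
    have := congrArg ((x⁻¹).val * · * (x⁻¹).val) h
    simp only [mul_smul_comm, smul_mul_assoc, mul_assoc, Units.mul_inv, Units.inv_mul_cancel_left, mul_one] at this
    rw [Cm, this, smul_smul, ← pow_succ, h.five, one_smul]⟩

theorem CmS_sc {x : G5 F} {e : F} (h : x.val = e • 1) (y : G5 F) : x ∈ CmS y := ⟨1, by simp [Cm, h]⟩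

variable [StarRing F] [Fintype F] {o : Om F} {M : Subgroup (G5 F)}

theorem b_not (o : Om F) : b F ∉ CmS o.u := fun ⟨c, h⟩ => by
  have a1 := congrFun (congrFun h 1) 0
  have a2 := congrFun (congrFun h 3) 2
  have a3 := o.wne (k := 1) (l := 0) (by norm_num)
  have := o.w0
  simp [u_val, b_val, mul_diagonal, diagonal_mul] at a1 a2 a3
  grind

namespace Hyp
variable (H : Hyp o M)
include H

theorem big_of_five (h4 : S4 F) (hP : IsPGroup 5 o.R) {g : G5 F} (hg : g ∈ M) (h5 : g ^ 5 = 1)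
    (ht : g.val.trace ^ 2 + g.val.trace + 1 = 0) : Big M := by
  have := Fact.mk Nat.prime_five
  have zp : ∀ {G : Type v} [Group G] (x : G), x ^ 5 = 1 → IsPGroup 5 (zpowers x) := fun x hx =>
    IsPGroup.of_card_dvd_pow (n := 1) (by rw [Nat.card_zpowers, pow_one]; exact orderOf_dvd_of_pow_eq_one hx)
  have u5 : o.u ^ 5 = 1 := Units.ext (by
    have := o.w5
    rw [Units.val_pow_eq_pow_val, u_val, diagonal_pow]; mx5)
  obtain ⟨P, hP⟩ := ((hP.to_sup_of_normal_left' (zp _ u5) (zpowers_le.2 o.u_nrm)).comap_subtype (K := M)).exists_le_sylow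
  obtain ⟨Q, hQ⟩ := (zp (⟨g, hg⟩ : M) (Subtype.ext h5)).exists_le_sylow
  obtain ⟨k, rfl⟩ := MulAction.exists_smul_eq M Q P
  let g' : (k • Q : Sylow 5 M) := ⟨k * ⟨g, hg⟩ * k⁻¹, smul_mem_pointwise_smul _ (MulAut.conj k) _ (hQ (mem_zpowers _))⟩
  let a' : (k • Q : Sylow 5 M) := ⟨⟨_, H.a⟩, hP (mem_sup_left o.a_mem)⟩
  let b' : (k • Q : Sylow 5 M) := ⟨⟨_, H.b⟩, hP (mem_sup_left o.b_mem)⟩
  let u' : (k • Q : Sylow 5 M) := ⟨⟨_, H.u⟩, hP (mem_sup_right (mem_zpowers _))⟩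
  have sc : ∀ x ∈ center (k • Q : Sylow 5 M), x.1.1.val = x.1.1.val 0 0 • 1 := fun x hx => o.sc_of
    (by simpa [Cm] using congrArg (·.1.1.val) (mem_center_iff.1 hx a').symm)
    (by simpa [Cm] using congrArg (·.1.1.val) (mem_center_iff.1 hx b').symm)
  obtain ⟨x, -, x1, -, x2⟩ := H2.PGroup.exists_central_mod_p (k • Q).2 (center _) ⊤ fun h => by
    have := congrFun (congrFun (sc b' (h trivial)) 1) 0
    simp [b', b_val] at this
  have x3 : ∀ y : (k • Q : Sylow 5 M), x.1.1 ∈ CmS y.1.1 := fun y => ⟨_, by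
    rw [Cm, ← smul_one_mul (_ : F) (y.1.1.val * _), ← sc _ (inv_mem (x2 y))]; simp [mul_assoc]⟩
  obtain ⟨m, n, e, he⟩ := o.exists_nf (x3 a').choose_spec (x3 b').choose_spec
  have n5 : 5 ∣ n := by_contra fun h => b_not o (mem_of_pow o.b5 h ((mul_mem_cancel_left (mul_mem (x3 u')
    (pow_mem (show o.a ∈ CmS o.u from ⟨1, by simpa [Cm] using congrArg Units.val o.ua.symm⟩) m))).1 (CmS_sc he _)))
  obtain ⟨n, rfl⟩ := n5
  rw [pow_mul, o.b5, one_pow, mul_one] at he
  have m5 : ¬ 5 ∣ m := by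
    rintro ⟨m, rfl⟩
    rw [pow_mul, o.a5, one_pow, mul_one] at he
    exact x1 (mem_center_iff.2 fun y => Subtype.ext (Subtype.ext (Units.ext (by simp [he]))))
  obtain ⟨c, hc⟩ := mem_of_pow o.a5 m5 ((mul_mem_cancel_left (x3 g')).1 (CmS_sc he _))
  have t1 : g'.1.1.val.trace = g.val.trace := trace_units_conj _ _
  obtain rfl : c = 1 := by
    have := congrArg (fun X => (X * (o.a⁻¹).val).trace) hc
    simp only [smul_mul_assoc, Units.mul_inv_cancel_right, trace_units_conj, trace_smul, t1, smul_eq_mul] at this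
    clear * - this ht
    grind
  exact H.big_of_diag h4 g'.1.2 (by simpa [Cm] using hc.symm) (by simp [g', conj_pow, h5]) (t1 ▸ ht)

theorem big_of_pair (h4 : S4 F) (hP : IsPGroup 5 o.R) {d e : Fin 5 → F} (hd : HTc M d 1) (he : HTc M e 1)
    (h0 : star e ⬝ᵥ d ≠ 0) (h1 : star e ⬝ᵥ d * star (star e ⬝ᵥ d) ≠ 1) : Big M := by
  have h2 := two_of h4
  obtain ⟨d0, s, s1, s2⟩ := hd
  obtain ⟨e0, t, t1, t2⟩ := he
  have e1 : star (star e ⬝ᵥ d) = star d ⬝ᵥ e := by rw [star_dotProduct]; simp [dotProduct_comm]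
  have e2 : (star e ⬝ᵥ d * star (star e ⬝ᵥ d)) ^ 2 + star e ⬝ᵥ d * star (star e ⬝ᵥ d) + 1 = 0 := by
    have a1 : star (star e ⬝ᵥ d * star (star e ⬝ᵥ d)) = star e ⬝ᵥ d * star (star e ⬝ᵥ d) := by simp [mul_comm]
    have a2 := mul_ne_zero h0 (star_ne_zero.2 h0)
    rw [h4.eq] at a1
    generalize star e ⬝ᵥ d * star (star e ⬝ᵥ d) = n at *
    grind
  rw [e1] at e2
  refine H.big_of_five h4 hP (mul_mem s1 t1) (Units.ext ?_) ?_
  · rw [Units.val_pow_eq_pow_val, Units.val_mul, s2, t2, tv, tv, one_smul, one_smul]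
    refine el_five ?_ ?_ ?_ ?_ h2 e2 <;> simp [vecMulVec_mul_vecMulVec, d0, e0, smul_smul, mul_comm]
  · rw [Units.val_mul, s2, t2, tv, tv, one_smul, one_smul]
    simp [mul_add, add_mul, vecMulVec_mul_vecMulVec, trace_vecMulVec, dotProduct_comm d, dotProduct_comm e, d0, e0]
    grind

theorem big_of_tri (h4 : S4 F) (hP : IsPGroup 5 o.R) {d e y : Fin 5 → F} (hd : HTc M d 1) (he : HTc M e 1)
    (hy : HTc M y 1) (h : star e ⬝ᵥ d * (star y ⬝ᵥ e) * (star d ⬝ᵥ y) +
      star (star e ⬝ᵥ d * (star y ⬝ᵥ e) * (star d ⬝ᵥ y)) ≠ 0) : Big M := by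
  have h2 := two_of h4
  by_contra hB
  have key : ∀ {d e}, HTc M d 1 → HTc M e 1 → star e ⬝ᵥ d ≠ 0 → star e ⬝ᵥ d * star (star e ⬝ᵥ d) = 1 :=
    fun hd he h0 => by_contra fun h1 => hB (H.big_of_pair h4 hP hd he h0 h1)
  have a1 := key hd he fun e => by simp [e] at h
  have a2 := key he hy fun e => by simp [e] at h
  have a3 := key hy hd fun e => by simp [e] at h
  obtain ⟨-, t, t1, t2⟩ := id he
  have a4 := key (hd.conj t1 (H.uni t1)) hy
  have e1 : star y ⬝ᵥ d = star (star d ⬝ᵥ y) := by rw [star_dotProduct]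
  rw [t2, tv_mulVec, dotProduct_add, dotProduct_smul, e1, one_mul, smul_eq_mul] at a4
  simp only [star_add, star_mul', star_star] at a4 h
  have b1 := h4.eq (star e ⬝ᵥ d * (star y ⬝ᵥ e) * (star d ⬝ᵥ y))
  simp only [star_mul'] at b1
  generalize star e ⬝ᵥ d = α, star y ⬝ᵥ e = β, star d ⬝ᵥ y = γ at *
  generalize star α = α', star β = β', star γ = γ' at *
  have b2 : (γ' + α * β) * (γ + α' * β') = α * β * γ + α' * β' * γ' := by grind
  have b3 := a4 fun e => h (by rw [← b2, e, zero_mul])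
  have b4 : α * β * γ * (α' * β' * γ') = 1 := by grind
  rw [b2, b1] at b3
  rw [b1] at b4
  generalize α * β * γ = τ at *
  grind

end Hyp

end Cfsg.Agent.H7.UX
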